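import Mathlib
import Cfsg.Agent.Lib.H01.CoprimeAb
import Cfsg.Agent.Lib.H01.Transfer

/-! Abelian Sylow subgroups: `P = C_P(N(P)) × [P, N(P)]`. -/

set_option autoImplicit false

namespace Cfsg.Agent.H01

open Subgroup
open scoped commutatorElement

universe u

variable {G : Type u} [Group G] [Finite G] {p : ℕ} [Fact p.Prime]

theorem abelian_sylow_decomp (P : Sylow p G) [hP : IsMulCommutative (P : Subgroup G)] :
    ((P : Subgroup G) ⊓ centralizer (normalizer ((P : Subgroup G) : Set G) : Set G)) ⊓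
        ⁅(P : Subgroup G), normalizer ((P : Subgroup G) : Set G)⁆ = ⊥ ∧
    ((P : Subgroup G) ⊓ centralizer (normalizer ((P : Subgroup G) : Set G) : Set G)) ⊔
        ⁅(P : Subgroup G), normalizer ((P : Subgroup G) : Set G)⁆ = (P : Subgroup G) := by
  classical
  have hab : ∀ a ∈ (P : Subgroup G), ∀ b ∈ (P : Subgroup G), a * b = b * a := fun a ha b hb =>
    congrArg Subtype.val (hP.is_comm.comm ⟨a, ha⟩ ⟨b, hb⟩)
  set N := normalizer ((P : Subgroup G) : Set G) with hN
  have hPN : (P : Subgroup G) ≤ N := Subgroup.le_normalizer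
  let T₀ : Subgroup N := (P : Subgroup G).subgroupOf N
  haveI hT₀ : T₀.Normal := Subgroup.normal_in_normalizer
  have hcardT : Nat.card T₀ = Nat.card (P : Subgroup G) :=
    Nat.card_congr (Subgroup.subgroupOfEquivOfLe hPN).toEquiv
  have hnd : ¬ p ∣ T₀.index := by
    intro hd
    apply P.not_dvd_index
    have : T₀.index = (P : Subgroup G).relIndex N := rfl
    rw [this] at hd
    rw [← Subgroup.relIndex_mul_index hPN]
    exact Dvd.dvd.mul_right hd _
  have hcop : Nat.Coprime (Nat.card T₀) T₀.index := by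
    rw [hcardT]
    obtain ⟨k, hk⟩ := IsPGroup.iff_card.mp P.isPGroup'
    rw [hk]
    exact Nat.Coprime.pow_left k ((Nat.Prime.coprime_iff_not_dvd Fact.out).mpr hnd)
  obtain ⟨K₀, hK₀⟩ := Subgroup.exists_right_complement'_of_coprime hcop
  let K : Subgroup G := K₀.map N.subtype
  have hKN : K ≤ N := by
    rintro _ ⟨u, -, rfl⟩
    exact u.2
  have hcardK : Nat.card K = T₀.index := by
    have h1 : Nat.card K = Nat.card K₀ :=
      Nat.card_congr (K₀.equivMapOfInjective _ N.subtype_injective).toEquiv.symm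
    have h2 := hK₀.card_mul
    have h3 := T₀.card_mul_index
    have hpos : 0 < Nat.card T₀ := Nat.card_pos
    rw [h1]
    apply Nat.eq_of_mul_eq_mul_left hpos
    rw [h2, h3]
  have hcopK : (Nat.card K).Coprime (Nat.card (P : Subgroup G)) := by
    rw [hcardK, ← hcardT]
    exact hcop.symm
  obtain ⟨h1, h2⟩ := abelian_decomposition K (P : Subgroup G) hKN hcopK
  -- decomposition of elements of `N`
  have hdec : ∀ n ∈ N, ∃ t ∈ (P : Subgroup G), ∃ k ∈ K, n = t * k := by
    intro n hn
    obtain ⟨⟨t, k⟩, e⟩ := hK₀.2 ⟨n, hn⟩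
    have e' : ((t : N) : G) * ((k : N) : G) = n := congrArg Subtype.val e
    have ht : ((t : N) : G) ∈ (P : Subgroup G) := t.2
    exact ⟨_, ht, _, ⟨k, k.2, rfl⟩, e'.symm⟩
  have hC : (P : Subgroup G) ⊓ centralizer (N : Set G) = (P : Subgroup G) ⊓ centralizer (K : Set G) := by
    apply le_antisymm
    · exact inf_le_inf_left _ (Subgroup.centralizer_le hKN)
    · intro x hx
      have hxP : x ∈ (P : Subgroup G) := hx.1
      have hxK : x ∈ centralizer (K : Set G) := hx.2
      rw [Subgroup.mem_inf]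
      refine ⟨hxP, ?_⟩
      rw [Subgroup.mem_centralizer_iff]
      intro n hn
      obtain ⟨t, ht, k, hk, rfl⟩ := hdec n hn
      have h3 := Subgroup.mem_centralizer_iff.mp hxK k hk
      have h4 := hab t ht x hxP
      calc t * k * x = t * (x * k) := by rw [mul_assoc, ← h3]
        _ = (t * x) * k := by group
        _ = (x * t) * k := by rw [h4]
        _ = x * (t * k) := by group
  have hcomm : ⁅(P : Subgroup G), N⁆ = ⁅(P : Subgroup G), K⁆ := by
    apply le_antisymm
    · rw [Subgroup.commutator_le]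
      intro x hx n hn
      obtain ⟨t, ht, k, hk, rfl⟩ := hdec n hn
      have hkP : x * (k * x⁻¹ * k⁻¹) ∈ (P : Subgroup G) := by
        apply mul_mem hx
        exact (Subgroup.mem_normalizer_iff.mp (hKN hk) _).mp (inv_mem hx)
      have e : ⁅x, t * k⁆ = ⁅x, k⁆ := by
        have h5 := hab t ht x hx
        have h6 := hab t ht _ hkP
        rw [commutatorElement_def, commutatorElement_def]
        calc x * (t * k) * x⁻¹ * (t * k)⁻¹ = (x * t) * k * x⁻¹ * k⁻¹ * t⁻¹ := by group
          _ = (t * x) * k * x⁻¹ * k⁻¹ * t⁻¹ := by rw [h5]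
          _ = t * (x * (k * x⁻¹ * k⁻¹)) * t⁻¹ := by group
          _ = (x * (k * x⁻¹ * k⁻¹)) * t * t⁻¹ := by rw [h6]
          _ = x * k * x⁻¹ * k⁻¹ := by group
      rw [e]
      exact Subgroup.commutator_mem_commutator hx hk
    · exact Subgroup.commutator_mono le_rfl hKN
  rw [hC, hcomm]
  exact ⟨h1, h2⟩

end Cfsg.Agent.H01
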