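import Mathlib
import Cfsg.Agent.Lib.H24.FusAlperin

/-! Alperin's fusion theorem in the language of tame intersections. -/

set_option autoImplicit false

namespace Cfsg.Agent.H01.AlperinF

open Subgroup

variable {G : Type*} [Group G]

/-- Tameness of an intersection. -/
def Tame (p : ℕ) (P Q : Subgroup G) : Prop :=
  ¬ p ∣ (P ⊓ normalizer ((P ⊓ Q : Subgroup G) : Set G)).relIndex (normalizer ((P ⊓ Q : Subgroup G) : Set G)) ∧
  ¬ p ∣ (Q ⊓ normalizer ((P ⊓ Q : Subgroup G) : Set G)).relIndex (normalizer ((P ⊓ Q : Subgroup G) : Set G))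

/-- Conjugating a set. -/
def cj (c : G) (A : Set G) : Set G := (fun a => c⁻¹ * a * c) '' A

theorem cj_one (A : Set G) : cj 1 A = A := by
  ext x
  simp [cj]

theorem cj_mul (c d : G) (A : Set G) : cj (c * d) A = cj d (cj c A) := by
  ext x
  constructor
  · rintro ⟨a, ha, rfl⟩
    exact ⟨c⁻¹ * a * c, ⟨a, ha, rfl⟩, by group⟩
  · rintro ⟨_, ⟨a, ha, rfl⟩, rfl⟩
    exact ⟨a, ha, by group⟩

/-- Chains of conjugations inside normalizers of tame intersections with `P`. -/
inductive TChain (p : ℕ) [Fact p.Prime] (P : Subgroup G) : Set G → G → Prop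
  | nil (A : Set G) : TChain p P A 1
  | cons (A : Set G) (Q : Sylow p G) (x c : G)
      (hx : x ∈ normalizer ((P ⊓ (Q : Subgroup G) : Subgroup G) : Set G)) (ht : Tame p P Q)
      (hA : A ⊆ ((P ⊓ (Q : Subgroup G) : Subgroup G) : Set G)) (tail : TChain p P (cj x A) c) :
      TChain p P A (x * c)

variable {p : ℕ} [Fact p.Prime]

theorem TChain.append {P : Subgroup G} {A : Set G} {c : G} (h : TChain p P A c) :
    ∀ e, TChain p P (cj c A) e → TChain p P A (c * e) := by
  induction h with
  | nil A =>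
    intro e he
    rw [cj_one] at he
    rwa [one_mul]
  | cons A Q x c hx ht hA tail ih =>
    intro e he
    rw [mul_assoc]
    refine TChain.cons A Q x (c * e) hx ht hA (ih e ?_)
    rwa [cj_mul] at he

theorem tame_map {P Q : Subgroup G} (f : G ≃* G) (h : Tame p P Q) :
    Tame p (P.map f.toMonoidHom) (Q.map f.toMonoidHom) := by
  have hinj : Function.Injective f.toMonoidHom := f.injective
  have e1 : normalizer ((P.map f.toMonoidHom ⊓ Q.map f.toMonoidHom : Subgroup G) : Set G) =
      (normalizer ((P ⊓ Q : Subgroup G) : Set G)).map f.toMonoidHom := by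
    rw [← Subgroup.map_inf _ _ _ hinj]
    exact (Subgroup.map_equiv_normalizer_eq _ f).symm
  unfold Tame at h ⊢
  rw [e1]
  rw [← Subgroup.map_inf _ _ _ hinj, ← Subgroup.map_inf _ _ _ hinj,
    Subgroup.relIndex_map_map_of_injective _ _ hinj, Subgroup.relIndex_map_map_of_injective _ _ hinj]
  exact h

/-- The conjugation map. -/
abbrev cmap (c : G) : G ≃* G := MulAut.conj c⁻¹

theorem cmap_apply (c x : G) : cmap c x = c⁻¹ * x * c := by
  simp [cmap]

theorem coe_inv_smul (c : G) (Q : Sylow p G) :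
    ((c⁻¹ • Q : Sylow p G) : Subgroup G) = (Q : Subgroup G).map (cmap c).toMonoidHom := rfl

theorem cj_subset_map {c : G} {A : Set G} {H : Subgroup G} (h : A ⊆ (H : Set G)) :
    cj c A ⊆ ((H.map (cmap c).toMonoidHom : Subgroup G) : Set G) := by
  rintro _ ⟨a, ha, rfl⟩
  exact ⟨a, h ha, (cmap_apply c a)⟩

theorem TChain.conj {P : Subgroup G} {A : Set G} {d : G} (h : TChain p P A d) (c : G) :
    TChain p (P.map (cmap c).toMonoidHom) (cj c A) (c⁻¹ * d * c) := by
  have hinj : Function.Injective (cmap c).toMonoidHom := (cmap c).injective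
  induction h with
  | nil A =>
    have : c⁻¹ * 1 * c = 1 := by group
    rw [this]
    exact TChain.nil _
  | cons A Q x d hx ht hA tail ih =>
    have e : c⁻¹ * (x * d) * c = (c⁻¹ * x * c) * (c⁻¹ * d * c) := by group
    rw [e]
    refine TChain.cons _ (c⁻¹ • Q) _ _ ?_ ?_ ?_ ?_
    · rw [coe_inv_smul, ← Subgroup.map_inf _ _ _ hinj, ← cmap_apply]
      rw [← Subgroup.map_equiv_normalizer_eq _ (cmap c)]
      exact Subgroup.mem_map_of_mem _ hx
    · rw [coe_inv_smul]
      exact tame_map _ ht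
    · rw [coe_inv_smul, ← Subgroup.map_inf _ _ _ hinj]
      exact cj_subset_map hA
    · have e2 : cj (c⁻¹ * x * c) (cj c A) = cj c (cj x A) := by
        rw [← cj_mul, ← cj_mul]
        congr 1
        group
      rw [e2]
      exact ih

/-- The link relation between Sylow subgroups. -/
def Link (p : ℕ) [Fact p.Prime] (P Q : Sylow p G) (A : Set G) (c : G) : Prop :=
  TChain p (P : Subgroup G) A c ∧ c⁻¹ • Q = P

theorem Link.trans {P Q R : Sylow p G} {A : Set G} {c d : G} (h₁ : Link p P Q A c) (h₂ : Link p Q R A d) :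
    Link p P R A (d * c) := by
  refine ⟨?_, ?_⟩
  · have h3 := h₂.1.conj c
    have h4 : ((Q : Subgroup G)).map (cmap c).toMonoidHom = (P : Subgroup G) := by
      rw [← coe_inv_smul, h₁.2]
    rw [h4] at h3
    have h5 := h₁.1.append _ h3
    have e : c * (c⁻¹ * d * c) = d * c := by group
    rwa [e] at h5
  · rw [mul_inv_rev, mul_smul, h₂.2, h₁.2]

theorem exists_tame_sylow {N U : Subgroup G} [Finite G] (hU : U ≤ N) (hUp : IsPGroup p U) :
    ∃ (R : Sylow p G) (T : Sylow p N), (R : Subgroup G).comap N.subtype = T ∧ U ≤ R ∧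
      ¬ p ∣ ((R : Subgroup G) ⊓ N).relIndex N := by
  have hU' : IsPGroup p (U.comap N.subtype) := hUp.comap_of_injective _ Subtype.coe_injective
  obtain ⟨T, hT⟩ := hU'.exists_le_sylow
  obtain ⟨R, hR⟩ := Sylow.exists_comap_subtype_eq T
  refine ⟨R, T, hR, ?_, ?_⟩
  · intro x hx
    have h1 : (⟨x, hU hx⟩ : N) ∈ (T : Subgroup N) := hT hx
    rw [← hR] at h1
    exact h1
  · rw [Subgroup.inf_relIndex_right]
    have h1 : (R : Subgroup G).relIndex N = ((T : Subgroup N)).index := by
      rw [← hR]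
      rfl
    rw [h1]
    exact T.not_dvd_index

theorem lt_norm_of_lt [Finite G] {R D : Subgroup G} (hR : IsPGroup p R) (hD : D < R) :
    D < R ⊓ normalizer (D : Set G) := by
  obtain ⟨g, hg, hgD⟩ := Cfsg.Agent.H24.exists_mem_normalizerIn hR hD
  refine lt_of_le_of_ne (le_inf hD.le Subgroup.le_normalizer) ?_
  intro h
  apply hgD
  rw [h]
  exact hg

theorem link_all [Finite G] : ∀ (k : ℕ) (P Q : Sylow p G),
    Nat.card G - Nat.card ((P : Subgroup G) ⊓ (Q : Subgroup G) : Subgroup G) = k →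
    ∀ A : Set G, A ⊆ (((P : Subgroup G) ⊓ (Q : Subgroup G) : Subgroup G) : Set G) → ∃ c, Link p P Q A c := by
  intro k
  induction k using Nat.strong_induction_on with
  | _ k ih =>
    intro P Q hk A hA
    have IH : ∀ P' Q' : Sylow p G,
        Nat.card ((P : Subgroup G) ⊓ (Q : Subgroup G) : Subgroup G) <
          Nat.card ((P' : Subgroup G) ⊓ (Q' : Subgroup G) : Subgroup G) →
        ∀ A : Set G, A ⊆ (((P' : Subgroup G) ⊓ (Q' : Subgroup G) : Subgroup G) : Set G) →
          ∃ c, Link p P' Q' A c := by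
      intro P' Q' hlt A hA
      have h1 := Subgroup.card_le_card_group ((P' : Subgroup G) ⊓ (Q' : Subgroup G) : Subgroup G)
      exact ih _ (by omega) P' Q' rfl A hA
    by_cases hPQ : P = Q
    · subst hPQ
      exact ⟨1, TChain.nil A, by simp⟩
    set D : Subgroup G := (P : Subgroup G) ⊓ (Q : Subgroup G) with hD
    have hcard : ∀ X Y : Subgroup G, D < X → X ≤ Y → Nat.card D < Nat.card Y := by
      intro X Y h1 h2
      by_contra hcon
      push Not at hcon
      exact (lt_of_lt_of_le h1 h2).ne (Subgroup.eq_of_le_of_card_ge (h1.le.trans h2) hcon)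
    have hnesyl : ∀ X Y : Sylow p G, X ≠ Y → ((X : Subgroup G) ⊓ (Y : Subgroup G)) < (X : Subgroup G) := by
      intro X Y hXY
      refine lt_of_le_of_ne inf_le_left ?_
      intro h
      have h1 : (X : Subgroup G) ≤ Y := inf_eq_left.1 h
      exact hXY (Sylow.ext (X.3 Y.2 h1).symm)
    have hDP : D < P := hnesyl P Q hPQ
    have hDQ : D < Q := by
      rw [hD, inf_comm]
      exact hnesyl Q P (Ne.symm hPQ)
    set N : Subgroup G := normalizer (D : Set G) with hN
    have hAD : A ⊆ (D : Set G) := hA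
    obtain ⟨R, TR, hTR, hPR, htR⟩ := exists_tame_sylow (N := N) (U := (P : Subgroup G) ⊓ N) inf_le_right
      (P.2.to_le inf_le_left)
    obtain ⟨S, TS, hTS, hQS, htS⟩ := exists_tame_sylow (N := N) (U := (Q : Subgroup G) ⊓ N) inf_le_right
      (Q.2.to_le inf_le_left)
    have hDPN : D < (P : Subgroup G) ⊓ N := lt_norm_of_lt P.2 hDP
    have hDQN : D < (Q : Subgroup G) ⊓ N := lt_norm_of_lt Q.2 hDQ
    have hDR : D ≤ R := hDPN.le.trans hPR
    have hDS : D ≤ S := hDQN.le.trans hQS
    -- first link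
    obtain ⟨c₁, hc₁⟩ := IH P R (hcard _ _ hDPN (le_inf inf_le_left hPR)) A
      (fun a ha => ⟨(hDP.le (hAD ha)), hDR (hAD ha)⟩)
    -- third link
    obtain ⟨c₃, hc₃⟩ := IH S Q (hcard _ _ hDQN (le_inf hQS inf_le_left)) A
      (fun a ha => ⟨hDS (hAD ha), hDQ.le (hAD ha)⟩)
    -- the middle link
    have hmid : ∃ c, Link p R S A c := by
      by_cases hRS : R = S
      · subst hRS
        exact ⟨1, TChain.nil A, by simp⟩
      by_cases hDRS : D = (R : Subgroup G) ⊓ (S : Subgroup G)
      · -- the tame case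
        have hDltR : D < R := by
          rw [hDRS]
          exact hnesyl R S hRS
        have hDRN : D < (R : Subgroup G) ⊓ N := lt_norm_of_lt R.2 hDltR
        obtain ⟨y, hy⟩ := MulAction.exists_smul_eq N TR TS
        have hyN : (y : G) ∈ N := y.2
        -- `S' = y⁻¹ S y`
        have hRS' : (R : Subgroup G) ⊓ N ≤ ((y : G)⁻¹ • S : Sylow p G) := by
          intro r hr
          have h1 : (⟨r, hr.2⟩ : N) ∈ (TR : Subgroup N) := by
            rw [← hTR]
            exact hr.1
          have h2 : y * (⟨r, hr.2⟩ : N) * y⁻¹ ∈ (TS : Subgroup N) := by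
            rw [← hy]
            exact Subgroup.smul_mem_pointwise_smul _ _ _ h1
          rw [← hTS] at h2
          have h3 : (y : G) * r * (y : G)⁻¹ ∈ (S : Subgroup G) := h2
          rw [coe_inv_smul]
          refine ⟨_, h3, ?_⟩
          rw [cmap]
          simp
          group
        have hD' : D ≤ (R : Subgroup G) ⊓ ((y : G)⁻¹ • S : Sylow p G) :=
          hDRN.le.trans (le_inf inf_le_left hRS')
        have hAy : cj (y : G) A ⊆ (D : Set G) := by
          rintro _ ⟨a, ha, rfl⟩
          have h1 := (Subgroup.mem_normalizer_iff.1 (Subgroup.inv_mem _ hyN) a).1 (hAD ha)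
          simpa using h1
        obtain ⟨c, hc⟩ := IH R ((y : G)⁻¹ • S) (hcard _ _ hDRN (le_inf inf_le_left hRS')) (cj (y : G) A)
          (fun a ha => hD' (hAy ha))
        refine ⟨(y : G) * c, ?_, ?_⟩
        · refine TChain.cons A S (y : G) c ?_ ?_ ?_ hc.1
          · rw [← hDRS]
            exact hyN
          · unfold Tame
            rw [← hDRS]
            exact ⟨htR, htS⟩
          · rw [← hDRS]
            exact hAD
        · rw [mul_inv_rev, mul_smul]
          exact hc.2
      · have hlt : D < (R : Subgroup G) ⊓ (S : Subgroup G) := lt_of_le_of_ne (le_inf hDR hDS) hDRS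
        exact IH R S (hcard _ _ hlt le_rfl) A (fun a ha => hlt.le (hAD ha))
    obtain ⟨c₂, hc₂⟩ := hmid
    exact ⟨_, (hc₁.trans hc₂).trans hc₃⟩

theorem TChain.toList {P : Subgroup G} {A : Set G} {c : G} (h : TChain p P A c) :
    ∃ (n : ℕ) (Q : Fin n → Sylow p G) (x : Fin n → G), (List.ofFn x).prod = c ∧
      (∀ i : Fin n, x i ∈ normalizer ((P ⊓ (Q i : Subgroup G) : Subgroup G) : Set G) ∧ Tame p P (Q i)) ∧
      (∀ h : 0 < n, A ⊆ ((P ⊓ (Q ⟨0, h⟩ : Subgroup G) : Subgroup G) : Set G)) ∧
      ∀ i : Fin n, ∀ h : i.val + 1 < n, cj (((List.ofFn x).take (i.val + 1)).prod) A ⊆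
        ((P ⊓ (Q ⟨i.val + 1, h⟩ : Subgroup G) : Subgroup G) : Set G) := by
  induction h with
  | nil A =>
    exact ⟨0, Fin.elim0, Fin.elim0, by simp, fun i => i.elim0, fun h => absurd h (lt_irrefl 0),
      fun i => i.elim0⟩
  | cons A Q₀ x₀ c hx ht hA tail ih =>
    obtain ⟨n, Q, x, h1, h2, h3, h4⟩ := ih
    refine ⟨n + 1, Fin.cons Q₀ Q, Fin.cons x₀ x, ?_, ?_, ?_, ?_⟩
    · rw [List.ofFn_succ]
      simp only [Fin.cons_zero, Fin.cons_succ, List.prod_cons]
      rw [h1]
    · intro i
      refine Fin.cases ?_ (fun j => ?_) i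
      · exact ⟨hx, ht⟩
      · simp only [Fin.cons_succ]
        exact h2 j
    · intro _
      exact hA
    · intro i hi
      have hl : List.ofFn (Fin.cons x₀ x : Fin (n + 1) → G) = x₀ :: List.ofFn x := by
        rw [List.ofFn_succ]
        simp only [Fin.cons_zero, Fin.cons_succ]
      rw [hl]
      obtain ⟨i, hin⟩ := i
      have hQ : ∀ hh : i + 1 < n + 1, (Fin.cons Q₀ Q : Fin (n + 1) → Sylow p G) ⟨i + 1, hh⟩ = Q ⟨i, by omega⟩ := by
        intro hh
        exact Fin.cons_succ (α := fun _ => Sylow p G) Q₀ Q ⟨i, by omega⟩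
      show cj (((x₀ :: List.ofFn x).take (i + 1)).prod) A ⊆ _
      rw [hQ hi, List.take_succ_cons, List.prod_cons]
      cases i with
      | zero =>
        simp only [List.take_zero, List.prod_nil, mul_one]
        exact h3 (by omega)
      | succ j =>
        rw [cj_mul]
        exact h4 ⟨j, by omega⟩ (by simpa using hi)

/-- Alperin's fusion theorem. -/
theorem alperin_main [Finite G] (P : Sylow p G) (A : Set G) (g : G) (hA : A ⊆ (P : Set G))
    (hAg : cj g A ⊆ (P : Set G)) : TChain p (P : Subgroup G) A g := by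
  have hAQ : A ⊆ (((P : Subgroup G) ⊓ ((g • P : Sylow p G) : Subgroup G) : Subgroup G) : Set G) := by
    intro a ha
    refine ⟨hA ha, ?_⟩
    have h1 : g⁻¹ * a * g ∈ (P : Subgroup G) := hAg ⟨a, ha, rfl⟩
    refine ⟨_, h1, ?_⟩
    simp [MulAut.conj_apply]
    group
  obtain ⟨c, hc1, hc2⟩ := link_all _ P (g • P) rfl A hAQ
  have hn : (c⁻¹ * g) • P = P := by
    rw [mul_smul, hc2]
  have hnN : c⁻¹ * g ∈ normalizer ((P : Subgroup G) : Set G) := Sylow.smul_eq_iff_mem_normalizer.1 hn
  have hPP : (P : Subgroup G) ⊓ (P : Subgroup G) = P := inf_idem _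
  have ht : Tame p (P : Subgroup G) (P : Subgroup G) := by
    unfold Tame
    rw [hPP]
    have h1 : ¬ p ∣ ((P : Subgroup G) ⊓ normalizer ((P : Subgroup G) : Set G)).relIndex
        (normalizer ((P : Subgroup G) : Set G)) := by
      rw [Subgroup.inf_relIndex_right]
      intro hd
      apply P.not_dvd_index
      rw [← Subgroup.relIndex_mul_index (Subgroup.le_normalizer (H := (P : Subgroup G)))]
      exact hd.mul_right _
    exact ⟨h1, h1⟩
  have hsub : cj c A ⊆ (((P : Subgroup G) ⊓ (P : Subgroup G) : Subgroup G) : Set G) := by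
    rw [hPP]
    have h2 : (((c⁻¹ • (g • P) : Sylow p G)) : Subgroup G) = (P : Subgroup G) := by rw [hc2]
    rw [← h2, coe_inv_smul]
    exact cj_subset_map (fun a ha => (hAQ ha).2)
  have hlast : TChain p (P : Subgroup G) (cj c A) ((c⁻¹ * g) * 1) :=
    TChain.cons _ P (c⁻¹ * g) 1 (by rw [hPP]; exact hnN) ht hsub (TChain.nil _)
  have := hc1.append _ hlast
  have e : c * ((c⁻¹ * g) * 1) = g := by group
  rwa [e] at this

end Cfsg.Agent.H01.AlperinF
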