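import Mathlib

/-! Central elements in perfect groups lie in the commutator subgroups of Sylow subgroups. -/

set_option autoImplicit false

namespace Cfsg.Agent.H01

open scoped commutatorElement

variable {H : Type*} [Group H] [Finite H] {p : ℕ} [Fact p.Prime]

/-- A central element of `H` in `H' ∩ P` lies in `P'`: it suffices that the transfer kills it. -/
theorem central_mem_commutator_sylow (hH : commutator H = ⊤) (P : Sylow p H) {x : H}
    (hx : x ∈ Subgroup.center H) (hxP : x ∈ (P : Subgroup H)) :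
    (⟨x, hxP⟩ : (P : Subgroup H)) ∈ commutator (P : Subgroup H) := by
  classical
  let ϕ : (P : Subgroup H) →* Abelianization (P : Subgroup H) := Abelianization.of
  have hkey : ∀ (k : ℕ) (g₀ : H), g₀⁻¹ * x ^ k * g₀ ∈ (P : Subgroup H) → g₀⁻¹ * x ^ k * g₀ = x ^ k := by
    intro k g₀ _
    have : x ^ k ∈ Subgroup.center H := pow_mem hx k
    have h1 := Subgroup.mem_center_iff.mp this g₀⁻¹
    rw [h1]
    simp
  have h1 := MonoidHom.transfer_eq_pow ϕ x hkey
  have h2 : ϕ.transfer x = 1 := by
    have hcomm : x ∈ commutator H := by rw [hH]; trivial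
    exact (Abelianization.commutator_subset_ker ϕ.transfer) hcomm
  rw [h2] at h1
  -- `ϕ ⟨x^idx⟩ = (ϕ ⟨x⟩)^idx`
  set x₀ : (P : Subgroup H) := ⟨x, hxP⟩ with hx₀
  have h3 : (ϕ x₀) ^ (P : Subgroup H).index = 1 := by
    rw [← map_pow, h1]
    congr 1
  have hp : IsPGroup p (Abelianization (P : Subgroup H)) :=
    IsPGroup.of_surjective P.isPGroup' ϕ (QuotientGroup.mk'_surjective _)
  have h4 : ϕ x₀ = 1 := by
    by_contra hne
    have h5 := hp.dvd_orderOf hne
    have h6 := orderOf_dvd_of_pow_eq_one h3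
    exact P.not_dvd_index (h5.trans h6)
  have : x₀ ∈ ϕ.ker := h4
  rwa [Abelianization.ker_of] at this

end Cfsg.Agent.H01
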