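import Mathlib
import Cfsg.Prelude.Def_ChevB2
import Cfsg.Agent.Lib.H01.ChevT
import Cfsg.Agent.Lib.H01.PtIso

/-! `B₂(2) ≅ S₆`: the group acts on an orbit of fifteen vectors, labelled by the duads of six letters. -/

set_option autoImplicit false
open Matrix

namespace Cfsg.Agent.H01.ChevB2Iso
open Cfsg.Lie

/-- The bit pattern of a vector. -/
def idxN : chevB2.Idx → ℕ
  | Sum.inl i => i.val
  | Sum.inr u => 2 + u.val

/-- The vector with a given bit pattern. -/
def toB (n : ℕ) : chevB2.Idx → ZMod 2 := fun k => if n.testBit (idxN k) then 1 else 0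

/-- The table of the fifteen vectors. -/
def tbl : List (List ℕ) :=
  [[0, 512, 519, 44, 84, 126], [512, 0, 4, 687, 855, 1021], [519, 4, 0, 672, 832, 994], [44, 687, 672, 0, 98, 64], [84, 855, 832, 98, 0, 32], [126, 1021, 994, 64, 32, 0]]

/-- The points. -/
def O (x : Fin 6 × Fin 6) : chevB2.Idx → ZMod 2 := toB ((tbl.getD x.1.val []).getD x.2.val 0)

/-- The permutations. -/
def tau : Fin 8 → Equiv.Perm (Fin 6)
  | 0 => Equiv.swap 1 2
  | 1 => Equiv.swap 0 3 * Equiv.swap 1 2 * Equiv.swap 4 5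
  | 2 => Equiv.swap 0 4 * Equiv.swap 1 2 * Equiv.swap 3 5
  | 3 => Equiv.swap 4 5
  | 4 => Equiv.swap 3 5
  | 5 => Equiv.swap 0 1 * Equiv.swap 2 3 * Equiv.swap 4 5
  | 6 => Equiv.swap 0 1 * Equiv.swap 2 4 * Equiv.swap 3 5
  | 7 => Equiv.swap 0 1

lemma xMat_check : ∀ (r : Fin 8) (x : Fin 6 × Fin 6) (k : chevB2.Idx),
    ((chevB2.xMat (ZMod 2) r 1) *ᵥ O x) k = O (tau r • x) k := by
  decide +kernel

/-- The Kronecker symbol. -/
def dl (i j : chevB2.Idx) : ZMod 2 := if i = j then 1 else 0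

/-- The entries of the root elements. -/
def ent (r : Fin 8) (t : ZMod 2) (i j : chevB2.Idx) : ZMod 2 := chevB2.xMat (ZMod 2) r t i j

lemma xMat_zero' : ∀ (r : Fin 8) (t : ZMod 2) (i j : chevB2.Idx), t = 0 → ent r t i j = dl i j := by
  decide +kernel

lemma xMat_zero (r : Fin 8) (i j : chevB2.Idx) : chevB2.xMat (ZMod 2) r 0 i j = if i = j then 1 else 0 := xMat_zero' r 0 i j rfl

lemma xMat_inv' : ∀ (r : Fin 8) (i j : chevB2.Idx),
    ∑ k, chevB2.xMat (ZMod 2) r 1 i k * chevB2.xMat (ZMod 2) r 1 k j = dl i j := by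
  decide +kernel

lemma xMat_inv (r : Fin 8) (i j : chevB2.Idx) :
    ∑ k, chevB2.xMat (ZMod 2) r 1 i k * chevB2.xMat (ZMod 2) r 1 k j = if i = j then 1 else 0 := xMat_inv' r i j

/-- The root elements as invertible matrices. -/
def gen : Fin 8 × ZMod 2 → GL chevB2.Idx (ZMod 2) := fun s =>
  ⟨chevB2.xMat (ZMod 2) s.1 s.2, chevB2.xMat (ZMod 2) s.1 s.2, by
    obtain ⟨r, t⟩ := s
    ext i j
    rw [Matrix.mul_apply, Matrix.one_apply]
    revert t
    have h0 := xMat_inv r i j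
    have h1 : ∀ k, chevB2.xMat (ZMod 2) r 0 i k = if i = k then 1 else 0 := fun k => xMat_zero r i k
    intro t
    have ht : t = 0 ∨ t = 1 := by revert t; decide
    rcases ht with rfl | rfl
    · simp only [h1]
      simp [xMat_zero r]
    · exact h0, by
    obtain ⟨r, t⟩ := s
    ext i j
    rw [Matrix.mul_apply, Matrix.one_apply]
    have h0 := xMat_inv r i j
    have h1 : ∀ k, chevB2.xMat (ZMod 2) r 0 i k = if i = k then 1 else 0 := fun k => xMat_zero r i k
    have ht : t = 0 ∨ t = 1 := by revert t; decide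
    rcases ht with rfl | rfl
    · simp only [h1]
      simp [xMat_zero r]
    · exact h0⟩

/-- The corresponding permutations. -/
def per : Fin 8 × ZMod 2 → Equiv.Perm (Fin 6) := fun s => if s.2 = 0 then 1 else tau s.1

lemma gen_per (s : Fin 8 × ZMod 2) (x : Fin 6 × Fin 6) : (gen s).val *ᵥ O x = O (per s • x) := by
  obtain ⟨r, t⟩ := s
  have ht : t = 0 ∨ t = 1 := by revert t; decide
  rcases ht with rfl | rfl
  · have h1 : chevB2.xMat (ZMod 2) r 0 = 1 := by
      ext i j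
      rw [xMat_zero, Matrix.one_apply]
    show chevB2.xMat (ZMod 2) r 0 *ᵥ O x = O ((if (0 : ZMod 2) = 0 then (1 : Equiv.Perm (Fin 6)) else tau r) • x)
    rw [h1, Matrix.one_mulVec, if_pos rfl, one_smul]
  · funext k
    exact xMat_check r x k

/-- The spanning data. -/
def spanL : chevB2.Idx → List (Fin 6 × Fin 6) := fun k =>
  match idxN k with
  | 0 => [(0, 1), (0, 2), (0, 3), (0, 4), (0, 5)]
  | 1 => [(0, 3), (0, 4), (0, 5), (1, 2)]
  | 2 => [(1, 2)]
  | 3 => [(0, 1), (0, 2), (1, 3), (2, 3)]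
  | 4 => [(0, 1), (0, 2), (1, 4), (2, 4)]
  | 5 => [(0, 1), (0, 2), (0, 3), (1, 2), (1, 3), (2, 3)]
  | 6 => [(0, 1), (0, 2), (0, 4), (1, 2), (1, 4), (2, 4)]
  | 7 => [(0, 2), (0, 3), (1, 2), (1, 3)]
  | 8 => [(0, 2), (0, 4), (1, 2), (1, 4)]
  | _ => [(0, 1)]

lemma spanL_sum' : ∀ (k j : chevB2.Idx), ((spanL k).map O).sum j = dl j k := by
  decide +kernel

lemma spanL_sum (k j : chevB2.Idx) : ((spanL k).map O).sum j = if j = k then 1 else 0 := spanL_sum' k j

lemma hspan (g : GL chevB2.Idx (ZMod 2)) (hg : ∀ x, g.val *ᵥ O x = O x) : g = 1 := by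
  apply PtIso.span_of_lists O spanL _ g hg
  intro k
  funext j
  rw [spanL_sum]
  simp [Pi.single_apply]

lemma O_inj : ∀ i j k l : Fin 6, i ≠ j → O (i, j) = O (k, l) → (k = i ∧ l = j) ∨ (k = j ∧ l = i) := by
  have h : ∀ i j k l : Fin 6, i ≠ j → (∀ m, O (i, j) m = O (k, l) m) → (k = i ∧ l = j) ∨ (k = j ∧ l = i) := by
    decide +kernel
  intro i j k l hij e
  exact h i j k l hij (fun m => by rw [e])

lemma hfaith (b : Equiv.Perm (Fin 6)) (hb : ∀ x : Fin 6 × Fin 6, O (b • x) = O x) : b = 1 := by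
  ext i
  obtain ⟨j, k, hj, hk, hjk⟩ : ∃ j k : Fin 6, i ≠ j ∧ i ≠ k ∧ j ≠ k := by
    revert i; decide
  have h1 := O_inj i j (b i) (b j) hj (hb (i, j)).symm
  have h2 := O_inj i k (b i) (b k) hk (hb (i, k)).symm
  have : b i = i := by
    rcases h1 with h1 | h1
    · exact h1.1
    · rcases h2 with h2 | h2
      · exact h2.1
      · exact absurd (h1.1.symm.trans h2.1) hjk
  simp [this]

lemma closure_per : Subgroup.closure (Set.range per) = ⊤ := by
  have hmem : ∀ r, tau r ∈ Subgroup.closure (Set.range per) := by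
    intro r
    apply Subgroup.subset_closure
    exact ⟨(r, 1), by simp [per]⟩
  rw [eq_top_iff]
  have hmc := Equiv.Perm.mclosure_swap_castSucc_succ 5
  intro x _
  have hx : x ∈ Submonoid.closure (Set.range fun i : Fin 5 => Equiv.swap i.castSucc i.succ) := by
    rw [hmc]; trivial
  have hle : Submonoid.closure (Set.range fun i : Fin 5 => Equiv.swap i.castSucc i.succ) ≤
      (Subgroup.closure (Set.range per)).toSubmonoid := by
    rw [Submonoid.closure_le]
    rintro _ ⟨i, rfl⟩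
    fin_cases i
    · have e : Equiv.swap (0 : Fin 6) 1 = tau 7 := by decide
      show Equiv.swap (0 : Fin 6) 1 ∈ _
      rw [e]
      exact hmem 7
    · have e : Equiv.swap (1 : Fin 6) 2 = tau 0 := by decide
      show Equiv.swap (1 : Fin 6) 2 ∈ _
      rw [e]
      exact hmem 0
    · have e : Equiv.swap (2 : Fin 6) 3 = tau 1 * tau 7 * tau 1 := by decide
      show Equiv.swap (2 : Fin 6) 3 ∈ _
      rw [e]
      exact Subgroup.mul_mem _ (Subgroup.mul_mem _ (hmem 1) (hmem 7)) (hmem 1)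
    · have e : Equiv.swap (3 : Fin 6) 4 = tau 3 * tau 4 * tau 3 := by decide
      show Equiv.swap (3 : Fin 6) 4 ∈ _
      rw [e]
      exact Subgroup.mul_mem _ (Subgroup.mul_mem _ (hmem 3) (hmem 4)) (hmem 3)
    · have e : Equiv.swap (4 : Fin 6) 5 = tau 3 := by decide
      show Equiv.swap (4 : Fin 6) 5 ∈ _
      rw [e]
      exact hmem 3
  exact hle hx

theorem zmod2_iso : Nonempty (↥(chevB2.group (ZMod 2)) ≃* Equiv.Perm (Fin 6)) := by
  obtain ⟨e⟩ := PtIso.iso_of_points O hspan hfaith gen per gen_per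
  have h1 : chevB2.group (ZMod 2) = Subgroup.closure (Set.range gen) := by
    unfold ChevalleyDatum.group
    congr 1
    ext g
    constructor
    · rintro ⟨r, t, hg⟩
      exact ⟨(r, t), Units.ext hg.symm⟩
    · rintro ⟨⟨r, t⟩, rfl⟩
      exact ⟨r, t, rfl⟩
  rw [closure_per] at e
  exact ⟨(MulEquiv.subgroupCongr h1).trans (e.trans Subgroup.topEquiv)⟩

end Cfsg.Agent.H01.ChevB2Iso
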