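import Mathlib

/-! Hall–Petrescu collection in class at most three. -/

set_option autoImplicit false

namespace Cfsg.Agent.H01

open scoped commutatorElement

variable {G : Type*} [Group G]

/-- Collection data: `t`, `r`, `s` with `r`, `s` central in the group generated by `x`, `y`, `t`. -/
structure Cl3 (x y t r s : G) : Prop where
  ht : y * x = x * y * t
  hr : t * x = x * t * r
  hs : t * y = y * t * s
  rx : Commute r x
  ry : Commute r y
  rt : Commute r t
  sx : Commute s x
  sy : Commute s y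
  st : Commute s t
  rs : Commute r s

namespace Cl3

variable {x y t r s : G}

theorem t_pow_mul_x (h : Cl3 x y t r s) (k : ℕ) : t ^ k * x = x * t ^ k * r ^ k := by
  induction k with
  | zero => simp
  | succ k ih =>
    calc t ^ (k + 1) * x = t ^ k * (t * x) := by rw [pow_succ]; simp only [mul_assoc]
      _ = t ^ k * (x * t * r) := by rw [h.hr]
      _ = (t ^ k * x) * t * r := by simp only [mul_assoc]
      _ = (x * t ^ k * r ^ k) * t * r := by rw [ih]
      _ = x * t ^ k * (r ^ k * t) * r := by simp only [mul_assoc]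
      _ = x * t ^ k * (t * r ^ k) * r := by rw [(h.rt.pow_left k).eq]
      _ = x * (t ^ k * t) * (r ^ k * r) := by simp only [mul_assoc]
      _ = x * t ^ (k + 1) * r ^ (k + 1) := by rw [pow_succ, pow_succ]

theorem t_pow_mul_y (h : Cl3 x y t r s) (k : ℕ) : t ^ k * y = y * t ^ k * s ^ k := by
  induction k with
  | zero => simp
  | succ k ih =>
    calc t ^ (k + 1) * y = t ^ k * (t * y) := by rw [pow_succ]; simp only [mul_assoc]
      _ = t ^ k * (y * t * s) := by rw [h.hs]
      _ = (t ^ k * y) * t * s := by simp only [mul_assoc]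
      _ = (y * t ^ k * s ^ k) * t * s := by rw [ih]
      _ = y * t ^ k * (s ^ k * t) * s := by simp only [mul_assoc]
      _ = y * t ^ k * (t * s ^ k) * s := by rw [(h.st.pow_left k).eq]
      _ = y * (t ^ k * t) * (s ^ k * s) := by simp only [mul_assoc]
      _ = y * t ^ (k + 1) * s ^ (k + 1) := by rw [pow_succ, pow_succ]

theorem x_pow (h : Cl3 x y t r s) (k : ℕ) : t * x ^ k = x ^ k * t * r ^ k := by
  induction k with
  | zero => simp
  | succ k ih =>
    calc t * x ^ (k + 1) = (t * x ^ k) * x := by rw [pow_succ]; simp only [mul_assoc]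
      _ = (x ^ k * t * r ^ k) * x := by rw [ih]
      _ = x ^ k * t * (r ^ k * x) := by simp only [mul_assoc]
      _ = x ^ k * t * (x * r ^ k) := by rw [(h.rx.pow_left k).eq]
      _ = x ^ k * (t * x) * r ^ k := by simp only [mul_assoc]
      _ = x ^ k * (x * t * r) * r ^ k := by rw [h.hr]
      _ = (x ^ k * x) * t * (r * r ^ k) := by simp only [mul_assoc]
      _ = x ^ (k + 1) * t * r ^ (k + 1) := by rw [pow_succ, pow_succ']

theorem y_pow (h : Cl3 x y t r s) (k : ℕ) : t * y ^ k = y ^ k * t * s ^ k := by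
  induction k with
  | zero => simp
  | succ k ih =>
    calc t * y ^ (k + 1) = (t * y ^ k) * y := by rw [pow_succ]; simp only [mul_assoc]
      _ = (y ^ k * t * s ^ k) * y := by rw [ih]
      _ = y ^ k * t * (s ^ k * y) := by simp only [mul_assoc]
      _ = y ^ k * t * (y * s ^ k) := by rw [(h.sy.pow_left k).eq]
      _ = y ^ k * (t * y) * s ^ k := by simp only [mul_assoc]
      _ = y ^ k * (y * t * s) * s ^ k := by rw [h.hs]
      _ = (y ^ k * y) * t * (s * s ^ k) := by simp only [mul_assoc]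
      _ = y ^ (k + 1) * t * s ^ (k + 1) := by rw [pow_succ, pow_succ']

theorem y_pow_mul_x (h : Cl3 x y t r s) (n : ℕ) :
    y ^ n * x = x * y ^ n * t ^ n * s ^ n.choose 2 := by
  induction n with
  | zero => simp
  | succ n ih =>
    have e : (n + 1).choose 2 = n + n.choose 2 := by
      rw [Nat.choose_succ_succ' n 1, Nat.choose_one_right]
    calc y ^ (n + 1) * x = y ^ n * (y * x) := by rw [pow_succ]; simp only [mul_assoc]
      _ = y ^ n * (x * y * t) := by rw [h.ht]
      _ = (y ^ n * x) * y * t := by simp only [mul_assoc]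
      _ = (x * y ^ n * t ^ n * s ^ n.choose 2) * y * t := by rw [ih]
      _ = x * y ^ n * t ^ n * (s ^ n.choose 2 * y) * t := by simp only [mul_assoc]
      _ = x * y ^ n * t ^ n * (y * s ^ n.choose 2) * t := by rw [(h.sy.pow_left _).eq]
      _ = x * y ^ n * (t ^ n * y) * (s ^ n.choose 2 * t) := by simp only [mul_assoc]
      _ = x * y ^ n * (y * t ^ n * s ^ n) * (t * s ^ n.choose 2) := by
        rw [h.t_pow_mul_y, (h.st.pow_left _).eq]
      _ = x * (y ^ n * y) * t ^ n * (s ^ n * t) * s ^ n.choose 2 := by simp only [mul_assoc]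
      _ = x * (y ^ n * y) * t ^ n * (t * s ^ n) * s ^ n.choose 2 := by rw [(h.st.pow_left _).eq]
      _ = x * (y ^ n * y) * (t ^ n * t) * (s ^ n * s ^ n.choose 2) := by simp only [mul_assoc]
      _ = x * y ^ (n + 1) * t ^ (n + 1) * s ^ (n + 1).choose 2 := by
        rw [pow_succ y n, pow_succ t n, e, pow_add]

/-- The Hall–Petrescu formula in class three. -/
theorem mul_pow (h : Cl3 x y t r s) (n : ℕ) :
    (x * y) ^ n = x ^ n * y ^ n * t ^ n.choose 2 * r ^ n.choose 3 *
      s ^ (2 * n.choose 3 + n.choose 2) := by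
  induction n with
  | zero => simp
  | succ n ih =>
    set a := n.choose 2 with ha
    set b := n.choose 3 with hb
    have e2 : (n + 1).choose 2 = n + a := by
      rw [Nat.choose_succ_succ' n 1, Nat.choose_one_right]
    have e3 : (n + 1).choose 3 = a + b := by
      rw [Nat.choose_succ_succ' n 2]
    have rxb : ∀ k, Commute (r ^ k) x := fun k => h.rx.pow_left k
    have ryb : ∀ k, Commute (r ^ k) y := fun k => h.ry.pow_left k
    have sxb : ∀ k, Commute (s ^ k) x := fun k => h.sx.pow_left k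
    have syb : ∀ k, Commute (s ^ k) y := fun k => h.sy.pow_left k
    have rtb : ∀ k j, Commute (r ^ k) (t ^ j) := fun k j => h.rt.pow_pow k j
    have stb : ∀ k j, Commute (s ^ k) (t ^ j) := fun k j => h.st.pow_pow k j
    have rsb : ∀ k j, Commute (r ^ k) (s ^ j) := fun k j => h.rs.pow_pow k j
    rw [pow_succ (x * y) n, ih, e2, e3]
    calc x ^ n * y ^ n * t ^ a * r ^ b * s ^ (2 * b + a) * (x * y)
        = x ^ n * y ^ n * t ^ a * r ^ b * (s ^ (2 * b + a) * x) * y := by simp only [mul_assoc]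
      _ = x ^ n * y ^ n * t ^ a * (r ^ b * x) * s ^ (2 * b + a) * y := by
        rw [(sxb _).eq]; simp only [mul_assoc]
      _ = x ^ n * y ^ n * (t ^ a * x) * r ^ b * s ^ (2 * b + a) * y := by
        rw [(rxb _).eq]; simp only [mul_assoc]
      _ = x ^ n * (y ^ n * x) * t ^ a * r ^ a * r ^ b * s ^ (2 * b + a) * y := by
        rw [h.t_pow_mul_x]; simp only [mul_assoc]
      _ = x ^ n * x * y ^ n * t ^ n * s ^ a * t ^ a * r ^ a * r ^ b * s ^ (2 * b + a) * y := by
        rw [h.y_pow_mul_x, ← ha]; simp only [mul_assoc]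
      _ = x ^ n * x * y ^ n * t ^ n * (s ^ a * t ^ a) * r ^ a * r ^ b * s ^ (2 * b + a) * y := by
        simp only [mul_assoc]
      _ = x ^ n * x * y ^ n * t ^ n * (t ^ a * s ^ a) * r ^ a * r ^ b * s ^ (2 * b + a) * y := by
        rw [(stb _ _).eq]
      _ = x ^ n * x * y ^ n * (t ^ n * t ^ a) * (s ^ a * (r ^ a * r ^ b)) * (s ^ (2 * b + a) * y) := by
        simp only [mul_assoc]
      _ = x ^ n * x * y ^ n * (t ^ (n + a)) * (s ^ a * r ^ (a + b)) * (y * s ^ (2 * b + a)) := by
        rw [(syb _).eq, pow_add t n a, pow_add r a b]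
      _ = x ^ n * x * y ^ n * (t ^ (n + a)) * s ^ a * (r ^ (a + b) * y) * s ^ (2 * b + a) := by
        simp only [mul_assoc]
      _ = x ^ n * x * y ^ n * (t ^ (n + a)) * (s ^ a * y) * r ^ (a + b) * s ^ (2 * b + a) := by
        rw [(ryb _).eq]; simp only [mul_assoc]
      _ = x ^ n * x * y ^ n * (t ^ (n + a) * y) * s ^ a * r ^ (a + b) * s ^ (2 * b + a) := by
        rw [(syb _).eq]; simp only [mul_assoc]
      _ = x ^ n * x * y ^ n * (y * t ^ (n + a) * s ^ (n + a)) * s ^ a * r ^ (a + b) * s ^ (2 * b + a) := by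
        rw [h.t_pow_mul_y]
      _ = (x ^ n * x) * (y ^ n * y) * t ^ (n + a) * (s ^ (n + a) * s ^ a * r ^ (a + b)) * s ^ (2 * b + a) := by
        simp only [mul_assoc]
      _ = (x ^ n * x) * (y ^ n * y) * t ^ (n + a) * (r ^ (a + b) * (s ^ (n + a) * s ^ a)) * s ^ (2 * b + a) := by
        congr 2
        rw [← pow_add]
        exact (rsb _ _).eq.symm
      _ = (x ^ n * x) * (y ^ n * y) * t ^ (n + a) * r ^ (a + b) * (s ^ (n + a) * s ^ a * s ^ (2 * b + a)) := by
        simp only [mul_assoc]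
      _ = x ^ (n + 1) * y ^ (n + 1) * t ^ (n + a) * r ^ (a + b) * s ^ (2 * (a + b) + (n + a)) := by
        rw [pow_succ x n, pow_succ y n, ← pow_add, ← pow_add]
        congr 2
        ring

end Cl3

/-- In a group of class at most three any two elements carry collection data. -/
theorem cl3_of_class_three {R : Type*} [Group R]
    (hcl : ⁅⁅commutator R, (⊤ : Subgroup R)⁆, (⊤ : Subgroup R)⁆ = ⊥) (x y : R) :
    ∃ t r s : R, Cl3 x y t r s ∧ t ∈ commutator R ∧ r ∈ commutator R ∧ s ∈ commutator R := by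
  have hcen : ∀ c ∈ ⁅commutator R, (⊤ : Subgroup R)⁆, ∀ g : R, Commute c g := by
    intro c hc g
    have : ⁅c, g⁆ ∈ (⊥ : Subgroup R) := by
      rw [← hcl]
      exact Subgroup.commutator_mem_commutator hc (Subgroup.mem_top g)
    rw [Subgroup.mem_bot] at this
    exact commutatorElement_eq_one_iff_commute.mp this
  have hcomm : ∀ a b : R, ⁅a, b⁆ ∈ commutator R := fun a b =>
    Subgroup.commutator_mem_commutator (Subgroup.mem_top a) (Subgroup.mem_top b)
  have hlow : ⁅commutator R, (⊤ : Subgroup R)⁆ ≤ commutator R := by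
    rw [Subgroup.commutator_le]
    intro a _ b _
    exact hcomm a b
  set t : R := ⁅y⁻¹, x⁻¹⁆ with ht
  have htm : t ∈ commutator R := hcomm _ _
  set r : R := ⁅t⁻¹, x⁻¹⁆ with hr
  set s : R := ⁅t⁻¹, y⁻¹⁆ with hs
  have hrm : r ∈ ⁅commutator R, (⊤ : Subgroup R)⁆ :=
    Subgroup.commutator_mem_commutator (inv_mem htm) (Subgroup.mem_top _)
  have hsm : s ∈ ⁅commutator R, (⊤ : Subgroup R)⁆ :=
    Subgroup.commutator_mem_commutator (inv_mem htm) (Subgroup.mem_top _)
  refine ⟨t, r, s, ⟨?_, ?_, ?_, hcen _ hrm _, hcen _ hrm _, hcen _ hrm _, hcen _ hsm _, hcen _ hsm _,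
    hcen _ hsm _, hcen _ hrm _⟩, htm, hlow hrm, hlow hsm⟩
  · rw [ht, commutatorElement_def]; group
  · rw [hr, commutatorElement_def]; group
  · rw [hs, commutatorElement_def]; group

/-- In a group of class at most two the same data exists with `r = s = 1`. -/
theorem cl3_of_class_two {R : Type*} [Group R]
    (hcl : ⁅commutator R, (⊤ : Subgroup R)⁆ = ⊥) (x y : R) :
    ∃ t : R, Cl3 x y t 1 1 ∧ t ∈ commutator R := by
  have hcen : ∀ c ∈ commutator R, ∀ g : R, Commute c g := by
    intro c hc g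
    have : ⁅c, g⁆ ∈ (⊥ : Subgroup R) := by
      rw [← hcl]
      exact Subgroup.commutator_mem_commutator hc (Subgroup.mem_top g)
    rw [Subgroup.mem_bot] at this
    exact commutatorElement_eq_one_iff_commute.mp this
  have hcomm : ∀ a b : R, ⁅a, b⁆ ∈ commutator R := fun a b =>
    Subgroup.commutator_mem_commutator (Subgroup.mem_top a) (Subgroup.mem_top b)
  set t : R := ⁅y⁻¹, x⁻¹⁆ with ht
  have htm : t ∈ commutator R := hcomm _ _
  refine ⟨t, ⟨?_, ?_, ?_, Commute.one_left _, Commute.one_left _, Commute.one_left _,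
    Commute.one_left _, Commute.one_left _, Commute.one_left _, Commute.one_left _⟩, htm⟩
  · rw [ht, commutatorElement_def]; group
  · rw [mul_one, (hcen t htm x).eq]
  · rw [mul_one, (hcen t htm y).eq]

/-- `p`-power computation: if `x^p = y^p = 1`, then `r^p = s^p = t^p = 1`, and the
product has `p`-th power one, when `p` divides the binomials. -/
theorem Cl3.mul_pow_eq_one {x y t r s : G} (h : Cl3 x y t r s) {p : ℕ}
    (hp2 : p ∣ p.choose 2)
    (hr3 : r ^ p.choose 3 = 1) (hs3 : s ^ (2 * p.choose 3) = 1)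
    (hx : x ^ p = 1) (hy : y ^ p = 1) (hs : s ^ p = 1) : (x * y) ^ p = 1 := by
  have h1 := h.y_pow_mul_x p
  obtain ⟨k, hk⟩ := hp2
  have hs2 : s ^ p.choose 2 = 1 := by rw [hk, pow_mul, hs, one_pow]
  rw [hy, mul_one, one_mul, hs2, mul_one] at h1
  have htp : t ^ p = 1 := by
    have h2 : x * 1 = x * t ^ p := by rw [mul_one]; exact h1
    exact (mul_left_cancel h2).symm
  have ht2 : t ^ p.choose 2 = 1 := by rw [hk, pow_mul, htp, one_pow]
  rw [h.mul_pow p, hx, hy, ht2, hr3, pow_add, hs3, hs2]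
  simp

end Cfsg.Agent.H01

namespace Cfsg.Agent.H01

variable {G : Type*} [Group G]

/-- If the elements of exponent `p` are closed under products, their closure has exponent `p`. -/
theorem pow_eq_one_of_mem_closure {p : ℕ}
    (hmul : ∀ x y : G, x ^ p = 1 → y ^ p = 1 → (x * y) ^ p = 1) {g : G}
    (hg : g ∈ Subgroup.closure {x : G | x ^ p = 1}) : g ^ p = 1 := by
  induction hg using Subgroup.closure_induction with
  | mem x hx => exact hx
  | one => simp
  | mul x y _ _ hx hy => exact hmul x y hx hy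
  | inv x _ hx => simp [hx]

theorem Cl3.mul_pow_eq {x y t r s : G} (h : Cl3 x y t r s) {p : ℕ}
    (hp2 : p ∣ p.choose 2)
    (hr3 : r ^ p.choose 3 = 1) (hs3 : s ^ (2 * p.choose 3) = 1)
    (ht : t ^ p = 1) (hs : s ^ p = 1) : (x * y) ^ p = x ^ p * y ^ p := by
  obtain ⟨k, hk⟩ := hp2
  have hs2 : s ^ p.choose 2 = 1 := by rw [hk, pow_mul, hs, one_pow]
  have ht2 : t ^ p.choose 2 = 1 := by rw [hk, pow_mul, ht, one_pow]
  rw [h.mul_pow p, ht2, hr3, pow_add, hs3, hs2]
  simp

theorem dvd_choose_two_of_ne {p : ℕ} (hp : p.Prime) (hp2 : p ≠ 2) : p ∣ p.choose 2 :=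
  hp.dvd_choose_self (by norm_num) (lt_of_le_of_ne hp.two_le (Ne.symm hp2))

theorem dvd_choose_three_of_gt {p : ℕ} (hp : p.Prime) (hp3 : 3 < p) : p ∣ p.choose 3 :=
  hp.dvd_choose_self (by norm_num) hp3

/-- Exponent `p` elements are closed under multiplication in class two for odd `p`. -/
theorem mul_pow_eq_one_class_two {R : Type*} [Group R] {p : ℕ} (hp : p.Prime) (hp2 : p ≠ 2)
    (hcl : ⁅commutator R, (⊤ : Subgroup R)⁆ = ⊥) (x y : R) (hx : x ^ p = 1) (hy : y ^ p = 1) :
    (x * y) ^ p = 1 := by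
  obtain ⟨t, h, -⟩ := cl3_of_class_two hcl x y
  exact h.mul_pow_eq_one (dvd_choose_two_of_ne hp hp2) (by simp) (by simp) hx hy (by simp)

/-- Exponent `p` elements are closed under multiplication in class three for `p > 3`. -/
theorem mul_pow_eq_one_class_three {R : Type*} [Group R] {p : ℕ} (hp : p.Prime) (hp3 : 3 < p)
    (hcl : ⁅⁅commutator R, (⊤ : Subgroup R)⁆, (⊤ : Subgroup R)⁆ = ⊥) (x y : R) (hx : x ^ p = 1)
    (hy : y ^ p = 1) : (x * y) ^ p = 1 := by
  obtain ⟨t, r, s, h, -, -, -⟩ := cl3_of_class_three hcl x y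
  have hrp : r ^ p = 1 := by
    have e := h.x_pow p
    rw [hx, mul_one, one_mul] at e
    have e2 : t * 1 = t * r ^ p := by rw [mul_one]; exact e
    exact (mul_left_cancel e2).symm
  have hsp : s ^ p = 1 := by
    have e := h.y_pow p
    rw [hy, mul_one, one_mul] at e
    have e2 : t * 1 = t * s ^ p := by rw [mul_one]; exact e
    exact (mul_left_cancel e2).symm
  obtain ⟨k, hk⟩ := dvd_choose_three_of_gt hp hp3
  exact h.mul_pow_eq_one (dvd_choose_two_of_ne hp (by omega))
    (by rw [hk, pow_mul, hrp, one_pow])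
    (by rw [hk, mul_left_comm, pow_mul, hsp, one_pow]) hx hy hsp

end Cfsg.Agent.H01
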