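import Mathlib

/-! Counting rotation orbits of non-scalar multiplicity tuples. -/

set_option linter.unusedSectionVars false
set_option autoImplicit false

namespace Cfsg.Agent.H01.PglCl

open MulAction

section
variable {A : Type*} [Fintype A] [DecidableEq A]

theorem card_W (n : ℕ) : Finite {a : A → ℕ // ∑ x, a x = n} ∧
    Nat.card {a : A → ℕ // ∑ x, a x = n} = (Fintype.card A + n - 1).choose n := by
  let e : {a : A → ℕ // ∑ x, a x = n} ≃ ↥((Finset.univ : Finset A).finsuppAntidiag n) :=
    { toFun := fun a => ⟨Finsupp.equivFunOnFinite.symm a.1, by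
        rw [Finset.mem_finsuppAntidiag]
        exact ⟨by simpa using a.2, by simp⟩⟩
      invFun := fun f => ⟨f.1, by
        have := (Finset.mem_finsuppAntidiag.1 f.2).1
        simpa using this⟩
      left_inv := fun a => by
        apply Subtype.ext
        rfl
      right_inv := fun f => by
        apply Subtype.ext
        ext x
        rfl }
  refine ⟨Finite.of_equiv _ e.symm, ?_⟩
  rw [Nat.card_congr e, Nat.card_eq_fintype_card, Fintype.card_coe,
    Finset.card_finsuppAntidiag_nat_eq_choose]
  rfl

end

variable {A : Type*} [Group A] [Fintype A]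

/-- non-scalar multiplicity tuples -/
def NST (A : Type*) [Group A] [Fintype A] (n : ℕ) := {a : A → ℕ // ∑ x, a x = n ∧ ∀ x, a x ≠ n}

instance (n : ℕ) : MulAction A (NST A n) where
  smul c a := ⟨fun x => a.1 (c⁻¹ * x),
    (Equiv.sum_comp (Equiv.mulLeft c⁻¹) a.1).trans a.2.1, fun x => a.2.2 _⟩
  one_smul a := by
    apply Subtype.ext
    funext x
    show a.1 (1⁻¹ * x) = a.1 x
    simp
  mul_smul c d a := by
    apply Subtype.ext
    funext x
    show a.1 ((c * d)⁻¹ * x) = a.1 (d⁻¹ * (c⁻¹ * x))
    rw [mul_inv_rev, mul_assoc]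

theorem smul_val {n : ℕ} (c : A) (a : NST A n) (x : A) : (c • a).1 x = a.1 (c⁻¹ * x) := rfl

theorem finite_NST (n : ℕ) : Finite (NST A n) := by
  classical
  have := (card_W (A := A) n).1
  exact Finite.of_injective
    (fun a : NST A n => (⟨a.1, a.2.1⟩ : {a : A → ℕ // ∑ x, a x = n}))
    (fun a b h => by
      have h' := congrArg Subtype.val h
      exact Subtype.ext h')

theorem card_NST {n : ℕ} (hn : 0 < n) :
    Nat.card (NST A n) + Fintype.card A = (Fintype.card A + n - 1).choose n := by
  classical
  obtain ⟨h1, h2⟩ := card_W (A := A) n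
  rw [← h2]
  let p : {a : A → ℕ // ∑ x, a x = n} → Prop := fun a => ∀ x, a.1 x ≠ n
  have h3 := Nat.card_congr (Equiv.sumCompl p)
  rw [Nat.card_sum] at h3
  rw [← h3]
  congr 1
  · apply Nat.card_congr
    exact { toFun := fun a => ⟨⟨a.1, a.2.1⟩, a.2.2⟩
            invFun := fun a => ⟨a.1.1, a.1.2, a.2⟩
            left_inv := fun a => rfl
            right_inv := fun a => rfl }
  · rw [← Nat.card_eq_fintype_card]
    apply Nat.card_congr
    refine Equiv.ofBijective (fun x : A => (⟨⟨Pi.single x n, by simp⟩, by
      simp only [p]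
      push Not
      exact ⟨x, by simp⟩⟩ : {a : {a : A → ℕ // ∑ x, a x = n} // ¬ p a})) ⟨?_, ?_⟩
    · intro x y h
      have h4 := congrArg (fun a => a.1.1 x) h
      simp only [Pi.single_eq_same] at h4
      by_contra hne
      rw [Pi.single_eq_of_ne hne] at h4
      omega
    · rintro ⟨⟨a, ha⟩, hb⟩
      simp only [p] at hb
      push Not at hb
      obtain ⟨x, hx⟩ := hb
      refine ⟨x, ?_⟩
      apply Subtype.ext
      apply Subtype.ext
      funext y
      show (Pi.single x n : A → ℕ) y = a y
      by_cases hy : y = x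
      · subst hy
        simp [hx]
      · rw [Pi.single_eq_of_ne hy]
        have h5 : a x + a y ≤ ∑ t, a t := by
          rw [← Finset.add_sum_erase _ _ (Finset.mem_univ x)]
          have : a y ≤ ∑ t ∈ Finset.univ.erase x, a t :=
            Finset.single_le_sum (f := a) (fun _ _ => Nat.zero_le _)
              (Finset.mem_erase.2 ⟨hy, Finset.mem_univ y⟩)
          omega
        omega

theorem fixed_const {n r : ℕ} (hr : r.Prime) (hA : Nat.card A = r) (c : A) (hc : c ≠ 1) (a : NST A n)
    (ha : a ∈ fixedBy (NST A n) c) (x : A) : a.1 x = a.1 1 := by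
  haveI : Fact (Nat.card A).Prime := ⟨by rw [hA]; exact hr⟩
  have h1 : c ∈ stabilizer A a := ha
  have h2 : stabilizer A a = ⊤ := by
    rcases Subgroup.eq_bot_or_eq_top_of_prime_card (stabilizer A a) with h | h
    · rw [h, Subgroup.mem_bot] at h1
      exact absurd h1 hc
    · exact h
  have h3 : x⁻¹ ∈ stabilizer A a := by rw [h2]; trivial
  have h4 : x⁻¹ • a = a := h3
  have h5 := congrArg (fun b : NST A n => b.1 1) h4
  simp only [smul_val] at h5
  rw [← h5]
  simp

open Classical in
theorem card_fixed {n r : ℕ} (hn : 0 < n) (hr : r.Prime) (hA : Nat.card A = r) (c : A) (hc : c ≠ 1) :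
    Nat.card (fixedBy (NST A n) c) = if r ∣ n then 1 else 0 := by
  have hcard : Fintype.card A = r := by rw [← Nat.card_eq_fintype_card, hA]
  have hsum : ∀ a : NST A n, a ∈ fixedBy (NST A n) c → r * a.1 1 = n := fun a ha => by
    have h1 : ∑ x, a.1 x = ∑ x : A, a.1 1 := Finset.sum_congr rfl fun x _ => fixed_const hr hA c hc a ha x
    have h2 : n = ∑ x : A, a.1 1 := a.2.1.symm.trans h1
    have h3 : r * a.1 1 = ∑ x : A, a.1 1 := by simp [hcard]
    exact h3.trans h2.symm
  split_ifs with h
  · rw [Nat.card_eq_one_iff_unique]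
    obtain ⟨t, ht⟩ := h
    have hr2 := hr.two_le
    have ht0 : 0 < t := by
      rcases Nat.eq_zero_or_pos t with h0 | h0
      · subst h0
        omega
      · exact h0
    have hne : t ≠ n := by
      rw [ht]
      nlinarith
    let a0 : NST A n := ⟨fun _ => t, by simp [hcard, ht], fun _ => hne⟩
    refine ⟨⟨?_⟩, ⟨⟨a0, ?_⟩⟩⟩
    · rintro ⟨a, ha⟩ ⟨b, hb⟩
      apply Subtype.ext
      apply Subtype.ext
      funext x
      rw [fixed_const hr hA c hc a ha x, fixed_const hr hA c hc b hb x]
      have h1 := hsum a ha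
      have h2 := hsum b hb
      exact Nat.eq_of_mul_eq_mul_left hr.pos (h1.trans h2.symm)
    · apply Subtype.ext
      rfl
  · haveI : IsEmpty (fixedBy (NST A n) c) :=
      ⟨fun a => h ⟨_, (hsum a.1 a.2).symm⟩⟩
    exact Nat.card_of_isEmpty

open Classical in
theorem card_orb {n r : ℕ} (hn : 0 < n) (hr : r.Prime) (hA : Nat.card A = r) :
    Nat.card (orbitRel.Quotient A (NST A n)) * r =
      Nat.card (NST A n) + (r - 1) * (if r ∣ n then 1 else 0) := by
  classical
  haveI := finite_NST (A := A) n
  letI : Fintype (NST A n) := Fintype.ofFinite _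
  letI : ∀ c : A, Fintype (fixedBy (NST A n) c) := fun c => Fintype.ofFinite _
  letI : Fintype (orbitRel.Quotient A (NST A n)) := Fintype.ofFinite _
  have B := MulAction.sum_card_fixedBy_eq_card_orbits_mul_card_group A (NST A n)
  have hcard : Fintype.card A = r := by rw [← Nat.card_eq_fintype_card, hA]
  have h1 : Fintype.card (Quotient (orbitRel A (NST A n))) = Nat.card (orbitRel.Quotient A (NST A n)) :=
    (Nat.card_eq_fintype_card).symm
  rw [hcard, h1] at B
  rw [← B, ← Finset.add_sum_erase _ _ (Finset.mem_univ (1 : A))]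
  congr 1
  · rw [← Nat.card_eq_fintype_card]
    apply Nat.card_congr
    exact { toFun := fun a => a.1
            invFun := fun a => ⟨a, by simp [mem_fixedBy]⟩
            left_inv := fun a => rfl
            right_inv := fun a => rfl }
  · rw [Finset.sum_congr rfl (g := fun _ => if r ∣ n then 1 else 0)]
    · rw [Finset.sum_const, smul_eq_mul, Finset.card_erase_of_mem (Finset.mem_univ _),
        Finset.card_univ, hcard]
    · intro c hc
      rw [← Nat.card_eq_fintype_card]
      exact card_fixed hn hr hA c (Finset.ne_of_mem_erase hc)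

open Classical in
theorem orbit_formula {n r : ℕ} (hn : 0 < n) (hr : r.Prime) (hA : Nat.card A = r) :
    Nat.card (orbitRel.Quotient A (NST A n)) + (r - 1) * (if r ∣ n then 1 else 0) =
      ((n + r - 1).choose (r - 1) - r - (if r ∣ n then 1 else 0)) / r + r * (if r ∣ n then 1 else 0) := by
  have hcard : Fintype.card A = r := by rw [← Nat.card_eq_fintype_card, hA]
  have h1 := card_orb hn hr hA
  have h2 := card_NST (A := A) hn
  have hr2 := hr.two_le
  have h3 : (Fintype.card A + n - 1).choose n = (n + r - 1).choose (r - 1) := by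
    rw [hcard]
    have e1 : r + n - 1 = n + (r - 1) := by omega
    have e2 : n + r - 1 = n + (r - 1) := by omega
    rw [e1, e2, Nat.choose_symm_add]
  rw [h3, hcard] at h2
  rw [← h2]
  generalize Nat.card (orbitRel.Quotient A (NST A n)) = O at *
  generalize Nat.card (NST A n) = N at *
  split_ifs at * with hd
  · have hO : 1 ≤ O := by
      rcases Nat.eq_zero_or_pos O with h0 | h0
      · subst h0
        omega
      · exact h0
    obtain ⟨O', rfl⟩ : ∃ O', O = O' + 1 := ⟨O - 1, by omega⟩
    have e : N + r - r - 1 = O' * r := by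
      have : (O' + 1) * r = O' * r + r := by ring
      omega
    rw [e, Nat.mul_div_cancel _ hr.pos]
    omega
  · have e : N + r - r - 0 = O * r := by omega
    rw [e, Nat.mul_div_cancel _ hr.pos]
    simp

end Cfsg.Agent.H01.PglCl
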