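import Mathlib

/-! Eigenspace decomposition of an endomorphism annihilated by a product of distinct linear
factors, and the resulting conjugacy criterion. -/

set_option linter.unusedSectionVars false
set_option autoImplicit false

namespace Cfsg.Agent.H01.PglCl

open Polynomial Module

variable {F : Type*} [Field F] {V : Type*} [AddCommGroup V] [Module F V]

theorem ker_le_iSup {ι : Type*} [DecidableEq ι] (z : ι → F) (hz : Function.Injective z)
    (f : End F V) (s : Finset ι) :
    LinearMap.ker (aeval f (∏ i ∈ s, (X - C (z i)))) ≤ ⨆ i ∈ s, f.eigenspace (z i) := by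
  induction s using Finset.induction_on with
  | empty =>
    intro v hv
    simp [LinearMap.mem_ker] at hv
    simp [hv]
  | insert a s ha ih =>
    rw [Finset.prod_insert ha]
    rw [← sup_ker_aeval_eq_ker_aeval_mul_of_coprime]
    · rw [Finset.iSup_insert]
      apply sup_le_sup _ ih
      intro v hv
      rw [Module.End.mem_eigenspace_iff]
      rw [LinearMap.mem_ker] at hv
      simp only [map_sub, aeval_X, aeval_C, LinearMap.sub_apply, Module.algebraMap_end_apply] at hv
      exact sub_eq_zero.1 hv
    · exact IsCoprime.prod_right fun i hi =>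
        pairwise_coprime_X_sub_C hz (by rintro rfl; exact ha hi)

theorem isInternal_of {ι : Type*} [Fintype ι] [DecidableEq ι] (z : ι → F)
    (hz : Function.Injective z) (f : End F V) (h : aeval f (∏ i, (X - C (z i))) = 0) :
    DirectSum.IsInternal (fun i => f.eigenspace (z i)) := by
  apply DirectSum.isInternal_submodule_of_iSupIndep_of_iSup_eq_top
  · exact (f.eigenspaces_iSupIndep).comp hz
  · rw [eq_top_iff]
    intro v _
    have := ker_le_iSup z hz f Finset.univ (by simp [LinearMap.mem_ker, h] : v ∈ _)
    simpa using this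

variable [FiniteDimensional F V]

theorem sum_mult {ι : Type*} [Fintype ι] [DecidableEq ι] (z : ι → F)
    (hz : Function.Injective z) (f : End F V) (h : aeval f (∏ i, (X - C (z i))) = 0) :
    ∑ i, finrank F (f.eigenspace (z i)) = finrank F V := by
  have H := isInternal_of z hz f h
  let v : ∀ i, Basis (Fin (finrank F (f.eigenspace (z i)))) F (f.eigenspace (z i)) :=
    fun i => Module.finBasis F _
  have := finrank_eq_card_basis (H.collectedBasis v)
  rw [this, Fintype.card_sigma]
  simp

theorem exists_conj_of_mult {ι : Type*} [Fintype ι] [DecidableEq ι] (z : ι → F)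
    (hz : Function.Injective z) (f f' : End F V) (h : aeval f (∏ i, (X - C (z i))) = 0)
    (h' : aeval f' (∏ i, (X - C (z i))) = 0)
    (ha : ∀ i, finrank F (f.eigenspace (z i)) = finrank F (f'.eigenspace (z i))) :
    ∃ e : V ≃ₗ[F] V, ∀ v, e (f v) = f' (e v) := by
  have H := isInternal_of z hz f h
  have H' := isInternal_of z hz f' h'
  let v : ∀ i, Basis (Fin (finrank F (f.eigenspace (z i)))) F (f.eigenspace (z i)) :=
    fun i => Module.finBasis F _
  let v' : ∀ i, Basis (Fin (finrank F (f.eigenspace (z i)))) F (f'.eigenspace (z i)) :=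
    fun i => Module.finBasisOfFinrankEq F _ (ha i).symm
  let b := H.collectedBasis v
  let b' := H'.collectedBasis v'
  refine ⟨b.equiv b' (Equiv.refl _), ?_⟩
  have key : (b.equiv b' (Equiv.refl _)).toLinearMap ∘ₗ f = f' ∘ₗ (b.equiv b' (Equiv.refl _)).toLinearMap := by
    refine b.ext fun x => ?_
    have h1 : f (b x) = z x.1 • b x :=
      Module.End.mem_eigenspace_iff.1 (H.collectedBasis_mem v x)
    have h2 : f' (b' x) = z x.1 • b' x :=
      Module.End.mem_eigenspace_iff.1 (H'.collectedBasis_mem v' x)
    simp only [LinearMap.comp_apply, LinearEquiv.coe_coe, h1, map_smul, Basis.equiv_apply,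
      Equiv.refl_apply, h2]
  intro u
  exact LinearMap.congr_fun key u

theorem mult_eq_of_intertwine (e : V ≃ₗ[F] V) (f f' : End F V) (h : ∀ v, e (f v) = f' (e v)) (ζ : F) :
    finrank F (f.eigenspace ζ) = finrank F (f'.eigenspace ζ) := by
  have : f'.eigenspace ζ = (f.eigenspace ζ).map e.toLinearMap := by
    ext v
    simp only [Module.End.mem_eigenspace_iff, Submodule.mem_map]
    constructor
    · intro hv
      refine ⟨e.symm v, ?_, by simp⟩
      apply e.injective
      rw [h]
      simp [hv]
    · rintro ⟨w, hw, rfl⟩
      simp only [LinearEquiv.coe_coe]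
      rw [← h, hw, map_smul]
  rw [this]
  exact (LinearEquiv.finrank_map_eq e _).symm

end Cfsg.Agent.H01.PglCl
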