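import Mathlib
import Cfsg.Agent.Lib.H01.PglCl1

/-! Group-level translation for `GL_n`: linear maps, scalars, diagonal elements. -/

set_option linter.unusedSectionVars false
set_option autoImplicit false

namespace Cfsg.Agent.H01.PglCl

open Polynomial Module

variable {F : Type*} [Field F] {n : ℕ}

/-- the endomorphism attached to a matrix unit -/
noncomputable def L (g : GL (Fin n) F) : End F (Fin n → F) :=
  Matrix.toLinAlgEquiv' (g : Matrix (Fin n) (Fin n) F)

theorem L_apply (g : GL (Fin n) F) (v : Fin n → F) :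
    L g v = (g : Matrix (Fin n) (Fin n) F).mulVec v := by
  simp [L, Matrix.toLinAlgEquiv'_apply]

theorem L_mul (g h : GL (Fin n) F) : L (g * h) = L g * L h := by
  simp [L]

theorem L_one : L (1 : GL (Fin n) F) = 1 := by
  simp [L]

theorem L_pow (g : GL (Fin n) F) (k : ℕ) : L (g ^ k) = L g ^ k := by
  induction k with
  | zero => simp [L_one]
  | succ k ih => rw [pow_succ, pow_succ, L_mul, ih]

theorem L_inj {g h : GL (Fin n) F} (H : L g = L h) : g = h := by
  apply Units.ext
  exact (Matrix.toLinAlgEquiv' (R := F) (n := Fin n)).injective H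

/-- scalars -/
noncomputable abbrev sc (c : Fˣ) : GL (Fin n) F := Matrix.GeneralLinearGroup.scalar (Fin n) c

theorem L_sc (c : Fˣ) : L (sc c : GL (Fin n) F) = (c : F) • 1 := by
  refine LinearMap.ext fun v => funext fun i => ?_
  rw [L_apply, Matrix.GeneralLinearGroup.coe_scalar, Matrix.scalar_apply, Matrix.mulVec_diagonal]
  simp

theorem sc_mul (c d : Fˣ) : (sc (c * d) : GL (Fin n) F) = sc c * sc d := map_mul _ _ _

theorem sc_pow (c : Fˣ) (k : ℕ) : (sc (c ^ k) : GL (Fin n) F) = sc c ^ k := map_pow _ _ _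

theorem sc_one : (sc 1 : GL (Fin n) F) = 1 := map_one _

theorem sc_inv (c : Fˣ) : (sc c⁻¹ : GL (Fin n) F) = (sc c)⁻¹ := map_inv _ _

theorem sc_comm (c : Fˣ) (g : GL (Fin n) F) : sc c * g = g * sc c :=
  Matrix.GeneralLinearGroup.scalar_commute c g

theorem sc_inj (hn : 0 < n) {c d : Fˣ} (h : (sc c : GL (Fin n) F) = sc d) : c = d := by
  have h1 : L (sc c : GL (Fin n) F) = L (sc d) := by rw [h]
  rw [L_sc, L_sc] at h1
  have h2 := LinearMap.congr_fun h1 (fun _ => 1)
  have h3 := congrFun h2 ⟨0, hn⟩
  simp at h3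
  exact Units.ext h3

theorem mem_center_iff (g : GL (Fin n) F) :
    g ∈ Subgroup.center (GL (Fin n) F) ↔ ∃ c : Fˣ, sc c = g := by
  rw [Matrix.GeneralLinearGroup.center_eq_range_scalar]
  rfl

theorem conj_of_equiv (e : (Fin n → F) ≃ₗ[F] (Fin n → F)) (g g' : GL (Fin n) F)
    (h : ∀ v, e (L g v) = L g' (e v)) : ∃ P : GL (Fin n) F, P * g * P⁻¹ = g' := by
  let A : Matrix (Fin n) (Fin n) F := LinearMap.toMatrix' e.toLinearMap
  let B : Matrix (Fin n) (Fin n) F := LinearMap.toMatrix' e.symm.toLinearMap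
  have hAB : A * B = 1 := by
    simp only [A, B]
    rw [← LinearMap.toMatrix'_comp]
    simp
  have hBA : B * A = 1 := by
    simp only [A, B]
    rw [← LinearMap.toMatrix'_comp]
    simp
  refine ⟨⟨A, B, hAB, hBA⟩, ?_⟩
  rw [mul_inv_eq_iff_eq_mul]
  apply L_inj
  refine LinearMap.ext fun v => ?_
  rw [L_mul, L_mul, Module.End.mul_apply, Module.End.mul_apply, L_apply, L_apply]
  have h1 : ∀ w : Fin n → F, A.mulVec w = e w := fun w => by
    simp only [A]
    rw [LinearMap.toMatrix'_mulVec]
    rfl
  show A.mulVec (L g v) = L g' (A.mulVec v)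
  rw [h1, h1, h]

theorem intertwine_of_conj (P g g' : GL (Fin n) F) (h : P * g * P⁻¹ = g') :
    ∃ e : (Fin n → F) ≃ₗ[F] (Fin n → F), ∀ v, e (L g v) = L g' (e v) := by
  have h1 : L P * L P⁻¹ = 1 := by rw [← L_mul, mul_inv_cancel, L_one]
  have h2 : L P⁻¹ * L P = 1 := by rw [← L_mul, inv_mul_cancel, L_one]
  refine ⟨LinearEquiv.ofLinear (L P) (L P⁻¹) h1 h2, fun v => ?_⟩
  simp only [LinearEquiv.ofLinear_apply]
  subst h
  have h3 : L P⁻¹ (L P v) = v := by
    have := LinearMap.congr_fun h2 v
    simpa only [Module.End.mul_apply, Module.End.one_apply] using this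
  simp only [L_mul, Module.End.mul_apply, h3]

/-- multiplicity of an eigenvalue -/
noncomputable def m (g : GL (Fin n) F) (ζ : F) : ℕ := finrank F ((L g).eigenspace ζ)

theorem m_conj (P g : GL (Fin n) F) (ζ : F) : m (P * g * P⁻¹) ζ = m g ζ := by
  obtain ⟨e, he⟩ := intertwine_of_conj P g _ rfl
  exact (mult_eq_of_intertwine e _ _ he ζ).symm

theorem m_scal (c : Fˣ) (g : GL (Fin n) F) (ζ : F) :
    m (sc c * g) ζ = m g ((c : F)⁻¹ * ζ) := by
  have : (L (sc c * g)).eigenspace ζ = (L g).eigenspace ((c : F)⁻¹ * ζ) := by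
    ext v
    simp only [Module.End.mem_eigenspace_iff, L_mul, L_sc, Module.End.mul_apply, LinearMap.smul_apply,
      Module.End.one_apply]
    constructor
    · intro h
      rw [mul_smul, ← h, smul_smul, inv_mul_cancel₀ c.ne_zero, one_smul]
    · intro h
      rw [h, smul_smul, mul_inv_cancel_left₀ c.ne_zero]
  unfold m
  rw [this]

/-- the diagonal matrix with given unit entries -/
noncomputable def diagG (d : Fin n → Fˣ) : GL (Fin n) F :=
  ⟨Matrix.diagonal (fun i => (d i : F)), Matrix.diagonal (fun i => (((d i)⁻¹ : Fˣ) : F)),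
    by simp [Matrix.diagonal_mul_diagonal], by simp [Matrix.diagonal_mul_diagonal]⟩

theorem diagG_pow (d : Fin n → Fˣ) (k : ℕ) : diagG d ^ k = diagG (fun i => d i ^ k) := by
  apply Units.ext
  simp [diagG, Units.val_pow_eq_pow_val, Matrix.diagonal_pow]

theorem m_diag (d : Fin n → Fˣ) (ζ : F) :
    m (diagG d) ζ = Nat.card {i // (d i : F) = ζ} := by
  classical
  let w : Fin n → F := fun i => (d i : F) - ζ
  have h1 : (L (diagG d)).eigenspace ζ = LinearMap.ker (Matrix.diagonal w).mulVecLin := by
    ext v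
    rw [Module.End.mem_eigenspace_iff, LinearMap.mem_ker, Matrix.mulVecLin_apply, L_apply]
    show (Matrix.diagonal (fun i => (d i : F))).mulVec v = ζ • v ↔ _
    constructor
    · intro h
      funext i
      have := congrFun h i
      rw [Matrix.mulVec_diagonal] at this
      rw [Matrix.mulVec_diagonal]
      simp only [Pi.smul_apply, smul_eq_mul, Pi.zero_apply, w] at this ⊢
      linear_combination this
    · intro h
      funext i
      have := congrFun h i
      rw [Matrix.mulVec_diagonal] at this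
      rw [Matrix.mulVec_diagonal]
      simp only [Pi.smul_apply, smul_eq_mul, Pi.zero_apply, w] at this ⊢
      linear_combination this
  have h2 := LinearMap.finrank_range_add_finrank_ker (Matrix.diagonal w).mulVecLin
  have h3 : finrank F (LinearMap.range (Matrix.diagonal w).mulVecLin) = Fintype.card {i // w i ≠ 0} :=
    Matrix.rank_diagonal w
  have h4 : Fintype.card {i // w i ≠ 0} + Fintype.card {i // (d i : F) = ζ} = n := by
    have h5 : Fintype.card {i // w i ≠ 0} = Fintype.card {i // ¬ ((d i : F) = ζ)} := by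
      apply Fintype.card_congr
      refine Equiv.subtypeEquivRight fun i => ?_
      simp only [w, ne_eq, sub_eq_zero]
    rw [h5, Fintype.card_subtype_compl]
    have : Fintype.card {i // (d i : F) = ζ} ≤ Fintype.card (Fin n) := Fintype.card_subtype_le _
    simp only [Fintype.card_fin] at this ⊢
    omega
  unfold m
  rw [h1, Nat.card_eq_fintype_card]
  simp only [finrank_fintype_fun_eq_card, Fintype.card_fin] at h2
  omega

end Cfsg.Agent.H01.PglCl
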