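import Mathlib
import Cfsg.Agent.Lib.H01.PglCl2

/-! Non-split lifts: `g ^ r = λ` with `λ` not an `r`-th power makes `F ^ n` a vector space over
`F[X] / (X ^ r - λ)`. -/

set_option linter.unusedSectionVars false
set_option autoImplicit false

namespace Cfsg.Agent.H01.PglCl

open Polynomial Module

variable {F : Type*} [Field F]

section model
variable (r : ℕ) (lam : F) [hI : Fact (Irreducible (X ^ r - C lam : F[X]))]

/-- the degree `r` extension -/
abbrev EE := AdjoinRoot (X ^ r - C lam : F[X])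

theorem finite_EE : FiniteDimensional F (EE r lam) :=
  (AdjoinRoot.powerBasis hI.out.ne_zero).finite

theorem finrank_EE (hr : r ≠ 0) : finrank F (EE r lam) = r := by
  have hf : (X ^ r - C lam : F[X]) ≠ 0 := hI.out.ne_zero
  rw [(AdjoinRoot.powerBasis hf).finrank, AdjoinRoot.powerBasis_dim, natDegree_X_pow_sub_C]

theorem root_pow : AdjoinRoot.root (X ^ r - C lam : F[X]) ^ r =
    AdjoinRoot.of (X ^ r - C lam : F[X]) lam := by
  have h := AdjoinRoot.mk_self (f := (X ^ r - C lam : F[X]))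
  simp only [map_sub, map_pow, AdjoinRoot.mk_X, AdjoinRoot.mk_C] at h
  exact sub_eq_zero.1 h

theorem exists_model {V : Type*} [AddCommGroup V] [Module F V] [FiniteDimensional F V] (hr : r ≠ 0)
    (f : End F V) (hf : f ^ r = lam • 1) :
    ∃ d : ℕ, r * d = finrank F V ∧ ∃ e : (Fin d → EE r lam) ≃ₗ[F] V,
      ∀ x, e (AdjoinRoot.root (X ^ r - C lam : F[X]) • x) = f (e x) := by
  have hann : aeval f (X ^ r - C lam : F[X]) = 0 := by
    simp [hf, Algebra.algebraMap_eq_smul_one]
  let ρ : EE r lam →+* End F V := Ideal.Quotient.lift (Ideal.span {(X ^ r - C lam : F[X])})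
    ((aeval f : F[X] →ₐ[F] End F V) : F[X] →+* End F V) (by
      intro a ha
      obtain ⟨b, rfl⟩ := Ideal.mem_span_singleton.1 ha
      show aeval f _ = 0
      rw [map_mul, hann, zero_mul])
  have hρ : ∀ q : F[X], ρ (AdjoinRoot.mk _ q) = aeval f q := fun q => Ideal.Quotient.lift_mk _ _ _
  letI : Module (EE r lam) V := Module.compHom V ρ
  have hsmul : ∀ (x : EE r lam) (v : V), x • v = ρ x v := fun _ _ => rfl
  haveI : IsScalarTower F (EE r lam) V := ⟨fun c x v => by
    rw [hsmul, hsmul, Algebra.smul_def, map_mul, AdjoinRoot.algebraMap_eq]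
    have h1 : ρ (AdjoinRoot.of _ c) = algebraMap F (End F V) c := by
      have := hρ (C c)
      rw [aeval_C] at this
      exact this
    rw [h1]
    rfl⟩
  have h1 := Module.finrank_mul_finrank F (EE r lam) V
  haveI : Module.Finite (EE r lam) V := Module.Finite.of_restrictScalars_finite F _ V
  let b := Module.finBasis (EE r lam) V
  refine ⟨finrank (EE r lam) V, by rw [← h1, finrank_EE r lam hr], (b.equivFun.symm.restrictScalars F), ?_⟩
  intro x
  have h2 : ρ (AdjoinRoot.root (X ^ r - C lam : F[X])) = f := by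
    have := hρ X
    rw [aeval_X] at this
    exact this
  show b.equivFun.symm (AdjoinRoot.root (X ^ r - C lam : F[X]) • x) = f (b.equivFun.symm x)
  rw [map_smul, hsmul, h2]

/-- multiplication by the root on `Fin d → E` -/
noncomputable def rootMul (d : ℕ) : (Fin d → EE r lam) →ₗ[F] (Fin d → EE r lam) where
  toFun x := AdjoinRoot.root (X ^ r - C lam : F[X]) • x
  map_add' := smul_add _
  map_smul' c x := smul_comm _ _ _

theorem rootMul_pow (d k : ℕ) (x : Fin d → EE r lam) :
    (rootMul r lam d ^ k) x = AdjoinRoot.root (X ^ r - C lam : F[X]) ^ k • x := by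
  induction k generalizing x with
  | zero => simp
  | succ k ih =>
    rw [pow_succ, Module.End.mul_apply, ih, pow_succ, mul_smul]
    rfl

theorem exists_end (d n : ℕ) (hr : r ≠ 0) (hn : r * d = n) :
    ∃ f : End F (Fin n → F), f ^ r = lam • 1 := by
  haveI := finite_EE r lam
  have h1 : finrank F (Fin d → EE r lam) = finrank F (Fin n → F) := by
    rw [Module.finrank_pi_fintype]
    simp only [finrank_EE r lam hr, Finset.sum_const, Finset.card_univ, Fintype.card_fin, smul_eq_mul,
      finrank_fintype_fun_eq_card]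
    rw [← hn, mul_comm]
  let e : (Fin d → EE r lam) ≃ₗ[F] (Fin n → F) := LinearEquiv.ofFinrankEq _ _ h1
  refine ⟨e.toLinearMap ∘ₗ rootMul r lam d ∘ₗ e.symm.toLinearMap, ?_⟩
  have h2 : ∀ (k : ℕ) (v : Fin n → F), ((e.toLinearMap ∘ₗ rootMul r lam d ∘ₗ e.symm.toLinearMap) ^ k) v
      = e ((rootMul r lam d ^ k) (e.symm v)) := by
    intro k v
    induction k generalizing v with
    | zero => simp
    | succ k ih =>
      rw [pow_succ, Module.End.mul_apply, ih, pow_succ, Module.End.mul_apply]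
      simp
  refine LinearMap.ext fun v => ?_
  rw [h2, rootMul_pow, root_pow]
  have h3 : ∀ x : Fin d → EE r lam, AdjoinRoot.of (X ^ r - C lam : F[X]) lam • x = lam • x := fun x => by
    funext i
    simp [Algebra.smul_def, AdjoinRoot.algebraMap_eq]
  rw [h3, map_smul]
  simp

end model

section gl
variable {n : ℕ}

theorem exists_gl (f : End F (Fin n → F)) (c : Fˣ) (r : ℕ) (hr : r ≠ 0)
    (hf : f ^ r = (c : F) • 1) : ∃ g : GL (Fin n) F, L g = f ∧ g ^ r = sc c := by
  let φ := Matrix.toLinAlgEquiv' (R := F) (n := Fin n)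
  let A : Matrix (Fin n) (Fin n) F := φ.symm f
  have hA : φ A = f := φ.apply_symm_apply f
  have hAr : A ^ r = (c : F) • 1 := by
    apply φ.injective
    rw [map_pow, hA, hf, map_smul, map_one]
  obtain ⟨s, rfl⟩ : ∃ s, r = s + 1 := ⟨r - 1, by omega⟩
  let B : Matrix (Fin n) (Fin n) F := ((c⁻¹ : Fˣ) : F) • A ^ s
  have h1 : A * B = 1 := by
    simp only [B]
    rw [mul_smul_comm, ← pow_succ', hAr, smul_smul]
    simp
  have h2 : B * A = 1 := by
    simp only [B]
    rw [smul_mul_assoc, ← pow_succ, hAr, smul_smul]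
    simp
  let g : GL (Fin n) F := ⟨A, B, h1, h2⟩
  have hg : L g = f := hA
  refine ⟨g, hg, ?_⟩
  apply L_inj
  rw [L_pow, hg, hf, L_sc]

theorem conj_of_same (r : ℕ) (hr : r ≠ 0) (c : Fˣ) (hI : Irreducible (X ^ r - C (c : F) : F[X]))
    (g g' : GL (Fin n) F) (hg : g ^ r = sc c) (hg' : g' ^ r = sc c) :
    ∃ P : GL (Fin n) F, P * g * P⁻¹ = g' := by
  haveI : Fact (Irreducible (X ^ r - C (c : F) : F[X])) := ⟨hI⟩
  have h1 : L g ^ r = (c : F) • 1 := by rw [← L_pow, hg, L_sc]
  have h2 : L g' ^ r = (c : F) • 1 := by rw [← L_pow, hg', L_sc]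
  obtain ⟨d, hd, e, he⟩ := exists_model r (c : F) hr (L g) h1
  obtain ⟨d', hd', e', he'⟩ := exists_model r (c : F) hr (L g') h2
  have hdd : d = d' := Nat.eq_of_mul_eq_mul_left (Nat.pos_of_ne_zero hr) (hd.trans hd'.symm)
  subst hdd
  refine conj_of_equiv (e.symm.trans e') g g' fun v => ?_
  simp only [LinearEquiv.trans_apply]
  have h3 := he (e.symm v)
  rw [LinearEquiv.apply_symm_apply] at h3
  rw [← h3, LinearEquiv.symm_apply_apply, he']

theorem dvd_of_nonsplit (r : ℕ) (hr : r ≠ 0) (c : Fˣ) (hI : Irreducible (X ^ r - C (c : F) : F[X]))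
    (g : GL (Fin n) F) (hg : g ^ r = sc c) : r ∣ n := by
  haveI : Fact (Irreducible (X ^ r - C (c : F) : F[X])) := ⟨hI⟩
  have h1 : L g ^ r = (c : F) • 1 := by rw [← L_pow, hg, L_sc]
  obtain ⟨d, hd, -⟩ := exists_model r (c : F) hr (L g) h1
  simp only [finrank_fintype_fun_eq_card, Fintype.card_fin] at hd
  exact ⟨d, hd.symm⟩

theorem exists_nonsplit (r : ℕ) (hr : r ≠ 0) (c : Fˣ) (hI : Irreducible (X ^ r - C (c : F) : F[X]))
    (hn : r ∣ n) : ∃ g : GL (Fin n) F, g ^ r = sc c := by
  haveI : Fact (Irreducible (X ^ r - C (c : F) : F[X])) := ⟨hI⟩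
  obtain ⟨d, hd⟩ := hn
  obtain ⟨f, hf⟩ := exists_end r (c : F) d n hr hd.symm
  obtain ⟨g, -, hg⟩ := exists_gl f c r hr hf
  exact ⟨g, hg⟩

end gl

end Cfsg.Agent.H01.PglCl
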