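import Mathlib
import Cfsg.Agent.Lib.H01.PglCl2

/-! Split lifts: elements with `g ^ r = 1`, when `F` contains the `r`-th roots of unity. -/

set_option linter.unusedSectionVars false
set_option autoImplicit false

namespace Cfsg.Agent.H01.PglCl

open Polynomial Module

variable {F : Type*} [Field F] {n r : ℕ}

/-- the `r`-th roots of unity -/
abbrev Mu (F : Type*) [Field F] (r : ℕ) : Subgroup Fˣ := (powMonoidHom r : Fˣ →* Fˣ).ker

theorem mem_Mu {c : Fˣ} : c ∈ Mu F r ↔ c ^ r = 1 := by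
  simp [MonoidHom.mem_ker]

theorem card_Mu [Fintype F] {q : ℕ} (hF : Fintype.card F = q) (hrq : r ∣ q - 1) :
    Nat.card (Mu F r) = r := by
  classical
  rw [IsCyclic.card_powMonoidHom_ker, Nat.card_eq_fintype_card, Fintype.card_units, hF]
  exact Nat.gcd_eq_right hrq

/-- the underlying field element -/
def z (ζ : Mu F r) : F := ((ζ : Fˣ) : F)

theorem z_inj : Function.Injective (z : Mu F r → F) := fun a b h =>
  Subtype.ext (Units.ext h)

variable [Fintype (Mu F r)]

theorem prod_eq (hr : r ≠ 0) (hc : Nat.card (Mu F r) = r) :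
    ∏ ζ : Mu F r, (X - C (z ζ)) = (X ^ r - 1 : F[X]) := by
  classical
  have hm : (∏ ζ : Mu F r, (X - C (z ζ))).Monic := monic_prod_of_monic _ _ fun i _ => monic_X_sub_C _
  have hm2 : (X ^ r - 1 : F[X]).Monic := by
    have := monic_X_pow_sub_C (1 : F) hr
    simpa using this
  have hd : (∏ ζ : Mu F r, (X - C (z ζ))) ∣ (X ^ r - 1 : F[X]) := by
    apply Finset.prod_dvd_of_coprime
    · intro a _ b _ hab
      exact pairwise_coprime_X_sub_C z_inj hab
    · intro ζ _
      rw [dvd_iff_isRoot]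
      have := mem_Mu.1 ζ.2
      have h2 : ((ζ : Fˣ) : F) ^ r = 1 := by
        rw [← Units.val_pow_eq_pow_val, this, Units.val_one]
      simp [IsRoot, z, h2]
  refine (eq_of_monic_of_dvd_of_natDegree_le hm hm2 hd ?_).symm
  rw [natDegree_prod_of_monic _ _ fun i _ => monic_X_sub_C _]
  have h3 : (X ^ r - 1 : F[X]).natDegree = r := by
    have := natDegree_X_pow_sub_C (n := r) (r := (1 : F))
    simpa using this
  rw [h3]
  simp only [natDegree_X_sub_C, Finset.sum_const, Finset.card_univ, smul_eq_mul, mul_one]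
  rw [← Nat.card_eq_fintype_card, hc]

theorem hann (hr : r ≠ 0) (hc : Nat.card (Mu F r) = r) (g : GL (Fin n) F) (hg : g ^ r = 1) :
    aeval (L g) (∏ ζ : Mu F r, (X - C (z ζ))) = 0 := by
  rw [prod_eq hr hc]
  simp [← L_pow, hg, L_one]

/-- multiplicity tuple -/
noncomputable def mt (g : GL (Fin n) F) : Mu F r → ℕ := fun ζ => m g (z ζ)

theorem sum_mt (hr : r ≠ 0) (hc : Nat.card (Mu F r) = r) (g : GL (Fin n) F) (hg : g ^ r = 1) :
    ∑ ζ : Mu F r, mt g ζ = n := by
  classical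
  have := sum_mult z z_inj (L g) (hann hr hc g hg)
  simpa [mt, m] using this

theorem conj_of_mt (hr : r ≠ 0) (hc : Nat.card (Mu F r) = r) (g g' : GL (Fin n) F) (hg : g ^ r = 1)
    (hg' : g' ^ r = 1) (h : (mt g : Mu F r → ℕ) = mt g') : ∃ P : GL (Fin n) F, P * g * P⁻¹ = g' := by
  classical
  obtain ⟨e, he⟩ := exists_conj_of_mult z z_inj (L g) (L g') (hann hr hc g hg) (hann hr hc g' hg')
    (fun i => congrFun h i)
  exact conj_of_equiv e g g' he

theorem exists_of_tuple (a : Mu F r → ℕ) (ha : ∑ ζ, a ζ = n) :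
    ∃ g : GL (Fin n) F, g ^ r = 1 ∧ mt g = a := by
  classical
  have hcard : Fintype.card (Σ ζ, Fin (a ζ)) = n := by
    rw [Fintype.card_sigma]
    simpa using ha
  let σ : (Σ ζ, Fin (a ζ)) ≃ Fin n := Fintype.equivFinOfCardEq hcard
  let d : Fin n → Fˣ := fun i => ((σ.symm i).1 : Fˣ)
  refine ⟨diagG d, ?_, ?_⟩
  · rw [diagG_pow]
    apply Units.ext
    have h1 : ∀ i, (d i) ^ r = 1 := fun i => mem_Mu.1 (σ.symm i).1.2
    simp [diagG, h1]
  · funext ζ
    unfold mt
    rw [m_diag]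
    have e1 : {i // ((d i : Fˣ) : F) = z ζ} ≃ {x : Σ ζ, Fin (a ζ) // x.1 = ζ} :=
      { toFun := fun i => ⟨σ.symm i.1, z_inj i.2⟩
        invFun := fun x => ⟨σ x.1, by
          show (((σ.symm (σ x.1)).1 : Fˣ) : F) = z ζ
          rw [σ.symm_apply_apply, x.2]
          rfl⟩
        left_inv := fun i => by
          apply Subtype.ext
          simp
        right_inv := fun x => by
          apply Subtype.ext
          simp }
    rw [Nat.card_congr (e1.trans (Equiv.sigmaSubtype ζ))]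
    simp

theorem mt_conj (P g : GL (Fin n) F) : (mt (P * g * P⁻¹) : Mu F r → ℕ) = mt g := by
  funext ζ
  exact m_conj P g _

theorem mt_scal (c : Mu F r) (g : GL (Fin n) F) (ζ : Mu F r) :
    mt (sc (c : Fˣ) * g) ζ = mt g (c⁻¹ * ζ) := by
  unfold mt
  rw [m_scal]
  congr 1
  simp [z]

theorem central_iff (hn : 0 < n) (g : GL (Fin n) F) (hg : g ^ r = 1) :
    g ∈ Subgroup.center (GL (Fin n) F) ↔ ∃ ζ : Mu F r, mt g ζ = n := by
  rw [mem_center_iff]
  constructor
  · rintro ⟨c, rfl⟩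
    have h1 : c ^ r = 1 := by
      apply sc_inj hn
      rw [sc_pow, hg, sc_one]
    refine ⟨⟨c, mem_Mu.2 h1⟩, ?_⟩
    unfold mt m
    have : (L (sc c : GL (Fin n) F)).eigenspace (z (⟨c, mem_Mu.2 h1⟩ : Mu F r)) = ⊤ := by
      rw [eq_top_iff]
      intro v _
      rw [Module.End.mem_eigenspace_iff, L_sc]
      rfl
    rw [this]
    simp
  · rintro ⟨ζ, hζ⟩
    refine ⟨(ζ : Fˣ), ?_⟩
    have h1 : (L g).eigenspace (z ζ) = ⊤ := by
      apply Submodule.eq_top_of_finrank_eq
      simpa [mt, m] using hζ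
    apply L_inj
    refine LinearMap.ext fun v => ?_
    have h2 : v ∈ (L g).eigenspace (z ζ) := by rw [h1]; trivial
    rw [Module.End.mem_eigenspace_iff] at h2
    rw [h2, L_sc]
    rfl

end Cfsg.Agent.H01.PglCl
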