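import Mathlib
import Cfsg.Agent.Lib.H01.PglCl3
import Cfsg.Agent.Lib.H01.PglCl4
import Cfsg.Agent.Lib.H01.PglCl5

/-! Conjugacy classes of elements of prime order in `PGL_n(q)`. -/

set_option linter.unusedSectionVars false
set_option autoImplicit false

namespace Cfsg.Agent.H01.PglCl

open Polynomial Module MulAction

variable {F : Type*} [Field F] {n r : ℕ}

/-- the quotient by the centre -/
abbrev Gb (F : Type*) [Field F] (n : ℕ) := GL (Fin n) F ⧸ Subgroup.center (GL (Fin n) F)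

/-- projection -/
noncomputable abbrev pr (g : GL (Fin n) F) : Gb F n := QuotientGroup.mk g

theorem pr_sc_mul (c : Fˣ) (g : GL (Fin n) F) : pr (sc c * g) = pr g := by
  rw [QuotientGroup.eq]
  refine (mem_center_iff _).2 ⟨c⁻¹, ?_⟩
  rw [mul_inv_rev, ← sc_inv, mul_assoc, sc_comm, inv_mul_cancel_left]

theorem isConj_pr_iff (g g' : GL (Fin n) F) :
    IsConj (pr g) (pr g') ↔ ∃ P : GL (Fin n) F, ∃ c : Fˣ, P * g * P⁻¹ = sc c * g' := by
  rw [isConj_iff]
  constructor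
  · rintro ⟨x, hx⟩
    obtain ⟨P, rfl⟩ := QuotientGroup.mk_surjective x
    have h1 : pr (P * g * P⁻¹) = pr g' := hx
    rw [QuotientGroup.eq] at h1
    obtain ⟨c, hc⟩ := (mem_center_iff _).1 h1
    refine ⟨P, c⁻¹, ?_⟩
    have h2 : g' = P * g * P⁻¹ * sc c := by rw [hc]; group
    have h3 := sc_comm c (P * g * P⁻¹)
    rw [h2, sc_inv, ← h3, inv_mul_cancel_left]
  · rintro ⟨P, c, h⟩
    refine ⟨pr P, ?_⟩
    show pr (P * g * P⁻¹) = pr g'
    rw [h, pr_sc_mul]

theorem pr_eq_one_iff (g : GL (Fin n) F) : pr g = 1 ↔ g ∈ Subgroup.center (GL (Fin n) F) :=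
  QuotientGroup.eq_one_iff g

theorem order_iff (hr : r.Prime) (g : GL (Fin n) F) :
    orderOf (pr g) = r ↔ g ∉ Subgroup.center (GL (Fin n) F) ∧ ∃ c : Fˣ, g ^ r = sc c := by
  constructor
  · intro h
    constructor
    · intro hg
      have := (pr_eq_one_iff g).2 hg
      rw [this, orderOf_one] at h
      exact hr.one_lt.ne h
    · have h1 : pr g ^ r = 1 := by rw [← h]; exact pow_orderOf_eq_one _
      have h2 : pr (g ^ r) = 1 := h1
      obtain ⟨c, hc⟩ := (mem_center_iff _).1 ((pr_eq_one_iff _).1 h2)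
      exact ⟨c, hc.symm⟩
  · rintro ⟨h1, c, hc⟩
    haveI : Fact r.Prime := ⟨hr⟩
    apply orderOf_eq_prime
    · show pr (g ^ r) = 1
      rw [pr_eq_one_iff, hc, mem_center_iff]
      exact ⟨c, rfl⟩
    · rw [Ne, pr_eq_one_iff]
      exact h1

theorem pow_rel (hn : 0 < n) (P g g' : GL (Fin n) F) (c d d' : Fˣ) (h : P * g * P⁻¹ = sc c * g')
    (hg : g ^ r = sc d) (hg' : g' ^ r = sc d') : d = c ^ r * d' := by
  have h1 := congrArg (· ^ r) h
  simp only [conj_pow] at h1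
  have h2 : Commute (sc c : GL (Fin n) F) g' := sc_comm c g'
  rw [h2.mul_pow, hg, hg', ← sc_pow, ← sc_mul, ← sc_comm, mul_inv_cancel_right] at h1
  exact sc_inj hn h1

/-- the classes of elements of order `r` -/
abbrev TT (F : Type*) [Field F] (n r : ℕ) :=
  {C : ConjClasses (Gb F n) // ∃ g : Gb F n, ConjClasses.mk g = C ∧ orderOf g = r}

section split
variable [Fintype (Mu F r)]

/-- a matrix with given tuple -/
noncomputable def gOf (a : NST (Mu F r) n) : GL (Fin n) F :=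
  Classical.choose (exists_of_tuple (n := n) a.1 a.2.1)

theorem gOf_pow (a : NST (Mu F r) n) : gOf a ^ r = 1 :=
  (Classical.choose_spec (exists_of_tuple (n := n) a.1 a.2.1)).1

theorem mt_gOf (a : NST (Mu F r) n) : mt (gOf a) = a.1 :=
  (Classical.choose_spec (exists_of_tuple (n := n) a.1 a.2.1)).2

theorem gOf_nc (hn : 0 < n) (a : NST (Mu F r) n) : gOf a ∉ Subgroup.center (GL (Fin n) F) := fun h => by
  obtain ⟨ζ, hζ⟩ := (central_iff hn _ (gOf_pow a)).1 h
  rw [mt_gOf] at hζ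
  exact a.2.2 ζ hζ

/-- the class attached to a tuple -/
noncomputable def Psi0 (hn : 0 < n) (hr : r.Prime) (a : NST (Mu F r) n) : TT F n r :=
  ⟨ConjClasses.mk (pr (gOf a)), pr (gOf a), rfl,
    (order_iff hr _).2 ⟨gOf_nc hn a, 1, by rw [gOf_pow, sc_one]⟩⟩

theorem Psi0_eq_iff (hn : 0 < n) (hr : r.Prime) (hc : Nat.card (Mu F r) = r) (a b : NST (Mu F r) n) :
    Psi0 hn hr a = Psi0 hn hr b ↔ orbitRel (Mu F r) (NST (Mu F r) n) a b := by
  rw [orbitRel_apply, mem_orbit_iff, Subtype.ext_iff]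
  simp only [Psi0]
  rw [ConjClasses.mk_eq_mk_iff_isConj, isConj_pr_iff]
  constructor
  · rintro ⟨P, c, h⟩
    have h1 : (1 : Fˣ) = c ^ r * 1 := pow_rel hn P _ _ c 1 1 h (by rw [gOf_pow, sc_one]) (by rw [gOf_pow, sc_one])
    have h2 : c ^ r = 1 := by simpa using h1.symm
    refine ⟨⟨c, mem_Mu.2 h2⟩, ?_⟩
    apply Subtype.ext
    funext ζ
    rw [smul_val]
    have h3 : mt (P * gOf a * P⁻¹) ζ = mt (sc c * gOf b) ζ := by rw [h]
    rw [mt_conj, mt_gOf] at h3
    have h4 := mt_scal (⟨c, mem_Mu.2 h2⟩ : Mu F r) (gOf b) ζ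
    simp only at h4
    rw [h3, h4, mt_gOf]
  · rintro ⟨c, hc'⟩
    have hpow : (sc (c : Fˣ) * gOf b) ^ r = 1 := by
      have h2 : Commute (sc (c : Fˣ) : GL (Fin n) F) (gOf b) := sc_comm _ _
      rw [h2.mul_pow, gOf_pow, mul_one, ← sc_pow, mem_Mu.1 c.2, sc_one]
    obtain ⟨P, hP⟩ := conj_of_mt hr.ne_zero hc (gOf a) (sc (c : Fˣ) * gOf b) (gOf_pow a) hpow (by
      funext ζ
      rw [mt_scal, mt_gOf, mt_gOf, ← hc']
      rfl)
    exact ⟨P, c, hP⟩

end split

section nonsplit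

/-- the `r`-th powers -/
abbrev Pw (F : Type*) [Field F] (r : ℕ) : Subgroup Fˣ := (powMonoidHom r : Fˣ →* Fˣ).range

theorem irr_of_not_mem (hr : r.Prime) (c : Fˣ) (hc : c ∉ Pw F r) :
    Irreducible (X ^ r - C (c : F) : F[X]) := by
  refine X_pow_sub_C_irreducible_of_prime hr fun b hb => hc ?_
  have hb0 : b ≠ 0 := by
    rintro rfl
    rw [zero_pow hr.ne_zero] at hb
    exact c.ne_zero hb.symm
  refine ⟨Units.mk0 b hb0, ?_⟩
  apply Units.ext
  simpa using hb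

/-- the nontrivial cosets of the `r`-th powers, when `r` divides `n` -/
abbrev WW (F : Type*) [Field F] (n r : ℕ) := {x : Fˣ ⧸ Pw F r // x ≠ 1 ∧ r ∣ n}

/-- coset representative -/
noncomputable def lamOf (x : Fˣ ⧸ Pw F r) : Fˣ := Quotient.out x

theorem mk_lamOf (x : Fˣ ⧸ Pw F r) : (lamOf x : Fˣ ⧸ Pw F r) = x := QuotientGroup.out_eq' x

theorem lamOf_not_mem (x : Fˣ ⧸ Pw F r) (hx : x ≠ 1) : lamOf x ∉ Pw F r := fun h => by
  apply hx
  rw [← mk_lamOf x]
  exact (QuotientGroup.eq_one_iff _).2 h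

/-- a matrix with given non-`r`-th power `r`-th power -/
noncomputable def gOut (hr : r.Prime) (x : WW F n r) : GL (Fin n) F :=
  Classical.choose (exists_nonsplit r hr.ne_zero (lamOf x.1)
    (irr_of_not_mem hr _ (lamOf_not_mem x.1 x.2.1)) x.2.2)

theorem gOut_pow (hr : r.Prime) (x : WW F n r) : gOut hr x ^ r = sc (lamOf x.1) :=
  Classical.choose_spec (exists_nonsplit r hr.ne_zero (lamOf x.1)
    (irr_of_not_mem hr _ (lamOf_not_mem x.1 x.2.1)) x.2.2)

theorem gOut_nc (hn : 0 < n) (hr : r.Prime) (x : WW F n r) :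
    gOut hr x ∉ Subgroup.center (GL (Fin n) F) := fun h => by
  obtain ⟨b, hb⟩ := (mem_center_iff _).1 h
  have h1 := gOut_pow hr x
  rw [← hb, ← sc_pow] at h1
  have h2 := sc_inj hn h1
  exact lamOf_not_mem x.1 x.2.1 ⟨b, by simpa using h2⟩

/-- the class attached to a coset -/
noncomputable def Psi1 (hn : 0 < n) (hr : r.Prime) (x : WW F n r) : TT F n r :=
  ⟨ConjClasses.mk (pr (gOut hr x)), pr (gOut hr x), rfl,
    (order_iff hr _).2 ⟨gOut_nc hn hr x, _, gOut_pow hr x⟩⟩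

theorem Psi1_inj (hn : 0 < n) (hr : r.Prime) : Function.Injective (Psi1 (F := F) (n := n) hn hr) := by
  intro x y h
  have h1 := congrArg Subtype.val h
  simp only [Psi1] at h1
  rw [ConjClasses.mk_eq_mk_iff_isConj, isConj_pr_iff] at h1
  obtain ⟨P, c, hP⟩ := h1
  have h2 := pow_rel hn P _ _ c _ _ hP (gOut_pow hr x) (gOut_pow hr y)
  apply Subtype.ext
  rw [← mk_lamOf x.1, ← mk_lamOf y.1, h2, QuotientGroup.mk_mul]
  have h3 : ((c ^ r : Fˣ) : Fˣ ⧸ Pw F r) = 1 := (QuotientGroup.eq_one_iff _).2 ⟨c, rfl⟩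
  rw [h3]
  exact one_mul ((lamOf y.1 : Fˣ) : Fˣ ⧸ Pw F r)

end nonsplit

end Cfsg.Agent.H01.PglCl
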