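import Mathlib
import Cfsg.Agent.Lib.Lead.GUOrder
import Cfsg.Agent.Lib.H01.PglCl6

/-! Unitary frames and conjugacy in `GU_n`. -/

set_option linter.unusedSectionVars false
set_option autoImplicit false

namespace Cfsg.Agent.H01.PglCl

open Polynomial Module Matrix
open Cfsg.Agent.Lead

variable {K : Type*} [Field K] [Fintype K] {q n : ℕ}

local notation "hh" => Cfsg.hermForm n K q

theorem herm_L (g : GL (Fin n) K) (hg : g ∈ Cfsg.GU n K q) (x y : Fin n → K) :
    hh (L g x) (L g y) = hh x y := by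
  rw [L_apply, L_apply]
  exact hg x y

theorem mem_GU_of (g : GL (Fin n) K) (h : ∀ x y : Fin n → K, hh (L g x) (L g y) = hh x y) :
    g ∈ Cfsg.GU n K q := by
  intro x y
  have := h x y
  rwa [L_apply, L_apply] at this

theorem L_inv_L (g : GL (Fin n) K) (x : Fin n → K) : L g⁻¹ (L g x) = x := by
  have h : L g⁻¹ * L g = 1 := by rw [← L_mul, inv_mul_cancel, L_one]
  have := LinearMap.congr_fun h x
  simpa only [Module.End.mul_apply, Module.End.one_apply] using this

theorem L_L_inv (g : GL (Fin n) K) (x : Fin n → K) : L g (L g⁻¹ x) = x := by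
  have h : L g * L g⁻¹ = 1 := by rw [← L_mul, mul_inv_cancel, L_one]
  have := LinearMap.congr_fun h x
  simpa only [Module.End.mul_apply, Module.End.one_apply] using this

theorem L_pow_apply_succ (g : GL (Fin n) K) (k : ℕ) (x : Fin n → K) :
    L (g ^ (k + 1)) x = L g (L (g ^ k) x) := by
  rw [pow_succ', L_mul, Module.End.mul_apply]

theorem herm_pow (g : GL (Fin n) K) (hg : g ∈ Cfsg.GU n K q) (k : ℕ) (x y : Fin n → K) :
    hh (L (g ^ k) x) (L (g ^ k) y) = hh x y :=
  herm_L _ ((Cfsg.GU n K q).pow_mem hg k) x y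

theorem sc_mem_iff (hF : Fintype.card K = q ^ 2) (c : Kˣ) :
    (sc c : GL (Fin n) K) ∈ Cfsg.GU n K q ↔ (n = 0 ∨ c ^ (q + 1) = 1) := by
  have h0 : ∀ x y : Fin n → K, hh (L (sc c : GL (Fin n) K) x) (L (sc c : GL (Fin n) K) y)
      = (c : K) ^ (q + 1) * hh x y := by
    intro x y
    rw [L_sc]
    simp only [LinearMap.smul_apply, Module.End.one_apply]
    rw [herm_smul_left, herm_smul_right hF, pow_succ]
    ring
  constructor
  · intro h
    by_cases hn : n = 0
    · exact Or.inl hn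
    right
    have hn0 : 0 < n := Nat.pos_of_ne_zero hn
    let e : Fin n → K := Pi.single ⟨0, hn0⟩ 1
    have h1 : hh e e = 1 := by
      rw [herm_single_single hF]
      simp
    have h2 := herm_L _ h e e
    rw [h0, h1, mul_one] at h2
    apply Units.ext
    simpa using h2
  · rintro (rfl | h)
    · intro x y
      have hx : ∀ z : Fin 0 → K, z = 0 := fun z => Subsingleton.elim _ _
      simp [Cfsg.hermForm]
    · apply mem_GU_of
      intro x y
      have h2 : (c : K) ^ (q + 1) = 1 := by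
        rw [← Units.val_pow_eq_pow_val, h, Units.val_one]
      rw [h0, h2, one_mul]

/-- the unitary matrix with given orthonormal columns -/
noncomputable def unitOf (hF : Fintype.card K = q ^ 2) (u : Fin n → (Fin n → K)) (hu : IsON q u) :
    GL (Fin n) K := ((guEquiv hF).symm ⟨u, hu⟩ : Cfsg.GU n K q)

theorem unitOf_mem (hF : Fintype.card K = q ^ 2) (u : Fin n → (Fin n → K)) (hu : IsON q u) :
    unitOf hF u hu ∈ Cfsg.GU n K q := ((guEquiv hF).symm ⟨u, hu⟩ : Cfsg.GU n K q).2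

theorem L_unitOf (hF : Fintype.card K = q ^ 2) (u : Fin n → (Fin n → K)) (hu : IsON q u) (j : Fin n) :
    L (unitOf hF u hu) (Pi.single j 1) = u j := by
  rw [L_apply]
  funext c
  rw [Matrix.mulVec_single_one]
  rfl

theorem conj_of_action (hF : Fintype.card K = q ^ 2) (g g' : GL (Fin n) K) (u u' : Fin n → (Fin n → K))
    (hu : IsON q u) (hu' : IsON q u')
    (hA : ∀ j, ∃ (c : K) (j' : Fin n), L g (u j) = c • u j' ∧ L g' (u' j) = c • u' j') :
    ∃ P ∈ Cfsg.GU n K q, P * g * P⁻¹ = g' := by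
  set U := unitOf hF u hu with hU
  set U' := unitOf hF u' hu' with hU'
  have hUm : U ∈ Cfsg.GU n K q := unitOf_mem hF u hu
  have hUm' : U' ∈ Cfsg.GU n K q := unitOf_mem hF u' hu'
  refine ⟨U' * U⁻¹, (Cfsg.GU n K q).mul_mem hUm' ((Cfsg.GU n K q).inv_mem hUm), ?_⟩
  have key : U⁻¹ * g * U = U'⁻¹ * g' * U' := by
    apply L_inj
    refine (Pi.basisFun K (Fin n)).ext fun j => ?_
    obtain ⟨c, j', h1, h2⟩ := hA j
    rw [Pi.basisFun_apply]
    simp only [L_mul, Module.End.mul_apply]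
    rw [hU, hU', L_unitOf, L_unitOf, h1, h2, map_smul, map_smul, ← L_unitOf hF u hu j',
      ← L_unitOf hF u' hu' j', L_inv_L, L_inv_L]
  have h3 : U' * U⁻¹ * g * (U' * U⁻¹)⁻¹ = U' * (U⁻¹ * g * U) * U'⁻¹ := by group
  rw [h3, key]
  group

theorem exists_norm_one_perp (hF : Fintype.card K = q ^ 2) {k : ℕ} (u : Fin k → (Fin n → K))
    (hu : IsON q u) (hk : k < n) : ∃ a ∈ perpOf hF u, hh a a = 1 := by
  have h1 := (cnt_perpOf hF u hu hk.le).2
  have h2 : 0 < hermCnt K q (n - k) 1 := by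
    unfold hermCnt
    rw [Nat.card_pos_iff]
    refine ⟨⟨⟨Pi.single ⟨0, by omega⟩ 1, ?_⟩⟩, inferInstance⟩
    rw [herm_single_single hF]
    simp
  rw [← h1] at h2
  unfold cnt at h2
  rw [Nat.card_pos_iff] at h2
  obtain ⟨⟨⟨a, ha, hb⟩⟩, -⟩ := h2
  exact ⟨a, ha, hb⟩

/-- version with an arbitrary finite index set -/
theorem exists_norm_one_perp' (hF : Fintype.card K = q ^ 2) {ι : Type*} [Fintype ι] [DecidableEq ι]
    (u : ι → (Fin n → K)) (hu : ∀ i j, hh (u i) (u j) = if i = j then 1 else 0)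
    (hk : Fintype.card ι < n) : ∃ a : Fin n → K, (∀ i, hh a (u i) = 0) ∧ hh a a = 1 := by
  let e := Fintype.equivFin ι
  have hu' : IsON q (fun j => u (e.symm j)) := by
    intro i j
    rw [hu]
    simp
  obtain ⟨a, ha, hb⟩ := exists_norm_one_perp hF _ hu' hk
  refine ⟨a, fun i => ?_, hb⟩
  have := ha (e i)
  simpa using this

/-- normalising a non-isotropic vector -/
theorem exists_scale (hF : Fintype.card K = q ^ 2) (x : Fin n → K) (hx : hh x x ≠ 0) :
    ∃ a : K, a ≠ 0 ∧ hh (a • x) (a • x) = 1 := by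
  have hq2 := two_le_q hF
  have h1 : (hh x x) ^ q = hh x x := (herm_conj hF x x).symm
  have h2 : ((hh x x)⁻¹) ^ q = (hh x x)⁻¹ := by rw [inv_pow, h1]
  obtain ⟨a, ha, hb⟩ := exists_norm_eq hF (hh x x)⁻¹ (inv_ne_zero hx) h2
  refine ⟨a, ha, ?_⟩
  rw [herm_smul_left, herm_smul_right hF, ← mul_assoc, ← pow_succ', hb, inv_mul_cancel₀ hx]

end Cfsg.Agent.H01.PglCl
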