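import Mathlib
import Cfsg.Agent.Lib.H01.GuCl1

/-! Elements of `GU_n` with `g ^ r = 1`, `r ∣ q + 1`: orthonormal eigenbases. -/

set_option linter.unusedSectionVars false
set_option autoImplicit false

namespace Cfsg.Agent.H01.PglCl

open Polynomial Module Matrix
open Cfsg.Agent.Lead

variable {K : Type*} [Field K] [Fintype K] {q n r : ℕ}

local notation "hh" => Cfsg.hermForm n K q

theorem eig_orth (hF : Fintype.card K = q ^ 2) (g : GL (Fin n) K) (hg : g ∈ Cfsg.GU n K q)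
    (ζ ζ' : Kˣ) (hζ' : ζ' ^ (q + 1) = 1) (hne : ζ ≠ ζ') (x y : Fin n → K)
    (hx : L g x = (ζ : K) • x) (hy : L g y = (ζ' : K) • y) : hh x y = 0 := by
  have h1 := herm_L g hg x y
  rw [hx, hy, herm_smul_left, herm_smul_right hF] at h1
  have h2 : (ζ' : K) ^ q * ζ' = 1 := by
    rw [← pow_succ, ← Units.val_pow_eq_pow_val, hζ', Units.val_one]
  by_contra h0
  have h3 : (ζ : K) * (ζ' : K) ^ q = 1 := by
    apply mul_right_cancel₀ h0
    rw [mul_assoc, h1, one_mul]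
  apply hne
  apply Units.ext
  calc (ζ : K) = (ζ : K) * ((ζ' : K) ^ q * ζ') := by rw [h2, mul_one]
    _ = ((ζ : K) * (ζ' : K) ^ q) * ζ' := by ring
    _ = ζ' := by rw [h3, one_mul]

theorem exists_decomp {ι V : Type*} [Fintype ι] [AddCommGroup V] [Module K V] (p : ι → Submodule K V)
    (x : V) (hx : x ∈ ⨆ i, p i) : ∃ w : ι → V, (∀ i, w i ∈ p i) ∧ ∑ i, w i = x := by
  classical
  obtain ⟨f, hf, rfl⟩ := (Submodule.mem_iSup_iff_exists_finsupp _ _).1 hx
  refine ⟨f, hf, ?_⟩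
  rw [Finsupp.sum_fintype]
  intro i
  rfl

theorem Mu_pow (hrq : r ∣ q + 1) (ζ : Mu K r) : (ζ : Kˣ) ^ (q + 1) = 1 := by
  obtain ⟨t, ht⟩ := hrq
  rw [ht, pow_mul, mem_Mu.1 ζ.2, one_pow]

variable [Fintype (Mu K r)]

theorem eig_step (hF : Fintype.card K = q ^ 2) (hr : r ≠ 0) (hrq : r ∣ q + 1)
    (hc : Nat.card (Mu K r) = r) (g : GL (Fin n) K) (hg : g ∈ Cfsg.GU n K q) (hg1 : g ^ r = 1) {k : ℕ}
    (u : Fin k → (Fin n → K)) (d : Fin k → Mu K r) (hu : IsON q u)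
    (hd : ∀ i, L g (u i) = z (d i) • u i) (hk : k < n) :
    ∃ (a : Fin n → K) (ζ : Mu K r), a ∈ perpOf hF u ∧ hh a a = 1 ∧ L g a = z ζ • a := by
  classical
  obtain ⟨a, ha, hb⟩ := exists_norm_one_perp hF u hu hk
  have h1 : a ∈ ⨆ ζ : Mu K r, (L g).eigenspace (z ζ) := by
    have := ker_le_iSup z z_inj (L g) Finset.univ (by
      rw [LinearMap.mem_ker, hann hr hc g hg1]
      rfl : a ∈ _)
    simpa using this
  obtain ⟨w, hw, hsum⟩ := exists_decomp _ a h1
  have hw' : ∀ ζ, L g (w ζ) = z ζ • w ζ := fun ζ => Module.End.mem_eigenspace_iff.1 (hw ζ)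
  have horth : ∀ ζ ζ' : Mu K r, ζ ≠ ζ' → ∀ x y : Fin n → K, L g x = z ζ • x → L g y = z ζ' • y →
      hh x y = 0 := fun ζ ζ' hne x y hx hy =>
    eig_orth hF g hg (ζ : Kˣ) (ζ' : Kˣ) (Mu_pow hrq ζ') (fun h => hne (Subtype.ext h)) x y hx hy
  have hperp : ∀ ζ (j : Fin k), hh (w ζ) (u j) = 0 := by
    intro ζ j
    by_cases hζ : ζ = d j
    · subst hζ
      have h2 : hh a (u j) = 0 := ha j
      rw [← hsum, herm_sum_left] at h2
      rw [Finset.sum_eq_single (d j)] at h2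
      · exact h2
      · intro b _ hne
        exact horth b (d j) hne _ _ (hw' b) (hd j)
      · simp
    · exact horth ζ (d j) hζ _ _ (hw' ζ) (hd j)
  have h3 : ∃ ζ, hh (w ζ) (w ζ) ≠ 0 := by
    by_contra hcon
    push Not at hcon
    have h4 : hh a a = 0 := by
      conv_lhs => rw [← hsum]
      rw [herm_sum_left]
      refine Finset.sum_eq_zero fun ζ _ => ?_
      rw [herm_sum_right hF]
      refine Finset.sum_eq_zero fun ζ' _ => ?_
      by_cases hne : ζ = ζ'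
      · subst hne
        exact hcon ζ
      · exact horth ζ ζ' hne _ _ (hw' ζ) (hw' ζ')
    rw [hb] at h4
    exact one_ne_zero h4
  obtain ⟨ζ, hζ⟩ := h3
  obtain ⟨c, hc0, hc1⟩ := exists_scale hF _ hζ
  refine ⟨c • w ζ, ζ, ?_, hc1, ?_⟩
  · intro j
    rw [herm_smul_left, hperp ζ j, mul_zero]
  · rw [map_smul, hw', smul_comm]

theorem eig_frame (hF : Fintype.card K = q ^ 2) (hr : r ≠ 0) (hrq : r ∣ q + 1)
    (hc : Nat.card (Mu K r) = r) (g : GL (Fin n) K) (hg : g ∈ Cfsg.GU n K q) (hg1 : g ^ r = 1) :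
    ∀ k, k ≤ n → ∃ (u : Fin k → (Fin n → K)) (d : Fin k → Mu K r), IsON q u ∧
      ∀ i, L g (u i) = z (d i) • u i := by
  intro k
  induction k with
  | zero =>
    intro _
    exact ⟨Fin.elim0, Fin.elim0, fun i => i.elim0, fun i => i.elim0⟩
  | succ k ih =>
    intro hk
    obtain ⟨u, d, hu, hd⟩ := ih (by omega)
    obtain ⟨a, ζ, ha, hb, hL⟩ := eig_step hF hr hrq hc g hg hg1 u d hu hd (by omega)
    refine ⟨Fin.cons a u, Fin.cons ζ d, (isON_cons_iff hF u a).2 ⟨hu, ha, hb⟩, fun i => ?_⟩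
    refine Fin.cases ?_ (fun j => ?_) i
    · simpa using hL
    · simpa using hd j

theorem std_ON (hF : Fintype.card K = q ^ 2) :
    IsON q (fun j : Fin n => (Pi.single j 1 : Fin n → K)) := by
  intro i j
  exact herm_single_single hF i j

theorem L_diagG (d : Fin n → Kˣ) (j : Fin n) :
    L (diagG d) (Pi.single j 1) = ((d j : Kˣ) : K) • (Pi.single j 1 : Fin n → K) := by
  classical
  rw [L_apply]
  funext i
  show (Matrix.diagonal (fun i => (d i : K))).mulVec _ i = _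
  rw [Matrix.mulVec_diagonal]
  by_cases h : i = j
  · subst h
    simp
  · simp [Pi.single_eq_of_ne h]

theorem fib_card (hF : Fintype.card K = q ^ 2) (hr : r ≠ 0) (hrq : r ∣ q + 1)
    (hc : Nat.card (Mu K r) = r) (g : GL (Fin n) K) (hg : g ∈ Cfsg.GU n K q)
    (u : Fin n → (Fin n → K)) (d : Fin n → Mu K r) (hu : IsON q u)
    (hd : ∀ i, L g (u i) = z (d i) • u i) (ζ : Mu K r) :
    Nat.card {i // d i = ζ} = mt g ζ := by
  classical
  obtain ⟨P, -, hP⟩ := conj_of_action hF g (diagG (fun i => (d i : Kˣ))) u _ hu (std_ON hF)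
    (fun j => ⟨z (d j), j, hd j, L_diagG _ j⟩)
  have h1 := congrFun (mt_conj (r := r) P g) ζ
  rw [hP] at h1
  rw [← h1]
  unfold mt
  rw [m_diag]
  apply Nat.card_congr
  exact Equiv.subtypeEquivRight fun i => ⟨fun h => by rw [h]; rfl, fun h => z_inj h⟩

theorem split_conj (hF : Fintype.card K = q ^ 2) (hr : r ≠ 0) (hrq : r ∣ q + 1)
    (hc : Nat.card (Mu K r) = r) (g g' : GL (Fin n) K) (hg : g ∈ Cfsg.GU n K q)
    (hg' : g' ∈ Cfsg.GU n K q) (hg1 : g ^ r = 1) (hg1' : g' ^ r = 1)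
    (hm : (mt g : Mu K r → ℕ) = mt g') : ∃ P ∈ Cfsg.GU n K q, P * g * P⁻¹ = g' := by
  classical
  obtain ⟨u, d, hu, hd⟩ := eig_frame hF hr hrq hc g hg hg1 n le_rfl
  obtain ⟨u', d', hu', hd'⟩ := eig_frame hF hr hrq hc g' hg' hg1' n le_rfl
  have hfib : ∀ ζ, Nat.card {i // d i = ζ} = Nat.card {i // d' i = ζ} := fun ζ => by
    rw [fib_card hF hr hrq hc g hg u d hu hd, fib_card hF hr hrq hc g' hg' u' d' hu' hd', hm]
  let π : Fin n ≃ Fin n := Equiv.ofFiberEquiv (f := d) (g := d') fun ζ =>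
    Fintype.equivOfCardEq (by rw [← Nat.card_eq_fintype_card, ← Nat.card_eq_fintype_card]; exact hfib ζ)
  have hπ : ∀ i, d' (π i) = d i := fun i => Equiv.ofFiberEquiv_map _ i
  have hu2 : IsON q (fun j => u' (π j)) := by
    intro i j
    rw [hu']
    simp
  refine conj_of_action hF g g' u _ hu hu2 fun j => ⟨z (d j), j, hd j, ?_⟩
  rw [hd', hπ]

theorem diagG_mem (hF : Fintype.card K = q ^ 2) (d : Fin n → Kˣ) (hd : ∀ i, (d i) ^ (q + 1) = 1) :
    diagG d ∈ Cfsg.GU n K q := by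
  apply mem_GU_of
  intro x y
  have h1 : ∀ v : Fin n → K, L (diagG d) v = fun i => (d i : K) * v i := by
    intro v
    rw [L_apply]
    funext i
    show (Matrix.diagonal (fun i => (d i : K))).mulVec _ i = _
    rw [Matrix.mulVec_diagonal]
  rw [h1, h1]
  unfold Cfsg.hermForm
  refine Finset.sum_congr rfl fun i _ => ?_
  have h2 : (d i : K) ^ q * (d i : K) = 1 := by
    rw [← pow_succ, ← Units.val_pow_eq_pow_val, hd, Units.val_one]
  rw [mul_pow]
  calc (d i : K) * x i * ((d i : K) ^ q * y i ^ q) = ((d i : K) ^ q * (d i : K)) * (x i * y i ^ q) := by ring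
    _ = x i * y i ^ q := by rw [h2, one_mul]

theorem exists_of_tuple_GU (hF : Fintype.card K = q ^ 2) (hrq : r ∣ q + 1)
    (a : Mu K r → ℕ) (ha : ∑ ζ, a ζ = n) :
    ∃ g : GL (Fin n) K, g ∈ Cfsg.GU n K q ∧ g ^ r = 1 ∧ mt g = a := by
  classical
  have hcard : Fintype.card (Σ ζ, Fin (a ζ)) = n := by
    rw [Fintype.card_sigma]
    simpa using ha
  let σ : (Σ ζ, Fin (a ζ)) ≃ Fin n := Fintype.equivFinOfCardEq hcard
  let d : Fin n → Kˣ := fun i => ((σ.symm i).1 : Kˣ)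
  refine ⟨diagG d, diagG_mem hF d fun i => Mu_pow hrq _, ?_, ?_⟩
  · rw [diagG_pow]
    apply Units.ext
    have h1 : ∀ i, (d i) ^ r = 1 := fun i => mem_Mu.1 (σ.symm i).1.2
    simp [diagG, h1]
  · funext ζ
    unfold mt
    rw [m_diag]
    have e1 : {i // ((d i : Kˣ) : K) = z ζ} ≃ {x : Σ ζ, Fin (a ζ) // x.1 = ζ} :=
      { toFun := fun i => ⟨σ.symm i.1, z_inj i.2⟩
        invFun := fun x => ⟨σ x.1, by
          show (((σ.symm (σ x.1)).1 : Kˣ) : K) = z ζ
          rw [σ.symm_apply_apply, x.2]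
          rfl⟩
        left_inv := fun i => by
          apply Subtype.ext
          simp
        right_inv := fun x => by
          apply Subtype.ext
          simp }
    rw [Nat.card_congr (e1.trans (Equiv.sigmaSubtype ζ))]
    simp

end Cfsg.Agent.H01.PglCl
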