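import Mathlib
import Cfsg.Agent.Lib.H01.GuCl2

/-! The non-split case in `GU_n`: the field `K[X] / (X ^ r - λ)` with its involution. -/

set_option linter.unusedSectionVars false
set_option autoImplicit false

namespace Cfsg.Agent.H01.PglCl

open Polynomial Module Matrix
open Cfsg.Agent.Lead

theorem dvd_pow_add {q r : ℕ} (hodd : Odd r) (hrq : r ∣ q + 1) : r * (q + 1) ∣ q ^ r + 1 := by
  zify at hrq ⊢
  set x : ℤ := (q : ℤ) with hx
  let S : ℤ := ∑ i ∈ Finset.range r, x ^ i * (-1) ^ (r - 1 - i)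
  have h1 : S * (x + 1) = x ^ r + 1 := by
    have := geom_sum₂_mul x (-1 : ℤ) r
    rw [sub_neg_eq_add, hodd.neg_one_pow, sub_neg_eq_add] at this
    exact this
  have h2 : (x + 1) ∣ S - r := by
    have h3 : S - r = ∑ i ∈ Finset.range r, (x ^ i * (-1) ^ (r - 1 - i) - 1) := by
      simp [S, Finset.sum_sub_distrib]
    rw [h3]
    refine Finset.dvd_sum fun i hi => ?_
    have hi' : i < r := Finset.mem_range.1 hi
    have h4 : (x + 1) ∣ x ^ i - (-1) ^ i := by
      have := sub_dvd_pow_sub_pow x (-1 : ℤ) i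
      simpa using this
    have h5 : ((-1 : ℤ)) ^ i * (-1) ^ (r - 1 - i) = 1 := by
      rw [← pow_add]
      have : i + (r - 1 - i) = r - 1 := by omega
      rw [this]
      exact (Nat.Odd.sub_odd hodd (by decide)).neg_one_pow
    have h6 : x ^ i * (-1) ^ (r - 1 - i) - 1 = (x ^ i - (-1) ^ i) * (-1) ^ (r - 1 - i) := by
      rw [sub_mul, h5]
    rw [h6]
    exact h4.mul_right _
  have h7 : (r : ℤ) ∣ S := by
    have h8 := hrq.trans h2
    have := dvd_add h8 (dvd_refl (r : ℤ))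
    simpa using this
  obtain ⟨s, hs⟩ := h7
  refine ⟨s, ?_⟩
  rw [← h1, hs]
  ring

variable {K : Type*} [Field K] [Fintype K] {q n r : ℕ}

theorem pow_Q_eq (hF : Fintype.card K = q ^ 2) (hodd : Odd r) (c : K) : c ^ (q ^ r) = c ^ q := by
  obtain ⟨s, rfl⟩ := hodd
  induction s with
  | zero => simp
  | succ s ih =>
    have h1 : q ^ (2 * (s + 1) + 1) = q ^ (2 * s + 1) * q ^ 2 := by ring
    rw [h1, pow_mul, ih, ← hF, FiniteField.pow_card]

section E
variable (r) (lam : Kˣ) [hI : Fact (Irreducible (X ^ r - C (lam : K) : K[X]))]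

local notation "E'" => EE r (lam : K)
local notation "rt" => AdjoinRoot.root (X ^ r - C (lam : K) : K[X])
local notation "ofK" => AdjoinRoot.of (X ^ r - C (lam : K) : K[X])

theorem finite_E : Finite (E') := by
  haveI := finite_EE r (lam : K)
  exact Module.finite_of_finite K

theorem card_E (hF : Fintype.card K = q ^ 2) (hr : r ≠ 0) [Fintype (E')] :
    Fintype.card (E') = (q ^ r) ^ 2 := by
  haveI := finite_EE r (lam : K)
  have h1 := Module.card_eq_pow_finrank (K := K) (V := E')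
  rw [h1, hF, finrank_EE r (lam : K) hr]
  ring

theorem exists_ell (hr : r ≠ 0) (hq : q ≠ 0) (φ : K →+* K) (hφ : ∀ x, φ x = x ^ q) (ψ : (E') →+* (E'))
    (hψc : ∀ c : K, ψ (ofK c) = ofK (c ^ q)) (hψr : ψ rt * rt = 1) :
    ∃ ℓ : (E') →ₗ[K] K, ℓ 1 = 1 ∧ (∀ k, 0 < k → k < r → ℓ (rt ^ k) = 0) ∧
      ∀ a : E', ℓ (ψ a) = (ℓ a) ^ q := by
  have hf : (X ^ r - C (lam : K) : K[X]) ≠ 0 := hI.out.ne_zero
  let pb := AdjoinRoot.powerBasis hf
  have hdim : pb.dim = r := by
    show (X ^ r - C (lam : K) : K[X]).natDegree = r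
    exact natDegree_X_pow_sub_C
  have h0 : 0 < pb.dim := by
    rw [hdim]
    exact Nat.pos_of_ne_zero hr
  let ℓ : (E') →ₗ[K] K := pb.basis.coord ⟨0, h0⟩
  have hgen : pb.gen = rt := AdjoinRoot.powerBasis_gen hf
  have hb : ∀ i : Fin pb.dim, pb.basis i = rt ^ (i : ℕ) := fun i => by
    rw [PowerBasis.coe_basis, hgen]
  have hl : ∀ k, k < r → ℓ (rt ^ k) = if k = 0 then 1 else 0 := by
    intro k hk
    have h1 : rt ^ k = pb.basis ⟨k, by rw [hdim]; exact hk⟩ := by rw [hb]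
    rw [h1]
    simp only [ℓ, Basis.coord_apply, Basis.repr_self_apply, Fin.mk.injEq]
  have hl1 : ℓ 1 = 1 := by
    have := hl 0 (Nat.pos_of_ne_zero hr)
    simpa using this
  have hl2 : ∀ k, 0 < k → k < r → ℓ (rt ^ k) = 0 := by
    intro k hk hk'
    rw [hl k hk', if_neg (by omega)]
  refine ⟨ℓ, hl1, hl2, ?_⟩
  intro a
  have hspan : a ∈ Submodule.span K (Set.range pb.basis) := by
    rw [pb.basis.span_eq]
    trivial
  have hsm : ∀ (c : K) (x : E'), c • x = ofK c * x := fun c x => by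
    rw [Algebra.smul_def, AdjoinRoot.algebraMap_eq]
  induction hspan using Submodule.span_induction with
  | mem x hx =>
    obtain ⟨i, rfl⟩ := hx
    rw [hb]
    rcases Nat.eq_zero_or_pos (i : ℕ) with h | h
    · rw [h, pow_zero, map_one, hl1, one_pow]
    · have hi : (i : ℕ) < r := lt_of_lt_of_eq i.2 hdim
      rw [hl2 _ h hi, zero_pow hq, map_pow]
      have h1 : (ψ rt) ^ (i : ℕ) * rt ^ (i : ℕ) = 1 := by
        rw [← mul_pow, hψr, one_pow]
      have h2 : rt ^ r = ofK (lam : K) := root_pow r (lam : K)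
      have h3 : ofK (lam : K) * ofK (((lam⁻¹ : Kˣ) : K)) = 1 := by
        rw [← map_mul, Units.mul_inv, map_one]
      have h4 : rt ^ r = rt ^ (i : ℕ) * rt ^ (r - (i : ℕ)) := by
        rw [← pow_add]
        congr 1
        omega
      have h5 : (ψ rt) ^ (i : ℕ) = ((lam⁻¹ : Kˣ) : K) • rt ^ (r - (i : ℕ)) := by
        rw [hsm]
        calc (ψ rt) ^ (i : ℕ) = (ψ rt) ^ (i : ℕ) * (ofK (lam : K) * ofK (((lam⁻¹ : Kˣ) : K))) := by
              rw [h3, mul_one]
          _ = (ψ rt) ^ (i : ℕ) * (rt ^ (i : ℕ) * rt ^ (r - (i : ℕ)) * ofK (((lam⁻¹ : Kˣ) : K))) := by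
              rw [← h4, h2]
          _ = ((ψ rt) ^ (i : ℕ) * rt ^ (i : ℕ)) * rt ^ (r - (i : ℕ)) * ofK (((lam⁻¹ : Kˣ) : K)) := by
              ring
          _ = ofK (((lam⁻¹ : Kˣ) : K)) * rt ^ (r - (i : ℕ)) := by
              rw [h1, one_mul, mul_comm]
      rw [h5, map_smul, hl2 (r - (i : ℕ)) (by omega) (by omega), smul_zero]
  | zero =>
    rw [map_zero, map_zero, zero_pow hq]
  | add x y _ _ hx hy =>
    rw [map_add, map_add, hx, hy, map_add, ← hφ, ← hφ, ← hφ, map_add]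
  | smul c x _ hx =>
    rw [hsm, map_mul, hψc, ← hsm, map_smul, hx, ← hsm, map_smul, smul_eq_mul, smul_eq_mul, mul_pow]

end E

section key

local notation "hh" => Cfsg.hermForm n K q

/-- the action of the field on the space -/
noncomputable def rho (f : End K (Fin n → K)) (lam : K) (hann : aeval f (X ^ r - C lam : K[X]) = 0) :
    EE r lam →+* End K (Fin n → K) :=
  Ideal.Quotient.lift (Ideal.span {(X ^ r - C lam : K[X])})
    ((aeval f : K[X] →ₐ[K] End K (Fin n → K)) : K[X] →+* End K (Fin n → K)) (by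
      intro a ha
      obtain ⟨b, rfl⟩ := Ideal.mem_span_singleton.1 ha
      show aeval f _ = 0
      rw [map_mul, hann, zero_mul])

theorem rho_mk (f : End K (Fin n → K)) (lam : K) (hann : aeval f (X ^ r - C lam : K[X]) = 0) (P : K[X]) :
    rho f lam hann (AdjoinRoot.mk _ P) = aeval f P := Ideal.Quotient.lift_mk _ _ _

theorem key_vector (hF : Fintype.card K = q ^ 2) (hr : r.Prime) (hodd : Odd r) (hrq : r ∣ q + 1)
    (lam : Kˣ) (hlam : lam ^ (q + 1) = 1) (hI : Irreducible (X ^ r - C (lam : K) : K[X]))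
    (g : GL (Fin n) K) (hg : g ∈ Cfsg.GU n K q) (hg1 : g ^ r = sc lam) (v₀ : Fin n → K)
    (hv₀ : hh v₀ v₀ ≠ 0) :
    ∃ P : K[X], hh (aeval (L g) P v₀) (aeval (L g) P v₀) = 1 ∧
      ∀ k, 0 < k → k < r → hh (L (g ^ k) (aeval (L g) P v₀)) (aeval (L g) P v₀) = 0 := by
  classical
  haveI : Fact (Irreducible (X ^ r - C (lam : K) : K[X])) := ⟨hI⟩
  haveI := finite_EE r (lam : K)
  haveI := finite_E r lam
  letI : Fintype (EE r (lam : K)) := Fintype.ofFinite _
  have hq2 := two_le_q hF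
  have hq0 : q ≠ 0 := by omega
  have hcard := card_E r lam hF hr.ne_zero
  obtain ⟨φ, hφ⟩ := exists_frob hF
  obtain ⟨ψ, hψ⟩ := exists_frob hcard
  have hψψ : ∀ a, ψ (ψ a) = a := fun a => by rw [hψ, hψ, pow_q_sq hcard]
  have hψc : ∀ c : K, ψ (AdjoinRoot.of _ c) = AdjoinRoot.of _ (c ^ q) := fun c => by
    rw [hψ, ← map_pow, pow_Q_eq hF hodd]
  obtain ⟨s, hs⟩ := dvd_pow_add hodd hrq
  have hψr : ψ (AdjoinRoot.root (X ^ r - C (lam : K) : K[X])) *
      AdjoinRoot.root (X ^ r - C (lam : K) : K[X]) = 1 := by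
    rw [hψ, ← pow_succ, hs, pow_mul, pow_mul, root_pow, ← map_pow,
      ← Units.val_pow_eq_pow_val, hlam]
    simp
  have hgQ : g ^ (q ^ r) = g⁻¹ := by
    rw [eq_inv_iff_mul_eq_one, ← pow_succ, hs, pow_mul, pow_mul, hg1, ← sc_pow, hlam, sc_one, one_pow]
  obtain ⟨ℓ, hℓ1, hℓ2, hℓ3⟩ := exists_ell r lam hr.ne_zero hq0 φ hφ ψ hψc hψr
  have hann : aeval (L g) (X ^ r - C (lam : K) : K[X]) = 0 := by
    rw [map_sub, aeval_X_pow, aeval_C, ← L_pow, hg1, L_sc, Algebra.algebraMap_eq_smul_one, sub_self]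
  let ρ := rho (L g) (lam : K) hann
  have hρ : ∀ P : K[X], ρ (AdjoinRoot.mk _ P) = aeval (L g) P := fun P => rho_mk _ _ _ P
  have hρof : ∀ c : K, ρ (AdjoinRoot.of _ c) = c • 1 := fun c => by
    have := hρ (C c)
    rw [aeval_C, Algebra.algebraMap_eq_smul_one] at this
    exact this
  have hρrt : ρ (AdjoinRoot.root (X ^ r - C (lam : K) : K[X])) = L g := by
    have := hρ X
    rw [aeval_X] at this
    exact this
  have hρpow : ∀ k : ℕ, ρ (AdjoinRoot.root (X ^ r - C (lam : K) : K[X]) ^ k) = L (g ^ k) := fun k => by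
    rw [map_pow, hρrt, L_pow]
  have hmul : ∀ a b : EE r (lam : K), (∀ u v : Fin n → K, hh (ρ a u) v = hh u (ρ (ψ a) v)) →
      (∀ u v : Fin n → K, hh (ρ b u) v = hh u (ρ (ψ b) v)) →
      ∀ u v : Fin n → K, hh (ρ (a * b) u) v = hh u (ρ (ψ (a * b)) v) := by
    intro a b ha hb u v
    rw [map_mul ρ, Module.End.mul_apply, ha, hb, map_mul ψ, mul_comm (ψ a), map_mul ρ,
      Module.End.mul_apply]
  have hadd : ∀ a b : EE r (lam : K), (∀ u v : Fin n → K, hh (ρ a u) v = hh u (ρ (ψ a) v)) →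
      (∀ u v : Fin n → K, hh (ρ b u) v = hh u (ρ (ψ b) v)) →
      ∀ u v : Fin n → K, hh (ρ (a + b) u) v = hh u (ρ (ψ (a + b)) v) := by
    intro a b ha hb u v
    rw [map_add ρ, LinearMap.add_apply, herm_add_left, ha, hb, map_add ψ, map_add ρ,
      LinearMap.add_apply, herm_add_right hF]
  have hrt : ∀ u v : Fin n → K, hh (ρ (AdjoinRoot.root (X ^ r - C (lam : K) : K[X])) u) v =
      hh u (ρ (ψ (AdjoinRoot.root (X ^ r - C (lam : K) : K[X]))) v) := by
    intro u v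
    rw [hρrt, hψ, map_pow, hρrt, ← L_pow, hgQ]
    have := herm_L g hg u (L g⁻¹ v)
    rwa [L_L_inv] at this
  have hof : ∀ c : K, ∀ u v : Fin n → K, hh (ρ (AdjoinRoot.of _ c) u) v =
      hh u (ρ (ψ (AdjoinRoot.of _ c)) v) := by
    intro c u v
    rw [hψc, hρof, hρof]
    simp only [LinearMap.smul_apply, Module.End.one_apply]
    rw [herm_smul_left, herm_smul_right hF, pow_q_sq hF]
  have hadj : ∀ (a : EE r (lam : K)) (u v : Fin n → K), hh (ρ a u) v = hh u (ρ (ψ a) v) := by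
    intro a
    obtain ⟨P, rfl⟩ := AdjoinRoot.mk_surjective a
    induction P using Polynomial.induction_on with
    | C c => rw [AdjoinRoot.mk_C]; exact hof c
    | add p q' hp hq' => rw [map_add]; exact hadd _ _ hp hq'
    | monomial k c ih =>
      have h1 : AdjoinRoot.mk (X ^ r - C (lam : K) : K[X]) (C c * X ^ (k + 1)) =
          AdjoinRoot.mk (X ^ r - C (lam : K) : K[X]) (C c * X ^ k) * AdjoinRoot.root _ := by
        rw [pow_succ, ← mul_assoc, map_mul, AdjoinRoot.mk_X]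
      rw [h1]
      exact hmul _ _ ih hrt
  have hsm : ∀ (c : K) (x : EE r (lam : K)), c • x = AdjoinRoot.of _ c * x := fun c x => by
    rw [Algebra.smul_def, AdjoinRoot.algebraMap_eq]
  let ℓ₀ : (EE r (lam : K)) →ₗ[K] K :=
    { toFun := fun a => hh (ρ a v₀) v₀
      map_add' := fun a b => by
        rw [map_add ρ, LinearMap.add_apply, herm_add_left]
      map_smul' := fun c a => by
        simp only [RingHom.id_apply, smul_eq_mul]
        rw [hsm, map_mul ρ, Module.End.mul_apply, hρof]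
        simp only [LinearMap.smul_apply, Module.End.one_apply]
        rw [herm_smul_left] }
  let τ : (EE r (lam : K)) →ₗ[K] Module.Dual K (EE r (lam : K)) := (LinearMap.mul K _).compr₂ ℓ
  have hτ : ∀ t a, τ t a = ℓ (t * a) := fun _ _ => rfl
  have hinj : Function.Injective τ := by
    rw [injective_iff_map_eq_zero]
    intro t ht
    by_contra h0
    have h1 : τ t t⁻¹ = 1 := by rw [hτ, mul_inv_cancel₀ h0, hℓ1]
    rw [ht] at h1
    exact zero_ne_one h1
  have hsurj : Function.Surjective τ :=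
    (LinearMap.injective_iff_surjective_of_finrank_eq_finrank
      (Subspace.dual_finrank_eq (K := K) (V := EE r (lam : K))).symm).1 hinj
  obtain ⟨t, ht⟩ := hsurj ℓ₀
  have ht' : ∀ a, ℓ (t * a) = ℓ₀ a := fun a => by rw [← ht]; rfl
  have ht0 : t ≠ 0 := by
    rintro rfl
    have h1 := ht' 1
    rw [zero_mul, map_zero] at h1
    apply hv₀
    have h2 : ℓ₀ 1 = hh (ρ 1 v₀) v₀ := rfl
    rw [map_one ρ] at h2
    have h3 : hh v₀ v₀ = ℓ₀ 1 := h2.symm
    rw [h3, ← h1]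
  have hℓ₀ψ : ∀ a, ℓ₀ (ψ a) = (ℓ₀ a) ^ q := fun a => by
    show hh (ρ (ψ a) v₀) v₀ = (hh (ρ a v₀) v₀) ^ q
    rw [hadj a v₀ v₀, herm_conj hF]
  have htψ : ψ t = t := by
    apply hinj
    refine LinearMap.ext fun b => ?_
    rw [hτ, hτ]
    have h1 : b = ψ (ψ b) := (hψψ b).symm
    rw [h1, ← map_mul, hℓ3, ht', ← hℓ₀ψ, ← ht']
  have htQ : (t⁻¹) ^ (q ^ r) = t⁻¹ := by
    rw [inv_pow, ← hψ, htψ]
  obtain ⟨c, hc0, hc⟩ := exists_norm_eq hcard t⁻¹ (inv_ne_zero ht0) htQ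
  obtain ⟨P, hP⟩ := AdjoinRoot.mk_surjective c
  have hv : ∀ a : EE r (lam : K), hh (ρ a (ρ c v₀)) (ρ c v₀) = ℓ a := by
    intro a
    have h1 : ρ a (ρ c v₀) = ρ (a * c) v₀ := by rw [map_mul ρ, Module.End.mul_apply]
    have h2 := hadj (ψ c) (ρ (a * c) v₀) v₀
    rw [hψψ] at h2
    rw [h1, ← h2, ← Module.End.mul_apply, ← map_mul ρ]
    show ℓ₀ (ψ c * (a * c)) = ℓ a
    rw [← ht']
    congr 1
    have h3 : ψ c * c = t⁻¹ := by rw [hψ, ← pow_succ, hc]
    calc t * (ψ c * (a * c)) = t * (ψ c * c) * a := by ring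
      _ = a := by rw [h3, mul_inv_cancel₀ ht0, one_mul]
  have hPv : aeval (L g) P v₀ = ρ c v₀ := by
    rw [← hP, hρ]
  refine ⟨P, ?_, ?_⟩
  · rw [hPv]
    have := hv 1
    rw [map_one ρ, hℓ1] at this
    exact this
  · intro k hk hk'
    rw [hPv, ← hρpow, hv, hℓ2 k hk hk']

end key

end Cfsg.Agent.H01.PglCl
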