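import Mathlib
import Cfsg.Agent.Lib.H01.GuCl3

/-! The non-split case in `GU_n`: orthonormal `g`-orbit frames. -/

set_option linter.unusedSectionVars false
set_option autoImplicit false

namespace Cfsg.Agent.H01.PglCl

open Polynomial Module Matrix
open Cfsg.Agent.Lead

variable {K : Type*} [Field K] [Fintype K] {q n r : ℕ}

local notation "hh" => Cfsg.hermForm n K q

theorem aeval_mem (W : Submodule K (Fin n → K)) (f : End K (Fin n → K)) (hW : ∀ x ∈ W, f x ∈ W)
    (P : K[X]) (x : Fin n → K) (hx : x ∈ W) : aeval f P x ∈ W := by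
  have hp : ∀ i : ℕ, (f ^ i) x ∈ W := by
    intro i
    induction i with
    | zero => simpa using hx
    | succ i ih =>
      rw [pow_succ', Module.End.mul_apply]
      exact hW _ ih
  rw [aeval_eq_sum_range, LinearMap.sum_apply]
  refine W.sum_mem fun i _ => ?_
  rw [LinearMap.smul_apply]
  exact W.smul_mem _ (hp i)

theorem herm_pow_left (g : GL (Fin n) K) (hg : g ∈ Cfsg.GU n K q) (a b : ℕ) (hab : b ≤ a)
    (x y : Fin n → K) : hh (L (g ^ a) x) (L (g ^ b) y) = hh (L (g ^ (a - b)) x) y := by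
  have h1 : g ^ a = g ^ b * g ^ (a - b) := by
    rw [← pow_add]
    congr 1
    omega
  rw [h1, L_mul, Module.End.mul_apply]
  exact herm_pow g hg b _ y

/-- orthonormal orbit frames -/
def FR (g : GL (Fin n) K) (q r : ℕ) {k : ℕ} (v : Fin k → (Fin n → K)) : Prop :=
  (∀ i, Cfsg.hermForm n K q (v i) (v i) = 1) ∧
  (∀ i c, 0 < c → c < r → Cfsg.hermForm n K q (L (g ^ c) (v i)) (v i) = 0) ∧
  (∀ i j, i ≠ j → ∀ c, c < r → Cfsg.hermForm n K q (L (g ^ c) (v i)) (v j) = 0)

theorem fam_on_aux (g : GL (Fin n) K) (hg : g ∈ Cfsg.GU n K q) {k : ℕ} (v : Fin k → (Fin n → K))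
    (hv : FR g q r v) (i j : Fin k) (a b : ℕ) (ha : a < r) (hab : b ≤ a) :
    hh (L (g ^ a) (v i)) (L (g ^ b) (v j)) = if i = j ∧ a = b then 1 else 0 := by
  rw [herm_pow_left g hg a b hab]
  by_cases hij : i = j
  · subst hij
    by_cases h : a = b
    · subst h
      simp [L_one, hv.1 i]
    · rw [if_neg (fun h' => h h'.2)]
      exact hv.2.1 i (a - b) (by omega) (by omega)
  · rw [if_neg (fun h' => hij h'.1)]
    exact hv.2.2 i j hij _ (by omega)

theorem fam_on (hF : Fintype.card K = q ^ 2) (g : GL (Fin n) K) (hg : g ∈ Cfsg.GU n K q) {k : ℕ}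
    (v : Fin k → (Fin n → K)) (hv : FR g q r v) (p p' : Fin k × Fin r) :
    hh (L (g ^ (p.2 : ℕ)) (v p.1)) (L (g ^ (p'.2 : ℕ)) (v p'.1)) = if p = p' then 1 else 0 := by
  have hq2 := two_le_q hF
  rcases p with ⟨i, a⟩
  rcases p' with ⟨j, b⟩
  simp only [Prod.mk.injEq, Fin.ext_iff]
  by_cases hab : (b : ℕ) ≤ a
  · have := fam_on_aux g hg v hv i j a b a.2 hab
    simpa [Fin.ext_iff] using this
  · have hab' : (a : ℕ) ≤ b := by omega
    rw [herm_conj hF (L (g ^ (b : ℕ)) (v j)) (L (g ^ (a : ℕ)) (v i)),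
      fam_on_aux g hg v hv j i b a b.2 hab']
    have h1 : (a : ℕ) ≠ b := by omega
    rw [if_neg (fun h => h1 h.2.symm), if_neg (fun h => h1 h.2), zero_pow (by omega)]

theorem fr_step (hF : Fintype.card K = q ^ 2) (hr : r.Prime) (hodd : Odd r) (hrq : r ∣ q + 1)
    (lam : Kˣ) (hlam : lam ^ (q + 1) = 1) (hI : Irreducible (X ^ r - C (lam : K) : K[X]))
    (g : GL (Fin n) K) (hg : g ∈ Cfsg.GU n K q) (hg1 : g ^ r = sc lam) {k : ℕ}
    (v : Fin k → (Fin n → K)) (hv : FR g q r v) (hk : k * r < n) :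
    ∃ x : Fin n → K, FR g q r (Fin.cons x v : Fin (k + 1) → (Fin n → K)) := by
  classical
  have hq2 := two_le_q hF
  have hr0 := hr.pos
  obtain ⟨a, ha, hb⟩ := exists_norm_one_perp' hF (fun p : Fin k × Fin r => L (g ^ (p.2 : ℕ)) (v p.1))
    (fam_on hF g hg v hv) (by simpa using hk)
  let W : Submodule K (Fin n → K) :=
    { carrier := {x | ∀ i, ∀ b, b < r → hh x (L (g ^ b) (v i)) = 0}
      add_mem' := fun {x y} hx hy i b hb => by rw [herm_add_left, hx i b hb, hy i b hb, add_zero]
      zero_mem' := fun i b hb => by simp [Cfsg.hermForm]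
      smul_mem' := fun c x hx i b hb => by rw [herm_smul_left, hx i b hb, mul_zero] }
  have haW : a ∈ W := fun i b hb' => ha (i, ⟨b, hb'⟩)
  have hpow_r : ∀ y : Fin n → K, L (g ^ r) y = (lam : K) • y := fun y => by
    rw [hg1, L_sc]
    rfl
  have hinv : ∀ x ∈ W, L g x ∈ W := by
    intro x hx i b hb'
    rcases Nat.eq_zero_or_pos b with rfl | hb0
    · have h1 : v i = ((lam⁻¹ : Kˣ) : K) • L (g ^ r) (v i) := by
        rw [hpow_r, smul_smul]
        simp
      have h2 : g ^ r = g * g ^ (r - 1) := by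
        rw [← pow_succ']
        congr 1
        omega
      rw [pow_zero, L_one, Module.End.one_apply, h1, herm_smul_right hF, h2, L_mul,
        Module.End.mul_apply, herm_L g hg, hx i (r - 1) (by omega), mul_zero]
    · have h2 : g ^ b = g * g ^ (b - 1) := by
        rw [← pow_succ']
        congr 1
        omega
      rw [h2, L_mul, Module.End.mul_apply, herm_L g hg]
      exact hx i (b - 1) (by omega)
  obtain ⟨P, hP1, hP2⟩ := key_vector hF hr hodd hrq lam hlam hI g hg hg1 a (by rw [hb]; exact one_ne_zero)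
  set x := aeval (L g) P a with hx
  have hxW : x ∈ W := aeval_mem W (L g) hinv P a haW
  have hcW : ∀ c : ℕ, L (g ^ c) x ∈ W := by
    intro c
    induction c with
    | zero => simpa [L_one] using hxW
    | succ c ih =>
      rw [L_pow_apply_succ]
      exact hinv _ ih
  refine ⟨x, ?_, ?_, ?_⟩
  · intro i
    refine Fin.cases ?_ (fun j => ?_) i
    · simpa using hP1
    · simpa using hv.1 j
  · intro i c hc hc'
    refine Fin.cases ?_ (fun j => ?_) i
    · simpa using hP2 c hc hc'
    · simpa using hv.2.1 j c hc hc'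
  · intro i j hij c hc
    revert hij
    refine Fin.cases ?_ (fun i' => ?_) i <;> refine Fin.cases ?_ (fun j' => ?_) j
    · intro h
      exact absurd rfl h
    · intro _
      have := hcW c j' 0 hr0
      simpa [L_one] using this
    · intro _
      simp only [Fin.cons_succ, Fin.cons_zero]
      rw [herm_conj hF x (L (g ^ c) (v i')), hxW i' c hc, zero_pow (by omega)]
    · intro h
      simp only [Fin.cons_succ]
      exact hv.2.2 i' j' (fun h' => h (by rw [h'])) c hc

theorem fr_exists (hF : Fintype.card K = q ^ 2) (hr : r.Prime) (hodd : Odd r) (hrq : r ∣ q + 1)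
    (lam : Kˣ) (hlam : lam ^ (q + 1) = 1) (hI : Irreducible (X ^ r - C (lam : K) : K[X]))
    (g : GL (Fin n) K) (hg : g ∈ Cfsg.GU n K q) (hg1 : g ^ r = sc lam) :
    ∀ k, k * r ≤ n → ∃ v : Fin k → (Fin n → K), FR g q r v := by
  intro k
  induction k with
  | zero =>
    intro _
    exact ⟨Fin.elim0, fun i => i.elim0, fun i => i.elim0, fun i => i.elim0⟩
  | succ k ih =>
    intro hk
    have h1 : (k + 1) * r = k * r + r := by ring
    obtain ⟨v, hv⟩ := ih (by omega)
    obtain ⟨x, hx⟩ := fr_step hF hr hodd hrq lam hlam hI g hg hg1 v hv (by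
      have := hr.pos
      omega)
    exact ⟨_, hx⟩

theorem nonsplit_conj (hF : Fintype.card K = q ^ 2) (hr : r.Prime) (hodd : Odd r) (hrq : r ∣ q + 1)
    (lam : Kˣ) (hlam : lam ^ (q + 1) = 1) (hI : Irreducible (X ^ r - C (lam : K) : K[X]))
    (g g' : GL (Fin n) K) (hg : g ∈ Cfsg.GU n K q) (hg' : g' ∈ Cfsg.GU n K q)
    (hg1 : g ^ r = sc lam) (hg1' : g' ^ r = sc lam) : ∃ P ∈ Cfsg.GU n K q, P * g * P⁻¹ = g' := by
  classical
  obtain ⟨d, hd⟩ := dvd_of_nonsplit r hr.ne_zero lam hI g hg1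
  have hdr : d * r = n := by rw [hd, mul_comm]
  obtain ⟨v, hv⟩ := fr_exists hF hr hodd hrq lam hlam hI g hg hg1 d hdr.le
  obtain ⟨v', hv'⟩ := fr_exists hF hr hodd hrq lam hlam hI g' hg' hg1' d hdr.le
  have hcard : Fintype.card (Fin d × Fin r) = n := by simpa using hdr
  let e : Fin d × Fin r ≃ Fin n := Fintype.equivFinOfCardEq hcard
  have hr0 := hr.pos
  let u : Fin n → (Fin n → K) := fun j => L (g ^ ((e.symm j).2 : ℕ)) (v (e.symm j).1)
  let u' : Fin n → (Fin n → K) := fun j => L (g' ^ ((e.symm j).2 : ℕ)) (v' (e.symm j).1)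
  have hu : IsON q u := fun i j => by
    rw [show hh (u i) (u j) = _ from fam_on hF g hg v hv (e.symm i) (e.symm j)]
    simp
  have hu' : IsON q u' := fun i j => by
    rw [show hh (u' i) (u' j) = _ from fam_on hF g' hg' v' hv' (e.symm i) (e.symm j)]
    simp
  have hpow_r : ∀ (h : GL (Fin n) K), h ^ r = sc lam → ∀ y : Fin n → K, L (h ^ r) y = (lam : K) • y :=
    fun h hh' y => by
    rw [hh', L_sc]
    rfl
  refine conj_of_action hF g g' u u' hu hu' fun j => ?_
  by_cases ha : ((e.symm j).2 : ℕ) + 1 < r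
  · refine ⟨1, e ((e.symm j).1, ⟨_, ha⟩), ?_, ?_⟩
    · simp only [u, Equiv.symm_apply_apply, one_smul]
      rw [L_pow_apply_succ]
    · simp only [u', Equiv.symm_apply_apply, one_smul]
      rw [L_pow_apply_succ]
  · have ha' : ((e.symm j).2 : ℕ) + 1 = r := by
      have := (e.symm j).2.2
      omega
    refine ⟨(lam : K), e ((e.symm j).1, ⟨0, hr0⟩), ?_, ?_⟩
    · simp only [u, Equiv.symm_apply_apply]
      rw [← L_pow_apply_succ, ha', hpow_r g hg1, pow_zero, L_one]
      rfl
    · simp only [u', Equiv.symm_apply_apply]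
      rw [← L_pow_apply_succ, ha', hpow_r g' hg1', pow_zero, L_one]
      rfl

theorem exists_nonsplit_GU (hF : Fintype.card K = q ^ 2) (hr : r.Prime) (lam : Kˣ)
    (hlam : lam ^ (q + 1) = 1) (hn : r ∣ n) :
    ∃ g : GL (Fin n) K, g ∈ Cfsg.GU n K q ∧ g ^ r = sc lam := by
  classical
  obtain ⟨d, hd⟩ := hn
  have hcard : Fintype.card (Fin d × Fin r) = n := by
    simp [hd, mul_comm]
  let e : Fin d × Fin r ≃ Fin n := Fintype.equivFinOfCardEq hcard
  have hr0 := hr.pos
  let s : Fin r → Fin r := fun a => ⟨(a + 1) % r, Nat.mod_lt _ hr0⟩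
  have hsval : ∀ a : Fin r, (s a : ℕ) = if (a : ℕ) + 1 < r then (a : ℕ) + 1 else 0 := by
    intro a
    simp only [s]
    split_ifs with h
    · exact Nat.mod_eq_of_lt h
    · have : (a : ℕ) + 1 = r := by
        have := a.2
        omega
      rw [this, Nat.mod_self]
  have hsinj : Function.Injective s := by
    intro a b h
    have h1 := congrArg Fin.val h
    rw [hsval, hsval] at h1
    have ha := a.2
    have hb := b.2
    apply Fin.ext
    split_ifs at h1 <;> omega
  let t : Fin r → Kˣ := fun a => if (a : ℕ) + 1 < r then 1 else lam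
  have ht : ∀ a, (t a) ^ (q + 1) = 1 := by
    intro a
    simp only [t]
    split_ifs
    · simp
    · exact hlam
  let E : Fin d × Fin r → (Fin n → K) := fun p => Pi.single (e p) 1
  let u : Fin n → (Fin n → K) := fun j =>
    ((t (e.symm j).2 : Kˣ) : K) • E ((e.symm j).1, s (e.symm j).2)
  have hu : IsON q u := by
    intro i j
    simp only [u, E]
    rw [herm_smul_left, herm_smul_right hF, herm_single_single hF]
    by_cases hij : i = j
    · subst hij
      simp only [if_true, mul_one]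
      rw [← pow_succ', ← Units.val_pow_eq_pow_val, ht, Units.val_one]
    · rw [if_neg hij, if_neg, mul_zero, mul_zero]
      intro h
      apply hij
      have h1 := e.injective h
      simp only [Prod.mk.injEq] at h1
      apply e.symm.injective
      exact Prod.ext h1.1 (hsinj h1.2)
  let g := unitOf hF u hu
  have hgE : ∀ p : Fin d × Fin r, L g (E p) = ((t p.2 : Kˣ) : K) • E (p.1, s p.2) := by
    intro p
    have := L_unitOf hF u hu (e p)
    simpa [u] using this
  have hpow : ∀ (i : Fin d) (k : ℕ) (hk : k < r), L (g ^ k) (E (i, ⟨0, hr0⟩)) = E (i, ⟨k, hk⟩) := by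
    intro i k
    induction k with
    | zero =>
      intro _
      simp [L_one]
    | succ k ih =>
      intro hk
      rw [L_pow_apply_succ, ih (by omega), hgE]
      have h1 : t ⟨k, by omega⟩ = 1 := by
        simp only [t]
        rw [if_pos hk]
      have h2 : s ⟨k, by omega⟩ = ⟨k + 1, hk⟩ := by
        apply Fin.ext
        rw [hsval]
        simp [hk]
      rw [h1, h2]
      simp
  have hr1 : ∀ i : Fin d, L (g ^ r) (E (i, ⟨0, hr0⟩)) = (lam : K) • E (i, ⟨0, hr0⟩) := by
    intro i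
    have h0 : g ^ r = g * g ^ (r - 1) := by
      rw [← pow_succ']
      congr 1
      omega
    have h3 : r - 1 < r := by omega
    rw [h0, L_mul, Module.End.mul_apply, hpow i (r - 1) h3, hgE]
    have h1 : t ⟨r - 1, h3⟩ = lam := by
      simp only [t]
      rw [if_neg (by simp; omega)]
    have h2 : s ⟨r - 1, h3⟩ = ⟨0, hr0⟩ := by
      apply Fin.ext
      rw [hsval, if_neg (by simp; omega)]
    simp only [h1, h2]
  refine ⟨g, unitOf_mem hF u hu, ?_⟩
  apply L_inj
  refine (Pi.basisFun K (Fin n)).ext fun j => ?_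
  rw [Pi.basisFun_apply, L_sc]
  obtain ⟨⟨i, a⟩, rfl⟩ := e.surjective j
  have h5 : (Pi.single (e (i, a)) 1 : Fin n → K) = L (g ^ (a : ℕ)) (E (i, ⟨0, hr0⟩)) := by
    rw [hpow i a a.2]
  rw [h5, ← Module.End.mul_apply, ← L_mul, ← pow_add, add_comm, pow_add, L_mul, Module.End.mul_apply,
    hr1, map_smul]
  rfl

end Cfsg.Agent.H01.PglCl
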