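import Mathlib
import Cfsg.Agent.Lib.H01.GuCl4

/-! The centre of `GU_n` and the quotient `PGU_n`. -/

set_option linter.unusedSectionVars false
set_option autoImplicit false

namespace Cfsg.Agent.H01.PglCl

open Polynomial Module Matrix MulAction
open Cfsg.Agent.Lead

variable {K : Type*} [Field K] [Fintype K] {q n r : ℕ}

local notation "hh" => Cfsg.hermForm n K q

/-- the unit-norm scalars -/
abbrev Nm (K : Type*) [Field K] (q : ℕ) : Subgroup Kˣ := Mu K (q + 1)

theorem card_Nm (hF : Fintype.card K = q ^ 2) : Nat.card (Nm K q) = q + 1 := by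
  have hq2 := two_le_q hF
  apply card_Mu hF
  have : q ^ 2 - 1 = (q + 1) * (q - 1) := by
    obtain ⟨t, rfl⟩ : ∃ t, q = t + 1 := ⟨q - 1, by omega⟩
    simp only [Nat.add_sub_cancel]
    have : (t + 1) ^ 2 = (t + 1 + 1) * t + 1 := by ring
    omega
  rw [this]
  exact dvd_mul_right _ _

theorem exists_ne_one_Nm (hF : Fintype.card K = q ^ 2) : ∃ a : Kˣ, a ^ (q + 1) = 1 ∧ a ≠ 1 := by
  have hq2 := two_le_q hF
  have h1 : 1 < Nat.card (Nm K q) := by
    rw [card_Nm hF]
    omega
  haveI : Nontrivial (Nm K q) := Finite.one_lt_card_iff_nontrivial.1 h1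
  obtain ⟨a, ha⟩ := exists_ne (1 : Nm K q)
  exact ⟨a, mem_Mu.1 a.2, fun h => ha (Subtype.ext h)⟩

/-- elementary unitary diagonal -/
noncomputable def diagOne (a : Kˣ) (i : Fin n) : GL (Fin n) K :=
  diagG (fun j => if j = i then a else 1)

theorem center_GU_scalar (hF : Fintype.card K = q ^ 2) (hn : 0 < n) (g : Cfsg.GU n K q)
    (hg : g ∈ Subgroup.center (Cfsg.GU n K q)) :
    ∃ c : Kˣ, c ^ (q + 1) = 1 ∧ (g : GL (Fin n) K) = sc c := by
  classical
  obtain ⟨a, ha, ha1⟩ := exists_ne_one_Nm hF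
  have hq2 := two_le_q hF
  have hcomm : ∀ h : GL (Fin n) K, h ∈ Cfsg.GU n K q → ∀ x : Fin n → K,
      L (g : GL (Fin n) K) (L h x) = L h (L (g : GL (Fin n) K) x) := by
    intro h hh' x
    have h1 := (Subgroup.mem_center_iff.1 hg) ⟨h, hh'⟩
    have h2 : h * (g : GL (Fin n) K) = (g : GL (Fin n) K) * h := congrArg Subtype.val h1
    rw [← Module.End.mul_apply, ← L_mul, ← h2, L_mul, Module.End.mul_apply]
  let e : Fin n → (Fin n → K) := fun j => Pi.single j 1
  have hoff : ∀ i j : Fin n, i ≠ j → L (g : GL (Fin n) K) (e j) i = 0 := by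
    intro i j hij
    have hD : diagOne a i ∈ Cfsg.GU n K q := by
      apply diagG_mem hF
      intro t
      by_cases ht : t = i
      · simp [ht, ha]
      · simp [ht]
    have h1 := hcomm _ hD (e j)
    have h2 : L (diagOne a i) (e j) = e j := by
      have := L_diagG (fun t => if t = i then a else 1) j
      simp only [if_neg (Ne.symm hij), Units.val_one, one_smul] at this
      exact this
    rw [h2] at h1
    have h3 : ∀ y : Fin n → K, L (diagOne a i) y i = (a : K) * y i := by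
      intro y
      rw [L_apply]
      show (Matrix.diagonal _).mulVec y i = _
      rw [Matrix.mulVec_diagonal]
      simp
    have h4 := congrFun h1 i
    rw [h3] at h4
    have h5 : ((a : K) - 1) * L (g : GL (Fin n) K) (e j) i = 0 := by
      rw [sub_mul, one_mul, ← h4, sub_self]
    have h6 : (a : K) - 1 ≠ 0 := fun h => ha1 (Units.ext (sub_eq_zero.1 h))
    exact (mul_eq_zero.1 h5).resolve_left h6
  let d : Fin n → K := fun j => L (g : GL (Fin n) K) (e j) j
  have hdiag : ∀ j, L (g : GL (Fin n) K) (e j) = d j • e j := by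
    intro j
    funext i
    by_cases hij : i = j
    · subst hij
      simp [e, d]
    · rw [hoff i j hij]
      simp [e, Pi.single_eq_of_ne hij]
  have hswap : ∀ i j, d i = d j := by
    intro i j
    let σ := Equiv.swap i j
    have hON : IsON q (fun t => e (σ t)) := by
      intro s t
      show hh (Pi.single (σ s) 1) (Pi.single (σ t) 1) = _
      rw [herm_single_single hF]
      simp
    have h1 := hcomm _ (unitOf_mem hF _ hON) (e j)
    have hS : ∀ t, L (unitOf hF _ hON) (e t) = e (σ t) := fun t => L_unitOf hF _ hON t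
    have hσ : σ j = i := Equiv.swap_apply_right i j
    rw [hS, hdiag (σ j), hdiag j, map_smul, hS, hσ] at h1
    have h2 := congrFun h1 i
    simpa [e] using h2
  let n0 : Fin n := ⟨0, hn⟩
  have hd0 : d n0 ≠ 0 := by
    intro h0
    have h1 : L (g : GL (Fin n) K) (e n0) = 0 := by rw [hdiag, h0, zero_smul]
    have h2 := L_inv_L (g : GL (Fin n) K) (e n0)
    rw [h1, map_zero] at h2
    have h3 := congrFun h2 n0
    simp [e] at h3
  let c : Kˣ := Units.mk0 (d n0) hd0
  have hgc : (g : GL (Fin n) K) = sc c := by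
    apply L_inj
    refine (Pi.basisFun K (Fin n)).ext fun j => ?_
    rw [Pi.basisFun_apply, L_sc]
    show L (g : GL (Fin n) K) (e j) = (d n0 : K) • (1 : End K (Fin n → K)) (e j)
    rw [hdiag, hswap j n0]
    rfl
  refine ⟨c, ?_, hgc⟩
  have h1 : (sc c : GL (Fin n) K) ∈ Cfsg.GU n K q := by
    rw [← hgc]
    exact g.2
  rcases (sc_mem_iff hF c).1 h1 with h | h
  · omega
  · exact h

/-- scalars in `GU_n` -/
noncomputable def scU (hF : Fintype.card K = q ^ 2) (c : Nm K q) : Cfsg.GU n K q :=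
  ⟨sc (c : Kˣ), (sc_mem_iff hF _).2 (Or.inr (mem_Mu.1 c.2))⟩

theorem scU_val (hF : Fintype.card K = q ^ 2) (c : Nm K q) :
    ((scU hF c : Cfsg.GU n K q) : GL (Fin n) K) = sc (c : Kˣ) := rfl

theorem scU_mem_center (hF : Fintype.card K = q ^ 2) (c : Nm K q) :
    (scU hF c : Cfsg.GU n K q) ∈ Subgroup.center (Cfsg.GU n K q) := by
  rw [Subgroup.mem_center_iff]
  intro g
  apply Subtype.ext
  exact (sc_comm (c : Kˣ) (g : GL (Fin n) K)).symm

theorem mem_center_GU_iff (hF : Fintype.card K = q ^ 2) (hn : 0 < n) (g : Cfsg.GU n K q) :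
    g ∈ Subgroup.center (Cfsg.GU n K q) ↔ ∃ c : Nm K q, (g : GL (Fin n) K) = sc (c : Kˣ) := by
  constructor
  · intro h
    obtain ⟨c, hc, hg⟩ := center_GU_scalar hF hn g h
    exact ⟨⟨c, mem_Mu.2 hc⟩, hg⟩
  · rintro ⟨c, hc⟩
    have : g = scU hF c := Subtype.ext hc
    rw [this]
    exact scU_mem_center hF c

/-- the quotient -/
abbrev GbU (K : Type*) [Field K] (n q : ℕ) :=
  Cfsg.GU n K q ⧸ Subgroup.center (Cfsg.GU n K q)

/-- projection -/
noncomputable abbrev prU (g : Cfsg.GU n K q) : GbU K n q := QuotientGroup.mk g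

theorem prU_scU_mul (hF : Fintype.card K = q ^ 2) (c : Nm K q) (g : Cfsg.GU n K q) :
    prU (scU hF c * g) = prU g := by
  rw [QuotientGroup.eq]
  have h1 : (scU hF c * g)⁻¹ * g = (scU hF c)⁻¹ := by
    have h2 := (Subgroup.mem_center_iff.1 (scU_mem_center hF c)) g
    rw [← h2, _root_.mul_inv_rev, inv_mul_cancel_right]
  rw [h1]
  exact Subgroup.inv_mem _ (scU_mem_center hF c)

theorem isConj_prU_iff (hF : Fintype.card K = q ^ 2) (hn : 0 < n) (g g' : Cfsg.GU n K q) :
    IsConj (prU g) (prU g') ↔ ∃ P : Cfsg.GU n K q, ∃ c : Nm K q,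
      (P : GL (Fin n) K) * (g : GL (Fin n) K) * (P : GL (Fin n) K)⁻¹ = sc (c : Kˣ) * (g' : GL (Fin n) K) := by
  rw [isConj_iff]
  constructor
  · rintro ⟨x, hx⟩
    obtain ⟨P, rfl⟩ := QuotientGroup.mk_surjective x
    have h1 : prU (P * g * P⁻¹) = prU g' := hx
    rw [QuotientGroup.eq] at h1
    obtain ⟨c, hc⟩ := (mem_center_GU_iff hF hn _).1 h1
    refine ⟨P, c⁻¹, ?_⟩
    have hc' : ((P : GL (Fin n) K) * (g : GL (Fin n) K) * (P : GL (Fin n) K)⁻¹)⁻¹ * (g' : GL (Fin n) K) = sc (c : Kˣ) := hc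
    have h2 : (g' : GL (Fin n) K) = (P : GL (Fin n) K) * (g : GL (Fin n) K) * (P : GL (Fin n) K)⁻¹ * sc (c : Kˣ) := by
      rw [← hc']
      group
    have h3 := sc_comm (c : Kˣ) ((P : GL (Fin n) K) * (g : GL (Fin n) K) * (P : GL (Fin n) K)⁻¹)
    rw [h2, Subgroup.coe_inv, sc_inv, ← h3, inv_mul_cancel_left]
  · rintro ⟨P, c, h⟩
    refine ⟨prU P, ?_⟩
    show prU (P * g * P⁻¹) = prU g'
    have h1 : P * g * P⁻¹ = scU hF c * g' := Subtype.ext h
    rw [h1, prU_scU_mul]

theorem order_iffU (hF : Fintype.card K = q ^ 2) (hn : 0 < n) (hr : r.Prime) (g : Cfsg.GU n K q) :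
    orderOf (prU g) = r ↔ g ∉ Subgroup.center (Cfsg.GU n K q) ∧
      ∃ c : Nm K q, (g : GL (Fin n) K) ^ r = sc (c : Kˣ) := by
  have hone : ∀ x : Cfsg.GU n K q, prU x = 1 ↔ x ∈ Subgroup.center (Cfsg.GU n K q) :=
    fun x => QuotientGroup.eq_one_iff x
  constructor
  · intro h
    constructor
    · intro hg
      have := (hone g).2 hg
      rw [this, orderOf_one] at h
      exact hr.one_lt.ne h
    · have h1 : prU g ^ r = 1 := by rw [← h]; exact pow_orderOf_eq_one _
      have h2 : prU (g ^ r) = 1 := h1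
      obtain ⟨c, hc⟩ := (mem_center_GU_iff hF hn _).1 ((hone _).1 h2)
      exact ⟨c, hc⟩
  · rintro ⟨h1, c, hc⟩
    haveI : Fact r.Prime := ⟨hr⟩
    apply orderOf_eq_prime
    · show prU (g ^ r) = 1
      rw [hone]
      exact (mem_center_GU_iff hF hn _).2 ⟨c, hc⟩
    · rw [Ne, hone]
      exact h1

/-- the classes of elements of order `r` -/
abbrev TTU (K : Type*) [Field K] (n q r : ℕ) :=
  {C : ConjClasses (GbU K n q) // ∃ g : GbU K n q, ConjClasses.mk g = C ∧ orderOf g = r}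

section nonsplit

/-- the `r`-th powers of unit-norm scalars -/
abbrev PwU (K : Type*) [Field K] (q r : ℕ) : Subgroup (Nm K q) :=
  (powMonoidHom r : Nm K q →* Nm K q).range

theorem irrU (hF : Fintype.card K = q ^ 2) (hr : r.Prime) (hr2 : r ≠ 2) (hrq : r ∣ q + 1) (c : Nm K q)
    (hc : c ∉ PwU K q r) : Irreducible (X ^ r - C ((c : Kˣ) : K) : K[X]) := by
  have hq2 := two_le_q hF
  refine X_pow_sub_C_irreducible_of_prime hr fun b hb => hc ?_
  have hb0 : b ≠ 0 := by
    rintro rfl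
    rw [zero_pow hr.ne_zero] at hb
    exact (c : Kˣ).ne_zero hb.symm
  have hcop : Nat.Coprime r (q - 1) := by
    rw [Nat.Prime.coprime_iff_not_dvd hr]
    intro h
    have h2 : r ∣ 2 := by
      have h3 : q + 1 = (q - 1) + 2 := by omega
      rw [h3] at hrq
      exact (Nat.dvd_add_right h).1 hrq
    have := (Nat.prime_dvd_prime_iff_eq hr Nat.prime_two).1 h2
    exact hr2 this
  have hy1 : (b ^ (q + 1)) ^ r = 1 := by
    rw [← pow_mul, mul_comm, pow_mul, hb, ← Units.val_pow_eq_pow_val, mem_Mu.1 c.2, Units.val_one]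
  have hy2 : (b ^ (q + 1)) ^ (q - 1) = 1 := by
    have h1 : (q + 1) * (q - 1) = Fintype.card K - 1 := by
      rw [hF]
      obtain ⟨t, rfl⟩ : ∃ t, q = t + 1 := ⟨q - 1, by omega⟩
      simp only [Nat.add_sub_cancel]
      have : (t + 1) ^ 2 = (t + 1 + 1) * t + 1 := by ring
      omega
    rw [← pow_mul, h1]
    exact FiniteField.pow_card_sub_one_eq_one b hb0
  have hy : b ^ (q + 1) = 1 := by
    have h1 := pow_gcd_eq_one.2 ⟨hy1, hy2⟩
    rw [hcop] at h1
    simpa using h1
  have hbu : (Units.mk0 b hb0) ^ (q + 1) = 1 := by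
    apply Units.ext
    simpa using hy
  refine ⟨⟨Units.mk0 b hb0, mem_Mu.2 hbu⟩, ?_⟩
  apply Subtype.ext
  apply Units.ext
  simpa using hb

end nonsplit

end Cfsg.Agent.H01.PglCl
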