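import Mathlib
import Cfsg.Agent.Lib.H01.GuCl5

/-! Conjugacy classes of elements of odd prime order `r ∣ q + 1` in `PGU_n(q)`. -/

set_option linter.unusedSectionVars false
set_option autoImplicit false

namespace Cfsg.Agent.H01.PglCl

open Polynomial Module Matrix MulAction
open Cfsg.Agent.Lead

variable {K : Type*} [Field K] [Fintype K] {q n r : ℕ}

section split
variable [Fintype (Mu K r)]

/-- a unitary matrix with given tuple -/
noncomputable def gOfU (hF : Fintype.card K = q ^ 2) (hrq : r ∣ q + 1) (a : NST (Mu K r) n) :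
    Cfsg.GU n K q :=
  ⟨Classical.choose (exists_of_tuple_GU hF hrq a.1 a.2.1),
    (Classical.choose_spec (exists_of_tuple_GU hF hrq a.1 a.2.1)).1⟩

theorem gOfU_pow (hF : Fintype.card K = q ^ 2) (hrq : r ∣ q + 1) (a : NST (Mu K r) n) :
    ((gOfU hF hrq a : Cfsg.GU n K q) : GL (Fin n) K) ^ r = 1 :=
  (Classical.choose_spec (exists_of_tuple_GU hF hrq a.1 a.2.1)).2.1

theorem mt_gOfU (hF : Fintype.card K = q ^ 2) (hrq : r ∣ q + 1) (a : NST (Mu K r) n) :
    mt ((gOfU hF hrq a : Cfsg.GU n K q) : GL (Fin n) K) = a.1 :=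
  (Classical.choose_spec (exists_of_tuple_GU hF hrq a.1 a.2.1)).2.2

theorem nc_of_mt (hF : Fintype.card K = q ^ 2) (hn : 0 < n) (g : Cfsg.GU n K q)
    (hg : (g : GL (Fin n) K) ^ r = 1) (hm : ∀ ζ : Mu K r, mt (g : GL (Fin n) K) ζ ≠ n) :
    g ∉ Subgroup.center (Cfsg.GU n K q) := fun h => by
  obtain ⟨c, hc⟩ := (mem_center_GU_iff hF hn g).1 h
  have h1 : (g : GL (Fin n) K) ∈ Subgroup.center (GL (Fin n) K) :=
    (mem_center_iff _).2 ⟨c, hc.symm⟩
  obtain ⟨ζ, hζ⟩ := (central_iff hn _ hg).1 h1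
  exact hm ζ hζ

/-- the class attached to a tuple -/
noncomputable def Psi0U (hF : Fintype.card K = q ^ 2) (hn : 0 < n) (hr : r.Prime) (hrq : r ∣ q + 1)
    (a : NST (Mu K r) n) : TTU K n q r :=
  ⟨ConjClasses.mk (prU (gOfU hF hrq a)), prU (gOfU hF hrq a), rfl,
    (order_iffU hF hn hr _).2 ⟨nc_of_mt hF hn _ (gOfU_pow hF hrq a) (by
      rw [mt_gOfU]
      exact a.2.2), 1, by
      rw [gOfU_pow]
      exact sc_one.symm⟩⟩

theorem Mu_le_Nm (hrq : r ∣ q + 1) (c : Mu K r) : (c : Kˣ) ∈ Nm K q := mem_Mu.2 (Mu_pow hrq c)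

theorem Psi0U_eq_iff (hF : Fintype.card K = q ^ 2) (hn : 0 < n) (hr : r.Prime) (hrq : r ∣ q + 1)
    (hc : Nat.card (Mu K r) = r) (a b : NST (Mu K r) n) :
    Psi0U hF hn hr hrq a = Psi0U hF hn hr hrq b ↔ orbitRel (Mu K r) (NST (Mu K r) n) a b := by
  rw [orbitRel_apply, mem_orbit_iff, Subtype.ext_iff]
  simp only [Psi0U]
  rw [ConjClasses.mk_eq_mk_iff_isConj, isConj_prU_iff hF hn]
  constructor
  · rintro ⟨P, c, h⟩
    have h1 : (1 : Kˣ) = (c : Kˣ) ^ r * 1 := pow_rel hn _ _ _ (c : Kˣ) 1 1 h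
      (by rw [gOfU_pow, sc_one]) (by rw [gOfU_pow, sc_one])
    have h2 : (c : Kˣ) ^ r = 1 := by simpa using h1.symm
    refine ⟨⟨c, mem_Mu.2 h2⟩, ?_⟩
    apply Subtype.ext
    funext ζ
    rw [smul_val]
    have h3 : mt ((P : GL (Fin n) K) * ((gOfU hF hrq a : Cfsg.GU n K q) : GL (Fin n) K) * (P : GL (Fin n) K)⁻¹) ζ =
        mt (sc (c : Kˣ) * ((gOfU hF hrq b : Cfsg.GU n K q) : GL (Fin n) K)) ζ := by rw [h]
    rw [mt_conj, mt_gOfU] at h3
    have h4 := mt_scal (⟨c, mem_Mu.2 h2⟩ : Mu K r) ((gOfU hF hrq b : Cfsg.GU n K q) : GL (Fin n) K) ζ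
    simp only at h4
    rw [h3, h4, mt_gOfU]
  · rintro ⟨c, hc'⟩
    have hpow : (sc (c : Kˣ) * ((gOfU hF hrq b : Cfsg.GU n K q) : GL (Fin n) K)) ^ r = 1 := by
      have h2 : Commute (sc (c : Kˣ) : GL (Fin n) K) ((gOfU hF hrq b : Cfsg.GU n K q) : GL (Fin n) K) :=
        sc_comm _ _
      rw [h2.mul_pow, gOfU_pow, mul_one, ← sc_pow, mem_Mu.1 c.2, sc_one]
    let c' : Nm K q := ⟨(c : Kˣ), Mu_le_Nm hrq c⟩
    obtain ⟨P, hPm, hP⟩ := split_conj hF hr.ne_zero hrq hc ((gOfU hF hrq a : Cfsg.GU n K q) : GL (Fin n) K)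
      (sc (c : Kˣ) * ((gOfU hF hrq b : Cfsg.GU n K q) : GL (Fin n) K)) (gOfU hF hrq a).2
      ((scU hF c' * gOfU hF hrq b).2) (gOfU_pow hF hrq a) hpow (by
        funext ζ
        rw [mt_scal, mt_gOfU, mt_gOfU, ← hc']
        rfl)
    exact ⟨⟨P, hPm⟩, c', hP⟩

end split

section nonsplit

/-- the nontrivial cosets of the `r`-th powers, when `r` divides `n` -/
abbrev WWU (K : Type*) [Field K] (n q r : ℕ) := {x : Nm K q ⧸ PwU K q r // x ≠ 1 ∧ r ∣ n}

/-- coset representative -/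
noncomputable def lamOfU (x : Nm K q ⧸ PwU K q r) : Nm K q := Quotient.out x

theorem mk_lamOfU (x : Nm K q ⧸ PwU K q r) : (lamOfU x : Nm K q ⧸ PwU K q r) = x :=
  QuotientGroup.out_eq' x

theorem lamOfU_not_mem (x : Nm K q ⧸ PwU K q r) (hx : x ≠ 1) : lamOfU x ∉ PwU K q r := fun h => by
  apply hx
  rw [← mk_lamOfU x]
  exact (QuotientGroup.eq_one_iff _).2 h

/-- a unitary matrix with given `r`-th power -/
noncomputable def gOutU (hF : Fintype.card K = q ^ 2) (hr : r.Prime) (x : WWU K n q r) :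
    Cfsg.GU n K q :=
  ⟨Classical.choose (exists_nonsplit_GU hF hr ((lamOfU x.1 : Nm K q) : Kˣ) (mem_Mu.1 (lamOfU x.1).2) x.2.2),
    (Classical.choose_spec
      (exists_nonsplit_GU hF hr ((lamOfU x.1 : Nm K q) : Kˣ) (mem_Mu.1 (lamOfU x.1).2) x.2.2)).1⟩

theorem gOutU_pow (hF : Fintype.card K = q ^ 2) (hr : r.Prime) (x : WWU K n q r) :
    ((gOutU hF hr x : Cfsg.GU n K q) : GL (Fin n) K) ^ r = sc ((lamOfU x.1 : Nm K q) : Kˣ) :=
  (Classical.choose_spec
      (exists_nonsplit_GU hF hr ((lamOfU x.1 : Nm K q) : Kˣ) (mem_Mu.1 (lamOfU x.1).2) x.2.2)).2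

theorem gOutU_nc (hF : Fintype.card K = q ^ 2) (hn : 0 < n) (hr : r.Prime) (x : WWU K n q r) :
    gOutU hF hr x ∉ Subgroup.center (Cfsg.GU n K q) := fun h => by
  obtain ⟨c, hc⟩ := (mem_center_GU_iff hF hn _).1 h
  have h1 := gOutU_pow hF hr x
  rw [hc, ← sc_pow] at h1
  have h2 := sc_inj hn h1
  exact lamOfU_not_mem x.1 x.2.1 ⟨c, Subtype.ext h2⟩

/-- the class attached to a coset -/
noncomputable def Psi1U (hF : Fintype.card K = q ^ 2) (hn : 0 < n) (hr : r.Prime) (x : WWU K n q r) :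
    TTU K n q r :=
  ⟨ConjClasses.mk (prU (gOutU hF hr x)), prU (gOutU hF hr x), rfl,
    (order_iffU hF hn hr _).2 ⟨gOutU_nc hF hn hr x, _, gOutU_pow hF hr x⟩⟩

theorem Psi1U_inj (hF : Fintype.card K = q ^ 2) (hn : 0 < n) (hr : r.Prime) :
    Function.Injective (Psi1U (K := K) (n := n) (q := q) (r := r) hF hn hr) := by
  intro x y h
  have h1 := congrArg Subtype.val h
  simp only [Psi1U] at h1
  rw [ConjClasses.mk_eq_mk_iff_isConj, isConj_prU_iff hF hn] at h1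
  obtain ⟨P, c, hP⟩ := h1
  have h2 := pow_rel hn _ _ _ (c : Kˣ) _ _ hP (gOutU_pow hF hr x) (gOutU_pow hF hr y)
  have h2' : lamOfU x.1 = c ^ r * lamOfU y.1 := Subtype.ext h2
  apply Subtype.ext
  rw [← mk_lamOfU x.1, ← mk_lamOfU y.1, h2', QuotientGroup.mk_mul]
  have h3 : ((c ^ r : Nm K q) : Nm K q ⧸ PwU K q r) = 1 := (QuotientGroup.eq_one_iff _).2 ⟨c, rfl⟩
  rw [h3]
  exact one_mul ((lamOfU y.1 : Nm K q) : Nm K q ⧸ PwU K q r)

theorem card_WWU (hF : Fintype.card K = q ^ 2) (hr : r.Prime) (hrq : r ∣ q + 1) :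
    Nat.card (WWU K n q r) = (r - 1) * (if r ∣ n then 1 else 0) := by
  classical
  split_ifs with h
  · have h1 : Nat.card (Nm K q ⧸ PwU K q r) = r := by
      have := IsCyclic.index_powMonoidHom_range (G := Nm K q) r
      rw [card_Nm hF, Nat.gcd_eq_right hrq] at this
      exact this
    haveI : Finite (Nm K q ⧸ PwU K q r) := Nat.finite_of_card_ne_zero (by rw [h1]; exact hr.ne_zero)
    have h2 := Nat.card_congr (Equiv.sumCompl (fun x : Nm K q ⧸ PwU K q r => x = 1))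
    rw [Nat.card_sum, h1] at h2
    have h3 : Nat.card {x : Nm K q ⧸ PwU K q r // x = 1} = 1 := by
      rw [Nat.card_eq_one_iff_unique]
      exact ⟨⟨fun a b => Subtype.ext (a.2.trans b.2.symm)⟩, ⟨⟨1, rfl⟩⟩⟩
    have h4 : Nat.card (WWU K n q r) = Nat.card {x : Nm K q ⧸ PwU K q r // ¬ x = 1} := by
      apply Nat.card_congr
      exact Equiv.subtypeEquivRight fun x => by simp [h]
    rw [h4]
    omega
  · haveI : IsEmpty (WWU K n q r) := ⟨fun x => h x.2.2⟩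
    simp

end nonsplit

section main
variable [Fintype (Mu K r)]

theorem ps_surjU (hF : Fintype.card K = q ^ 2) (hn : 0 < n) (hr : r.Prime) (hodd : Odd r)
    (hr2 : r ≠ 2) (hrq : r ∣ q + 1) (hc : Nat.card (Mu K r) = r) (C : TTU K n q r) :
    (∃ a : NST (Mu K r) n, Psi0U hF hn hr hrq a = C) ∨ (∃ x : WWU K n q r, Psi1U hF hn hr x = C) := by
  obtain ⟨C, x, rfl, ho⟩ := C
  obtain ⟨g, rfl⟩ := QuotientGroup.mk_surjective x
  obtain ⟨h1, c, hc'⟩ := (order_iffU hF hn hr g).1 ho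
  by_cases hP : c ∈ PwU K q r
  · left
    obtain ⟨b, rfl⟩ := hP
    have hc'' : (g : GL (Fin n) K) ^ r = sc ((b : Kˣ) ^ r) := hc'
    let g0 : Cfsg.GU n K q := scU hF b⁻¹ * g
    have h0 : (g0 : GL (Fin n) K) ^ r = 1 := by
      have h2 : Commute (sc ((b⁻¹ : Nm K q) : Kˣ) : GL (Fin n) K) (g : GL (Fin n) K) := sc_comm _ _
      show (sc ((b⁻¹ : Nm K q) : Kˣ) * (g : GL (Fin n) K)) ^ r = 1
      rw [h2.mul_pow, hc'', ← sc_pow, ← sc_mul]
      have : (((b⁻¹ : Nm K q) : Kˣ)) ^ r * ((b : Kˣ)) ^ r = 1 := by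
        simp
      rw [this, sc_one]
    have hnc : g0 ∉ Subgroup.center (Cfsg.GU n K q) := fun h => by
      apply h1
      have h3 : g = scU hF b * g0 := by
        simp only [g0]
        rw [← mul_assoc]
        have : (scU hF b : Cfsg.GU n K q) * scU hF b⁻¹ = 1 := by
          apply Subtype.ext
          show (sc (b : Kˣ) : GL (Fin n) K) * sc ((b⁻¹ : Nm K q) : Kˣ) = 1
          rw [← sc_mul]
          simp [sc_one]
        rw [this, one_mul]
      rw [h3]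
      exact Subgroup.mul_mem _ (scU_mem_center hF b) h
    have hm : ∀ ζ : Mu K r, mt (g0 : GL (Fin n) K) ζ ≠ n := fun ζ hζ => by
      apply hnc
      have h4 := (central_iff hn _ h0).2 ⟨ζ, hζ⟩
      obtain ⟨d, hd⟩ := (mem_center_iff _).1 h4
      have hd1 : (sc d : GL (Fin n) K) ∈ Cfsg.GU n K q := by
        rw [hd]
        exact g0.2
      have hd2 : d ^ (q + 1) = 1 := by
        rcases (sc_mem_iff hF d).1 hd1 with h | h
        · omega
        · exact h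
      exact (mem_center_GU_iff hF hn _).2 ⟨⟨d, mem_Mu.2 hd2⟩, hd.symm⟩
    let a : NST (Mu K r) n := ⟨mt (g0 : GL (Fin n) K), sum_mt hr.ne_zero hc _ h0, hm⟩
    refine ⟨a, ?_⟩
    apply Subtype.ext
    simp only [Psi0U]
    rw [ConjClasses.mk_eq_mk_iff_isConj]
    have h3 : prU g0 = prU g := prU_scU_mul hF _ _
    show IsConj (prU (gOfU hF hrq a)) (prU g)
    rw [← h3, isConj_prU_iff hF hn]
    obtain ⟨P, hPm, hP⟩ := split_conj hF hr.ne_zero hrq hc _ (g0 : GL (Fin n) K) (gOfU hF hrq a).2 g0.2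
      (gOfU_pow hF hrq a) h0 (mt_gOfU hF hrq a)
    refine ⟨⟨P, hPm⟩, 1, ?_⟩
    show P * _ * P⁻¹ = sc 1 * (g0 : GL (Fin n) K)
    rw [hP, sc_one, one_mul]
  · right
    have hI := irrU hF hr hr2 hrq c hP
    have hd : r ∣ n := dvd_of_nonsplit r hr.ne_zero (c : Kˣ) hI (g : GL (Fin n) K) hc'
    have hne : (c : Nm K q ⧸ PwU K q r) ≠ 1 := fun h => hP ((QuotientGroup.eq_one_iff _).1 h)
    let y : WWU K n q r := ⟨(c : Nm K q ⧸ PwU K q r), hne, hd⟩
    refine ⟨y, ?_⟩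
    apply Subtype.ext
    simp only [Psi1U]
    rw [ConjClasses.mk_eq_mk_iff_isConj]
    obtain ⟨⟨_, d, rfl⟩, hout⟩ := QuotientGroup.mk_out_eq_mul (PwU K q r) c
    have hl : lamOfU y.1 = c * d ^ r := hout
    let g1 : Cfsg.GU n K q := scU hF d * g
    have h0 : (g1 : GL (Fin n) K) ^ r = sc ((lamOfU y.1 : Nm K q) : Kˣ) := by
      have h2 : Commute (sc (d : Kˣ) : GL (Fin n) K) (g : GL (Fin n) K) := sc_comm _ _
      show (sc (d : Kˣ) * (g : GL (Fin n) K)) ^ r = _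
      rw [h2.mul_pow, hc', ← sc_pow, ← sc_mul, hl, mul_comm]
      rfl
    have hy : lamOfU y.1 ∉ PwU K q r := lamOfU_not_mem y.1 y.2.1
    obtain ⟨P, hPm, hP'⟩ := nonsplit_conj hF hr hodd hrq ((lamOfU y.1 : Nm K q) : Kˣ)
      (mem_Mu.1 (lamOfU y.1).2) (irrU hF hr hr2 hrq _ hy) _ (g1 : GL (Fin n) K) (gOutU hF hr y).2 g1.2
      (gOutU_pow hF hr y) h0
    have h3 : prU g1 = prU g := prU_scU_mul hF _ _
    show IsConj (prU (gOutU hF hr y)) (prU g)
    rw [← h3, isConj_prU_iff hF hn]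
    refine ⟨⟨P, hPm⟩, 1, ?_⟩
    show P * _ * P⁻¹ = sc 1 * (g1 : GL (Fin n) K)
    rw [hP', sc_one, one_mul]

theorem ps_crossU (hF : Fintype.card K = q ^ 2) (hn : 0 < n) (hr : r.Prime) (hrq : r ∣ q + 1)
    (a : NST (Mu K r) n) (x : WWU K n q r) : Psi0U hF hn hr hrq a ≠ Psi1U hF hn hr x := by
  intro h
  have h1 := congrArg Subtype.val h
  simp only [Psi0U, Psi1U] at h1
  rw [ConjClasses.mk_eq_mk_iff_isConj, isConj_prU_iff hF hn] at h1
  obtain ⟨P, c, hP⟩ := h1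
  have h2 := pow_rel hn _ _ _ (c : Kˣ) 1 _ hP (by rw [gOfU_pow, sc_one]) (gOutU_pow hF hr x)
  apply lamOfU_not_mem x.1 x.2.1
  refine ⟨c⁻¹, ?_⟩
  apply Subtype.ext
  have h3 : (((powMonoidHom r : Nm K q →* Nm K q) c⁻¹ : Nm K q) : Kˣ) = ((c : Kˣ) ^ r)⁻¹ := by simp
  rw [h3, inv_eq_iff_mul_eq_one]
  exact h2.symm

end main

theorem gu_main (hF : Fintype.card K = q ^ 2) (hn : 3 ≤ n) (hr : r.Prime) (hr2 : r ≠ 2)
    (hrq : r ∣ q + 1) :
    Nat.card (TTU K n q r) = (Nat.choose (n + r - 1) (r - 1) - r - (if r ∣ n then 1 else 0)) / r +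
      r * (if r ∣ n then 1 else 0) := by
  classical
  have hn0 : 0 < n := by omega
  have hq2 := two_le_q hF
  have hodd : Odd r := hr.odd_of_ne_two hr2
  letI : Fintype (Mu K r) := Fintype.ofFinite _
  have hc : Nat.card (Mu K r) = r := by
    apply card_Mu hF
    have : q ^ 2 - 1 = (q + 1) * (q - 1) := by
      obtain ⟨t, rfl⟩ : ∃ t, q = t + 1 := ⟨q - 1, by omega⟩
      simp only [Nat.add_sub_cancel]
      have : (t + 1) ^ 2 = (t + 1 + 1) * t + 1 := by ring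
      omega
    rw [this]
    exact hrq.trans (dvd_mul_right _ _)
  let Psi0' : orbitRel.Quotient (Mu K r) (NST (Mu K r) n) → TTU K n q r :=
    Quotient.lift (Psi0U hF hn0 hr hrq) (fun a b h => (Psi0U_eq_iff hF hn0 hr hrq hc a b).2 h)
  let Psi : orbitRel.Quotient (Mu K r) (NST (Mu K r) n) ⊕ WWU K n q r → TTU K n q r :=
    Sum.elim Psi0' (Psi1U hF hn0 hr)
  have hinj : Function.Injective Psi := by
    rintro (a | x) (b | y) h
    · induction a using Quotient.inductionOn with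
      | h a =>
        induction b using Quotient.inductionOn with
        | h b =>
          exact congrArg Sum.inl (Quotient.sound ((Psi0U_eq_iff hF hn0 hr hrq hc a b).1 h))
    · induction a using Quotient.inductionOn with
      | h a => exact absurd h (ps_crossU hF hn0 hr hrq a y)
    · induction b using Quotient.inductionOn with
      | h b => exact absurd h.symm (ps_crossU hF hn0 hr hrq b x)
    · exact congrArg Sum.inr (Psi1U_inj hF hn0 hr h)
  have hsurj : Function.Surjective Psi := by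
    intro C
    rcases ps_surjU hF hn0 hr hodd hr2 hrq hc C with ⟨a, ha⟩ | ⟨x, hx⟩
    · exact ⟨Sum.inl (Quotient.mk _ a), ha⟩
    · exact ⟨Sum.inr x, hx⟩
  have h1 := Nat.card_congr (Equiv.ofBijective Psi ⟨hinj, hsurj⟩)
  haveI := finite_NST (A := Mu K r) n
  haveI : Finite (WWU K n q r) := by
    have : Finite (Nm K q ⧸ PwU K q r) := inferInstance
    infer_instance
  rw [Nat.card_sum, card_WWU hF hr hrq] at h1
  have h2 := orbit_formula (A := Mu K r) (n := n) hn0 hr hc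
  rw [← h1]
  convert h2 using 2

end Cfsg.Agent.H01.PglCl
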