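import Mathlib

/-!
A fixed-point free involution on a finset: choosing one element out of each pair.
-/

namespace Cfsg.Agent.H01

universe u v

/-- Choose one element of each pair of a fixed-point free involution. -/
theorem exists_half {α : Type u} [DecidableEq α] (S : Finset α) (ι : α → α)
    (hι : ∀ x ∈ S, ι x ∈ S) (hinv : ∀ x ∈ S, ι (ι x) = x) (hfree : ∀ x ∈ S, ι x ≠ x) :
    ∃ T ⊆ S, Disjoint T (T.image ι) ∧ T ∪ T.image ι = S := by
  induction S using Finset.strongInduction with
  | H S ih =>
    rcases S.eq_empty_or_nonempty with h | ⟨a, ha⟩
    · subst h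
      exact ⟨∅, by simp, by simp, by simp⟩
    · set S' := (S.erase a).erase (ι a) with hS'
      have hS'sub : S' ⊆ S := fun x hx => Finset.mem_of_mem_erase (Finset.mem_of_mem_erase hx)
      have hS'ss : S' ⊂ S := by
        refine Finset.ssubset_iff_subset_ne.mpr ⟨hS'sub, ?_⟩
        intro h
        have : a ∈ S' := h ▸ ha
        exact (Finset.mem_erase.mp (Finset.mem_of_mem_erase this)).1 rfl
      have hmem : ∀ x, x ∈ S' ↔ x ≠ ι a ∧ x ≠ a ∧ x ∈ S := by
        intro x
        simp [hS', Finset.mem_erase]
      obtain ⟨T', hT', hdis, hun⟩ := ih S' hS'ss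
        (by
          intro x hx
          rw [hmem] at hx ⊢
          obtain ⟨h1, h2, h3⟩ := hx
          refine ⟨?_, ?_, hι x h3⟩
          · intro h
            apply h2
            rw [← hinv x h3, h, hinv a ha]
          · intro h
            apply h1
            rw [← hinv x h3, h])
        (fun x hx => hinv x (hS'sub hx)) (fun x hx => hfree x (hS'sub hx))
      refine ⟨insert a T', ?_, ?_, ?_⟩
      · intro x hx
        rcases Finset.mem_insert.mp hx with rfl | hx
        · exact ha
        · exact hS'sub (hT' hx)
      · rw [Finset.image_insert, Finset.disjoint_left]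
        intro x hx hx'
        rcases Finset.mem_insert.mp hx with rfl | hx
        · rcases Finset.mem_insert.mp hx' with h | h
          · exact hfree x ha h.symm
          · obtain ⟨y, hy, hxy⟩ := Finset.mem_image.mp h
            have hyS := hmem y |>.mp (hT' hy)
            apply hyS.1
            rw [← hinv y hyS.2.2, hxy]
        · have hxS := hmem x |>.mp (hT' hx)
          rcases Finset.mem_insert.mp hx' with h | h
          · exact hxS.1 h
          · exact Finset.disjoint_left.mp hdis hx h
      · ext x
        simp only [Finset.mem_union, Finset.mem_insert, Finset.image_insert]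
        constructor
        · rintro ((rfl | h) | (rfl | h))
          · exact ha
          · exact hS'sub (hT' h)
          · exact hι _ ha
          · have : x ∈ S' := by
              rw [← hun]
              exact Finset.mem_union_right _ h
            exact hS'sub this
        · intro hx
          by_cases h1 : x = a
          · exact Or.inl (Or.inl h1)
          by_cases h2 : x = ι a
          · exact Or.inr (Or.inl h2)
          have h3 : x ∈ S' := (hmem x).mpr ⟨h2, h1, hx⟩
          rw [← hun] at h3
          rcases Finset.mem_union.mp h3 with h | h
          · exact Or.inl (Or.inr h)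
          · exact Or.inr (Or.inr h)

/-- The sum over `S` as a sum over a half `T`. -/
theorem sum_half {α : Type u} {R : Type v} [AddCommMonoid R] [DecidableEq α] {S T : Finset α}
    {ι : α → α} (hinv : ∀ x ∈ S, ι (ι x) = x) (hT : T ⊆ S) (hdis : Disjoint T (T.image ι))
    (hun : T ∪ T.image ι = S) (f : α → R) :
    ∑ x ∈ S, f x = ∑ x ∈ T, (f x + f (ι x)) := by
  rw [← hun, Finset.sum_union hdis, Finset.sum_image, Finset.sum_add_distrib]
  intro x hx y hy hxy
  have h := congrArg ι hxy
  simpa [hinv x (hT hx), hinv y (hT hy)] using h

end Cfsg.Agent.H01
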