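import Mathlib
import Cfsg.Agent.Lib.H19.CyclicSylow

/-! Klein four Sylow 2-subgroups. -/

set_option autoImplicit false

namespace Cfsg.Agent.H01

open Subgroup

variable {G : Type*} [Group G] [Finite G]

theorem exists_conj_invol_into (P : Sylow 2 G) {t : G} (ht : orderOf t = 2) :
    ∃ g : G, g * t * g⁻¹ ∈ (P : Subgroup G) := by
  haveI : Fact (Nat.Prime 2) := ⟨Nat.prime_two⟩
  have h1 : IsPGroup 2 (Subgroup.zpowers t) := by
    apply IsPGroup.of_card (n := 1)
    rw [Nat.card_zpowers, ht, pow_one]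
  obtain ⟨R', hR'⟩ := h1.exists_le_sylow
  obtain ⟨a, ha⟩ := MulAction.exists_smul_eq G R' P
  refine ⟨a, ?_⟩
  rw [← ha, Sylow.coe_subgroup_smul]
  rw [Subgroup.mem_pointwise_smul_iff_inv_smul_mem]
  have : (MulAut.conj a)⁻¹ • (a * t * a⁻¹) = t := by
    simp [MulAut.smul_def, MulAut.conj_apply, map_inv]
    group
  rw [this]
  exact hR' (Subgroup.mem_zpowers t)

/-- An element normalizing an abelian Sylow 2-subgroup whose square centralizes it, centralizes it. -/
theorem mem_centralizer_of_sq (P : Sylow 2 G) (hab : ∀ a ∈ (P : Subgroup G), ∀ b ∈ (P : Subgroup G), a * b = b * a)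
    {n : G} (hn : n ∈ normalizer ((P : Subgroup G) : Set G))
    (h2 : n ^ 2 ∈ centralizer ((P : Subgroup G) : Set G)) :
    n ∈ centralizer ((P : Subgroup G) : Set G) := by
  haveI : Fact (Nat.Prime 2) := ⟨Nat.prime_two⟩
  obtain ⟨k, m, hm, hord⟩ := Nat.exists_eq_two_pow_mul_odd (orderOf_pos n).ne'
  have h3 : (n ^ m) ^ 2 ^ k = 1 := by
    rw [← pow_mul, mul_comm, ← hord, pow_orderOf_eq_one]
  obtain ⟨j, -, hj⟩ := (Nat.dvd_prime_pow Nat.prime_two).mp (orderOf_dvd_of_pow_eq_one h3)
  have h4 : n ^ m ∈ (P : Subgroup G) :=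
    Cfsg.Agent.H19.mem_sylow_of_mem_normalizer P hj (pow_mem hn m)
  have h5 : n ^ m ∈ centralizer ((P : Subgroup G) : Set G) := by
    rw [Subgroup.mem_centralizer_iff]
    intro y hy
    exact hab y hy _ h4
  obtain ⟨r, hr⟩ := hm
  have h6 : n = ((n ^ 2) ^ r)⁻¹ * n ^ m := by
    rw [hr, pow_succ n (2 * r), pow_mul, inv_mul_cancel_left]
  rw [h6]
  exact mul_mem (inv_mem (pow_mem h2 r)) h5

/-- The number of classes of involutions. -/
noncomputable abbrev invClassCount (G : Type*) [Group G] : ℕ :=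
  Nat.card {C : ConjClasses G // ∃ t : G, orderOf t = 2 ∧ ConjClasses.mk t = C}

theorem card_ne_one_of_klein (P : Sylow 2 G) (hP : IsKleinFour (P : Subgroup G)) :
    Nat.card {x : (P : Subgroup G) // x ≠ 1} = 3 := by
  classical
  haveI := hP
  haveI : Finite (P : Subgroup G) := inferInstance
  haveI := Fintype.ofFinite (P : Subgroup G)
  have h1 : Fintype.card (P : Subgroup G) = 4 := IsKleinFour.card_four'
  rw [Nat.card_eq_fintype_card, Fintype.card_subtype_compl, h1]
  simp

/-- **Dichotomy** for a Klein four Sylow 2-subgroup. -/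
theorem klein_dichotomy (P : Sylow 2 G) (hP : IsKleinFour (P : Subgroup G)) :
    (invClassCount G = 3 ∧ ∃ N : Subgroup G, N.Normal ∧ Subgroup.IsComplement' N (P : Subgroup G)) ∨
    (invClassCount G = 1 ∧ ¬ ∃ N : Subgroup G, N.Normal ∧ Subgroup.IsComplement' N (P : Subgroup G)) := by
  classical
  haveI : Fact (Nat.Prime 2) := ⟨Nat.prime_two⟩
  haveI := hP
  haveI hcomm : IsMulCommutative (P : Subgroup G) := IsKleinFour.isMulCommutative
  have hab : ∀ a ∈ (P : Subgroup G), ∀ b ∈ (P : Subgroup G), a * b = b * a := fun a ha b hb =>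
    congrArg Subtype.val (hcomm.is_comm.comm ⟨a, ha⟩ ⟨b, hb⟩)
  have hord : ∀ x : (P : Subgroup G), x ≠ 1 → orderOf (x : G) = 2 := by
    intro x hx
    rw [Subgroup.orderOf_coe]
    apply orderOf_eq_prime
    · rw [pow_two]; exact IsKleinFour.mul_self x
    · exact hx
  by_cases hNC : normalizer ((P : Subgroup G) : Set G) ≤ centralizer ((P : Subgroup G) : Set G)
  · left
    constructor
    · -- no fusion
      have hnf : ∀ a ∈ (P : Subgroup G), ∀ b ∈ (P : Subgroup G), IsConj a b → a = b := by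
        intro a ha b hb hc
        obtain ⟨u, hu⟩ := isConj_iff.mp hc
        have hb' : u⁻¹⁻¹ * a * u⁻¹ ∈ (P : Subgroup G) := by rw [inv_inv, hu]; exact hb
        obtain ⟨n, hn, h⟩ := P.conj_eq_normalizer_conj_of_mem a u⁻¹ ha hb'
        have h1 : n⁻¹ ∈ centralizer ((P : Subgroup G) : Set G) := hNC (inv_mem hn)
        have h2 := Subgroup.mem_centralizer_iff.mp h1 a ha
        have h3 : u * a * u⁻¹ = n⁻¹ * a * n := by simpa using h
        rw [← hu, h3, ← h2]
        group
      rw [invClassCount, ← card_ne_one_of_klein P hP]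
      symm
      refine Nat.card_congr (Equiv.ofBijective (fun x : {x : (P : Subgroup G) // x ≠ 1} =>
        ⟨ConjClasses.mk ((x.1 : (P : Subgroup G)) : G), _, hord x.1 x.2, rfl⟩) ⟨?_, ?_⟩)
      · rintro ⟨a, ha⟩ ⟨b, hb⟩ h
        have h1 : ConjClasses.mk (a : G) = ConjClasses.mk (b : G) := congrArg Subtype.val h
        rw [ConjClasses.mk_eq_mk_iff_isConj] at h1
        exact Subtype.ext (Subtype.ext (hnf _ a.2 _ b.2 h1))
      · rintro ⟨C, t, ht, rfl⟩
        obtain ⟨g, hg⟩ := exists_conj_invol_into P ht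
        have hne : (⟨g * t * g⁻¹, hg⟩ : (P : Subgroup G)) ≠ 1 := by
          intro h
          have h1 : g * t * g⁻¹ = 1 := congrArg Subtype.val h
          have h2 : t = 1 := by
            have : t = g⁻¹ * (g * t * g⁻¹) * g := by group
            rw [this, h1]; group
          rw [h2] at ht; simp at ht
        refine ⟨⟨_, hne⟩, ?_⟩
        apply Subtype.ext
        show ConjClasses.mk (g * t * g⁻¹) = ConjClasses.mk t
        rw [ConjClasses.mk_eq_mk_iff_isConj]
        exact (isConj_iff.mpr ⟨g, rfl⟩ : IsConj t (g * t * g⁻¹)).symm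
    · exact Cfsg.Agent.H19.burnside_complement P hNC
  · right
    obtain ⟨n, hnN, hnC⟩ := Set.not_subset.mp hNC
    replace hnN : n ∈ normalizer ((P : Subgroup G) : Set G) := hnN
    replace hnC : n ∉ centralizer ((P : Subgroup G) : Set G) := hnC
    have hnC' := hnC
    rw [Subgroup.mem_centralizer_iff] at hnC
    push Not at hnC
    obtain ⟨a₀, ha₀P, ha₀⟩ := hnC
    have hconjP : ∀ x ∈ (P : Subgroup G), n * x * n⁻¹ ∈ (P : Subgroup G) :=
      fun x hx => (Subgroup.mem_normalizer_iff.mp hnN x).mp hx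
    let a : (P : Subgroup G) := ⟨a₀, ha₀P⟩
    let σ : ↥(P : Subgroup G) → ↥(P : Subgroup G) := fun x => ⟨n * x * n⁻¹, hconjP x x.2⟩
    have σinj : Function.Injective σ := by
      intro x y h
      have h1 : n * (x : G) * n⁻¹ = n * y * n⁻¹ := congrArg Subtype.val h
      apply Subtype.ext
      simpa using h1
    have σ1 : σ 1 = 1 := by
      apply Subtype.ext
      simp [σ]
    have σmul : ∀ x y, σ (x * y) = σ x * σ y := by
      intro x y
      apply Subtype.ext
      simp only [σ, Subgroup.coe_mul]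
      group
    have hne1 : ∀ x, x ≠ 1 → σ x ≠ 1 := by
      intro x hx h
      exact hx (σinj (h.trans σ1.symm))
    have ha : a ≠ 1 := by
      intro h
      apply ha₀
      have : a₀ = 1 := congrArg Subtype.val h
      rw [this]; simp
    set b := σ a with hb
    have hb1 : b ≠ 1 := hne1 a ha
    have hab' : a ≠ b := by
      intro h
      apply ha₀
      have h1 : a₀ = n * a₀ * n⁻¹ := congrArg Subtype.val h
      calc a₀ * n = (n * a₀ * n⁻¹) * n := by rw [← h1]
        _ = n * a₀ := by group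
    have hσb : σ b = a * b := by
      apply IsKleinFour.eq_mul_of_ne_all ha hb1 hab' (hne1 b hb1)
      · -- `σ b = a` is impossible
        intro h
        apply hnC'
        apply mem_centralizer_of_sq P hab hnN
        rw [Subgroup.mem_centralizer_iff]
        intro y hy
        let y₀ : (P : Subgroup G) := ⟨y, hy⟩
        have hσσ : σ (σ y₀) = y₀ := by
          by_cases h1 : y₀ = 1
          · rw [h1, σ1, σ1]
          by_cases h2 : y₀ = a
          · rw [h2, ← hb, h]
          by_cases h3 : y₀ = b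
          · rw [h3, h, ← hb]
          have h4 : y₀ = a * b := IsKleinFour.eq_mul_of_ne_all ha hb1 hab' h1 h2 h3
          rw [h4, σmul, ← hb, h, σmul, ← hb, h]
        have h5 : n * (n * y * n⁻¹) * n⁻¹ = y := congrArg Subtype.val hσσ
        calc y * n ^ 2 = (n * (n * y * n⁻¹) * n⁻¹) * (n * n) := by rw [h5, pow_two]
          _ = n * n * y := by group
          _ = n ^ 2 * y := by rw [pow_two]
      · intro h
        apply hab'
        exact σinj (hb.symm.trans h.symm) 
    have hconj1 : IsConj (a : G) (b : G) := isConj_iff.mpr ⟨n, rfl⟩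
    have hconj2 : IsConj (b : G) ((a * b : (P : Subgroup G)) : G) :=
      isConj_iff.mpr ⟨n, congrArg Subtype.val hσb⟩
    constructor
    · rw [invClassCount, Nat.card_eq_one_iff_unique]
      have hall : ∀ t : G, orderOf t = 2 → ConjClasses.mk t = ConjClasses.mk (a : G) := by
        intro t ht
        obtain ⟨g, hg⟩ := exists_conj_invol_into P ht
        rw [ConjClasses.mk_eq_mk_iff_isConj]
        have h0 : IsConj t (g * t * g⁻¹) := isConj_iff.mpr ⟨g, rfl⟩
        refine h0.trans ?_
        let x : (P : Subgroup G) := ⟨g * t * g⁻¹, hg⟩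
        have hx1 : x ≠ 1 := by
          intro h
          have h1 : g * t * g⁻¹ = 1 := congrArg Subtype.val h
          have h2 : t = 1 := by
            have : t = g⁻¹ * (g * t * g⁻¹) * g := by group
            rw [this, h1]; group
          rw [h2] at ht; simp at ht
        by_cases h2 : x = a
        · have h3 : g * t * g⁻¹ = (a : G) := congrArg Subtype.val h2
          rw [h3]
        by_cases h3 : x = b
        · have h4 : g * t * g⁻¹ = (b : G) := congrArg Subtype.val h3
          rw [h4]; exact hconj1.symm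
        have h4 : x = a * b := IsKleinFour.eq_mul_of_ne_all ha hb1 hab' hx1 h2 h3
        have h5 : g * t * g⁻¹ = ((a * b : (P : Subgroup G)) : G) := congrArg Subtype.val h4
        rw [h5]
        exact (hconj1.trans hconj2).symm
      refine ⟨⟨?_⟩, ⟨⟨_, (a : G), hord a ha, rfl⟩⟩⟩
      rintro ⟨C, t, ht, rfl⟩ ⟨D, u, hu, rfl⟩
      apply Subtype.ext
      show ConjClasses.mk t = ConjClasses.mk u
      rw [hall t ht, hall u hu]
    · rintro ⟨N, hN, hR⟩
      obtain ⟨⟨n₁, p₁⟩, h⟩ := hR.2 n
      have h' : (n₁ : G) * (p₁ : G) = n := h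
      have h1 : (b : G) = n₁ * (a : G) * (n₁ : G)⁻¹ := by
        show n * (a : G) * n⁻¹ = _
        rw [← h']
        have h2 : (p₁ : G) * (a : G) = a * p₁ := hab _ p₁.2 _ a.2
        calc (n₁ : G) * p₁ * a * ((n₁ : G) * p₁)⁻¹ = n₁ * ((p₁ : G) * a) * (p₁ : G)⁻¹ * (n₁ : G)⁻¹ := by group
          _ = n₁ * (a * p₁) * (p₁ : G)⁻¹ * (n₁ : G)⁻¹ := by rw [h2]
          _ = _ := by group
      have h3 : (a : G)⁻¹ * b ∈ N := by
        rw [h1]
        have h4 : (a : G)⁻¹ * n₁ * (a : G)⁻¹⁻¹ ∈ N := hN.conj_mem _ n₁.2 _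
        have h5 : (a : G)⁻¹ * (n₁ * (a : G) * (n₁ : G)⁻¹) = ((a : G)⁻¹ * n₁ * (a : G)⁻¹⁻¹) * (n₁ : G)⁻¹ := by
          group
        rw [h5]
        exact mul_mem h4 (inv_mem n₁.2)
      have h4 : (a : G)⁻¹ * b ∈ (P : Subgroup G) := mul_mem (inv_mem a.2) b.2
      have h5 := Subgroup.disjoint_def.mp hR.disjoint h3 h4
      apply hab'
      apply Subtype.ext
      have h6 : (b : G) = a := by
        have := mul_eq_one_iff_eq_inv.mp h5
        exact (inv_injective this).symm
      exact h6.symm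

end Cfsg.Agent.H01
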