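import Cfsg.Agent.Lib.H01.SpInv8
import Cfsg.Prelude.Def_Classical

/-! The additive character of a finite field of characteristic two, and the hyperbolic quadratic form. -/

set_option autoImplicit false
set_option linter.unusedSectionVars false

namespace Cfsg.Agent.H01.OCen

open Matrix Cfsg.Agent.H01.SpInv

universe u

variable {F : Type u} [Field F] [CharP F 2] [Fintype F]

local notation "fS" => Cfsg.Agent.Lead.sympForm

lemma add_sq_char2 (a b : F) : (a + b) ^ 2 = a ^ 2 + b ^ 2 := by
  have h2 : (2 : F) = 0 := CharTwo.two_eq_zero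
  linear_combination a * b * h2

variable (F) in
/-- The map `b ↦ b² + b`. -/
def wpHom : F →+ F := AddMonoidHom.mk' (fun b => b ^ 2 + b) (by
  intro a b
  show (a + b) ^ 2 + (a + b) = (a ^ 2 + a) + (b ^ 2 + b)
  rw [add_sq_char2]
  ring)

variable (F) in
/-- The image of `b ↦ b² + b`. -/
def PP : AddSubgroup F := (wpHom F).range

lemma mem_PP {a : F} : a ∈ PP F ↔ ∃ b, b ^ 2 + b = a := Iff.rfl

lemma PP_index : (PP F).index = 2 := by
  have h2 : (2 : F) = 0 := CharTwo.two_eq_zero
  have h1 : Nat.card (wpHom F).ker = 2 := by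
    rw [Nat.card_eq_two_iff]
    refine ⟨⟨0, by simp [AddMonoidHom.mem_ker, wpHom]⟩, ⟨1, ?_⟩, ?_, ?_⟩
    · rw [AddMonoidHom.mem_ker]
      show (1 : F) ^ 2 + 1 = 0
      linear_combination h2
    · intro h
      exact zero_ne_one (congrArg Subtype.val h)
    · ext ⟨a, ha⟩
      simp only [Set.mem_univ, iff_true, Set.mem_insert_iff, Set.mem_singleton_iff, Subtype.mk.injEq]
      rw [AddMonoidHom.mem_ker] at ha
      have ha' : a ^ 2 + a = 0 := ha
      have : a * (a + 1) = 0 := by linear_combination ha'
      rcases mul_eq_zero.1 this with h | h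
      · exact Or.inl (Subtype.ext h)
      · right
        linear_combination h - h2
  have h3 := AddSubgroup.card_mul_index (wpHom F).ker
  rw [AddSubgroup.index_ker, h1] at h3
  have h4 := AddSubgroup.card_mul_index (PP F)
  have h5 : Nat.card (wpHom F).range = Nat.card (PP F) := rfl
  rw [h5] at h3
  have hp : 0 < Nat.card (PP F) := Nat.card_pos
  have : Nat.card (PP F) * (PP F).index = Nat.card (PP F) * 2 := by
    rw [h4, ← h3, mul_comm]
  exact Nat.eq_of_mul_eq_mul_left hp this

lemma exists_not_PP : ∃ k : F, k ∉ PP F := by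
  by_contra h
  push Not at h
  have : PP F = ⊤ := by
    ext a
    simp [h a]
  have h1 := PP_index (F := F)
  rw [this, AddSubgroup.index_top] at h1
  omega

open Classical in
/-- The additive character. -/
noncomputable def chi (a : F) : ℤ := if a ∈ PP F then 1 else -1

lemma chi_of_mem {a : F} (h : a ∈ PP F) : chi a = 1 := if_pos h

lemma chi_of_not_mem {a : F} (h : a ∉ PP F) : chi a = -1 := if_neg h

lemma chi_eq_one_iff {a : F} : chi a = 1 ↔ a ∈ PP F := by
  constructor
  · intro h
    by_contra hn
    rw [chi_of_not_mem hn] at h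
    omega
  · exact chi_of_mem

lemma chi_add (a b : F) : chi (a + b) = chi a * chi b := by
  have h := AddSubgroup.add_mem_iff_of_index_two (PP_index (F := F)) (a := a) (b := b)
  by_cases ha : a ∈ PP F <;> by_cases hb : b ∈ PP F
  · rw [chi_of_mem ha, chi_of_mem hb, chi_of_mem (h.2 (by simp [ha, hb]))]
    rfl
  · rw [chi_of_mem ha, chi_of_not_mem hb, chi_of_not_mem (fun hh => hb ((h.1 hh).1 ha))]
    rfl
  · rw [chi_of_not_mem ha, chi_of_mem hb, chi_of_not_mem (fun hh => ha ((h.1 hh).2 hb))]
    rfl
  · rw [chi_of_not_mem ha, chi_of_not_mem hb, chi_of_mem (h.2 (by simp [ha, hb]))]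
    rfl

lemma chi_zero : chi (0 : F) = 1 := chi_of_mem (PP F).zero_mem

lemma chi_sq (a : F) : chi (a ^ 2) = chi a := by
  have h2 : (2 : F) = 0 := CharTwo.two_eq_zero
  have h : a ^ 2 = a + (a ^ 2 + a) := by linear_combination -a * h2
  rw [h, chi_add, chi_of_mem (show a ^ 2 + a ∈ PP F from ⟨a, rfl⟩), mul_one]

lemma chi_mul_self (a : F) : chi a * chi a = 1 := by
  rw [← chi_add, CharTwo.add_self_eq_zero, chi_zero]

section Sums

variable {V : Type*} [AddCommGroup V] [Fintype V]

lemma sum_shift (f : V → ℤ) (c : V) : ∑ v, f (v + c) = ∑ v, f v :=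
  Equiv.sum_comp (Equiv.addRight c) f

lemma sum_chi_lin (l : V →+ F) (c : V) (hc : l c ∉ PP F) : ∑ v, chi (l v) = 0 := by
  have h := sum_shift (fun v => chi (l v)) c
  simp only [map_add, chi_add, chi_of_not_mem hc] at h
  rw [Finset.sum_congr rfl (fun v _ => mul_neg_one (chi (l v))), Finset.sum_neg_distrib] at h
  omega

end Sums

variable {m : ℕ}

local notation "Qp" => Cfsg.quadFormPlus m F

lemma Q_add (u v : Fin m ⊕ Fin m → F) : Qp (u + v) = Qp u + Qp v + fS u v := by
  have h2 : (2 : F) = 0 := CharTwo.two_eq_zero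
  rw [Cfsg.Agent.Lead.sympForm_apply]
  unfold Cfsg.quadFormPlus
  rw [← Finset.sum_add_distrib, ← Finset.sum_add_distrib]
  apply Finset.sum_congr rfl
  intro i _
  simp only [Pi.add_apply]
  linear_combination u (Sum.inl i) * v (Sum.inr i) * h2

lemma Q_smul (a : F) (u : Fin m ⊕ Fin m → F) : Qp (a • u) = a ^ 2 * Qp u := by
  unfold Cfsg.quadFormPlus
  rw [Finset.mul_sum]
  apply Finset.sum_congr rfl
  intro i _
  simp only [Pi.smul_apply, smul_eq_mul]
  ring

lemma Q_zero : Qp (0 : Fin m ⊕ Fin m → F) = 0 := by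
  simp [Cfsg.quadFormPlus]

/-- The sum of the character over the hyperbolic quadratic form. -/
theorem sum_chi_Q : ∑ v : Fin m ⊕ Fin m → F, chi (Qp v) = (Fintype.card F : ℤ) ^ m := by
  classical
  have e := Equiv.sum_comp (Equiv.sumArrowEquivProdArrow (Fin m) (Fin m) F).symm (fun v => chi (Qp v))
  rw [← e, Fintype.sum_prod_type]
  have key : ∀ a : Fin m → F, ∑ b : Fin m → F, chi (Qp ((Equiv.sumArrowEquivProdArrow (Fin m) (Fin m) F).symm (a, b))) =
      if a = 0 then (Fintype.card F : ℤ) ^ m else 0 := by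
    intro a
    have hQ : ∀ b : Fin m → F, Qp ((Equiv.sumArrowEquivProdArrow (Fin m) (Fin m) F).symm (a, b)) = ∑ i, a i * b i := by
      intro b
      simp [Cfsg.quadFormPlus, Equiv.sumArrowEquivProdArrow]
    simp only [hQ]
    split_ifs with ha
    · subst ha
      simp [chi_zero]
    · obtain ⟨i, hi⟩ := Function.ne_iff.1 ha
      obtain ⟨k, hk⟩ := exists_not_PP (F := F)
      let l : (Fin m → F) →+ F :=
        { toFun := fun b => ∑ i, a i * b i
          map_zero' := by simp
          map_add' := fun x y => by simp [mul_add, Finset.sum_add_distrib] }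
      have hl : l (Pi.single i (k / a i)) = k := by
        show ∑ j, a j * (Pi.single i (k / a i) : Fin m → F) j = k
        rw [Finset.sum_eq_single i]
        · simp only [Pi.single_eq_same]
          have : a i ≠ 0 := hi
          field_simp
        · intro j _ hj
          simp [Pi.single_apply, hj]
        · simp
      exact sum_chi_lin l _ (by rw [hl]; exact hk)
  rw [Finset.sum_congr rfl (fun a _ => key a)]
  simp

end Cfsg.Agent.H01.OCen
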