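import Cfsg.Agent.Lib.H01.OCen1

/-! Elements of the symplectic centraliser move the quadratic form by a square of a linear form. -/

set_option autoImplicit false
set_option linter.unusedSectionVars false

namespace Cfsg.Agent.H01.OCen

open Matrix Cfsg.Agent.H01.SpInv

universe u

variable {F : Type u} [Field F] [CharP F 2] [Fintype F] {m : ℕ}

local notation "fS" => Cfsg.Agent.Lead.sympForm
local notation "Qp" => Cfsg.quadFormPlus m F

lemma nd_right {w : Fin m ⊕ Fin m → F} (h : ∀ v, fS v w = 0) : w = 0 := by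
  by_contra hne
  obtain ⟨z, hz⟩ := Cfsg.Agent.Lead.sympForm_nondeg hne
  apply hz
  rw [Cfsg.Agent.Lead.sympForm_swap, h z, neg_zero]

lemma riesz (ψ : (Fin m ⊕ Fin m → F) →ₗ[F] F) : ∃ w, ∀ v, ψ v = fS v w := by
  classical
  let Φ : (Fin m ⊕ Fin m → F) →ₗ[F] Module.Dual F (Fin m ⊕ Fin m → F) :=
    { toFun := fun w =>
        { toFun := fun v => fS v w
          map_add' := fun x y => Cfsg.Agent.Lead.sympForm_add_left x y w
          map_smul' := fun c x => Cfsg.Agent.Lead.sympForm_smul_left c x w }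
      map_add' := fun x y => LinearMap.ext fun z => by
        show fS z (x + y) = fS z x + fS z y
        exact Cfsg.Agent.Lead.sympForm_add_right _ _ _
      map_smul' := fun c x => LinearMap.ext fun z => by
        show fS z (c • x) = c * fS z x
        exact Cfsg.Agent.Lead.sympForm_smul_right _ _ _ }
  have inj : Function.Injective Φ := by
    rw [injective_iff_map_eq_zero]
    intro w hw
    apply nd_right
    intro v
    exact congrArg (fun f : Module.Dual F (Fin m ⊕ Fin m → F) => f v) hw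
  have hs : Function.Surjective Φ :=
    (LinearMap.injective_iff_surjective_of_finrank_eq_finrank (Subspace.dual_finrank_eq).symm).1 inj
  obtain ⟨w, hw⟩ := hs ψ
  exact ⟨w, fun v => (congrArg (fun f : Module.Dual F (Fin m ⊕ Fin m → F) => f v) hw).symm⟩

lemma exists_w (g : symplecticGroup (Fin m) F) :
    ∃ w, ∀ v, Qp ((g : Matrix (Fin m ⊕ Fin m) (Fin m ⊕ Fin m) F) *ᵥ v) = Qp v + (fS v w) ^ 2 := by
  have h2 : (2 : F) = 0 := CharTwo.two_eq_zero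
  obtain ⟨s, hs⟩ := exists_sqrt (F := F)
  let ψ : (Fin m ⊕ Fin m → F) →ₗ[F] F :=
    { toFun := fun v => s (Qp ((g : Matrix (Fin m ⊕ Fin m) (Fin m ⊕ Fin m) F) *ᵥ v) + Qp v)
      map_add' := fun x y => by
        apply sq_inj_char2
        rw [hs, add_sq_char2, hs, hs, Matrix.mulVec_add, Q_add, Q_add, form_sp]
        linear_combination fS x y * h2
      map_smul' := fun c x => by
        apply sq_inj_char2
        rw [hs, Matrix.mulVec_smul, Q_smul, Q_smul, RingHom.id_apply, smul_eq_mul, mul_pow, hs]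
        ring }
  obtain ⟨w, hw⟩ := riesz ψ
  refine ⟨w, fun v => ?_⟩
  have h1 : (fS v w) ^ 2 = Qp ((g : Matrix (Fin m ⊕ Fin m) (Fin m ⊕ Fin m) F) *ᵥ v) + Qp v := by
    rw [← hw v]
    exact hs _
  linear_combination -h1 - Qp v * h2

lemma w_eq {w w' : Fin m ⊕ Fin m → F} (h : ∀ v, (fS v w) ^ 2 = (fS v w') ^ 2) : w = w' := by
  have h0 : w - w' = 0 := by
    apply nd_right
    intro v
    rw [Cfsg.Agent.Lead.sympForm_sub_right, sq_inj_char2 (h v), sub_self]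
  exact sub_eq_zero.1 h0

section Fixed

variable (t : symplecticGroup (Fin m) F) (ht : t ^ 2 = 1)
  (hTQ : ∀ v : Fin m ⊕ Fin m → F, Cfsg.quadFormPlus m F ((t : Matrix (Fin m ⊕ Fin m) (Fin m ⊕ Fin m) F) *ᵥ v) = Cfsg.quadFormPlus m F v)

include ht in
lemma Nsa' (x y : Fin m ⊕ Fin m → F) :
    fS (((t : Matrix (Fin m ⊕ Fin m) (Fin m ⊕ Fin m) F) - 1) *ᵥ x) y = fS x (((t : Matrix (Fin m ⊕ Fin m) (Fin m ⊕ Fin m) F) - 1) *ᵥ y) :=
  (stdSys t ht).Nsa x y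

include ht in
lemma N2' (x : Fin m ⊕ Fin m → F) :
    ((t : Matrix (Fin m ⊕ Fin m) (Fin m ⊕ Fin m) F) - 1) *ᵥ (((t : Matrix (Fin m ⊕ Fin m) (Fin m ⊕ Fin m) F) - 1) *ᵥ x) = 0 :=
  (stdSys t ht).N2 x

include hTQ in
lemma Q_N (v : Fin m ⊕ Fin m → F) :
    Qp (((t : Matrix (Fin m ⊕ Fin m) (Fin m ⊕ Fin m) F) - 1) *ᵥ v) = fS v (((t : Matrix (Fin m ⊕ Fin m) (Fin m ⊕ Fin m) F) - 1) *ᵥ v) := by
  have h2 : (2 : F) = 0 := CharTwo.two_eq_zero
  have e : (t : Matrix (Fin m ⊕ Fin m) (Fin m ⊕ Fin m) F) *ᵥ v = v + ((t : Matrix (Fin m ⊕ Fin m) (Fin m ⊕ Fin m) F) - 1) *ᵥ v := by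
    rw [Matrix.sub_mulVec, Matrix.one_mulVec]
    abel
  have h1 := hTQ v
  rw [e, Q_add] at h1
  linear_combination h1 - fS v (((t : Matrix (Fin m ⊕ Fin m) (Fin m ⊕ Fin m) F) - 1) *ᵥ v) * h2

include hTQ ht in
lemma w_ker (g : symplecticGroup (Fin m) F) (hg : g ∈ Subgroup.centralizer ({t} : Set (symplecticGroup (Fin m) F)))
    {w : Fin m ⊕ Fin m → F} (hw : ∀ v, Qp ((g : Matrix (Fin m ⊕ Fin m) (Fin m ⊕ Fin m) F) *ᵥ v) = Qp v + (fS v w) ^ 2) :
    ((t : Matrix (Fin m ⊕ Fin m) (Fin m ⊕ Fin m) F) - 1) *ᵥ w = 0 := by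
  apply nd_right
  intro v
  rw [← Nsa' t ht, Matrix.sub_mulVec, Matrix.one_mulVec, form_sub_left]
  have h1 := hw ((t : Matrix (Fin m ⊕ Fin m) (Fin m ⊕ Fin m) F) *ᵥ v)
  rw [hTQ, Matrix.mulVec_mulVec, cent_comm t g hg, ← Matrix.mulVec_mulVec, hTQ, hw] at h1
  have h3 : (fS v w) ^ 2 = (fS ((t : Matrix (Fin m ⊕ Fin m) (Fin m ⊕ Fin m) F) *ᵥ v) w) ^ 2 := add_left_cancel h1
  rw [sq_inj_char2 h3, sub_self]

lemma q_pow_ne : ((Fintype.card F : ℤ)) ^ m ≠ 0 := by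
  have : 0 < Fintype.card F := Fintype.card_pos
  positivity

lemma w_chi (g : symplecticGroup (Fin m) F)
    {w : Fin m ⊕ Fin m → F} (hw : ∀ v, Qp ((g : Matrix (Fin m ⊕ Fin m) (Fin m ⊕ Fin m) F) *ᵥ v) = Qp v + (fS v w) ^ 2) :
    Qp w ∈ PP F := by
  have h2 : (2 : F) = 0 := CharTwo.two_eq_zero
  rw [← chi_eq_one_iff]
  have e1 : ∑ v : Fin m ⊕ Fin m → F, chi (Qp ((g : Matrix (Fin m ⊕ Fin m) (Fin m ⊕ Fin m) F) *ᵥ v)) = ∑ v : Fin m ⊕ Fin m → F, chi (Qp v) :=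
    Equiv.sum_comp (gLin g).toEquiv (fun v => chi (Qp v))
  have e2 : ∀ v : Fin m ⊕ Fin m → F, chi (Qp ((g : Matrix (Fin m ⊕ Fin m) (Fin m ⊕ Fin m) F) *ᵥ v)) = chi (Qp w) * chi (Qp (v + w)) := by
    intro v
    rw [hw, chi_add, chi_sq, ← chi_add, ← chi_add]
    congr 1
    rw [Q_add]
    linear_combination -Qp w * h2
  rw [Finset.sum_congr rfl (fun v _ => e2 v), ← Finset.mul_sum] at e1
  have e3 := sum_shift (fun v : Fin m ⊕ Fin m → F => chi (Qp v)) w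
  rw [e3, sum_chi_Q] at e1
  exact mul_right_cancel₀ (q_pow_ne (F := F) (m := m)) (e1.trans (one_mul _).symm)

include ht in
lemma exists_T {w : Fin m ⊕ Fin m → F} (hw : ((t : Matrix (Fin m ⊕ Fin m) (Fin m ⊕ Fin m) F) - 1) *ᵥ w = 0) (hP : Qp w ∈ PP F) :
    ∃ g ∈ Subgroup.centralizer ({t} : Set (symplecticGroup (Fin m) F)),
      ∀ v, Qp ((g : Matrix (Fin m ⊕ Fin m) (Fin m ⊕ Fin m) F) *ᵥ v) = Qp v + (fS v w) ^ 2 := by
  have h2 : (2 : F) = 0 := CharTwo.two_eq_zero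
  have hfix : (t : Matrix (Fin m ⊕ Fin m) (Fin m ⊕ Fin m) F) *ᵥ w = w := by
    rw [Matrix.sub_mulVec, Matrix.one_mulVec] at hw
    exact sub_eq_zero.1 hw
  obtain ⟨a, ha⟩ : ∃ a : F, a ^ 2 * Qp w + a = 1 := by
    by_cases h0 : Qp w = 0
    · exact ⟨1, by rw [h0]; ring⟩
    · obtain ⟨b, hb⟩ := mem_PP.1 hP
      refine ⟨b / Qp w, ?_⟩
      field_simp
      linear_combination hb
  refine ⟨Cfsg.Agent.Lead.sympT w a, ?_, ?_⟩
  · apply Subgroup.mem_centralizer_singleton_iff.2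
    apply Subtype.ext
    apply Cfsg.Agent.Lead.mat_ext_mulVec
    intro x
    show (Cfsg.Agent.Lead.sympTmat w a * (t : Matrix (Fin m ⊕ Fin m) (Fin m ⊕ Fin m) F)) *ᵥ x =
      ((t : Matrix (Fin m ⊕ Fin m) (Fin m ⊕ Fin m) F) * Cfsg.Agent.Lead.sympTmat w a) *ᵥ x
    rw [← Matrix.mulVec_mulVec, ← Matrix.mulVec_mulVec, Cfsg.Agent.Lead.sympTmat_mulVec, Cfsg.Agent.Lead.sympTmat_mulVec,
      Matrix.mulVec_add, Matrix.mulVec_smul, hfix]
    have : fS ((t : Matrix (Fin m ⊕ Fin m) (Fin m ⊕ Fin m) F) *ᵥ x) w = fS x w := by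
      have := form_sp t x w
      rwa [hfix] at this
    rw [this]
  · intro v
    show Qp (Cfsg.Agent.Lead.sympTmat w a *ᵥ v) = _
    rw [Cfsg.Agent.Lead.sympTmat_mulVec, Q_add, Q_smul, Cfsg.Agent.Lead.sympForm_smul_right]
    linear_combination (fS v w) ^ 2 * ha

end Fixed

end Cfsg.Agent.H01.OCen
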