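import Cfsg.Agent.Lib.H01.OCen2

/-! The symplectic centraliser over the orthogonal centraliser. -/

set_option autoImplicit false
set_option linter.unusedSectionVars false

namespace Cfsg.Agent.H01.OCen

open Matrix Cfsg.Agent.H01.SpInv

universe u

variable {F : Type u} [Field F] [CharP F 2] [Fintype F] {m : ℕ}

local notation "fS" => Cfsg.Agent.Lead.sympForm
local notation "Qp" => Cfsg.quadFormPlus m F

/-- Vectors killed by `t - 1` with quadratic value in the image of `b ↦ b² + b`. -/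
abbrev WW (t : symplecticGroup (Fin m) F) : Type u :=
  {w : Fin m ⊕ Fin m → F // ((t : Matrix (Fin m ⊕ Fin m) (Fin m ⊕ Fin m) F) - 1) *ᵥ w = 0 ∧ Cfsg.quadFormPlus m F w ∈ PP F}

/-- The elements of the symplectic centraliser preserving the quadratic form. -/
abbrev OO (t : symplecticGroup (Fin m) F) : Type u :=
  {g : ↥(Subgroup.centralizer ({t} : Set (symplecticGroup (Fin m) F))) //
    ∀ v : Fin m ⊕ Fin m → F, Cfsg.quadFormPlus m F (((g : symplecticGroup (Fin m) F) : Matrix (Fin m ⊕ Fin m) (Fin m ⊕ Fin m) F) *ᵥ v) = Cfsg.quadFormPlus m F v}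

section Fixed

variable (t : symplecticGroup (Fin m) F) (ht : t ^ 2 = 1)
  (hTQ : ∀ v : Fin m ⊕ Fin m → F, Cfsg.quadFormPlus m F ((t : Matrix (Fin m ⊕ Fin m) (Fin m ⊕ Fin m) F) *ᵥ v) = Cfsg.quadFormPlus m F v)

include ht hTQ in
theorem card_G : Nat.card ↥(Subgroup.centralizer ({t} : Set (symplecticGroup (Fin m) F))) = Nat.card (WW t) * Nat.card (OO t) := by
  classical
  have h1 : ∀ g : ↥(Subgroup.centralizer ({t} : Set (symplecticGroup (Fin m) F))), ∃ w : WW t,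
      ∀ v, Qp (((g : symplecticGroup (Fin m) F) : Matrix (Fin m ⊕ Fin m) (Fin m ⊕ Fin m) F) *ᵥ v) = Qp v + (fS v w.1) ^ 2 := fun g => by
    obtain ⟨w, hw⟩ := exists_w g.1
    exact ⟨⟨w, w_ker t ht hTQ g.1 g.2 hw, w_chi g.1 hw⟩, hw⟩
  have h3 : ∀ w : WW t, ∃ g : ↥(Subgroup.centralizer ({t} : Set (symplecticGroup (Fin m) F))),
      ∀ v, Qp (((g : symplecticGroup (Fin m) F) : Matrix (Fin m ⊕ Fin m) (Fin m ⊕ Fin m) F) *ᵥ v) = Qp v + (fS v w.1) ^ 2 := fun w => by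
    obtain ⟨g, hg, hv⟩ := exists_T t ht w.2.1 w.2.2
    exact ⟨⟨g, hg⟩, hv⟩
  choose Φ hΦ using h1
  choose Τ hΤ using h3
  have hmul : ∀ (a b : ↥(Subgroup.centralizer ({t} : Set (symplecticGroup (Fin m) F)))) (v : Fin m ⊕ Fin m → F),
      (((a * b : ↥(Subgroup.centralizer ({t} : Set (symplecticGroup (Fin m) F)))) : symplecticGroup (Fin m) F) : Matrix (Fin m ⊕ Fin m) (Fin m ⊕ Fin m) F) *ᵥ v =
      ((a : symplecticGroup (Fin m) F) : Matrix (Fin m ⊕ Fin m) (Fin m ⊕ Fin m) F) *ᵥ (((b : symplecticGroup (Fin m) F) : Matrix (Fin m ⊕ Fin m) (Fin m ⊕ Fin m) F) *ᵥ v) := by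
    intro a b v
    rw [Matrix.mulVec_mulVec]
    rfl
  have hOO : ∀ g : ↥(Subgroup.centralizer ({t} : Set (symplecticGroup (Fin m) F))), ∀ v : Fin m ⊕ Fin m → F,
      Qp (((g * (Τ (Φ g))⁻¹ : ↥(Subgroup.centralizer ({t} : Set (symplecticGroup (Fin m) F)))) : symplecticGroup (Fin m) F) *ᵥ v) = Qp v := by
    intro g v
    set k := Τ (Φ g) with hk
    set u := ((k⁻¹ : ↥(Subgroup.centralizer ({t} : Set (symplecticGroup (Fin m) F)))) : symplecticGroup (Fin m) F).1 *ᵥ v with hu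
    have e : ((k : symplecticGroup (Fin m) F) : Matrix (Fin m ⊕ Fin m) (Fin m ⊕ Fin m) F) *ᵥ u = v := by
      rw [hu, ← hmul, mul_inv_cancel]
      exact Matrix.one_mulVec v
    have e1 := hΤ (Φ g) u
    rw [← hk, e] at e1
    rw [e1]
    have e3 := hΦ g u
    rw [← e3, hmul]
  rw [← Nat.card_prod]
  apply Nat.card_congr
  exact
    { toFun := fun g => (Φ g, ⟨g * (Τ (Φ g))⁻¹, hOO g⟩)
      invFun := fun p => p.2.1 * Τ p.1
      left_inv := fun g => by simp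
      right_inv := fun p => by
        have hw : Φ (p.2.1 * Τ p.1) = p.1 := by
          apply Subtype.ext
          apply w_eq
          intro v
          have e1 := hΦ (p.2.1 * Τ p.1) v
          rw [hmul, p.2.2, hΤ] at e1
          exact (add_left_cancel e1).symm
        apply Prod.ext hw
        apply Subtype.ext
        show p.2.1 * Τ p.1 * (Τ (Φ (p.2.1 * Τ p.1)))⁻¹ = p.2.1
        rw [hw]
        simp }

lemma kerC_eq : kerC (stdSys t ht) = Nat.card {y : Fin m ⊕ Fin m → F // ((t : Matrix (Fin m ⊕ Fin m) (Fin m ⊕ Fin m) F) - 1) *ᵥ y = 0} := rfl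

include ht in
lemma vec_add_self (a : Fin m ⊕ Fin m → F) : a + a = 0 := by
  funext i
  exact CharTwo.add_self_eq_zero _

include ht hTQ in
/-- When the quadratic form takes a value outside the image of `b ↦ b² + b` on the image of `N`. -/
theorem card_WW_half (z : Fin m ⊕ Fin m → F) (hz : Qp (((t : Matrix (Fin m ⊕ Fin m) (Fin m ⊕ Fin m) F) - 1) *ᵥ z) ∉ PP F) :
    2 * Nat.card (WW t) = kerC (stdSys t ht) := by
  classical
  rw [kerC_eq]
  set u := ((t : Matrix (Fin m ⊕ Fin m) (Fin m ⊕ Fin m) F) - 1) *ᵥ z with hu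
  have hNu : ((t : Matrix (Fin m ⊕ Fin m) (Fin m ⊕ Fin m) F) - 1) *ᵥ u = 0 := N2' t ht z
  have hQu : ∀ a : Fin m ⊕ Fin m → F, ((t : Matrix (Fin m ⊕ Fin m) (Fin m ⊕ Fin m) F) - 1) *ᵥ a = 0 → Qp (a + u) = Qp a + Qp u := by
    intro a ha
    rw [Q_add, hu, ← Nsa' t ht, ha, Cfsg.Agent.Lead.sympForm_apply]
    simp
  have hmem := fun a b => AddSubgroup.add_mem_iff_of_index_two (PP_index (F := F)) (a := a) (b := b)
  have e0 := Nat.card_congr (Equiv.sumCompl (fun a : {y : Fin m ⊕ Fin m → F // ((t : Matrix (Fin m ⊕ Fin m) (Fin m ⊕ Fin m) F) - 1) *ᵥ y = 0} => Qp a.1 ∈ PP F))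
  rw [Nat.card_sum] at e0
  have e1 : Nat.card {a : {y : Fin m ⊕ Fin m → F // ((t : Matrix (Fin m ⊕ Fin m) (Fin m ⊕ Fin m) F) - 1) *ᵥ y = 0} // Qp a.1 ∈ PP F} = Nat.card (WW t) :=
    Nat.card_congr ⟨fun a => ⟨a.1.1, a.1.2, a.2⟩, fun w => ⟨⟨w.1, w.2.1⟩, w.2.2⟩, fun _ => rfl, fun _ => rfl⟩
  have e2 : Nat.card {a : {y : Fin m ⊕ Fin m → F // ((t : Matrix (Fin m ⊕ Fin m) (Fin m ⊕ Fin m) F) - 1) *ᵥ y = 0} // ¬ Qp a.1 ∈ PP F} = Nat.card (WW t) := by
    apply Nat.card_congr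
    exact
      { toFun := fun a => ⟨a.1.1 + u, by rw [Matrix.mulVec_add, a.1.2, hNu, add_zero], by
          rw [hQu a.1.1 a.1.2, hmem]
          exact ⟨fun h => absurd h a.2, fun h => absurd h hz⟩⟩
        invFun := fun w => ⟨⟨w.1 + u, by rw [Matrix.mulVec_add, w.2.1, hNu, add_zero]⟩, by
          show ¬ Qp (w.1 + u) ∈ PP F
          rw [hQu w.1 w.2.1, hmem]
          exact fun h => hz (h.1 w.2.2)⟩
        left_inv := fun a => by
          apply Subtype.ext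
          apply Subtype.ext
          show a.1.1 + u + u = a.1.1
          rw [add_assoc, vec_add_self t ht, add_zero]
        right_inv := fun w => by
          apply Subtype.ext
          show w.1 + u + u = w.1
          rw [add_assoc, vec_add_self t ht, add_zero] }
  rw [e1, e2] at e0
  omega

open Classical in
include ht hTQ in
/-- The character sum over the kernel in the case of type `a`. -/
theorem sum_ker (hA : IsA (stdSys t ht)) :
    ∑ v : Fin m ⊕ Fin m → F, (if ((t : Matrix (Fin m ⊕ Fin m) (Fin m ⊕ Fin m) F) - 1) *ᵥ v = 0 then chi (Qp v) else 0) = (Fintype.card F : ℤ) ^ m := by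
  have hA' : ∀ y : Fin m ⊕ Fin m → F, Qp (((t : Matrix (Fin m ⊕ Fin m) (Fin m ⊕ Fin m) F) - 1) *ᵥ y) = 0 := by
    intro y
    rw [Q_N t hTQ]
    exact hA y
  have hinner : ∀ z : Fin m ⊕ Fin m → F, ∑ y : Fin m ⊕ Fin m → F, chi (fS z y) = if z = 0 then (Nat.card (Fin m ⊕ Fin m → F) : ℤ) else 0 := by
    intro z
    split_ifs with hz
    · subst hz
      have : ∀ y : Fin m ⊕ Fin m → F, fS (0 : Fin m ⊕ Fin m → F) y = 0 := fun y => by
        rw [Cfsg.Agent.Lead.sympForm_apply]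
        simp
      simp [this, chi_zero]
    · obtain ⟨y₀, hy₀⟩ := Cfsg.Agent.Lead.sympForm_nondeg hz
      obtain ⟨k, hk⟩ := exists_not_PP (F := F)
      let l : (Fin m ⊕ Fin m → F) →+ F :=
        { toFun := fun y => fS z y
          map_zero' := by
            rw [Cfsg.Agent.Lead.sympForm_apply]
            simp
          map_add' := fun x y => Cfsg.Agent.Lead.sympForm_add_right _ _ _ }
      have hl : l ((k / fS z y₀) • y₀) = k := by
        show fS z ((k / fS z y₀) • y₀) = k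
        rw [Cfsg.Agent.Lead.sympForm_smul_right]
        field_simp
      exact sum_chi_lin l _ (by rw [hl]; exact hk)
  have key : ∀ y : Fin m ⊕ Fin m → F, ∑ v : Fin m ⊕ Fin m → F, chi (Qp v) =
      ∑ v : Fin m ⊕ Fin m → F, chi (Qp v) * chi (fS (((t : Matrix (Fin m ⊕ Fin m) (Fin m ⊕ Fin m) F) - 1) *ᵥ v) y) := by
    intro y
    have e := sum_shift (fun v : Fin m ⊕ Fin m → F => chi (Qp v)) (((t : Matrix (Fin m ⊕ Fin m) (Fin m ⊕ Fin m) F) - 1) *ᵥ y)
    rw [← e]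
    apply Finset.sum_congr rfl
    intro v _
    rw [Q_add, hA', add_zero, chi_add, Nsa' t ht]
  have h1 : (Nat.card (Fin m ⊕ Fin m → F) : ℤ) * ∑ v : Fin m ⊕ Fin m → F, chi (Qp v) =
      (Nat.card (Fin m ⊕ Fin m → F) : ℤ) * ∑ v : Fin m ⊕ Fin m → F, (if ((t : Matrix (Fin m ⊕ Fin m) (Fin m ⊕ Fin m) F) - 1) *ᵥ v = 0 then chi (Qp v) else 0) := by
    calc (Nat.card (Fin m ⊕ Fin m → F) : ℤ) * ∑ v : Fin m ⊕ Fin m → F, chi (Qp v)
        = ∑ y : Fin m ⊕ Fin m → F, ∑ v : Fin m ⊕ Fin m → F, chi (Qp v) := by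
          rw [Finset.sum_const, Finset.card_univ, nsmul_eq_mul, Nat.card_eq_fintype_card]
      _ = ∑ y : Fin m ⊕ Fin m → F, ∑ v : Fin m ⊕ Fin m → F, chi (Qp v) * chi (fS (((t : Matrix (Fin m ⊕ Fin m) (Fin m ⊕ Fin m) F) - 1) *ᵥ v) y) :=
          Finset.sum_congr rfl (fun y _ => key y)
      _ = ∑ v : Fin m ⊕ Fin m → F, chi (Qp v) * ∑ y : Fin m ⊕ Fin m → F, chi (fS (((t : Matrix (Fin m ⊕ Fin m) (Fin m ⊕ Fin m) F) - 1) *ᵥ v) y) := by
          rw [Finset.sum_comm]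
          apply Finset.sum_congr rfl
          intro v _
          rw [Finset.mul_sum]
      _ = (Nat.card (Fin m ⊕ Fin m → F) : ℤ) * ∑ v : Fin m ⊕ Fin m → F, (if ((t : Matrix (Fin m ⊕ Fin m) (Fin m ⊕ Fin m) F) - 1) *ᵥ v = 0 then chi (Qp v) else 0) := by
          rw [Finset.mul_sum]
          apply Finset.sum_congr rfl
          intro v _
          rw [hinner]
          split_ifs <;> ring
  have hpos : (Nat.card (Fin m ⊕ Fin m → F) : ℤ) ≠ 0 := by
    have : 0 < Nat.card (Fin m ⊕ Fin m → F) := Nat.card_pos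
    positivity
  have h3 := mul_left_cancel₀ hpos h1
  rw [← h3, sum_chi_Q]

open Classical in
/-- The number of vectors in the kernel with values in the subgroup, through the character sum. -/
lemma sum_ker_eq :
    ∑ v : Fin m ⊕ Fin m → F, (if ((t : Matrix (Fin m ⊕ Fin m) (Fin m ⊕ Fin m) F) - 1) *ᵥ v = 0 then chi (Qp v) else 0) =
      2 * (Nat.card (WW t) : ℤ) - (Nat.card {y : Fin m ⊕ Fin m → F // ((t : Matrix (Fin m ⊕ Fin m) (Fin m ⊕ Fin m) F) - 1) *ᵥ y = 0} : ℤ) := by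
  have e1 : Nat.card (WW t) = (Finset.univ.filter (fun v : Fin m ⊕ Fin m → F => ((t : Matrix (Fin m ⊕ Fin m) (Fin m ⊕ Fin m) F) - 1) *ᵥ v = 0 ∧ Qp v ∈ PP F)).card := by
    rw [Nat.card_eq_fintype_card, Fintype.card_subtype]
  have e2 : Nat.card {y : Fin m ⊕ Fin m → F // ((t : Matrix (Fin m ⊕ Fin m) (Fin m ⊕ Fin m) F) - 1) *ᵥ y = 0} = (Finset.univ.filter (fun v : Fin m ⊕ Fin m → F => ((t : Matrix (Fin m ⊕ Fin m) (Fin m ⊕ Fin m) F) - 1) *ᵥ v = 0)).card := by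
    rw [Nat.card_eq_fintype_card, Fintype.card_subtype]
  rw [e1, e2, ← Finset.sum_filter]
  have e3 : ∀ v ∈ Finset.univ.filter (fun v : Fin m ⊕ Fin m → F => ((t : Matrix (Fin m ⊕ Fin m) (Fin m ⊕ Fin m) F) - 1) *ᵥ v = 0),
      chi (Qp v) = 2 * (if Qp v ∈ PP F then 1 else 0) - 1 := by
    intro v _
    by_cases h : Qp v ∈ PP F
    · rw [chi_of_mem h, if_pos h]
      norm_num
    · rw [chi_of_not_mem h, if_neg h]
      norm_num
  rw [Finset.sum_congr rfl e3, Finset.sum_sub_distrib, ← Finset.mul_sum, Finset.sum_const, nsmul_eq_mul, mul_one,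
    Finset.sum_boole, Finset.filter_filter]

include ht hTQ in
theorem card_WW_A (hA : IsA (stdSys t ht)) :
    2 * Nat.card (WW t) = kerC (stdSys t ht) + Fintype.card F ^ m := by
  rw [kerC_eq]
  have h1 := sum_ker t ht hTQ hA
  rw [sum_ker_eq] at h1
  have : (2 * Nat.card (WW t) : ℤ) = (Nat.card {y : Fin m ⊕ Fin m → F // ((t : Matrix (Fin m ⊕ Fin m) (Fin m ⊕ Fin m) F) - 1) *ᵥ y = 0} : ℤ) + (Fintype.card F : ℤ) ^ m := by
    linarith
  exact_mod_cast this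

include ht hTQ in
/-- If the form vanishes on the kernel in type `a`, the rank is half the dimension. -/
theorem kerC_of_sing (hA : IsA (stdSys t ht)) (h : ∀ w : Fin m ⊕ Fin m → F, ((t : Matrix (Fin m ⊕ Fin m) (Fin m ⊕ Fin m) F) - 1) *ᵥ w = 0 → Qp w = 0) :
    kerC (stdSys t ht) = Fintype.card F ^ m := by
  have h1 := card_WW_A t ht hTQ hA
  have e1 : Nat.card (WW t) = kerC (stdSys t ht) := by
    rw [kerC_eq]
    exact Nat.card_congr ⟨fun w => ⟨w.1, w.2.1⟩, fun y => ⟨y.1, y.2, by rw [h y.1 y.2]; exact (PP F).zero_mem⟩, fun _ => rfl, fun _ => rfl⟩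
  omega

/-- Types `b` and `c` give a value outside the subgroup on the image of `N`. -/
theorem exists_z (hTQ' : ∀ v : Fin m ⊕ Fin m → F, Cfsg.quadFormPlus m F ((t : Matrix (Fin m ⊕ Fin m) (Fin m ⊕ Fin m) F) *ᵥ v) = Cfsg.quadFormPlus m F v)
    {d : Fin m ⊕ Fin m → F} (hd : Dd (stdSys t ht) d) (hNd : ((t : Matrix (Fin m ⊕ Fin m) (Fin m ⊕ Fin m) F) - 1) *ᵥ d ≠ 0) :
    ∃ z : Fin m ⊕ Fin m → F, Qp (((t : Matrix (Fin m ⊕ Fin m) (Fin m ⊕ Fin m) F) - 1) *ᵥ z) ∉ PP F := by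
  obtain ⟨y₀, hy₀⟩ := Cfsg.Agent.Lead.sympForm_nondeg hNd
  obtain ⟨k, hk⟩ := exists_not_PP (F := F)
  have hy₁ : fS y₀ (((t : Matrix (Fin m ⊕ Fin m) (Fin m ⊕ Fin m) F) - 1) *ᵥ d) ≠ 0 := by
    rw [Cfsg.Agent.Lead.sympForm_swap]
    exact neg_ne_zero.2 hy₀
  refine ⟨(k / fS y₀ (((t : Matrix (Fin m ⊕ Fin m) (Fin m ⊕ Fin m) F) - 1) *ᵥ d)) • y₀, ?_⟩
  set z := (k / fS y₀ (((t : Matrix (Fin m ⊕ Fin m) (Fin m ⊕ Fin m) F) - 1) *ᵥ d)) • y₀ with hz
  have e1 : fS z (((t : Matrix (Fin m ⊕ Fin m) (Fin m ⊕ Fin m) F) - 1) *ᵥ d) = k := by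
    rw [hz, Cfsg.Agent.Lead.sympForm_smul_left]
    field_simp
  rw [Q_N t hTQ']
  have e2 : (fS z (((t : Matrix (Fin m ⊕ Fin m) (Fin m ⊕ Fin m) F) - 1) *ᵥ d)) ^ 2 = fS z (((t : Matrix (Fin m ⊕ Fin m) (Fin m ⊕ Fin m) F) - 1) *ᵥ z) := hd z
  rw [← e2, e1]
  intro hmem
  have := chi_of_mem hmem
  rw [chi_sq, chi_of_not_mem hk] at this
  omega

end Fixed

end Cfsg.Agent.H01.OCen
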