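import Cfsg.Agent.Lib.H01.OCen3
import Cfsg.Agent.Lib.H09.OInv
import Cfsg.Agent.Lib.H11.MTS4

/-! From the isometry group to the symplectic group, and the Dickson invariant on centralisers. -/

set_option autoImplicit false
set_option linter.unusedSectionVars false

namespace Cfsg.Agent.H01.OCen

open Matrix Cfsg.Agent.H01.SpInv

universe u

variable {F : Type u} [Field F] [CharP F 2] [Fintype F] {m : ℕ}

local notation "fS" => Cfsg.Agent.Lead.sympForm
local notation "Qp" => Cfsg.quadFormPlus m F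

/-- The orthogonal group of the hyperbolic form. -/
abbrev OG (m : ℕ) (F : Type u) [Field F] : Type u := ↥(Cfsg.isometryGroup F (Cfsg.quadFormPlus m F))

/-- The matrix of an isometry. -/
abbrev mx (g : OG m F) : Matrix (Fin m ⊕ Fin m) (Fin m ⊕ Fin m) F :=
  ((g : Matrix.GeneralLinearGroup (Fin m ⊕ Fin m) F) : Matrix (Fin m ⊕ Fin m) (Fin m ⊕ Fin m) F)

lemma Q_O (g : OG m F) (v : Fin m ⊕ Fin m → F) : Qp (mx g *ᵥ v) = Qp v :=
  Cfsg.Agent.H11.mem_isometryGroup_iff.1 g.2 v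

lemma O_form (g : OG m F) (u v : Fin m ⊕ Fin m → F) : fS (mx g *ᵥ u) (mx g *ᵥ v) = fS u v := by
  have h1 := Q_O g (u + v)
  rw [Matrix.mulVec_add, Q_add, Q_add, Q_O, Q_O] at h1
  exact add_left_cancel h1

/-- An isometry as a symplectic matrix. -/
def toSp (g : OG m F) : symplecticGroup (Fin m) F :=
  ⟨mx g, Cfsg.Agent.Lead.AutPSp.mem_sp_of_form (O_form g)⟩

lemma toSp_sq {x : OG m F} (hx : x ^ 2 = 1) : toSp x ^ 2 = 1 := by
  apply Subtype.ext
  have h := congrArg mx hx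
  rw [pow_two] at h ⊢
  exact h

/-- The elements of the orthogonal group commuting with `x`. -/
abbrev CO (x : OG m F) : Type u := {g : OG m F // g * x = x * g}

/-- The elements of `Ω` commuting with `x`. -/
abbrev CW (x : OG m F) : Type u :=
  {g : ↥(Cfsg.Omega F (Cfsg.quadFormPlus m F)) // (g : ↥(Cfsg.isometryGroup F (Cfsg.quadFormPlus m F))) * x = x * (g : ↥(Cfsg.isometryGroup F (Cfsg.quadFormPlus m F)))}

/-- The orthogonal centraliser inside the symplectic centraliser. -/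
noncomputable def ooEquiv (x : OG m F) : OO (toSp x) ≃ CO x where
  toFun h := ⟨⟨(⟨((h.1 : symplecticGroup (Fin m) F) : Matrix (Fin m ⊕ Fin m) (Fin m ⊕ Fin m) F),
        (((h.1⁻¹ : ↥(Subgroup.centralizer ({toSp x} : Set (symplecticGroup (Fin m) F)))) : symplecticGroup (Fin m) F) : Matrix (Fin m ⊕ Fin m) (Fin m ⊕ Fin m) F),
        congrArg (fun g : ↥(Subgroup.centralizer ({toSp x} : Set (symplecticGroup (Fin m) F))) => ((g : symplecticGroup (Fin m) F) : Matrix (Fin m ⊕ Fin m) (Fin m ⊕ Fin m) F)) (mul_inv_cancel h.1),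
        congrArg (fun g : ↥(Subgroup.centralizer ({toSp x} : Set (symplecticGroup (Fin m) F))) => ((g : symplecticGroup (Fin m) F) : Matrix (Fin m ⊕ Fin m) (Fin m ⊕ Fin m) F)) (inv_mul_cancel h.1)⟩ :
          Matrix.GeneralLinearGroup (Fin m ⊕ Fin m) F),
      Cfsg.Agent.H11.mem_isometryGroup_iff.2 h.2⟩, by
      apply Subtype.ext
      apply Units.ext
      exact cent_comm (toSp x) h.1.1 h.1.2⟩
  invFun g := ⟨⟨toSp g.1, Subgroup.mem_centralizer_singleton_iff.2 (Subtype.ext (congrArg mx g.2))⟩, Q_O g.1⟩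
  left_inv h := by
    apply Subtype.ext
    apply Subtype.ext
    apply Subtype.ext
    rfl
  right_inv g := by
    apply Subtype.ext
    apply Subtype.ext
    apply Units.ext
    rfl

section Dickson

variable (h : Fintype.card F ≠ 2 ∨ m ≠ 2)

include h in
lemma good_h : Nat.card F ≠ 2 ∨ Fintype.card (Fin m ⊕ Fin m) ≠ 4 := by
  rcases h with h | h
  · left
    rwa [Nat.card_eq_fintype_card]
  · right
    simp only [Fintype.card_sum, Fintype.card_fin]
    omega

include h in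
lemma mem_omega (g : OG m F) :
    g ∈ Cfsg.Omega F (Cfsg.quadFormPlus m F) ↔ Cfsg.Agent.H03.ODick.dickHom (CharTwo.two_eq_zero) (Cfsg.Agent.H11.plusForm m F) (Cfsg.Agent.H11.plus_nondeg' m) (good_h h) g = 1 :=
  Cfsg.Agent.H09.OI.mem_omega_iff_dick CharTwo.two_eq_zero (Cfsg.Agent.H11.plusForm m F) (Cfsg.Agent.H11.plus_nondeg' m) (good_h h) g

include h in
theorem card_O_two (x y : OG m F) (hy : y ∉ Cfsg.Omega F (Cfsg.quadFormPlus m F)) (hyx : y * x = x * y) :
    Nat.card (CO x) = 2 * Nat.card (CW x) := by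
  classical
  set D := Cfsg.Agent.H03.ODick.dickHom (CharTwo.two_eq_zero (R := F)) (Cfsg.Agent.H11.plusForm m F) (Cfsg.Agent.H11.plus_nondeg' m) (good_h h) with hD
  have hm : ∀ g : OG m F, g ∈ Cfsg.Omega F (Cfsg.quadFormPlus m F) ↔ D g = 1 := mem_omega h
  have hneg : ∀ g : OG m F, g ∉ Cfsg.Omega F (Cfsg.quadFormPlus m F) → D g = -1 := by
    intro g hg
    rcases Int.units_eq_one_or (D g) with h1 | h1
    · exact absurd ((hm g).2 h1) hg
    · exact h1
  have hDy := hneg y hy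
  have hyx' : y⁻¹ * x = x * y⁻¹ := (show Commute y x from hyx).inv_left.eq
  have hDmul : ∀ a b : OG m F, D (a * b) = D a * D b := fun a b => map_mul D a b
  have hDinv : ∀ a : OG m F, D a⁻¹ = (D a)⁻¹ := fun a => map_inv D a
  have e0 := Nat.card_congr (Equiv.sumCompl (fun a : CO x => a.1 ∈ Cfsg.Omega F (Cfsg.quadFormPlus m F)))
  rw [Nat.card_sum] at e0
  have e1 : Nat.card {a : CO x // a.1 ∈ Cfsg.Omega F (Cfsg.quadFormPlus m F)} = Nat.card (CW x) :=
    Nat.card_congr ⟨fun a => ⟨⟨a.1.1, a.2⟩, a.1.2⟩, fun w => ⟨⟨w.1.1, w.2⟩, w.1.2⟩, fun _ => rfl, fun _ => rfl⟩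
  have e2 : Nat.card {a : CO x // ¬ a.1 ∈ Cfsg.Omega F (Cfsg.quadFormPlus m F)} = Nat.card (CW x) := by
    apply Nat.card_congr
    exact
      { toFun := fun a => ⟨⟨a.1.1 * y, (hm _).2 (by
            rw [hDmul, hneg _ a.2, hDy]
            rfl)⟩, by
          show a.1.1 * y * x = x * (a.1.1 * y)
          rw [mul_assoc, hyx, ← mul_assoc, a.1.2, mul_assoc]⟩
        invFun := fun w => ⟨⟨w.1.1 * y⁻¹, by
          show w.1.1 * y⁻¹ * x = x * (w.1.1 * y⁻¹)
          have hw : (w.1.1 : OG m F) * x = x * w.1.1 := w.2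
          rw [mul_assoc, hyx', ← mul_assoc, hw, mul_assoc]⟩, by
          intro hc
          have hc' : w.1.1 * y⁻¹ ∈ Cfsg.Omega F (Cfsg.quadFormPlus m F) := hc
          have h9 := (Cfsg.Omega F (Cfsg.quadFormPlus m F)).mul_mem ((Cfsg.Omega F (Cfsg.quadFormPlus m F)).inv_mem hc') w.1.2
          have e : (w.1.1 * y⁻¹)⁻¹ * w.1.1 = y := by group
          rw [e] at h9
          exact hy h9⟩
        left_inv := fun a => by
          apply Subtype.ext
          apply Subtype.ext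
          show a.1.1 * y * y⁻¹ = a.1.1
          simp
        right_inv := fun w => by
          apply Subtype.ext
          apply Subtype.ext
          show w.1.1 * y⁻¹ * y = w.1.1
          simp }
  rw [e1, e2] at e0
  omega

lemma polar_eq (a b : Fin m ⊕ Fin m → F) : QuadraticMap.polar (Cfsg.quadFormPlus m F) a b = fS a b := by
  unfold QuadraticMap.polar
  rw [Q_add]
  ring

include h in
theorem exists_y (x : OG m F) {w : Fin m ⊕ Fin m → F} (hw : (mx x - 1) *ᵥ w = 0) (hQ : Qp w ≠ 0) :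
    ∃ y : OG m F, y ∉ Cfsg.Omega F (Cfsg.quadFormPlus m F) ∧ y * x = x * y := by
  have hQ' : Cfsg.Agent.H11.plusForm m F w ≠ 0 := hQ
  refine ⟨Cfsg.Agent.H11.refl (Cfsg.Agent.H11.plusForm m F) w hQ', ?_, ?_⟩
  · intro hc
    have h1 := (mem_omega h _).1 hc
    rw [Cfsg.Agent.H03.ODick.dickHom_refl] at h1
    exact absurd h1 (by decide)
  · have hfix : mx x *ᵥ w = w := by
      rw [Matrix.sub_mulVec, Matrix.one_mulVec] at hw
      exact sub_eq_zero.1 hw
    apply Subtype.ext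
    apply Units.ext
    apply Cfsg.Agent.Lead.mat_ext_mulVec
    intro v
    show (Cfsg.reflectionMatrix (⇑(Cfsg.Agent.H11.plusForm m F)) w * mx x) *ᵥ v = (mx x * Cfsg.reflectionMatrix (⇑(Cfsg.Agent.H11.plusForm m F)) w) *ᵥ v
    rw [← Matrix.mulVec_mulVec, ← Matrix.mulVec_mulVec, Cfsg.Agent.H03.reflection_mulVec, Cfsg.Agent.H03.reflection_mulVec,
      Matrix.mulVec_sub, Matrix.mulVec_smul, hfix]
    have e : fS w (mx x *ᵥ v) = fS w v := by
      have := O_form x w v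
      rwa [hfix] at this
    have p1 : ∀ b, QuadraticMap.polar (⇑(Cfsg.Agent.H11.plusForm m F)) w b = fS w b := fun b => polar_eq w b
    rw [p1, p1, e]

include h in
/-- If the image of `x - 1` is maximal totally singular, the centraliser of `x` lies in `Ω`. -/
theorem all_omega (x : OG m F) (hrank : (mx x - 1).rank = m) (hsing : ∀ v, Qp ((mx x - 1) *ᵥ v) = 0)
    (g : OG m F) (hg : g * x = x * g) : g ∈ Cfsg.Omega F (Cfsg.quadFormPlus m F) := by
  classical
  have h2 : (2 : F) = 0 := CharTwo.two_eq_zero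
  set A := mx x with hA
  set G := mx g with hG
  let U : Submodule F (Fin m ⊕ Fin m → F) := LinearMap.range (Matrix.toLin' (A - 1))
  have hU : Cfsg.Agent.H11.IsMTS (Cfsg.Agent.H11.plusForm m F) m U := by
    refine ⟨?_, ?_⟩
    · exact (show Module.finrank F U = (A - 1).rank from rfl).trans hrank
    · rintro _ ⟨v, rfl⟩
      exact hsing v
  have hdim : Fintype.card (Fin m ⊕ Fin m) = 2 * m := by
    simp [two_mul]
  have hGA : G * A = A * G := congrArg mx hg
  have hGG : G * mx g⁻¹ = 1 := congrArg mx (mul_inv_cancel g)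
  have hGN : ∀ w, G *ᵥ ((A - 1) *ᵥ w) = (A - 1) *ᵥ (G *ᵥ w) := by
    intro w
    rw [Matrix.mulVec_mulVec, Matrix.mulVec_mulVec, mul_sub, sub_mul, hGA, mul_one, one_mul]
  have hmap : U.map G.mulVecLin = U := by
    ext y
    constructor
    · rintro ⟨_, ⟨v, rfl⟩, rfl⟩
      refine ⟨G *ᵥ v, ?_⟩
      exact (hGN v).symm
    · rintro ⟨v, rfl⟩
      refine ⟨(A - 1) *ᵥ (mx g⁻¹ *ᵥ v), ⟨mx g⁻¹ *ᵥ v, rfl⟩, ?_⟩
      show G *ᵥ ((A - 1) *ᵥ (mx g⁻¹ *ᵥ v)) = (A - 1) *ᵥ v
      have h1 : G *ᵥ (mx g⁻¹ *ᵥ v) = v := by rw [Matrix.mulVec_mulVec, hGG, Matrix.one_mulVec]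
      rw [hGN, h1]
  obtain ⟨L, hL, hgL⟩ := Cfsg.Agent.H03.OGen.exists_list_of_isometry (Cfsg.Agent.H11.plusForm m F) (Cfsg.Agent.H11.plus_nondeg' m) (good_h h) g
  have hpar := Cfsg.Agent.H11.parity_list hdim (Cfsg.Agent.H11.plus_nondeg' m) L hL hU hU
  have hprod : Cfsg.Agent.H11.prodM (Cfsg.Agent.H11.plusForm m F) L = G := hgL.symm
  rw [hprod, hmap, inf_idem, hU.card] at hpar
  have hd := Cfsg.Agent.H03.ODick.dick_of_list h2 (Cfsg.Agent.H11.plusForm m F) (Cfsg.Agent.H11.plus_nondeg' m) g L hL hgL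
  rw [mem_omega h]
  show Cfsg.Agent.H03.ODick.dick (Cfsg.Agent.H11.plusForm m F) g = 1
  rw [hd, Cfsg.Agent.H09.OI.neg_one_pow_eq_one_iff, Nat.even_iff]
  omega

end Dickson

end Cfsg.Agent.H01.OCen
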