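import Cfsg.Agent.Lib.H01.OCen4

/-! The centraliser orders in `Ω⁺` of involutions in characteristic two. -/

set_option autoImplicit false
set_option linter.unusedSectionVars false

namespace Cfsg.Agent.H01.OCen

open Matrix Cfsg.Agent.H01.SpInv

universe u

lemma formula_OB (q m s a r : ℕ) (hm : m = 2 * a + 1 + r) (hs : s = 2 * a + 1) :
    q ^ (2 * m * (s - 1) - (3 * s ^ 2 - 3 * s) / 2) * ((q : ℕ) ^ (((s - 1) / 2) ^ 2) * ∏ i : Fin ((s - 1) / 2), (q ^ (2 * ((i : ℕ) + 1)) - 1)) * ((q : ℕ) ^ ((m - s) ^ 2) * ∏ i : Fin (m - s), (q ^ (2 * ((i : ℕ) + 1)) - 1)) = Aa q a r := by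
  subst hm
  subst hs
  have e1 : (2 * a + 1 - 1) / 2 = a := by omega
  have e2 : 2 * a + 1 + r - (2 * a + 1) = r := by omega
  rw [e1, e2, spN_fin, spN_fin]
  have e3 : 3 * (2 * a + 1) ^ 2 - 3 * (2 * a + 1) = 2 * (6 * a ^ 2 + 3 * a) := by
    apply Nat.sub_eq_of_eq_add
    ring
  rw [e3, Nat.mul_div_cancel_left _ (by norm_num : 0 < 2), Nat.add_sub_cancel]
  have e4 : 2 * (2 * a + 1 + r) * (2 * a) - (6 * a ^ 2 + 3 * a) = 2 * a ^ 2 + 4 * a * r + a := by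
    apply Nat.sub_eq_of_eq_add
    ring
  rw [e4]
  rfl

lemma formula_OC (q m s a r : ℕ) (hm : m = 2 * a + 2 + r) (hs : s = 2 * a + 2) :
    q ^ (2 * a + 2 * r + 2) * (q ^ (2 * m * (s - 1) - (3 * s ^ 2 - 5 * s) / 2 - 1) * ((q : ℕ) ^ (((s - 2) / 2) ^ 2) * ∏ i : Fin ((s - 2) / 2), (q ^ (2 * ((i : ℕ) + 1)) - 1)) * ((q : ℕ) ^ ((m - s) ^ 2) * ∏ i : Fin (m - s), (q ^ (2 * ((i : ℕ) + 1)) - 1))) = Cc q a r := by
  subst hm
  subst hs
  have e1 : (2 * a + 2 - 2) / 2 = a := by omega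
  have e2 : 2 * a + 2 + r - (2 * a + 2) = r := by omega
  rw [e1, e2, spN_fin, spN_fin]
  have e3 : 3 * (2 * a + 2) ^ 2 - 5 * (2 * a + 2) = 2 * (6 * a ^ 2 + 7 * a + 1) := by
    apply Nat.sub_eq_of_eq_add
    ring
  rw [e3, Nat.mul_div_cancel_left _ (by norm_num : 0 < 2)]
  have e5 : 2 * a + 2 - 1 = 2 * a + 1 := by omega
  rw [e5]
  have e4 : 2 * (2 * a + 2 + r) * (2 * a + 1) - (6 * a ^ 2 + 7 * a + 1) - 1 = 2 * a ^ 2 + 5 * a + 2 + 4 * a * r + 2 * r := by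
    rw [Nat.sub_sub]
    apply Nat.sub_eq_of_eq_add
    ring
  rw [e4]
  unfold Cc Bb Aa
  ring

lemma formula_OA0 (q m s a : ℕ) (hm : m = 2 * a) (hs : s = 2 * a) :
    q ^ m * (q ^ (2 * m * s - (3 * s ^ 2 + s) / 2) * ((q : ℕ) ^ ((s / 2) ^ 2) * ∏ i : Fin (s / 2), (q ^ (2 * ((i : ℕ) + 1)) - 1)) * (if s = m then 1 else q ^ ((m - s) * (m - s - 1)) * (q ^ (m - s) - 1) * ∏ i : Fin (m - s - 1), (q ^ (2 * ((i : ℕ) + 1)) - 1))) = Aa q a 0 := by
  subst hm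
  subst hs
  rw [if_pos rfl, Nat.mul_div_cancel_left a (by norm_num : 0 < 2), spN_fin]
  have e3 : 3 * (2 * a) ^ 2 + 2 * a = 2 * (6 * a ^ 2 + a) := by ring
  rw [e3, Nat.mul_div_cancel_left _ (by norm_num : 0 < 2)]
  have e4 : 2 * (2 * a) * (2 * a) - (6 * a ^ 2 + a) + 2 * a = 2 * a ^ 2 + a := by
    have hle : a ≤ a ^ 2 := by nlinarith [sq_nonneg a, Nat.zero_le a, Nat.le_self_pow (by norm_num : 2 ≠ 0) a]
    have : 2 * (2 * a) * (2 * a) = 8 * a ^ 2 := by ring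
    rw [this]
    omega
  have s0 : spN q 0 = 1 := by simp [spN]
  unfold Aa
  rw [s0, show 2 * a ^ 2 + 4 * a * 0 + a = 2 * (2 * a) * (2 * a) - (6 * a ^ 2 + a) + 2 * a by rw [e4]; ring, pow_add]
  ring

lemma formula_OA1 (q m s a r : ℕ) (hq : 0 < q) (hm : m = 2 * a + (r + 1)) (hs : s = 2 * a) :
    (q ^ (2 * m - s) + q ^ m) * (q ^ (2 * m * s - (3 * s ^ 2 + s) / 2) * ((q : ℕ) ^ ((s / 2) ^ 2) * ∏ i : Fin (s / 2), (q ^ (2 * ((i : ℕ) + 1)) - 1)) * (if s = m then 1 else q ^ ((m - s) * (m - s - 1)) * (q ^ (m - s) - 1) * ∏ i : Fin (m - s - 1), (q ^ (2 * ((i : ℕ) + 1)) - 1))) = Aa q a (r + 1) := by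
  subst hm
  subst hs
  have hne : ¬ 2 * a = 2 * a + (r + 1) := by omega
  rw [if_neg hne, Nat.mul_div_cancel_left a (by norm_num : 0 < 2), spN_fin]
  have e2 : 2 * a + (r + 1) - 2 * a = r + 1 := by omega
  have e2' : r + 1 - 1 = r := by omega
  rw [e2, e2', Fin.prod_univ_eq_prod_range (fun i => q ^ (2 * (i + 1)) - 1) r]
  have e3 : 3 * (2 * a) ^ 2 + 2 * a = 2 * (6 * a ^ 2 + a) := by ring
  rw [e3, Nat.mul_div_cancel_left _ (by norm_num : 0 < 2)]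
  have hle : a ≤ a ^ 2 := by nlinarith [sq_nonneg a, Nat.zero_le a, Nat.le_self_pow (by norm_num : 2 ≠ 0) a]
  obtain ⟨e, he⟩ : ∃ e, 2 * (2 * a + (r + 1)) * (2 * a) - (6 * a ^ 2 + a) = e ∧ e + a = 2 * a ^ 2 + 4 * a * (r + 1) := by
    refine ⟨_, rfl, ?_⟩
    have : 2 * (2 * a + (r + 1)) * (2 * a) = 8 * a ^ 2 + 4 * a * (r + 1) := by ring
    rw [this]
    omega
  rw [he.1]
  have hE : 2 * (2 * a + (r + 1)) - 2 * a = (2 * a + (r + 1)) + (r + 1) := by omega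
  rw [hE]
  unfold Aa
  rw [show 2 * a ^ 2 + 4 * a * (r + 1) + a = e + 2 * a by omega]
  unfold spN
  rw [Finset.prod_range_succ]
  obtain ⟨E, hEq⟩ : ∃ E, q ^ (r + 1) = E + 1 := ⟨q ^ (r + 1) - 1, (Nat.sub_add_cancel (Nat.one_le_pow _ _ hq)).symm⟩
  have e7 : q ^ (2 * (r + 1)) - 1 = (E + 2) * E := by
    have : q ^ (2 * (r + 1)) = (q ^ (r + 1)) ^ 2 := by ring
    rw [this, hEq]
    apply Nat.sub_eq_of_eq_add
    ring
  rw [e7]
  rw [pow_add q (2 * a + (r + 1)) (r + 1), hEq]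
  have e8 : E + 1 - 1 = E := by omega
  rw [e8]
  have e9 : (r + 1) ^ 2 = (r + 1) * r + (r + 1) := by ring
  rw [e9, pow_add q ((r + 1) * r) (r + 1), hEq, pow_add q e (2 * a), pow_add q (2 * a) (r + 1), hEq]
  generalize (∏ i ∈ Finset.range r, (q ^ (2 * (i + 1)) - 1)) = PR
  ring

variable {F : Type u} [Field F] [CharP F 2] [Fintype F] {m s : ℕ}

local notation "Qp" => Cfsg.quadFormPlus m F

section

variable (h : Fintype.card F ≠ 2 ∨ m ≠ 2) (x : OG m F) (hx : x ^ 2 = 1)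

include hx in
theorem card_G_O : Nat.card ↥(Subgroup.centralizer ({toSp x} : Set (symplecticGroup (Fin m) F))) = Nat.card (WW (toSp x)) * Nat.card (CO x) := by
  rw [card_G (toSp x) (toSp_sq hx) (Q_O x), Nat.card_congr (ooEquiv x)]

include h in
theorem card_half (z : Fin m ⊕ Fin m → F) (hz : Qp ((mx x - 1) *ᵥ z) ∉ PP F) :
    Nat.card ↥(Subgroup.centralizer ({toSp x} : Set (symplecticGroup (Fin m) F))) = kerC (stdSys (toSp x) (toSp_sq hx)) * Nat.card (CW x) := by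
  have hw : (mx x - 1) *ᵥ ((mx x - 1) *ᵥ z) = 0 := N2' (toSp x) (toSp_sq hx) z
  have hQ : Qp ((mx x - 1) *ᵥ z) ≠ 0 := by
    intro h0
    rw [h0] at hz
    exact hz (PP F).zero_mem
  obtain ⟨y, hy, hyx⟩ := exists_y h x hw hQ
  rw [card_G_O x hx, card_O_two h x y hy hyx, ← card_WW_half (toSp x) (toSp_sq hx) (Q_O x) z hz]
  ring

lemma isA_of (hsing : ∀ v, Qp ((mx x - 1) *ᵥ v) = 0) : IsA (stdSys (toSp x) (toSp_sq hx)) := by
  intro v
  exact (Q_N (toSp x) (Q_O x) v).symm.trans (hsing v)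

lemma not_isA_of (hna : ∃ v, Qp ((mx x - 1) *ᵥ v) ≠ 0) : ¬ IsA (stdSys (toSp x) (toSp_sq hx)) := by
  intro hA
  obtain ⟨v, hv⟩ := hna
  exact hv ((Q_N (toSp x) (Q_O x) v).trans (hA v))

end

lemma Nd_ne_of_B {S : Sys.{u} F} {d : S.V} (hy : S.B d (S.N d) = 1) : S.N d ≠ 0 := by
  intro h0
  rw [h0, S.zero_r] at hy
  exact zero_ne_one hy

theorem main_B (h : Fintype.card F ≠ 2 ∨ m ≠ 2) (x : OG m F) (hx : x ^ 2 = 1) (hs : (mx x - 1).rank = s) (hodd : Odd s) :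
    Nat.card (CW x) = (Nat.card F) ^ (2 * m * (s - 1) - (3 * s ^ 2 - 3 * s) / 2) * ((Nat.card F : ℕ) ^ (((s - 1) / 2) ^ 2) * ∏ i : Fin ((s - 1) / 2), ((Nat.card F) ^ (2 * ((i : ℕ) + 1)) - 1)) * ((Nat.card F : ℕ) ^ ((m - s) ^ 2) * ∏ i : Fin (m - s), ((Nat.card F) ^ (2 * ((i : ℕ) + 1)) - 1)) := by
  have ht := toSp_sq hx
  rcases trichotomy (stdSys (toSp x) ht) with hA | hB | hC
  · obtain ⟨a, r, hm, hr, hc⟩ := cen_A (toSp x) ht hA
    exfalso
    have hr' : s = 2 * a := hs.symm.trans hr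
    subst hr'
    exact (Nat.not_even_iff_odd.2 hodd) (even_two_mul a)
  · obtain ⟨a, r, hm, hr, hc⟩ := cen_B (toSp x) ht hB
    have hr' : s = 2 * a + 1 := hs.symm.trans hr
    obtain ⟨d, hd, hy⟩ := hB
    obtain ⟨z, hz⟩ := exists_z (toSp x) ht (Q_O x) hd (Nd_ne_of_B hy)
    have h1 := card_half h x hx z hz
    rw [hc, std_kerC, show ((toSp x : symplecticGroup (Fin m) F) : Matrix (Fin m ⊕ Fin m) (Fin m ⊕ Fin m) F) = mx x from rfl, hs] at h1
    rw [formula_OB _ m s a r hm hr']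
    have e : 2 * m - s = 2 * a + 2 * r + 1 := by omega
    rw [e] at h1
    unfold Bb at h1
    exact (Nat.eq_of_mul_eq_mul_left (pow_pos q_pos _) h1).symm
  · obtain ⟨a, r, hm, hr, hc⟩ := cen_C (toSp x) ht hC
    exfalso
    have hr' : s = 2 * a + 2 := hs.symm.trans hr
    subst hr'
    exact (Nat.not_even_iff_odd.2 hodd) (by rw [show 2 * a + 2 = 2 * (a + 1) by ring]; exact even_two_mul _)

theorem main_C (h : Fintype.card F ≠ 2 ∨ m ≠ 2) (x : OG m F) (hx : x ^ 2 = 1) (hs : (mx x - 1).rank = s) (heven : Even s)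
    (hna : ∃ v, Qp ((mx x - 1) *ᵥ v) ≠ 0) :
    Nat.card (CW x) = (Nat.card F) ^ (2 * m * (s - 1) - (3 * s ^ 2 - 5 * s) / 2 - 1) * ((Nat.card F : ℕ) ^ (((s - 2) / 2) ^ 2) * ∏ i : Fin ((s - 2) / 2), ((Nat.card F) ^ (2 * ((i : ℕ) + 1)) - 1)) * ((Nat.card F : ℕ) ^ ((m - s) ^ 2) * ∏ i : Fin (m - s), ((Nat.card F) ^ (2 * ((i : ℕ) + 1)) - 1)) := by
  have ht := toSp_sq hx
  rcases trichotomy (stdSys (toSp x) ht) with hA | hB | hC
  · exact absurd hA (not_isA_of x hx hna)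
  · obtain ⟨a, r, hm, hr, hc⟩ := cen_B (toSp x) ht hB
    exfalso
    have hr' : s = 2 * a + 1 := hs.symm.trans hr
    subst hr'
    exact (Nat.not_even_iff_odd.2 ⟨a, rfl⟩) heven
  · obtain ⟨a, r, hm, hr, hc⟩ := cen_C (toSp x) ht hC
    have hr' : s = 2 * a + 2 := hs.symm.trans hr
    obtain ⟨d, hd, hy, hNd⟩ := hC
    obtain ⟨z, hz⟩ := exists_z (toSp x) ht (Q_O x) hd hNd
    have h1 := card_half h x hx z hz
    rw [hc, std_kerC, show ((toSp x : symplecticGroup (Fin m) F) : Matrix (Fin m ⊕ Fin m) (Fin m ⊕ Fin m) F) = mx x from rfl, hs] at h1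
    have e : 2 * m - s = 2 * a + 2 * r + 2 := by omega
    rw [e] at h1
    rw [← formula_OC _ m s a r hm hr'] at h1
    exact (Nat.eq_of_mul_eq_mul_left (pow_pos q_pos _) h1).symm

theorem main_A (h : Fintype.card F ≠ 2 ∨ m ≠ 2) (x : OG m F) (hx : x ^ 2 = 1) (hs : (mx x - 1).rank = s)
    (hsing : ∀ v, Qp ((mx x - 1) *ᵥ v) = 0) :
    Nat.card (CW x) = (Nat.card F) ^ (2 * m * s - (3 * s ^ 2 + s) / 2) * ((Nat.card F : ℕ) ^ ((s / 2) ^ 2) * ∏ i : Fin (s / 2), ((Nat.card F) ^ (2 * ((i : ℕ) + 1)) - 1)) * (if s = m then 1 else (Nat.card F) ^ ((m - s) * (m - s - 1)) * ((Nat.card F) ^ (m - s) - 1) * ∏ i : Fin (m - s - 1), ((Nat.card F) ^ (2 * ((i : ℕ) + 1)) - 1)) := by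
  have ht := toSp_sq hx
  have hA := isA_of x hx hsing
  obtain ⟨a, r, hm, hr, hc⟩ := cen_A (toSp x) ht hA
  have hr' : s = 2 * a := hs.symm.trans hr
  have hq2 : 2 ≤ Nat.card F := two_le_card
  have hqc : Fintype.card F = Nat.card F := Nat.card_eq_fintype_card.symm
  have hW := card_WW_A (toSp x) ht (Q_O x) hA
  rw [hqc] at hW
  have hker : kerC (stdSys (toSp x) ht) = Nat.card F ^ (2 * m - s) := by
    rw [std_kerC]
    exact congrArg _ (congrArg _ hs)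
  rw [hker] at hW
  have hG := card_G_O x hx
  rw [hc] at hG
  rcases r with _ | r
  · -- the image of `N` is maximal totally singular
    have hms : m = 2 * a := by omega
    have hsm : s = m := by omega
    have hall : Nat.card (CO x) = Nat.card (CW x) := by
      apply Nat.card_congr
      exact ⟨fun g => ⟨⟨g.1, all_omega h x (hs.trans hsm) hsing g.1 g.2⟩, g.2⟩, fun w => ⟨w.1.1, w.2⟩, fun _ => rfl, fun _ => rfl⟩
    have hWW : Nat.card (WW (toSp x)) = Nat.card F ^ m := by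
      have e : 2 * m - s = m := by omega
      rw [e] at hW
      omega
    rw [hall, hWW] at hG
    rw [← formula_OA0 _ m s a hms hr'] at hG
    exact (Nat.eq_of_mul_eq_mul_left (pow_pos q_pos _) hG).symm
  · have hne : s ≠ m := by omega
    have hw : ∃ w, (mx x - 1) *ᵥ w = 0 ∧ Qp w ≠ 0 := by
      by_contra hcon
      push Not at hcon
      have h1 := kerC_of_sing (toSp x) ht (Q_O x) hA hcon
      rw [hker, hqc] at h1
      have := Nat.pow_right_injective hq2 h1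
      omega
    obtain ⟨w, hw1, hw2⟩ := hw
    obtain ⟨y, hy, hyx⟩ := exists_y h x hw1 hw2
    rw [card_O_two h x y hy hyx] at hG
    have e1 : Nat.card (WW (toSp x)) * (2 * Nat.card (CW x)) = (Nat.card F ^ (2 * m - s) + Nat.card F ^ m) * Nat.card (CW x) := by
      rw [← hW]
      ring
    rw [e1] at hG
    rw [← formula_OA1 _ m s a r q_pos hm hr'] at hG
    have hp : 0 < Nat.card F ^ (2 * m - s) + Nat.card F ^ m := by
      have : 0 < Nat.card F ^ m := pow_pos q_pos _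
      omega
    exact (Nat.eq_of_mul_eq_mul_left hp hG).symm

end Cfsg.Agent.H01.OCen
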