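import Cfsg.Agent.Lib.H01.OmDiagP
/-! The inner-diagonal group of the plus type: the structure. -/
set_option autoImplicit false
set_option linter.unusedSimpArgs false
set_option linter.style.haveILetI false
set_option linter.unusedSectionVars false
set_option linter.unusedVariables false
namespace Cfsg.Agent.H01.Om
open Matrix Module Cfsg.Agent.Lead.Ortho Cfsg.Agent.Lead.Omega
open Cfsg.Agent.H11 (IsMTS Rf Pb Rf_apply Rf_isom plusForm U0 U0_mts mem_U0 card_sum plus_nondeg')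

variable {F : Type*} [Field F] [Fintype F]

set_option maxHeartbeats 8000000 in
/-- **The structure of `Inndiag/Inn`, plus type.** -/
theorem inndiag_plus_final (hq : Odd (Fintype.card F)) {m : ℕ} (hm : 3 ≤ m) :
    ((Odd m ∧ Fintype.card F % 4 = 3) → (∃ φ : ↥(Cfsg.inndiagPOmegaPlus m F) →* Multiplicative (ZMod 2), Function.Surjective φ ∧
        φ.ker = (Cfsg.Inn (Cfsg.POmega F (Cfsg.quadFormPlus m F))).subgroupOf (Cfsg.inndiagPOmegaPlus m F))) ∧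
    ((Odd m ∧ Fintype.card F % 4 = 1) → (∃ φ : ↥(Cfsg.inndiagPOmegaPlus m F) →* Multiplicative (ZMod 4), Function.Surjective φ ∧
        φ.ker = (Cfsg.Inn (Cfsg.POmega F (Cfsg.quadFormPlus m F))).subgroupOf (Cfsg.inndiagPOmegaPlus m F))) ∧
    (Even m → (∃ φ : ↥(Cfsg.inndiagPOmegaPlus m F) →* Multiplicative (ZMod 2 × ZMod 2), Function.Surjective φ ∧
        φ.ker = (Cfsg.Inn (Cfsg.POmega F (Cfsg.quadFormPlus m F))).subgroupOf (Cfsg.inndiagPOmegaPlus m F))) := by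
  classical
  obtain ⟨m', rfl⟩ : ∃ m', m = m' + 1 + 1 := ⟨m - 2, by omega⟩
  have hm' : 1 ≤ m' := by omega
  obtain ⟨C, a₁, a₂, Qa₁, Qa₂, D, ν₀, s₀, k, X, hP⟩ := pd_plus hq m' hm'
  have hnP := hP.trans (four_dvd_sub_iff hq (m' + 1 + 1))
  obtain ⟨ν, hν⟩ := exists_nonsq hq
  have hν0 : ν ≠ 0 := by
    rintro rfl
    exact hν IsSquare.zero
  obtain ⟨c, hc⟩ : ∃ c : Fˣ, c = Units.mk0 ν hν0 := ⟨_, rfl⟩
  have hcv : (c : F) = ν := by rw [hc]; rfl
  have HS : IsSemi (Cfsg.quadFormPlus (m' + 1 + 1) F) (swapP (m' + 1 + 1) c) 1 ν := by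
    rw [← hcv]
    exact isSemi_swapP _ _
  obtain ⟨g₁, H₁', hg₁'⟩ := HS.matrix C.h C.nd
  have hg₁ : ∀ x, swapP (m' + 1 + 1) c x = g₁.val *ᵥ x := fun x => hg₁' x
  obtain ⟨Ds, hDs⟩ : ∃ Ds : GS (Cfsg.quadFormPlus (m' + 1 + 1) F), Ds = ⟨swapP (m' + 1 + 1) c, _, _, HS⟩ := ⟨_, rfl⟩
  have HDs : IsSemi (Cfsg.quadFormPlus (m' + 1 + 1) F) (Ds : Equiv.Perm _) 1 ν := by
    rw [hDs]
    exact HS
  have hDsg : ∀ x, (Ds : Equiv.Perm (Fin (m' + 1 + 1) ⊕ Fin (m' + 1 + 1) → F)) x = g₁.val *ᵥ x := by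
    intro x
    rw [hDs]
    exact hg₁ x
  have hM := swap_par c hg₁
  have Y := plusLD (F := F) (m' + 1 + 1)
  have Y' : LD C.h (plusForm (m' + 1 + 1) F) (m' + 1 + 1) (U0 (m' + 1 + 1) F) := Y
  have hg₁L : g₁ ∈ SGL (plusForm (m' + 1 + 1) F) := by
    refine ⟨c, fun v => ?_⟩
    rw [← hg₁, hcv]
    exact HS.hQ v
  -- the even variant
  have hE : Even (m' + 1 + 1) → KD X {β | Cfsg.IsInnerDiagonalAutPOmegaPlus (F := F) (m' + 1 + 1) β} (Th C.h C.nd Ds) := by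
    intro he
    refine plus_kd X HDs hν hDsg ?_
    rw [hM, add_zero]
    exact Nat.even_iff.1 he
  -- the odd variant
  have hR : ∀ x, ((R C.h a₁ Qa₁ : OG F _) : GL (Fin (m' + 1 + 1) ⊕ Fin (m' + 1 + 1)) F).val *ᵥ x = Rf (plusForm (m' + 1 + 1) F) a₁ x := by
    intro x
    have := Y'.embG_R Qa₁ x
    rw [embG_self] at this
    exact this
  have hRL : ((R C.h a₁ Qa₁ : OG F _) : GL (Fin (m' + 1 + 1) ⊕ Fin (m' + 1 + 1)) F) ∈ SGL (plusForm (m' + 1 + 1) F) := by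
    refine ⟨1, fun v => ?_⟩
    rw [hR, Rf_isom _ _ Qa₁]
    simp
  have hO : Odd (m' + 1 + 1) → KD X {β | Cfsg.IsInnerDiagonalAutPOmegaPlus (F := F) (m' + 1 + 1) β} (Th C.h C.nd (Ds * ofO (R C.h a₁ Qa₁))) := by
    intro ho
    have H₂ : IsSemi (Cfsg.quadFormPlus (m' + 1 + 1) F) ((Ds * ofO (R C.h a₁ Qa₁) : GS _) : Equiv.Perm _) 1 ν := by
      have h0 := HDs.mul (isSemi_permO (R C.h a₁ Qa₁))
      have e1 : (1 : F ≃+* F) * 1 = 1 := one_mul 1
      have e2 : ν * (1 : F ≃+* F) 1 = ν := by simp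
      rw [e1, e2] at h0
      exact h0
    refine plus_kd X H₂ hν (g₁ := g₁ * ((R C.h a₁ Qa₁ : OG F _) : GL _ F)) ?_ ?_
    · intro x
      change (Ds : Equiv.Perm _) (act (R C.h a₁ Qa₁) x) = _
      rw [hDsg, Units.val_mul, ← Matrix.mulVec_mulVec]
      rfl
    · have e1 := parity_mul Y.hdim Y.hQ hg₁L hRL Y.hW₀
      have e2 := Mg_refl Y.hdim Y.hQ Qa₁ hR Y.hW₀
      have e3 := Nat.odd_iff.1 ho
      omega
  refine ⟨?_, ?_, ?_⟩
  · rintro ⟨ho, h3⟩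
    exact (hO ho).final_c2 (fun e => (hnP.1 e) ⟨ho, h3⟩)
  · rintro ⟨ho, h1⟩
    have hn : negO C.h ∈ SS C.h := hnP.2 (fun ⟨_, h⟩ => by omega)
    refine (hO ho).final_c4 hn ?_
    -- the square is not inner
    have hsq : (Th C.h C.nd Ds) ^ 2 = 1 := by
      rw [← map_pow]
      have := C.Th_of_scalar (T := Ds ^ 2) (c := ν) (s := 1) hν0 (fun x => by
        rw [act_one, hDs, sq]
        change swapP _ c (swapP _ c x) = _
        rw [swapP_sq, hcv])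
      rw [this, map_one]
    have hQa' : Cfsg.quadFormPlus (m' + 1 + 1) F ((Ds : Equiv.Perm _) a₁) ≠ 0 := by
      rw [show Cfsg.quadFormPlus (m' + 1 + 1) F ((Ds : Equiv.Perm _) a₁) = ν * Cfsg.quadFormPlus (m' + 1 + 1) F a₁ from HDs.hQ a₁]
      exact mul_ne_zero hν0 Qa₁
    have e1 : (Th C.h C.nd (Ds * ofO (R C.h a₁ Qa₁))) ^ 2 = cc _ (R C.h _ hQa' * R C.h a₁ Qa₁) := by
      rw [map_mul, Th_ofO, map_mul, ← conjA_R C.h C.nd HDs Qa₁ hQa', ← Th_conj]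
      have e2 : Th C.h C.nd Ds * Th C.h C.nd Ds = 1 := by rw [← sq, hsq]
      have e3 : (Th C.h C.nd Ds)⁻¹ = Th C.h C.nd Ds := inv_eq_of_mul_eq_one_left e2
      rw [e3, sq]
      simp only [mul_assoc]
    rw [e1, C.cc_inn_iff]
    have hnS : ∀ t, negO C.h * t ∈ SS C.h ↔ t ∈ SS C.h := by
      intro t
      exact ⟨fun e => by simpa using Subgroup.mul_mem _ (Subgroup.inv_mem _ hn) e, Subgroup.mul_mem _ hn⟩
    rw [hnS, or_self, ← piS_eq_one, map_mul]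
    have e4 := piS_RR C.h C.nd C.ht X.hanis X.h2 Qa₁ Qa₂ hQa' Qa₁ X.hns (by
      rw [show Cfsg.quadFormPlus (m' + 1 + 1) F ((Ds : Equiv.Perm _) a₁) = ν * Cfsg.quadFormPlus (m' + 1 + 1) F a₁ from HDs.hQ a₁]
      rintro ⟨z, hz⟩
      apply hν
      have hq0 := Qa₁
      refine ⟨z / Cfsg.quadFormPlus (m' + 1 + 1) F a₁, ?_⟩
      field_simp
      linear_combination hz)
    rw [e4]
    exact X.hr1
  · intro he
    have hn : negO C.h ∈ SS C.h := hnP.2 (fun ⟨h, _⟩ => (Nat.not_even_iff_odd.2 h) he)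
    refine (hE he).final_e4 hn ?_
    have hsq : (Th C.h C.nd Ds) ^ 2 = 1 := by
      rw [← map_pow]
      have := C.Th_of_scalar (T := Ds ^ 2) (c := ν) (s := 1) hν0 (fun x => by
        rw [act_one, hDs, sq]
        change swapP _ c (swapP _ c x) = _
        rw [swapP_sq, hcv])
      rw [this, map_one]
    rw [hsq]
    exact Subgroup.one_mem _

end Cfsg.Agent.H01.Om
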