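import Cfsg.Agent.Lib.H01.OmOddFinal
import Cfsg.Agent.Lib.Lead.AutPSpSyl
/-! `PSp_{2m}(q)` and `PΩ_{2m+1}(q)` are not isomorphic. -/
set_option autoImplicit false
set_option linter.unusedSimpArgs false
set_option linter.style.haveILetI false
set_option linter.unusedSectionVars false
set_option linter.unusedVariables false
namespace Cfsg.Agent.H01.Om
open Matrix Cfsg.Agent.Lead.Ortho Cfsg.Agent.Lead.Omega
open Cfsg.Agent.Lead.AutPSp (ap ap_sympT pr pr_eq_iff RT mem_RT mul_of_perp_perp RT_par exists_fix zc_odd)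

variable {F : Type*} [Field F] [Fintype F] {ι : Type} [Fintype ι] [DecidableEq ι]
variable {Q : (ι → F) → F} {B : (ι → F) → (ι → F) → F}
variable {m : ℕ} {t₀ : Fin m → (ι → F) × (ι → F)}
variable {l : Type} [Fintype l] [DecidableEq l] [Nonempty l]

local notation "PG" => (symplecticGroup l F ⧸ Subgroup.center (symplecticGroup l F))

/-- swapping two entries of a table -/
lemma T3.swap12 (h : QF Q B) {e f e1 f1 e2 f2 : ι → F} (T : T3 Q B e f e1 f1 e2 f2) : T3 Q B e f e2 f2 e1 f1 :=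
  { Qe0 := T.Qe0, Qf0 := T.Qf0, Qe1 := T.Qe2, Qf1 := T.Qf2, Qe2 := T.Qe1, Qf2 := T.Qf1
    e0f0 := T.e0f0, e1f1 := T.e2f2, e2f2 := T.e1f1
    e0e1 := T.e0e2, e0f1 := T.e0f2, e0e2 := T.e0e1, e0f2 := T.e0f1
    f0e1 := T.f0e2, f0f1 := T.f0f2, f0e2 := T.f0e1, f0f2 := T.f0f1
    e1e2 := by rw [h.symm]; exact T.e1e2
    e1f2 := by rw [h.symm]; exact T.f1e2
    f1e2 := by rw [h.symm]; exact T.e1f2
    f1f2 := by rw [h.symm]; exact T.f1f2 }

/-- the sum table -/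
lemma T3.sum (h : QF Q B) {e f e1 f1 e2 f2 : ι → F} (T : T3 Q B e f e1 f1 e2 f2) :
    T3 Q B e f (e1 + e2) f1 e2 (f2 - f1) := by
  have hs := fun x y => h.symm x y
  have Bf1f1 := Buu h T.Qf1
  have Be2e2 := Buu h T.Qe2
  refine
    { Qe0 := T.Qe0, Qf0 := T.Qf0, Qe1 := ?_, Qf1 := T.Qf1, Qe2 := T.Qe2, Qf2 := ?_
      e0f0 := T.e0f0, e1f1 := ?_, e2f2 := ?_
      e0e1 := ?_, e0f1 := T.e0f1, e0e2 := T.e0e2, e0f2 := ?_
      f0e1 := ?_, f0f1 := T.f0f1, f0e2 := T.f0e2, f0f2 := ?_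
      e1e2 := ?_, e1f2 := ?_, f1e2 := T.f1e2, f1f2 := ?_ }
  · rw [h.add, T.Qe1, T.Qe2, T.e1e2]
    ring
  · rw [sub_eq_add_neg, h.add, T.Qf2]
    have e3 : Q (-f1) = 0 := by
      have := h.smul (-1) f1
      simpa [T.Qf1] using this
    rw [e3, hs, h.neg_left, T.f1f2]
    ring
  · rw [h.add_left, T.e1f1, hs e2 f1, T.f1e2, add_zero]
  · rw [h.sub_right, T.e2f2, hs e2 f1, T.f1e2, sub_zero]
  · rw [h.add_right, T.e0e1, T.e0e2, add_zero]
  · rw [h.sub_right, T.e0f2, T.e0f1, sub_zero]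
  · rw [h.add_right, T.f0e1, T.f0e2, add_zero]
  · rw [h.sub_right, T.f0f2, T.f0f1, sub_zero]
  · rw [h.add_left, T.e1e2, Be2e2, add_zero]
  · rw [h.add_left, h.sub_right, h.sub_right, T.e1f2, T.e1f1, T.e2f2, hs e2 f1, T.f1e2]
    ring
  · rw [h.sub_right, T.f1f2, Bf1f1, sub_zero]

section Main
variable (C : Cx Q B t₀) {p : ℕ} [Fact p.Prime] [CharP F p]
include C

lemma Sylow_img (ψ : Cfsg.POmega F Q ≃* PG) (P : Sylow p (Cfsg.POmega F Q)) :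
    ∃ S : Sylow p PG, (S : Subgroup PG) = (P : Subgroup (Cfsg.POmega F Q)).map ψ.toMonoidHom := by
  exact ⟨P.mapSurjective (f := ψ.toMonoidHom) ψ.surjective, rfl⟩

include p in
/-- the image of a root group lies in a root group -/
lemma root_image (h2 : (2 : F) ≠ 0) (ψ : Cfsg.POmega F Q ≃* PG) {e0 f0 e1 f1 e2 f2 : ι → F} (T : T3 Q B e0 f0 e1 f1 e2 f2) :
    ∃ v : l ⊕ l → F, v ≠ 0 ∧ ∀ t : F, ∃ c : F, ψ (C.ee e0 (t • e1)) = pr l F (Cfsg.Agent.Lead.sympT v c) := by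
  obtain ⟨P, h1, h3⟩ := C.exists_P p T
  have e3 := C.zc_eq p T P h1 h3
  obtain ⟨S, hS⟩ := Sylow_img C ψ P
  obtain ⟨v, hv0, hv⟩ := exists_fix (p := p) S.isPGroup'
  refine ⟨v, hv0, fun t => ?_⟩
  have hx : C.ee e0 (t • e1) ∈ Zc (P : Subgroup (Cfsg.POmega F Q)) := by
    rw [e3]
    exact C.mem_RX (mem_sp_left _ _) (Submodule.smul_mem _ _ (mem_sp_right _ _))
  have hz : ψ (C.ee e0 (t • e1)) ∈ Cfsg.Agent.Lead.AutPSL.zc (S : Subgroup PG) := by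
    rw [hS]
    refine ⟨⟨_, hx.1, rfl⟩, ?_⟩
    rintro _ ⟨y, hy, rfl⟩
    change ψ _ * ψ y = ψ y * ψ _
    rw [← map_mul, ← map_mul, hx.2 y hy]
  have hz2 := zc_odd h2 S hv0 hv hz
  obtain ⟨c, hc⟩ := mem_RT.1 hz2
  exact ⟨c, hc.symm⟩

omit C [Fact p.Prime] [CharP F p] in
/-- the product of transvections with the same image -/
lemma product_par (h2 : (2 : F) ≠ 0) (hcard : 3 < Fintype.card (l ⊕ l)) {v₁ v₂ v₃ : l ⊕ l → F} {c₁ c₂ c₃ : F} (hv₁ : v₁ ≠ 0) (hv₂ : v₂ ≠ 0)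
    (hc₁ : c₁ ≠ 0) (hc₂ : c₂ ≠ 0) 
    (E1 : pr l F (Cfsg.Agent.Lead.sympT v₁ c₁) * pr l F (Cfsg.Agent.Lead.sympT v₂ c₂) = pr l F (Cfsg.Agent.Lead.sympT v₃ c₃))
    (E2 : pr l F (Cfsg.Agent.Lead.sympT v₂ c₂) * pr l F (Cfsg.Agent.Lead.sympT v₁ c₁) = pr l F (Cfsg.Agent.Lead.sympT v₃ c₃)) :
    Cfsg.Agent.Lead.PolarFT.Par F v₁ v₂ := by
  classical
  have hsf := Cfsg.Agent.Lead.AutPSp.isSF (l := l) (F := F)
  let L : (l ⊕ l → F) →ₗ[F] (Fin 3 → F) :=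
    { toFun := fun x => ![Cfsg.Agent.Lead.sympForm x v₁, Cfsg.Agent.Lead.sympForm x v₂, Cfsg.Agent.Lead.sympForm x v₃]
      map_add' := fun x y => by
        funext i
        fin_cases i <;> simp [hsf.add_left]
      map_smul' := fun c x => by
        funext i
        fin_cases i <;> simp [hsf.smul_left] }
  have hk : LinearMap.ker L ≠ ⊥ := by
    apply LinearMap.ker_ne_bot_of_finrank_lt
    simpa using hcard
  obtain ⟨x₀, hx₀, hx₀0⟩ := (Submodule.ne_bot_iff _).1 hk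
  have hx1 : Cfsg.Agent.Lead.sympForm x₀ v₁ = 0 := congrFun hx₀ 0
  have hx2 : Cfsg.Agent.Lead.sympForm x₀ v₂ = 0 := congrFun hx₀ 1
  have hx3 : Cfsg.Agent.Lead.sympForm x₀ v₃ = 0 := congrFun hx₀ 2
  have key : ∀ {a b c : l ⊕ l → F} {ca cb cc : F}, Cfsg.Agent.Lead.sympForm x₀ a = 0 → Cfsg.Agent.Lead.sympForm x₀ b = 0 →
      Cfsg.Agent.Lead.sympForm x₀ c = 0 → 
      pr l F (Cfsg.Agent.Lead.sympT a ca) * pr l F (Cfsg.Agent.Lead.sympT b cb) = pr l F (Cfsg.Agent.Lead.sympT c cc) →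
      ∀ x, ap (Cfsg.Agent.Lead.sympT a ca) (ap (Cfsg.Agent.Lead.sympT b cb) x) = ap (Cfsg.Agent.Lead.sympT c cc) x := by
    intro a b c ca cb cc h1 h3 h4 E
    rw [← map_mul, pr_eq_iff] at E
    obtain ⟨d, hd, e⟩ := E
    have e1 := e x₀
    rw [Cfsg.Agent.Lead.AutPSp.ap_mul, ap_sympT, ap_sympT, ap_sympT, h3, h4] at e1
    simp only [mul_zero, zero_smul, add_zero] at e1
    rw [h1] at e1
    simp only [mul_zero, zero_smul, add_zero] at e1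
    have e2 : d = 1 := by
      by_contra hne
      have e3 : (1 - d) • x₀ = 0 := by
        rw [sub_smul, one_smul, ← e1, sub_self]
      exact hx₀0 ((smul_eq_zero.1 e3).resolve_left (sub_ne_zero.2 (Ne.symm hne)))
    intro x
    have := e x
    rw [e2, one_smul, Cfsg.Agent.Lead.AutPSp.ap_mul] at this
    exact this
  have F1 := key hx1 hx2 hx3 E1
  have F2 := key hx2 hx1 hx3 E2
  -- `v₁` is a multiple of `v₃` or of `v₂`
  have aux : ∀ {a b c : l ⊕ l → F} {ca cb cc : F}, a ≠ 0 → b ≠ 0 → ca ≠ 0 →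
      (∀ x, ap (Cfsg.Agent.Lead.sympT a ca) (ap (Cfsg.Agent.Lead.sympT b cb) x) = ap (Cfsg.Agent.Lead.sympT c cc) x) →
      (∃ k : F, a = k • b) ∨ ∃ k : F, a = k • c := by
    intro a b c ca cb cc ha hb hca H
    by_cases H1 : ∀ y, Cfsg.Agent.Lead.sympForm y b = 0 → Cfsg.Agent.Lead.sympForm y a = 0
    · left
      exact mul_of_perp_perp hb H1
    · right
      push Not at H1
      obtain ⟨y, hy, hy2⟩ := H1
      have e1 := H y
      rw [ap_sympT b, hy, mul_zero, zero_smul, add_zero, ap_sympT, ap_sympT] at e1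
      have e2 := add_left_cancel e1
      refine ⟨(ca * Cfsg.Agent.Lead.sympForm y a)⁻¹ * (cc * Cfsg.Agent.Lead.sympForm y c), ?_⟩
      rw [← smul_smul, ← e2, smul_smul, inv_mul_cancel₀ (mul_ne_zero hca hy2), one_smul]
  have ne_of_mult : ∀ {a b : l ⊕ l → F} {k : F}, a ≠ 0 → a = k • b → k ≠ 0 := by
    rintro a b k ha rfl rfl
    simp at ha
  rcases aux hv₁ hv₂ hc₁ F1 with ⟨k, hk1⟩ | ⟨k, hk1⟩
  · exact ⟨k⁻¹, inv_ne_zero (ne_of_mult hv₁ hk1), by rw [hk1, smul_smul, inv_mul_cancel₀ (ne_of_mult hv₁ hk1), one_smul]⟩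
  · rcases aux hv₂ hv₁ hc₂ F2 with ⟨k', hk2⟩ | ⟨k', hk2⟩
    · exact ⟨k', ne_of_mult hv₂ hk2, hk2⟩
    · have hk0 := ne_of_mult hv₁ hk1
      have hk0' := ne_of_mult hv₂ hk2
      refine ⟨k' * k⁻¹, mul_ne_zero hk0' (inv_ne_zero hk0), ?_⟩
      rw [hk1, hk2, smul_smul, mul_assoc, inv_mul_cancel₀ hk0, mul_one]

include p in
/-- **No isomorphism between the symplectic and the orthogonal group.** -/
theorem no_iso (h2 : (2 : F) ≠ 0) (hcard : 3 < Fintype.card (l ⊕ l)) (ψ : Cfsg.POmega F Q ≃* PG) : False := by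
  have h := C.h
  obtain ⟨e, f, e1, f1, e2, f2, T⟩ := C.exists_T3
  have Qe := T.Qe0
  have Bef := T.e0f0
  have hs := fun x y => h.symm x y
  have ue1 : IsU B e f e1 := ⟨by rw [hs]; exact T.e0e1, by rw [hs]; exact T.f0e1⟩
  have ue2 : IsU B e f e2 := ⟨by rw [hs]; exact T.e0e2, by rw [hs]; exact T.f0e2⟩
  obtain ⟨v₁, hv₁, A₁⟩ := root_image (p := p) C h2 ψ T
  obtain ⟨v₂, hv₂, A₂⟩ := root_image (p := p) C h2 ψ (T.swap12 h)
  obtain ⟨v₃, hv₃, A₃⟩ := root_image (p := p) C h2 ψ (T.sum h)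
  have A1 : Adm Q B e e1 := ⟨Qe, ue1.1⟩
  have A2 : Adm Q B e e2 := ⟨Qe, ue2.1⟩
  obtain ⟨c₁, hc₁⟩ := A₁ 1
  obtain ⟨c₂, hc₂⟩ := A₂ 1
  obtain ⟨c₃, hc₃⟩ := A₃ 1
  rw [one_smul] at hc₁ hc₂ hc₃
  have E1 : pr l F (Cfsg.Agent.Lead.sympT v₁ c₁) * pr l F (Cfsg.Agent.Lead.sympT v₂ c₂) = pr l F (Cfsg.Agent.Lead.sympT v₃ c₃) := by
    rw [← hc₁, ← hc₂, ← hc₃, ← map_mul, C.ee_mul A1 A2]
  have E2 : pr l F (Cfsg.Agent.Lead.sympT v₂ c₂) * pr l F (Cfsg.Agent.Lead.sympT v₁ c₁) = pr l F (Cfsg.Agent.Lead.sympT v₃ c₃) := by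
    rw [← hc₁, ← hc₂, ← hc₃, ← map_mul, C.ee_mul A2 A1, add_comm]
  have ne1 : c₁ ≠ 0 := by
    rintro rfl
    have e3 : C.ee e e1 = C.ee e 0 := by
      apply ψ.injective
      rw [hc₁, C.ee_zero Qe, map_one, Cfsg.Agent.Lead.sympT_zero, map_one]
    have e4 := C.U_inj Qe Bef ue1 (IsU.zero h) e3
    have := T.e1f1
    rw [e4, h.zero_left] at this
    exact zero_ne_one this
  have ne2 : c₂ ≠ 0 := by
    rintro rfl
    have e3 : C.ee e e2 = C.ee e 0 := by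
      apply ψ.injective
      rw [hc₂, C.ee_zero Qe, map_one, Cfsg.Agent.Lead.sympT_zero, map_one]
    have e4 := C.U_inj Qe Bef ue2 (IsU.zero h) e3
    have := T.e2f2
    rw [e4, h.zero_left] at this
    exact zero_ne_one this
  have hpar := product_par h2 hcard hv₁ hv₂ ne1 ne2 E1 E2
  have hRT := RT_par hpar
  choose cc hcc using A₁
  have hinj : Function.Injective cc := by
    intro t t' e3
    have e4 : C.ee e (t • e1) = C.ee e (t' • e1) := by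
      apply ψ.injective
      rw [hcc, hcc, e3]
    have e5 := C.U_inj Qe Bef (ue1.smul h t) (ue1.smul h t') e4
    have hne : e1 ≠ 0 := by
      rintro e0
      have := T.e1f1
      rw [e0, h.zero_left] at this
      exact zero_ne_one this
    exact smul_left_injective F hne e5
  have hmem : pr l F (Cfsg.Agent.Lead.sympT v₂ c₂) ∈ RT v₁ := by
    rw [← hRT]
    exact mem_RT.2 ⟨c₂, rfl⟩
  obtain ⟨c, hc⟩ := mem_RT.1 hmem
  obtain ⟨t, ht⟩ := Finite.surjective_of_injective hinj c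
  have e3 : C.ee e (t • e1) = C.ee e e2 := by
    apply ψ.injective
    rw [hcc, ht, hc, hc₂]
  have e4 := C.U_inj Qe Bef (ue1.smul h t) ue2 e3
  have e5 := T.e2f2
  rw [← e4, h.smul_left, T.e1f2, mul_zero] at e5
  exact zero_ne_one e5

end Main

end Cfsg.Agent.H01.Om
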