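import Mathlib
import Cfsg.Agent.Lib.H01.ClassThree
import Cfsg.Agent.Lib.H01.MaxNormal
import Cfsg.Agent.Lib.H01.Solv2

/-! Maximal normal abelian subgroups of bounded exponent contain the elements of that exponent
in their centralizer. -/

set_option autoImplicit false

namespace Cfsg.Agent.H01

open scoped commutatorElement

variable {G : Type*} [Group G]

theorem sup_zpowers_normal {A : Subgroup G} (hA : A.Normal) {b : G}
    (hb : ∀ g : G, g * b * g⁻¹ * b⁻¹ ∈ A) : (A ⊔ Subgroup.zpowers b).Normal := by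
  constructor
  intro z hz g
  have hle : A ⊔ Subgroup.zpowers b ≤
      (A ⊔ Subgroup.zpowers b).comap (MulAut.conj g).toMonoidHom := by
    apply sup_le
    · intro a ha
      exact Subgroup.mem_sup_left (hA.conj_mem a ha g)
    · rw [Subgroup.zpowers_le]
      show g * b * g⁻¹ ∈ A ⊔ Subgroup.zpowers b
      have e : g * b * g⁻¹ = (g * b * g⁻¹ * b⁻¹) * b := by group
      rw [e]
      exact Subgroup.mul_mem _ (Subgroup.mem_sup_left (hb g))
        (Subgroup.mem_sup_right (Subgroup.mem_zpowers b))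
  exact hle hz

theorem mem_sup_zpowers_iff {A : Subgroup G} (hA : A.Normal) {b z : G}
    (hz : z ∈ A ⊔ Subgroup.zpowers b) : ∃ a ∈ A, ∃ k : ℤ, z = a * b ^ k := by
  have h1 : z ∈ ((A ⊔ Subgroup.zpowers b : Subgroup G) : Set G) := hz
  rw [Subgroup.normal_mul] at h1
  obtain ⟨a, ha, c, hc, rfl⟩ := Set.mem_mul.mp h1
  obtain ⟨k, rfl⟩ := Subgroup.mem_zpowers_iff.mp hc
  exact ⟨a, ha, k, rfl⟩

theorem sup_zpowers_comm {A : Subgroup G} (hAn : A.Normal) {b : G}
    (hA : ∀ a ∈ A, ∀ c ∈ A, a * c = c * a) (hbA : ∀ a ∈ A, Commute a b) :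
    ∀ z₁ ∈ A ⊔ Subgroup.zpowers b, ∀ z₂ ∈ A ⊔ Subgroup.zpowers b, z₁ * z₂ = z₂ * z₁ := by
  intro z₁ h₁ z₂ h₂
  obtain ⟨a₁, ha₁, k₁, rfl⟩ := mem_sup_zpowers_iff hAn h₁
  obtain ⟨a₂, ha₂, k₂, rfl⟩ := mem_sup_zpowers_iff hAn h₂
  have c1 : Commute (b ^ k₁) a₂ := ((hbA a₂ ha₂).symm.zpow_left k₁)
  have c2 : Commute (b ^ k₂) a₁ := ((hbA a₁ ha₁).symm.zpow_left k₂)
  calc a₁ * b ^ k₁ * (a₂ * b ^ k₂) = a₁ * (b ^ k₁ * a₂) * b ^ k₂ := by simp only [mul_assoc]
    _ = a₁ * (a₂ * b ^ k₁) * b ^ k₂ := by rw [c1.eq]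
    _ = (a₁ * a₂) * (b ^ k₁ * b ^ k₂) := by simp only [mul_assoc]
    _ = (a₂ * a₁) * (b ^ k₂ * b ^ k₁) := by
      rw [hA a₁ ha₁ a₂ ha₂, ((Commute.refl b).zpow_zpow k₁ k₂).eq]
    _ = a₂ * (a₁ * b ^ k₂) * b ^ k₁ := by simp only [mul_assoc]
    _ = a₂ * (b ^ k₂ * a₁) * b ^ k₁ := by rw [c2.eq]
    _ = a₂ * b ^ k₂ * (a₁ * b ^ k₁) := by simp only [mul_assoc]

theorem sup_zpowers_pow {A : Subgroup G} (hAn : A.Normal) {b : G} {q : ℕ}
    (hbA : ∀ a ∈ A, Commute a b) (hA : ∀ a ∈ A, a ^ q = 1) (hb : b ^ q = 1) :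
    ∀ z ∈ A ⊔ Subgroup.zpowers b, z ^ q = 1 := by
  intro z hz
  obtain ⟨a, ha, k, rfl⟩ := mem_sup_zpowers_iff hAn hz
  have c1 : Commute a (b ^ k) := (hbA a ha).zpow_right k
  rw [c1.mul_pow, hA a ha, one_mul, ← zpow_natCast, ← zpow_mul, mul_comm, zpow_mul, zpow_natCast, hb,
    one_zpow]

theorem dvd_choose_two_of_pow {p n : ℕ} (hp : p.Prime) (hn : n ≠ 0) (h2 : p ^ n ≠ 2) :
    p ∣ (p ^ n).choose 2 := by
  obtain ⟨m, rfl⟩ : ∃ m, n = m + 1 := ⟨n - 1, by omega⟩
  rw [Nat.choose_two_right]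
  by_cases hp2 : p = 2
  · subst hp2
    have hm : m ≠ 0 := by
      rintro rfl
      simp at h2
    obtain ⟨k, rfl⟩ : ∃ k, m = k + 1 := ⟨m - 1, by omega⟩
    have : 2 ^ (k + 1 + 1) * (2 ^ (k + 1 + 1) - 1) / 2 = 2 * (2 ^ k * (2 ^ (k + 1 + 1) - 1)) := by
      have e : 2 ^ (k + 1 + 1) = 2 * (2 * 2 ^ k) := by ring
      rw [e]
      have : 2 * (2 * 2 ^ k) * (2 * (2 * 2 ^ k) - 1) = 2 * (2 * (2 ^ k * (2 * (2 * 2 ^ k) - 1))) := by
        ring
      rw [this, Nat.mul_div_cancel_left _ (by norm_num)]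
    rw [this]
    exact Dvd.intro _ rfl
  · have hodd : Odd p := hp.odd_of_ne_two hp2
    have hoddq : Odd (p ^ (m + 1)) := hodd.pow
    obtain ⟨j, hj⟩ := hoddq
    have h1 : p ^ (m + 1) - 1 = 2 * j := by omega
    rw [h1]
    have e : p ^ (m + 1) * (2 * j) / 2 = p ^ (m + 1) * j := by
      rw [mul_left_comm, Nat.mul_div_cancel_left _ (by norm_num)]
    rw [e, pow_succ]
    exact Dvd.intro_left (p ^ m) (by ring) |>.mul_right j

variable {p : ℕ} [hpf : Fact p.Prime]

/-- Main theorem: `A` maximal among normal abelian subgroups of exponent dividing `p ^ n`,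
`p ^ n ≠ 2`, contains all elements of its centralizer of exponent dividing `p ^ n`. -/
theorem mem_of_max_normal_abelian_exponent [Finite G] (hG : IsPGroup p G) (n : ℕ) (hn2 : p ^ n ≠ 2)
    (A : Subgroup G) (hAn : A.Normal) (hAc : ∀ a ∈ A, ∀ b ∈ A, a * b = b * a)
    (hAe : ∀ a ∈ A, a ^ p ^ n = 1)
    (hmax : ∀ B : Subgroup G, B.Normal → (∀ a ∈ B, ∀ b ∈ B, a * b = b * a) →
      (∀ b ∈ B, b ^ p ^ n = 1) → A ≤ B → B = A)
    (x₀ : G) (hx₀ : x₀ ∈ Subgroup.centralizer (A : Set G)) (hx₀n : x₀ ^ p ^ n = 1) : x₀ ∈ A := by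
  classical
  have hpr : p.Prime := hpf.out
  by_cases hn0 : n = 0
  · subst hn0
    simp only [pow_zero, pow_one] at hx₀n
    rw [hx₀n]; exact A.one_mem
  set q := p ^ n with hq
  have hqp : ∀ z : G, z ^ p = 1 → z ^ q = 1 := by
    intro z hz
    obtain ⟨m, hm⟩ : ∃ m, n = m + 1 := ⟨n - 1, by omega⟩
    rw [hq, hm, pow_succ', pow_mul, hz, one_pow]
  set C := Subgroup.centralizer (A : Set G) with hC
  have hCn : C.Normal := Cfsg.Agent.H01.centralizer_normal hAn
  have hCA : ∀ c ∈ C, ∀ a ∈ A, Commute c a := fun c hc a ha =>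
    (Subgroup.mem_centralizer_iff.mp hc a ha).symm
  have hAC : A ≤ C := by
    intro a ha
    rw [hC, Subgroup.mem_centralizer_iff]
    intro b hb
    exact hAc b hb a ha
  -- The maximal abelian normal subgroup of `G` in `C`.
  let Ws : Set (Subgroup G) := {W | W.Normal ∧ A ≤ W ∧ W ≤ C ∧ ∀ a ∈ W, ∀ b ∈ W, a * b = b * a}
  have hWne : Ws.Nonempty := ⟨A, hAn, le_rfl, hAC, hAc⟩
  obtain ⟨W, hWmax⟩ := Ws.toFinite.exists_maximal hWne
  obtain ⟨hWn, hAW, hWC, hWc⟩ := hWmax.prop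
  have hWself : ∀ c ∈ C, (∀ w ∈ W, c * w = w * c) → c ∈ W := by
    intro c hc hcw
    by_contra hcW
    let D : Subgroup G := C ⊓ Subgroup.centralizer (W : Set G)
    have hDn : D.Normal := by
      haveI := hCn
      haveI := Cfsg.Agent.H01.centralizer_normal hWn
      exact Subgroup.normal_inf_normal C (Subgroup.centralizer (W : Set G))
    have hWD : W ≤ D := by
      intro w hw
      refine Subgroup.mem_inf.mpr ⟨hWC hw, ?_⟩
      rw [Subgroup.mem_centralizer_iff]
      intro v hv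
      exact hWc v hv w hw
    have hneD : W ≠ D := by
      intro h
      apply hcW
      rw [h]
      refine Subgroup.mem_inf.mpr ⟨hc, ?_⟩
      rw [Subgroup.mem_centralizer_iff]
      intro v hv
      exact (hcw v hv).symm
    obtain ⟨b, hbD, hbW, hbc⟩ := exists_central_mod hG hWn hDn hWD hneD
    have hbC : b ∈ C := (Subgroup.mem_inf.mp hbD).1
    have hbcW : ∀ a ∈ W, Commute a b := fun a ha =>
      Subgroup.mem_centralizer_iff.mp (Subgroup.mem_inf.mp hbD).2 a ha
    have hM : (W ⊔ Subgroup.zpowers b) ∈ Ws := by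
      refine ⟨sup_zpowers_normal hWn hbc, hAW.trans le_sup_left, ?_, sup_zpowers_comm hWn hWc hbcW⟩
      apply sup_le hWC
      rw [Subgroup.zpowers_le]; exact hbC
    have hle := hWmax.le_of_ge hM le_sup_left
    exact hbW (hle (Subgroup.mem_sup_right (Subgroup.mem_zpowers b)))
  -- `Ω_n(W) = A`
  have hΩ : ∀ w ∈ W, w ^ q = 1 → w ∈ A := by
    intro w hw hwq
    let Ω : Subgroup G :=
      { carrier := {z | z ∈ W ∧ z ^ q = 1}
        mul_mem' := by
          intro a b ha hb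
          refine ⟨W.mul_mem ha.1 hb.1, ?_⟩
          have : Commute a b := hWc a ha.1 b hb.1
          rw [this.mul_pow, ha.2, hb.2, one_mul]
        one_mem' := ⟨W.one_mem, one_pow _⟩
        inv_mem' := by
          intro a ha
          exact ⟨W.inv_mem ha.1, by rw [inv_pow, ha.2, inv_one]⟩ }
    have hΩn : Ω.Normal := by
      constructor
      intro a ha g
      refine ⟨hWn.conj_mem a ha.1 g, ?_⟩
      rw [conj_pow, ha.2]; simp
    have hAΩ : A ≤ Ω := fun a ha => ⟨hAW ha, hAe a ha⟩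
    have := hmax Ω hΩn (fun a ha b hb => hWc a ha.1 b hb.1) (fun b hb => hb.2) hAΩ
    rw [← this]
    exact ⟨hw, hwq⟩
  -- The set `S₀`
  let Sz : G → Prop := fun x => x ∈ C ∧ x ^ q = 1 ∧ x ^ p ∈ A
  have hSzinv : ∀ x, Sz x → Sz x⁻¹ := by
    intro x hx
    refine ⟨C.inv_mem hx.1, by rw [inv_pow, hx.2.1, inv_one], ?_⟩
    rw [inv_pow]
    exact A.inv_mem hx.2.2
  have hWcomm : ∀ a ∈ A, ∀ w ∈ W, Commute a w := fun a ha w hw => hWc a (hAW ha) w hw
  have hxconj : ∀ x w : G, w ∈ W → x⁻¹ * w * x ∈ W := by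
    intro x w hw
    have := hWn.conj_mem w hw x⁻¹
    simpa using this
  -- action of an element of `S₀` on `W`
  have htau : ∀ x, Sz x → ∀ w ∈ W, x⁻¹ * w⁻¹ * x * w ∈ A := by
    intro x hx
    have hxp : x ^ p ∈ A := hx.2.2
    have hWinv : ∀ w ∈ W, x⁻¹ * w⁻¹ * x * w ∈ W := fun w hw =>
      W.mul_mem (hxconj x _ (W.inv_mem hw)) hw
    have hpw : ∀ w ∈ W, x⁻¹ * (w ^ p)⁻¹ * x * w ^ p = (x⁻¹ * w⁻¹ * x * w) ^ p := by
      intro w hw
      have hc : Commute (x⁻¹ * w⁻¹ * x) w := hWc _ (hxconj x _ (W.inv_mem hw)) _ hw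
      rw [hc.mul_pow]
      have e1 : (x⁻¹ * w⁻¹ * x) ^ p = x⁻¹ * (w ^ p)⁻¹ * x := by
        have : (x⁻¹ * w⁻¹ * x⁻¹⁻¹) ^ p = x⁻¹ * (w⁻¹) ^ p * x⁻¹⁻¹ := conj_pow
        simpa [inv_pow] using this
      rw [e1]
    have hall : ∀ k : ℕ, ∀ w ∈ W, w ^ p ^ k = 1 → (x⁻¹ * w⁻¹ * x * w) ^ p = 1 := by
      intro k
      induction k with
      | zero =>
        intro w _ h
        rw [pow_zero, pow_one] at h
        subst h
        simp
      | succ k ih =>
        intro w hw h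
        set t := x⁻¹ * w⁻¹ * x * w with ht
        have htW : t ∈ W := hWinv w hw
        have h1 : (t ^ p) ^ p = 1 := by
          have h2 := ih (w ^ p) (W.pow_mem hw p) (by rw [← pow_mul, ← pow_succ']; exact h)
          rw [hpw w hw] at h2
          exact h2
        have htpA : t ^ p ∈ A := hΩ _ (W.pow_mem htW p) (hqp _ h1)
        have hs' : (x⁻¹ * t⁻¹ * x * t) ^ p = 1 := by
          rw [← hpw t htW]
          have hcx : Commute x (t ^ p) := hCA x hx.1 _ htpA
          have : x⁻¹ * (t ^ p)⁻¹ * x = (t ^ p)⁻¹ := by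
            rw [mul_assoc, (hcx.inv_right).eq.symm]
            simp
          rw [this]; simp
        set s := t⁻¹ * x⁻¹ * t * x with hs
        have hse : s = (x⁻¹ * t⁻¹ * x * t)⁻¹ := by
          rw [hs]; group
        have hsp : s ^ p = 1 := by rw [hse, inv_pow, hs', inv_one]
        have hsW : s ∈ W := by
          rw [hse]; exact W.inv_mem (hWinv t htW)
        have hsA : s ∈ A := hΩ _ hsW (hqp _ hsp)
        have hcl : Cl3 w x t 1 s :=
          { ht := by rw [ht]; group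
            hr := by rw [mul_one]; exact hWc t htW w hw
            hs := by rw [hs]; group
            rx := Commute.one_left _
            ry := Commute.one_left _
            rt := Commute.one_left _
            sx := hWcomm s hsA w hw
            sy := (hCA x hx.1 s hsA).symm
            st := hWcomm s hsA t htW
            rs := Commute.one_left _ }
        have hform := hcl.y_pow_mul_x p
        have hcxp : x ^ p * w = w * x ^ p := hWcomm _ hxp w hw
        rw [hcxp] at hform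
        have hrel : t ^ p * s ^ p.choose 2 = 1 := by
          have e : w * x ^ p * 1 = w * x ^ p * (t ^ p * s ^ p.choose 2) := by
            rw [mul_one]; simpa [mul_assoc] using hform
          exact (mul_left_cancel e).symm
        by_cases hp2 : p = 2
        · subst hp2
          have hn1 : n ≠ 1 := by
            rintro rfl
            exact hn2 (by simp [hq])
          obtain ⟨m, hm⟩ : ∃ m, n = m + 2 := ⟨n - 2, by omega⟩
          have htq : t ^ q = 1 := by
            rw [hq, hm, pow_add, mul_comm, pow_mul, show (2 : ℕ) ^ 2 = 2 * 2 from rfl, pow_mul, h1,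
              one_pow]
          have htA : t ∈ A := hΩ _ htW htq
          have hs1 : s = 1 := by
            have hcx : x⁻¹ * t = t * x⁻¹ := ((hCA x hx.1 t htA).inv_left).eq
            calc s = t⁻¹ * (x⁻¹ * t) * x := by rw [hs]; group
              _ = t⁻¹ * (t * x⁻¹) * x := by rw [hcx]
              _ = 1 := by group
          rw [hs1] at hrel
          simpa using hrel
        · obtain ⟨j, hj⟩ := dvd_choose_two_of_ne hpr hp2
          rw [hj, pow_mul, hsp, one_pow, mul_one] at hrel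
          exact hrel
    intro w hw
    obtain ⟨k, hk⟩ := hG w
    exact hΩ _ (hWinv w hw) (hqp _ (hall k w hw hk))
  -- elements of `S₀` act by multiplication by elements of `A`
  have hg : ∀ u v : G, u ∈ C → (∀ w ∈ W, v * w * v⁻¹ * w⁻¹ ∈ A) → ∀ w : G,
      (u * v) * w * (u * v)⁻¹ * w⁻¹ = (v * w * v⁻¹ * w⁻¹) * (u * w * u⁻¹ * w⁻¹) ∨ w ∉ W := by
    intro u v hu hv w
    by_cases hw : w ∈ W
    · left
      have hc : Commute u (v * w * v⁻¹ * w⁻¹) := hCA u hu _ (hv w hw)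
      have hcinv : u * (v * w * v⁻¹ * w⁻¹) * u⁻¹ = v * w * v⁻¹ * w⁻¹ := by
        rw [hc.eq]; group
      calc (u * v) * w * (u * v)⁻¹ * w⁻¹
          = u * ((v * w * v⁻¹ * w⁻¹) * w) * u⁻¹ * w⁻¹ := by group
        _ = (u * (v * w * v⁻¹ * w⁻¹) * u⁻¹) * (u * w * u⁻¹ * w⁻¹) := by group
        _ = _ := by rw [hcinv]
    · right; exact hw
  have hact : ∀ x, Sz x → ∀ w ∈ W, x * w * x⁻¹ * w⁻¹ ∈ A := by
    intro x hx w hw
    have := htau x⁻¹ (hSzinv x hx) w⁻¹ (W.inv_mem hw)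
    simpa using this
  have hprod : ∀ x y, Sz x → Sz y → Sz (x * y) := by
    intro x y hx hy
    set T := y⁻¹ * x⁻¹ * y * x with hT
    have hTC : T ∈ C := C.mul_mem (C.mul_mem (C.mul_mem (C.inv_mem hy.1) (C.inv_mem hx.1)) hy.1) hx.1
    have hxi := hSzinv x hx
    have hyi := hSzinv y hy
    have hTcent : ∀ w ∈ W, T * w = w * T := by
      intro w hw
      have ax := hact x hx w hw
      have ay := hact y hy w hw
      have axi := hact x⁻¹ hxi w hw
      have ayi := hact y⁻¹ hyi w hw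
      have e1 : (y⁻¹ * y) * w * (y⁻¹ * y)⁻¹ * w⁻¹ =
          (y * w * y⁻¹ * w⁻¹) * (y⁻¹ * w * y⁻¹⁻¹ * w⁻¹) :=
        (hg y⁻¹ y hyi.1 (hact y hy) w).resolve_right (not_not.mpr hw)
      have e2 : (x⁻¹ * x) * w * (x⁻¹ * x)⁻¹ * w⁻¹ =
          (x * w * x⁻¹ * w⁻¹) * (x⁻¹ * w * x⁻¹⁻¹ * w⁻¹) :=
        (hg x⁻¹ x hxi.1 (hact x hx) w).resolve_right (not_not.mpr hw)
      have e1' : (y * w * y⁻¹ * w⁻¹) * (y⁻¹ * w * y⁻¹⁻¹ * w⁻¹) = 1 := by
        rw [← e1]; group
      have e2' : (x * w * x⁻¹ * w⁻¹) * (x⁻¹ * w * x⁻¹⁻¹ * w⁻¹) = 1 := by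
        rw [← e2]; group
      -- step: y⁻¹ * x⁻¹
      have hstep : ∀ u v : G, u ∈ C → (∀ w ∈ W, u * w * u⁻¹ * w⁻¹ ∈ A) →
          (∀ w ∈ W, v * w * v⁻¹ * w⁻¹ ∈ A) → ∀ w ∈ W, (u * v) * w * (u * v)⁻¹ * w⁻¹ ∈ A := by
        intro u v hu hua hva w hw
        rw [(hg u v hu hva w).resolve_right (not_not.mpr hw)]
        exact A.mul_mem (hva w hw) (hua w hw)
      have h1 := (hg (y⁻¹ * x⁻¹ * y) x (C.mul_mem (C.mul_mem hyi.1 hxi.1) hy.1) (hact x hx) w).resolve_right
        (not_not.mpr hw)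
      have h2 := (hg (y⁻¹ * x⁻¹) y (C.mul_mem hyi.1 hxi.1) (hact y hy) w).resolve_right (not_not.mpr hw)
      have h3 := (hg y⁻¹ x⁻¹ hyi.1 (hact x⁻¹ hxi) w).resolve_right (not_not.mpr hw)
      have hprod1 : T * w * T⁻¹ * w⁻¹ = 1 := by
        rw [hT, h1, h2, h3]
        set a := y * w * y⁻¹ * w⁻¹ with ha
        set b := y⁻¹ * w * y⁻¹⁻¹ * w⁻¹ with hb
        set c := x * w * x⁻¹ * w⁻¹ with hc
        set d := x⁻¹ * w * x⁻¹⁻¹ * w⁻¹ with hd
        have hcomm : ∀ u ∈ A, ∀ v ∈ A, u * v = v * u := hAc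
        calc c * (a * (d * b)) = c * (a * (b * d)) := by rw [hcomm d axi b ayi]
          _ = c * ((a * b) * d) := by rw [mul_assoc a b d]
          _ = c * d := by rw [e1']; simp
          _ = 1 := e2'
      have : T * w * T⁻¹ = w := by
        rw [mul_inv_eq_one] at hprod1
        exact hprod1
      calc T * w = T * w * T⁻¹ * T := by group
        _ = w * T := by rw [this]
    have hTW : T ∈ W := hWself T hTC hTcent
    set r := T⁻¹ * x⁻¹ * T * x with hr
    set s := T⁻¹ * y⁻¹ * T * y with hs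
    have hrA : r ∈ A := by
      have : r = (x⁻¹ * T⁻¹ * x * T)⁻¹ := by rw [hr]; group
      rw [this]
      exact A.inv_mem (htau x hx T hTW)
    have hsA : s ∈ A := by
      have : s = (y⁻¹ * T⁻¹ * y * T)⁻¹ := by rw [hs]; group
      rw [this]
      exact A.inv_mem (htau y hy T hTW)
    have h3 : Cl3 x y T r s :=
      { ht := by rw [hT]; group
        hr := by rw [hr]; group
        hs := by rw [hs]; group
        rx := (hCA x hx.1 r hrA).symm
        ry := (hCA y hy.1 r hrA).symm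
        rt := hWcomm r hrA T hTW
        sx := (hCA x hx.1 s hsA).symm
        sy := (hCA y hy.1 s hsA).symm
        st := hWcomm s hsA T hTW
        rs := hAc r hrA s hsA }
    have hsp : s ^ p = 1 := by
      have e := h3.y_pow p
      have hc : T * y ^ p = y ^ p * T := (hWcomm _ hy.2.2 T hTW).symm
      rw [hc] at e
      have e' : y ^ p * T * 1 = y ^ p * T * s ^ p := by rw [mul_one]; exact e
      exact (mul_left_cancel e').symm
    have hTq : T ^ q = 1 := by
      have e := h3.y_pow_mul_x q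
      rw [hy.2.1, mul_one, one_mul] at e
      obtain ⟨j, hj⟩ := dvd_choose_two_of_pow (p := p) (n := n) hpr hn0 hn2
      rw [← hq] at hj
      rw [hj, pow_mul, hsp, one_pow, mul_one] at e
      have e' : x * 1 = x * T ^ q := by rw [mul_one]; exact e
      exact (mul_left_cancel e').symm
    have hTA : T ∈ A := hΩ _ hTW hTq
    have h4 : Cl3 x y T 1 1 :=
      { ht := by rw [hT]; group
        hr := by rw [mul_one]; exact (hCA x hx.1 T hTA).symm
        hs := by rw [mul_one]; exact (hCA y hy.1 T hTA).symm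
        rx := Commute.one_left _
        ry := Commute.one_left _
        rt := Commute.one_left _
        sx := Commute.one_left _
        sy := Commute.one_left _
        st := Commute.one_left _
        rs := Commute.one_left _ }
    have hTp : T ^ p = 1 := by
      have e := h4.y_pow_mul_x p
      have hc : y ^ p * x = x * y ^ p := (hCA x hx.1 _ hy.2.2).symm
      rw [hc, one_pow, mul_one] at e
      have e' : x * y ^ p * 1 = x * y ^ p * T ^ p := by rw [mul_one]; exact e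
      exact (mul_left_cancel e').symm
    refine ⟨C.mul_mem hx.1 hy.1, ?_, ?_⟩
    · rw [h4.mul_pow q, hx.2.1, hy.2.1]
      obtain ⟨j, hj⟩ := dvd_choose_two_of_pow (p := p) (n := n) hpr hn0 hn2
      rw [← hq] at hj
      rw [hj, pow_mul T, hTp]
      simp
    · rw [h4.mul_pow p]
      simp only [one_pow, mul_one]
      exact A.mul_mem (A.mul_mem hx.2.2 hy.2.2) (A.pow_mem hTA _)
  -- the subgroup
  let S₀ : Subgroup G :=
    { carrier := {x | Sz x}
      mul_mem' := fun {a b} ha hb => hprod a b ha hb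
      one_mem' := ⟨C.one_mem, one_pow _, by rw [one_pow]; exact A.one_mem⟩
      inv_mem' := fun {a} ha => hSzinv a ha }
  have hS₀n : S₀.Normal := by
    constructor
    intro x hx g
    refine ⟨hCn.conj_mem x hx.1 g, ?_, ?_⟩
    · rw [conj_pow, hx.2.1]; simp
    · rw [conj_pow]; exact hAn.conj_mem _ hx.2.2 g
  have hAS₀ : A ≤ S₀ := fun a ha => ⟨hAC ha, hAe a ha, A.pow_mem ha p⟩
  by_contra hx₀A
  have hfind : ∀ k : ℕ, ∀ z : G, z ∈ C → z ^ q = 1 → z ^ p ^ k ∈ A → z ∉ A →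
      ∃ x₁, Sz x₁ ∧ x₁ ∉ A := by
    intro k
    induction k with
    | zero =>
      intro z _ _ h1 h2
      rw [pow_zero, pow_one] at h1
      exact absurd h1 h2
    | succ k ih =>
      intro z hz hzq hzk hzA
      by_cases hzp : z ^ p ∈ A
      · exact ⟨z, ⟨hz, hzq, hzp⟩, hzA⟩
      · refine ih (z ^ p) (C.pow_mem hz p) ?_ ?_ hzp
        · rw [← pow_mul, mul_comm, pow_mul, hzq, one_pow]
        · rw [← pow_mul, ← pow_succ']; exact hzk
  obtain ⟨x₁, hx₁, hx₁A⟩ := hfind n x₀ hx₀ hx₀n (by rw [← hq, hx₀n]; exact A.one_mem) hx₀A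
  have hne : A ≠ S₀ := by
    intro h
    apply hx₁A
    rw [h]
    exact hx₁
  obtain ⟨b, hbS, hbA, hbc⟩ := exists_central_mod hG hAn hS₀n hAS₀ hne
  have hbcomm : ∀ a ∈ A, Commute a b := fun a ha => (hCA b hbS.1 a ha).symm
  have hV := hmax (A ⊔ Subgroup.zpowers b) (sup_zpowers_normal hAn hbc)
    (sup_zpowers_comm hAn hAc hbcomm) (sup_zpowers_pow hAn hbcomm hAe hbS.2.1) le_sup_left
  apply hbA
  rw [← hV]
  exact Subgroup.mem_sup_right (Subgroup.mem_zpowers b)

end Cfsg.Agent.H01
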