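import Mathlib
import Cfsg.Prelude.Def_Transfer
import Cfsg.Agent.Lib.H01.OmegaCentralizer
import Cfsg.Agent.Lib.H13.CycOdd

/-! Applications of the centralizer theorem for maximal normal abelian subgroups of exponent `p`. -/

set_option autoImplicit false

namespace Cfsg.Agent.H01

open scoped commutatorElement
open Cfsg

variable {G : Type*} [Group G] {p : ℕ} [hpf : Fact p.Prime]

theorem isMulCommutative_of_forall {H : Subgroup G} (h : ∀ a ∈ H, ∀ b ∈ H, a * b = b * a) :
    IsMulCommutative H := by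
  constructor
  constructor
  intro a b
  apply Subtype.ext
  exact h a a.2 b b.2

theorem forall_of_isMulCommutative {H : Subgroup G} (h : IsMulCommutative H) :
    ∀ a ∈ H, ∀ b ∈ H, a * b = b * a := by
  intro a ha b hb
  have := h.is_comm.comm (⟨a, ha⟩ : H) ⟨b, hb⟩
  exact congrArg (fun z : H => (z : G)) this

/-- A maximal normal elementary abelian subgroup. -/
theorem exists_max_normal_elementary [Finite G] :
    ∃ A : Subgroup G, A.Normal ∧ (∀ a ∈ A, ∀ b ∈ A, a * b = b * a) ∧ (∀ a ∈ A, a ^ p = 1) ∧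
      ∀ B : Subgroup G, B.Normal → (∀ a ∈ B, ∀ b ∈ B, a * b = b * a) → (∀ b ∈ B, b ^ p = 1) →
        A ≤ B → B = A := by
  classical
  let S : Set (Subgroup G) := {A | A.Normal ∧ (∀ a ∈ A, ∀ b ∈ A, a * b = b * a) ∧ (∀ a ∈ A, a ^ p = 1)}
  have hS : S.Nonempty := ⟨⊥, inferInstance, by
    intro a ha b hb
    rw [Subgroup.mem_bot.mp ha, Subgroup.mem_bot.mp hb], by
    intro a ha
    rw [Subgroup.mem_bot.mp ha, one_pow]⟩
  obtain ⟨A, hA⟩ := S.toFinite.exists_maximal hS
  obtain ⟨h1, h2, h3⟩ := hA.prop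
  refine ⟨A, h1, h2, h3, ?_⟩
  intro B hB hBc hBp hAB
  exact le_antisymm (hA.le_of_ge ⟨hB, hBc, hBp⟩ hAB) hAB

/-- The elements of exponent `p` in the centralizer of a maximal normal elementary abelian subgroup,
for `p` odd. -/
theorem mem_of_max_normal_elementary [Finite G] (hG : IsPGroup p G) (hp : p ≠ 2) (A : Subgroup G)
    (hAn : A.Normal) (hAc : ∀ a ∈ A, ∀ b ∈ A, a * b = b * a) (hAe : ∀ a ∈ A, a ^ p = 1)
    (hmax : ∀ B : Subgroup G, B.Normal → (∀ a ∈ B, ∀ b ∈ B, a * b = b * a) → (∀ b ∈ B, b ^ p = 1) →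
      A ≤ B → B = A) (x : G) (hx : x ∈ Subgroup.centralizer (A : Set G)) (hxp : x ^ p = 1) : x ∈ A := by
  apply mem_of_max_normal_abelian_exponent hG 1 (by simpa using hp) A hAn hAc
    (by simpa using hAe) (by simpa using hmax) x hx (by simpa using hxp)

/-- `p` odd: a noncyclic `p`-group has a normal elementary abelian subgroup of order `p ^ 2`. -/
theorem exists_normal_elementary_sq [Finite G] (hG : IsPGroup p G) (hp : p ≠ 2)
    (hnc : ¬ IsCyclic G) : ∃ A : Subgroup G, A.Normal ∧ IsElementaryAbelian p A ∧ Nat.card A = p ^ 2 := by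
  classical
  have hpr : p.Prime := hpf.out
  haveI : Group.IsNilpotent G := hG.isNilpotent
  obtain ⟨A, hAn, hAc, hAe, hmax⟩ := exists_max_normal_elementary (G := G) (p := p)
  have hAp : IsPGroup p A := hG.to_subgroup A
  obtain ⟨a, ha⟩ := IsPGroup.iff_card.mp hAp
  by_cases ha2 : 2 ≤ a
  · obtain ⟨D, hDA, hDn, hDc⟩ := Cfsg.Agent.H18.exists_normal_le_card_eq (G := G) hAn
      (isMulCommutative_of_forall hAc) (d := p ^ 2) (by rw [ha]; exact pow_dvd_pow p ha2)
    refine ⟨D, hDn, ⟨isMulCommutative_of_forall (fun x hx y hy => hAc x (hDA hx) y (hDA hy)),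
      fun x hx => hAe x (hDA hx)⟩, hDc⟩
  · exfalso
    apply hnc
    have hidx := index_centralizer_le_choose hG a A hAn (isMulCommutative_of_forall hAc) ha
    have hch : a.choose 2 = 0 := Nat.choose_eq_zero_of_lt (by omega)
    rw [hch, pow_zero] at hidx
    have hCtop : Subgroup.centralizer (A : Set G) = ⊤ := by
      apply Subgroup.index_eq_one.mp
      have : (Subgroup.centralizer (A : Set G)).index ≠ 0 := Subgroup.index_ne_zero_of_finite
      omega
    apply Cfsg.Agent.H13.isCyclic_of_pRankLE_one hp hG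
    intro E hEc hEp
    have hEA : E ≤ A := by
      intro x hx
      exact mem_of_max_normal_elementary hG hp A hAn hAc hAe hmax x (by rw [hCtop]; trivial) (hEp x hx)
    calc Nat.card E ≤ Nat.card A := Subgroup.card_le_of_le hEA
      _ = p ^ a := ha
      _ ≤ p ^ 1 := Nat.pow_le_pow_right hpr.pos (by omega)

/-- Normal abelian elementary subgroup of order `p ^ 2`: commutators with it are central. -/
theorem comm_central_of_card_sq [Finite G] (hG : IsPGroup p G) {V : Subgroup G} (hVn : V.Normal)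
    (hVc : ∀ a ∈ V, ∀ b ∈ V, a * b = b * a) (hVe : ∀ a ∈ V, a ^ p = 1) (hcard : Nat.card V = p ^ 2)
    (g v : G) (hv : v ∈ V) : g * v * g⁻¹ * v⁻¹ ∈ Subgroup.center G := by
  classical
  have hpr : p.Prime := hpf.out
  have hV1 : V ≠ ⊥ := by
    intro h
    rw [h, Subgroup.card_bot] at hcard
    have : p ^ 2 > 1 := Nat.one_lt_pow (by norm_num) hpr.one_lt
    omega
  obtain ⟨z, hzV, hz1, hzc⟩ := exists_central_mem_normal hG hVn hV1
  have hzcen : z ∈ Subgroup.center G := Subgroup.mem_center_iff.mpr hzc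
  have hZn : (Subgroup.zpowers z).Normal := by
    have hle : Subgroup.zpowers z ≤ Subgroup.center G := by
      rw [Subgroup.zpowers_le]; exact hzcen
    constructor
    intro a ha g
    have := Subgroup.mem_center_iff.mp (hle ha) g
    rw [this]; simpa using ha
  have hzo : orderOf z = p := orderOf_eq_prime (hVe z hzV) hz1
  have hZcard : Nat.card (Subgroup.zpowers z) = p := by rw [Nat.card_zpowers, hzo]
  have hZV : Subgroup.zpowers z ≤ V := by rw [Subgroup.zpowers_le]; exact hzV
  have hne : Subgroup.zpowers z ≠ V := by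
    intro h
    rw [h, hcard] at hZcard
    have : p ^ 2 > p := by nlinarith [hpr.one_lt]
    omega
  obtain ⟨b, hbV, hbZ, hbc⟩ := exists_central_mod hG hZn hVn hZV hne
  have hsup : Subgroup.zpowers z ⊔ Subgroup.zpowers b = V := by
    have h2 := index_centralizer_le_step (p := p) hG hZn hVn hZV
    have hle : Subgroup.zpowers z ⊔ Subgroup.zpowers b ≤ V :=
      sup_le hZV (by rw [Subgroup.zpowers_le]; exact hbV)
    apply Subgroup.eq_of_le_of_card_ge hle
    have h1 : Subgroup.zpowers z ≤ Subgroup.zpowers z ⊔ Subgroup.zpowers b := le_sup_left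
    obtain ⟨k, hk⟩ := Subgroup.card_dvd_of_le h1
    obtain ⟨l, hl⟩ := Subgroup.card_dvd_of_le hle
    rw [hcard, hk, hZcard] at hl
    rw [hk, hZcard, hcard]
    have hpos := hpr.pos
    have hkl : p = k * l := by
      have : p * p = p * (k * l) := by rw [← sq, hl]; ring
      exact Nat.eq_of_mul_eq_mul_left hpos this
    have hk1 : k ≠ 1 := by
      rintro rfl
      apply hbZ
      have : Subgroup.zpowers z = Subgroup.zpowers z ⊔ Subgroup.zpowers b :=
        Subgroup.eq_of_le_of_card_ge h1 (by rw [hk, hZcard, mul_one])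
      rw [this]
      exact Subgroup.mem_sup_right (Subgroup.mem_zpowers b)
    rcases Nat.Prime.eq_one_or_self_of_dvd hpr k ⟨l, hkl⟩ with h | h
    · exact absurd h hk1
    · rw [h, sq]
  rw [← hsup] at hv
  obtain ⟨a, ha, k, rfl⟩ := mem_sup_zpowers_iff hZn hv
  have hcomm : ∀ y, y ∈ Subgroup.zpowers z → y ∈ Subgroup.center G := by
    intro y hy
    exact (show Subgroup.zpowers z ≤ Subgroup.center G by
      rw [Subgroup.zpowers_le]; exact hzcen) hy
  -- `c := g b g⁻¹ b⁻¹`
  set c := g * b * g⁻¹ * b⁻¹ with hc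
  have hcz : c ∈ Subgroup.center G := hcomm c (hbc g)
  have hconj : g * b ^ k * g⁻¹ = c ^ k * b ^ k := by
    have e1 : g * b * g⁻¹ = c * b := by rw [hc]; group
    have e2 : g * b ^ k * g⁻¹ = (g * b * g⁻¹) ^ k := by
      rw [conj_zpow]
    rw [e2, e1]
    have hcb : Commute c b := (Subgroup.mem_center_iff.mp hcz b).symm
    exact hcb.mul_zpow k
  have haz : a ∈ Subgroup.center G := hcomm a ha
  have e : g * (a * b ^ k) * g⁻¹ * (a * b ^ k)⁻¹ = c ^ k := by
    have h1 : g * (a * b ^ k) * g⁻¹ = a * (g * b ^ k * g⁻¹) := by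
      have : g * a = a * g := Subgroup.mem_center_iff.mp haz g
      calc g * (a * b ^ k) * g⁻¹ = (g * a) * b ^ k * g⁻¹ := by group
        _ = (a * g) * b ^ k * g⁻¹ := by rw [this]
        _ = _ := by group
    rw [h1, hconj]
    have hca : a * c ^ k = c ^ k * a := (Subgroup.mem_center_iff.mp (Subgroup.zpow_mem _ hcz k) a)
    calc a * (c ^ k * b ^ k) * (a * b ^ k)⁻¹ = (a * c ^ k) * b ^ k * (a * b ^ k)⁻¹ := by group
      _ = (c ^ k * a) * b ^ k * (a * b ^ k)⁻¹ := by rw [hca]
      _ = c ^ k := by group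
  rw [e]
  exact Subgroup.zpow_mem _ hcz k

/-- `p` odd: `V` normal elementary abelian of order `p ^ 2` and `y ^ p = 1`: then `(v y) ^ p = 1`. -/
theorem mul_pow_eq_one_of_card_sq [Finite G] (hG : IsPGroup p G) (hp : p ≠ 2) {V : Subgroup G}
    (hVn : V.Normal) (hVc : ∀ a ∈ V, ∀ b ∈ V, a * b = b * a) (hVe : ∀ a ∈ V, a ^ p = 1)
    (hcard : Nat.card V = p ^ 2) {v y : G} (hv : v ∈ V) (hy : y ^ p = 1) : (v * y) ^ p = 1 := by
  have hpr : p.Prime := hpf.out
  have ht := comm_central_of_card_sq hG hVn hVc hVe hcard y⁻¹ v⁻¹ (V.inv_mem hv)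
  simp only [inv_inv] at ht
  set t := y⁻¹ * v⁻¹ * y * v with htd
  have hcen := Subgroup.mem_center_iff.mp ht
  have h : Cl3 v y t 1 1 :=
    { ht := by rw [htd]; group
      hr := by rw [mul_one]; exact (hcen v).symm
      hs := by rw [mul_one]; exact (hcen y).symm
      rx := Commute.one_left _
      ry := Commute.one_left _
      rt := Commute.one_left _
      sx := Commute.one_left _
      sy := Commute.one_left _
      st := Commute.one_left _
      rs := Commute.one_left _ }
  exact h.mul_pow_eq_one (dvd_choose_two_of_ne hpr hp) (by simp) (by simp) (hVe v hv) hy (by simp)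

end Cfsg.Agent.H01
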