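import Mathlib
import Cfsg.Agent.Lib.H01.SZ
import Cfsg.Agent.Lib.H05.Transfer
import Cfsg.Agent.Lib.H13.Basic
import Cfsg.Agent.Lib.H13.Residual
import Cfsg.Agent.Lib.H18.Syl

/-! Grün's second theorem on `p`-normal groups, in the `O^p` form. -/

set_option autoImplicit false

namespace Cfsg.Agent.H01

open scoped Pointwise
open scoped IsMulCommutative
open Cfsg

variable {G : Type*} [Group G] [Finite G] {p : ℕ} [hpf : Fact p.Prime]

/-- A transfer with `χ` constant on `X`-conjugates inside `H` is trivial on `H ∩ O^p(X)`. -/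
theorem transfer_fix {X : Type*} [Group X] [Finite X] (H : Subgroup X) (hH : ¬ p ∣ H.index)
    {A : Type*} [CommGroup A] (hA : IsPGroup p A) (χ : H →* A)
    (hf : ∀ (x : H) (g : X) (hg : g⁻¹ * (x : X) * g ∈ H), χ ⟨_, hg⟩ = χ x)
    (x : H) (hx : (x : X) ∈ pResidual p X) : χ x = 1 := by
  classical
  have hpr : p.Prime := hpf.out
  have hco : ∀ (a : A) (m : ℕ), Nat.Coprime m p → a ^ m = 1 → a = 1 := by
    intro a m hm ha
    obtain ⟨k, hk⟩ := hA a
    have h1 : orderOf a ∣ p ^ k := orderOf_dvd_of_pow_eq_one hk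
    have h2 : orderOf a ∣ m := orderOf_dvd_of_pow_eq_one ha
    have h3 : orderOf a ∣ Nat.gcd m (p ^ k) := Nat.dvd_gcd h2 h1
    have h4 : Nat.gcd m (p ^ k) = 1 := Nat.Coprime.pow_right k hm
    rw [h4, Nat.dvd_one, orderOf_eq_one_iff] at h3
    exact h3
  let τ : X →* A := MonoidHom.transfer χ
  have hres : pResidual p X ≤ τ.ker := by
    unfold pResidual
    rw [Subgroup.closure_le]
    intro y hy
    show τ y = 1
    apply hco _ (orderOf y) hy
    rw [← map_pow, pow_orderOf_eq_one, map_one]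
  have h1 : τ x = 1 := hres hx
  have h2 : τ x = χ x ^ H.index := by
    apply Cfsg.Agent.H05.transfer_apply_eq_pow
    intro k g₀ hk
    have hk' : g₀⁻¹ * ((x ^ k : H) : X) * g₀ ∈ H := by simpa using hk
    have := hf (x ^ k) g₀ hk'
    rw [map_pow] at this
    rw [← this]
    congr 1
  rw [h2] at h1
  exact hco _ _ ((Nat.Prime.coprime_iff_not_dvd hpr).mpr hH).symm h1

/-- The fusion lemma of Grün: in a `p`-normal group, fusion is controlled by `N(Z(P))`. -/
theorem pnormal_fusion (P : Sylow p G)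
    (hn : ∀ Q : Sylow p G, (P : Subgroup G) ⊓ Subgroup.centralizer (P : Set G) ≤ (Q : Subgroup G) →
      (Q : Subgroup G) ⊓ Subgroup.centralizer (Q : Set G) =
        (P : Subgroup G) ⊓ Subgroup.centralizer (P : Set G))
    (x g : G) (hx : x ∈ (P : Subgroup G)) (hy : g * x * g⁻¹ ∈ (P : Subgroup G)) :
    ∃ t ∈ Subgroup.normalizer (((P : Subgroup G) ⊓ Subgroup.centralizer (P : Set G) : Subgroup G) : Set G),
      t * x * t⁻¹ = g * x * g⁻¹ := by
  classical
  set Z : Subgroup G := (P : Subgroup G) ⊓ Subgroup.centralizer (P : Set G) with hZdef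
  set y := g * x * g⁻¹ with hydef
  let C : Subgroup G := Subgroup.centralizer {y}
  have hmemC : ∀ {a : G}, a ∈ C ↔ a * y = y * a := by
    intro a
    show a ∈ Subgroup.centralizer {y} ↔ _
    rw [Subgroup.mem_centralizer_iff]
    simp [eq_comm]
  have hZcomm : ∀ z ∈ Z, ∀ a ∈ (P : Subgroup G), z * a = a * z := by
    intro z hz a ha
    have : z ∈ Subgroup.centralizer (P : Set G) := hz.2
    exact (Subgroup.mem_centralizer_iff.mp this a ha).symm
  have hZC : Z ≤ C := fun z hz => hmemC.mpr (hZcomm z hz y hy)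
  have hZgC : ∀ z ∈ Z, g * z * g⁻¹ ∈ C := by
    intro z hz
    apply hmemC.mpr
    have h1 := hZcomm z hz x hx
    rw [hydef]
    calc g * z * g⁻¹ * (g * x * g⁻¹) = g * (z * x) * g⁻¹ := by group
      _ = g * (x * z) * g⁻¹ := by rw [h1]
      _ = g * x * g⁻¹ * (g * z * g⁻¹) := by group
  have hZp : IsPGroup p Z := P.isPGroup'.to_le inf_le_left
  have hZ₁p : IsPGroup p (Z.subgroupOf C) := hZp.comap_of_injective C.subtype C.subtype_injective
  let Zg : Subgroup G := Z.map (MulAut.conj g).toMonoidHom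
  have hZgp : IsPGroup p Zg := hZp.map _
  have hZ₂p : IsPGroup p (Zg.subgroupOf C) := hZgp.comap_of_injective C.subtype C.subtype_injective
  obtain ⟨R, hR⟩ := hZ₁p.exists_le_sylow
  obtain ⟨R', hR'⟩ := hZ₂p.exists_le_sylow
  obtain ⟨c, hc⟩ := MulAction.exists_smul_eq C R' R
  have hR₀p : IsPGroup p ((R : Subgroup C).map C.subtype) := R.isPGroup'.map C.subtype
  obtain ⟨S, hS⟩ := hR₀p.exists_le_sylow
  have hZS : Z ≤ (S : Subgroup G) := by
    intro z hz
    apply hS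
    exact ⟨⟨z, hZC hz⟩, hR hz, rfl⟩
  have htZS : ∀ z ∈ Z, (c : G) * (g * z * g⁻¹) * (c : G)⁻¹ ∈ (S : Subgroup G) := by
    intro z hz
    apply hS
    have h1 : (⟨g * z * g⁻¹, hZgC z hz⟩ : C) ∈ (R' : Subgroup C) := by
      apply hR'
      show g * z * g⁻¹ ∈ Zg
      exact ⟨z, hz, rfl⟩
    have h2 : c * ⟨g * z * g⁻¹, hZgC z hz⟩ * c⁻¹ ∈ MulAut.conj c • (R' : Subgroup C) :=
      conj_mem_conj_smul h1
    rw [← Sylow.coe_subgroup_smul, hc] at h2
    exact ⟨_, h2, rfl⟩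
  let t : G := (c : G) * g
  let S' : Sylow p G := t⁻¹ • S
  have hmemS' : ∀ a, a ∈ (S' : Subgroup G) ↔ t * a * t⁻¹ ∈ (S : Subgroup G) := by
    intro a
    show a ∈ ((t⁻¹ • S : Sylow p G) : Subgroup G) ↔ _
    rw [Sylow.coe_subgroup_smul, mem_conj_smul_iff, inv_inv]
  have hZS' : Z ≤ (S' : Subgroup G) := by
    intro z hz
    rw [hmemS']
    have := htZS z hz
    have e : t * z * t⁻¹ = (c : G) * (g * z * g⁻¹) * (c : G)⁻¹ := by
      show (c : G) * g * z * ((c : G) * g)⁻¹ = _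
      group
    rw [e]
    exact this
  have h1 := hn S hZS
  have h2 := hn S' hZS'
  refine ⟨t, ?_, ?_⟩
  · apply Cfsg.Agent.H13.mem_normalizer_of_map_conj_le
    rintro _ ⟨z, hz, rfl⟩
    show t * z * t⁻¹ ∈ Z
    rw [← h1]
    refine ⟨(hmemS' z).mp (hZS' hz), ?_⟩
    show t * z * t⁻¹ ∈ Subgroup.centralizer (S : Set G)
    rw [Subgroup.mem_centralizer_iff]
    intro s hs
    have hz' : z ∈ Subgroup.centralizer (S' : Set G) := by
      rw [← h2] at hz
      exact hz.2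
    have hs' : t⁻¹ * s * t ∈ (S' : Subgroup G) := by
      rw [hmemS']
      have e : t * (t⁻¹ * s * t) * t⁻¹ = s := by group
      rw [e]
      exact hs
    have h3 := Subgroup.mem_centralizer_iff.mp hz' _ hs'
    calc s * (t * z * t⁻¹) = t * ((t⁻¹ * s * t) * z) * t⁻¹ := by group
      _ = t * (z * (t⁻¹ * s * t)) * t⁻¹ := by rw [h3]
      _ = t * z * t⁻¹ * s := by group
  · have h3 := hmemC.mp c.2
    have e : t * x * t⁻¹ = (c : G) * y * (c : G)⁻¹ := by
      show (c : G) * g * x * ((c : G) * g)⁻¹ = (c : G) * (g * x * g⁻¹) * (c : G)⁻¹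
      group
    rw [e, h3]
    group

section Step

variable (P : Sylow p G) (OV : Subgroup G)
  (hfus : ∀ x ∈ (P : Subgroup G), ∀ g : G, g * x * g⁻¹ ∈ (P : Subgroup G) →
    ∃ u ∈ (P : Subgroup G), ∃ w ∈ OV, ∀ _ : Unit, (u * w) * x * (u * w)⁻¹ = g * x * g⁻¹ ∧
      x⁻¹ * w * x * w⁻¹ ∈ OV)

include hfus in
/-- The transfer step. -/
theorem pnormal_step (R : Subgroup (P : Subgroup G)) [hRn : R.Normal]
    (hY : ∀ y (hy : y ∈ (P : Subgroup G)), y ∈ OV → (⟨y, hy⟩ : (P : Subgroup G)) ∈ R)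
    (hF : ∀ f (hf : f ∈ (P : Subgroup G)), f ∈ pResidual p G →
      (⟨f, hf⟩ : (P : Subgroup G)) ∈
        (Subgroup.center ((P : Subgroup G) ⧸ R)).comap (QuotientGroup.mk' R)) :
    ∀ f (hf : f ∈ (P : Subgroup G)), f ∈ pResidual p G → (⟨f, hf⟩ : (P : Subgroup G)) ∈ R := by
  classical
  have hpr : p.Prime := hpf.out
  set O := pResidual p G with hOdef
  haveI hOn : O.Normal := Cfsg.Agent.H13.pResidual_normal'
  let R₁ : Subgroup (P : Subgroup G) := (Subgroup.center ((P : Subgroup G) ⧸ R)).comap (QuotientGroup.mk' R)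
  let R₁G : Subgroup G := R₁.map (P : Subgroup G).subtype
  have hR₁P : R₁G ≤ (P : Subgroup G) := Subgroup.map_subtype_le _
  have hmemR₁G : ∀ a (ha : a ∈ (P : Subgroup G)), a ∈ R₁G → (⟨a, ha⟩ : (P : Subgroup G)) ∈ R₁ := by
    rintro a ha ⟨b, hb, rfl⟩
    exact hb
  have hmemR₁G' : ∀ a (ha : a ∈ (P : Subgroup G)), (⟨a, ha⟩ : (P : Subgroup G)) ∈ R₁ → a ∈ R₁G :=
    fun a ha h => ⟨⟨a, ha⟩, h, rfl⟩
  let G₁ : Subgroup G := R₁G ⊔ O
  let H : Subgroup G₁ := R₁G.subgroupOf G₁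
  have hR₁G₁ : R₁G ≤ G₁ := le_sup_left
  have hOG₁ : O ≤ G₁ := le_sup_right
  -- the index
  have hinf : R₁G ⊓ O = (P : Subgroup G) ⊓ O := by
    apply le_antisymm (inf_le_inf_right _ hR₁P)
    rintro a ⟨ha, ha'⟩
    exact ⟨hmemR₁G' a ha (hF a ha ha'), ha'⟩
  have hidx : ¬ p ∣ H.index := by
    have h1 := Cfsg.Agent.H18.card_sup_mul_card_inf R₁G O
    have h2 := Cfsg.Agent.H18.card_inf_mul_relIndex (P : Subgroup G) O
    have h3 := H.card_mul_index
    have h4 : Nat.card H = Nat.card R₁G := by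
      show Nat.card (R₁G.subgroupOf G₁) = _
      rw [Cfsg.Agent.H18.card_subgroupOf, inf_eq_left.mpr hR₁G₁]
    have h5 : H.index = (P : Subgroup G).relIndex O := by
      rw [hinf, ← h2] at h1
      rw [h4] at h3
      have h6 : Nat.card G₁ = Nat.card R₁G * H.index := h3.symm
      change Nat.card G₁ * _ = _ at h1
      rw [h6] at h1
      have hp1 : 0 < Nat.card R₁G := Nat.card_pos
      have hp2 : 0 < Nat.card ((P : Subgroup G) ⊓ O : Subgroup G) := Nat.card_pos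
      have h7 : Nat.card R₁G * Nat.card ((P : Subgroup G) ⊓ O : Subgroup G) * H.index =
          Nat.card R₁G * Nat.card ((P : Subgroup G) ⊓ O : Subgroup G) * (P : Subgroup G).relIndex O := by
        rw [mul_assoc (Nat.card R₁G) _ ((P : Subgroup G).relIndex O), ← h1]
        ring
      exact Nat.eq_of_mul_eq_mul_left (Nat.mul_pos hp1 hp2) h7
    rw [h5]
    intro hd
    exact P.not_dvd_index (hd.trans (Cfsg.Agent.H18.relIndex_dvd_index_of_normal_right _ _))
  -- the character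
  have hA : IsPGroup p (Subgroup.center ((P : Subgroup G) ⧸ R)) := by
    intro a
    obtain ⟨k, hk⟩ := (P.isPGroup'.to_quotient R) (a : (P : Subgroup G) ⧸ R)
    exact ⟨k, Subtype.ext (by simpa using hk)⟩
  have hxP : ∀ x : H, ((x : G₁) : G) ∈ (P : Subgroup G) := fun x => hR₁P x.2
  let χ : H →* (Subgroup.center ((P : Subgroup G) ⧸ R)) :=
    { toFun := fun x => ⟨QuotientGroup.mk' R ⟨((x : G₁) : G), hxP x⟩, hmemR₁G _ (hxP x) x.2⟩
      map_one' := by
        apply Subtype.ext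
        exact map_one (QuotientGroup.mk' R)
      map_mul' := by
        intro a b
        apply Subtype.ext
        exact map_mul (QuotientGroup.mk' R) ⟨((a : G₁) : G), hxP a⟩ ⟨((b : G₁) : G), hxP b⟩ }
  have hχ : ∀ (x : H) (g : G₁) (hg : g⁻¹ * (x : G₁) * g ∈ H), χ ⟨_, hg⟩ = χ x := by
    intro x g hg
    apply Subtype.ext
    show QuotientGroup.mk' R ⟨_, hxP ⟨_, hg⟩⟩ = QuotientGroup.mk' R ⟨_, hxP x⟩
    set x₀ : G := ((x : G₁) : G) with hx₀
    set g₀ : G := (g : G) with hg₀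
    have hx₀P : x₀ ∈ (P : Subgroup G) := hxP x
    have hconj : g₀⁻¹ * x₀ * g₀ ∈ (P : Subgroup G) := hxP ⟨_, hg⟩
    have hconj' : g₀⁻¹ * x₀ * (g₀⁻¹)⁻¹ ∈ (P : Subgroup G) := by rwa [inv_inv]
    obtain ⟨u, hu, w, hw, hall⟩ := hfus x₀ hx₀P g₀⁻¹ hconj'
    obtain ⟨e, hc⟩ := hall ()
    rw [inv_inv] at e
    have e' : (u * w) * x₀ * (u * w)⁻¹ = u * (w * x₀ * w⁻¹) * u⁻¹ := by group
    have hx' : w * x₀ * w⁻¹ ∈ (P : Subgroup G) := by
      have e2 : w * x₀ * w⁻¹ = u⁻¹ * (g₀⁻¹ * x₀ * g₀) * u := by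
        rw [← e, e']; group
      rw [e2]
      exact mul_mem (mul_mem (inv_mem hu) hconj) hu
    have hdiff : x₀⁻¹ * (w * x₀ * w⁻¹) ∈ (P : Subgroup G) := mul_mem (inv_mem hx₀P) hx'
    have hdiff' : x₀⁻¹ * (w * x₀ * w⁻¹) ∈ OV := by
      have e3 : x₀⁻¹ * (w * x₀ * w⁻¹) = x₀⁻¹ * w * x₀ * w⁻¹ := by group
      rw [e3]
      exact hc
    have hR' := hY _ hdiff hdiff'
    have hq1 : QuotientGroup.mk' R ⟨x₀, hx₀P⟩ = QuotientGroup.mk' R ⟨_, hx'⟩ := by
      rw [QuotientGroup.mk'_apply, QuotientGroup.mk'_apply, QuotientGroup.eq]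
      exact hR'
    have hcentral : QuotientGroup.mk' R ⟨x₀, hx₀P⟩ ∈ Subgroup.center ((P : Subgroup G) ⧸ R) :=
      hmemR₁G _ hx₀P x.2
    have hprod : (⟨g₀⁻¹ * x₀ * g₀, hconj⟩ : (P : Subgroup G)) =
        (⟨u, hu⟩ : (P : Subgroup G)) * ⟨_, hx'⟩ * (⟨u, hu⟩ : (P : Subgroup G))⁻¹ := by
      apply Subtype.ext
      show g₀⁻¹ * x₀ * g₀ = u * (w * x₀ * w⁻¹) * u⁻¹
      rw [← e, e']
    show QuotientGroup.mk' R ⟨g₀⁻¹ * x₀ * g₀, hconj⟩ = QuotientGroup.mk' R ⟨x₀, hx₀P⟩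
    rw [hprod, map_mul, map_mul, map_inv, ← hq1]
    have := Subgroup.mem_center_iff.mp hcentral (QuotientGroup.mk' R ⟨u, hu⟩)
    rw [this]
    group
  -- conclusion
  intro f hf hfO
  have hfR₁ : f ∈ R₁G := hmemR₁G' f hf (hF f hf hfO)
  have hfG₁ : f ∈ G₁ := hR₁G₁ hfR₁
  have hres : ∀ a, a ∈ O → ∃ ha : a ∈ G₁, (⟨a, ha⟩ : G₁) ∈ pResidual p G₁ := by
    intro a ha
    induction ha using Subgroup.closure_induction with
    | mem y hy =>
      have hyG₁ : y ∈ G₁ := hOG₁ (Subgroup.subset_closure hy)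
      refine ⟨hyG₁, Subgroup.subset_closure ?_⟩
      show Nat.Coprime (orderOf _) p
      rw [← Subgroup.orderOf_coe]
      exact hy
    | one => exact ⟨one_mem _, one_mem _⟩
    | mul a b _ _ iha ihb =>
      obtain ⟨ha, ha'⟩ := iha
      obtain ⟨hb, hb'⟩ := ihb
      exact ⟨mul_mem ha hb, mul_mem ha' hb'⟩
    | inv a _ iha =>
      obtain ⟨ha, ha'⟩ := iha
      exact ⟨inv_mem ha, inv_mem ha'⟩
  obtain ⟨_, hf'⟩ := hres f hfO
  have h1 := transfer_fix (A := Subgroup.center ((P : Subgroup G) ⧸ R)) H hidx hA χ hχ ⟨⟨f, hfG₁⟩, hfR₁⟩ hf'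
  have h2 : QuotientGroup.mk' R ⟨f, hf⟩ = 1 := congrArg Subtype.val h1
  exact (QuotientGroup.eq_one_iff _).mp h2

include hfus in
/-- The descending induction. -/
theorem pnormal_main : ∀ (n : ℕ) (R : Subgroup (P : Subgroup G)), R.Normal → R.index = n →
    (∀ y (hy : y ∈ (P : Subgroup G)), y ∈ OV → (⟨y, hy⟩ : (P : Subgroup G)) ∈ R) →
    ∀ f (hf : f ∈ (P : Subgroup G)), f ∈ pResidual p G → (⟨f, hf⟩ : (P : Subgroup G)) ∈ R := by
  intro n
  induction n using Nat.strong_induction_on with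
  | _ n ih =>
  intro R hRn hidx hY
  classical
  by_cases hR : R = ⊤
  · intro f hf _
    rw [hR]
    trivial
  let R₁ : Subgroup (P : Subgroup G) := (Subgroup.center ((P : Subgroup G) ⧸ R)).comap (QuotientGroup.mk' R)
  have hRR₁ : R ≤ R₁ := by
    intro r hr
    have h1 : QuotientGroup.mk' R r = 1 := (QuotientGroup.eq_one_iff _).mpr hr
    show QuotientGroup.mk' R r ∈ Subgroup.center _
    rw [h1]
    exact one_mem _
  have hp : IsPGroup p ((P : Subgroup G) ⧸ R) := P.isPGroup'.to_quotient R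
  haveI hnt : Nontrivial ((P : Subgroup G) ⧸ R) := by
    apply QuotientGroup.nontrivial_iff.mpr hR
  haveI := hp.center_nontrivial
  have hidx₁ : R₁.index < n := by
    have h1 : R₁.index = (Subgroup.center ((P : Subgroup G) ⧸ R)).index :=
      Subgroup.index_comap_of_surjective _ (QuotientGroup.mk'_surjective R)
    have h2 := (Subgroup.center ((P : Subgroup G) ⧸ R)).card_mul_index
    have h3 : R.index = Nat.card ((P : Subgroup G) ⧸ R) := Subgroup.index_eq_card R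
    have h4 : 1 < Nat.card (Subgroup.center ((P : Subgroup G) ⧸ R)) := Finite.one_lt_card
    have h5 : 0 < (Subgroup.center ((P : Subgroup G) ⧸ R)).index := Nat.pos_of_ne_zero Subgroup.index_ne_zero_of_finite
    rw [h1, ← hidx, h3, ← h2]
    nlinarith
  have hR₁n : R₁.Normal := Subgroup.Normal.comap inferInstance _
  have hF := ih _ hidx₁ R₁ hR₁n rfl (fun y hy hy' => hRR₁ (hY y hy hy'))
  exact pnormal_step P OV hfus R hY hF

end Step

end Cfsg.Agent.H01
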