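import Mathlib
import Cfsg.Agent.Lib.H01.R3A
import Cfsg.Prelude.Def_FischerSpaces

/-! Reflections of a fixed norm over `F₃`: the 3-transposition class. -/

set_option autoImplicit false
open Cfsg

namespace Cfsg.Agent.H01.R3

open Cfsg.Agent.H11 Cfsg.Agent.H03 Cfsg.Agent.H03.OGen Cfsg.Agent.H03.OSpin Cfsg.Agent.H03.OPlane Matrix QuadraticMap

section general
variable {F : Type*} [Field F] {ι : Type} [Fintype ι] [DecidableEq ι] (Q : QuadraticForm F (ι → F))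

lemma refl_cube {v w : ι → F} {c : F} (hc : c ≠ 0) (hv : Q v = c) (hw : Q w = c) (hp : polar Q v w = c) :
    (reflectionMatrix (⇑Q) v * reflectionMatrix (⇑Q) w) ^ 3 = 1 := by
  have hpw : polar Q w v = c := by rw [polar_comm]; exact hp
  have hvv : polar Q v v = 2 * c := by rw [polar_self', hv]
  have hww : polar Q w w = 2 * c := by rw [polar_self', hw]
  obtain ⟨T, hT⟩ : ∃ T, T = reflectionMatrix (⇑Q) v * reflectionMatrix (⇑Q) w := ⟨_, rfl⟩
  rw [← hT]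
  have key : ∀ x, T *ᵥ x = x + (c⁻¹ * polar Q w x - c⁻¹ * polar Q v x) • v - (c⁻¹ * polar Q w x) • w := by
    intro x
    rw [hT, ← Matrix.mulVec_mulVec, reflection_mulVec, reflection_mulVec, hw, hv, polar_sub_right, polar_smul_right, hp]
    have : c⁻¹ * (polar Q v x - (c⁻¹ * polar Q w x) • c) = c⁻¹ * polar Q v x - c⁻¹ * polar Q w x := by
      simp only [smul_eq_mul]
      field_simp
    rw [this]
    module
  have hTv : T *ᵥ v = -w := by
    rw [key, hpw, hvv]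
    have h1 : c⁻¹ * c = 1 := inv_mul_cancel₀ hc
    have h2 : c⁻¹ * (2 * c) = 2 := by field_simp
    rw [h1, h2]
    module
  have hTw : T *ᵥ w = v - w := by
    rw [key, hp, hww]
    have h1 : c⁻¹ * c = 1 := inv_mul_cancel₀ hc
    have h2 : c⁻¹ * (2 * c) = 2 := by field_simp
    rw [h1, h2]
    module
  apply mat_ext_mulVec
  intro x
  rw [Matrix.one_mulVec, pow_succ, pow_two, ← Matrix.mulVec_mulVec, ← Matrix.mulVec_mulVec]
  obtain ⟨a, ha⟩ : ∃ a, a = c⁻¹ * polar Q w x := ⟨_, rfl⟩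
  obtain ⟨b, hb⟩ : ∃ b, b = c⁻¹ * polar Q v x := ⟨_, rfl⟩
  have hx := key x
  rw [← ha, ← hb] at hx
  rw [hx]
  simp only [Matrix.mulVec_add, Matrix.mulVec_sub, Matrix.mulVec_smul, Matrix.mulVec_neg, hTv, hTw, hx]
  module

lemma refl_sq_of_perp {v w : ι → F} (hv : Q v ≠ 0) (hw : Q w ≠ 0) (hp : polar Q v w = 0) :
    (reflectionMatrix (⇑Q) v * reflectionMatrix (⇑Q) w) ^ 2 = 1 := by
  have hpw : polar Q w v = 0 := by rw [polar_comm]; exact hp
  have h1 : ∀ x, reflectionMatrix (⇑Q) v *ᵥ (reflectionMatrix (⇑Q) w *ᵥ x) = reflectionMatrix (⇑Q) w *ᵥ (reflectionMatrix (⇑Q) v *ᵥ x) := by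
    intro x
    simp only [reflection_mulVec, polar_sub_right, polar_smul_right, hp, hpw, Matrix.mulVec_sub, Matrix.mulVec_smul, smul_eq_mul, mul_zero, sub_zero]
    module
  have h2 : reflectionMatrix (⇑Q) v * reflectionMatrix (⇑Q) w = reflectionMatrix (⇑Q) w * reflectionMatrix (⇑Q) v := by
    apply mat_ext_mulVec
    intro x
    rw [← Matrix.mulVec_mulVec, ← Matrix.mulVec_mulVec, h1]
  rw [pow_two]
  calc _ = reflectionMatrix (⇑Q) v * (reflectionMatrix (⇑Q) w * reflectionMatrix (⇑Q) v) * reflectionMatrix (⇑Q) w := by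
        simp only [mul_assoc]
    _ = reflectionMatrix (⇑Q) v * (reflectionMatrix (⇑Q) v * reflectionMatrix (⇑Q) w) * reflectionMatrix (⇑Q) w := by rw [h2]
    _ = (reflectionMatrix (⇑Q) v * reflectionMatrix (⇑Q) v) * (reflectionMatrix (⇑Q) w * reflectionMatrix (⇑Q) w) := by
        simp only [mul_assoc]
    _ = 1 := by rw [refl_sq Q v hv, refl_sq Q w hw, one_mul]

end general

section F3
variable {n : ℕ} (Q : QuadraticForm (ZMod 3) (Fin n → ZMod 3))

lemma sq_one_F3 (t : ZMod 3) (ht : t ≠ 0) : t ^ 2 = 1 := by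
  revert t; decide

lemma RC_eq (c : ZMod 3) : Cfsg.reflectionSubgroup (⇑Q) c = RC Q c := by
  unfold Cfsg.reflectionSubgroup RC
  congr 1
  ext g
  constructor
  · rintro ⟨v, hv, hg⟩
    exact ⟨v, 1, one_ne_zero, by rw [hv]; ring, hg⟩
  · rintro ⟨v, t, ht, hv, hg⟩
    exact ⟨v, by rw [hv, sq_one_F3 t ht, mul_one], hg⟩

lemma refl_mem {c : ZMod 3} {v : Fin n → ZMod 3} (hv : Q v = c) (hv0 : Q v ≠ 0) :
    refl Q v hv0 ∈ Cfsg.reflectionSubgroup (⇑Q) c :=
  Subgroup.subset_closure ⟨v, hv, rfl⟩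

lemma refl_mem' {c : ZMod 3} {v : Fin n → ZMod 3} (hv : Q v = c) (hv0 : Q v ≠ 0) :
    refl Q v hv0 ∈ Cfsg.reflectionsOfNorm (⇑Q) c :=
  ⟨v, hv, rfl⟩

lemma of_mem {c : ZMod 3} (hc : c ≠ 0) {g : ↥(Cfsg.isometryGroup (ZMod 3) (⇑Q))} (hg : g ∈ Cfsg.reflectionsOfNorm (⇑Q) c) :
    ∃ (v : Fin n → ZMod 3) (hv : Q v ≠ 0), Q v = c ∧ g = refl Q v hv := by
  obtain ⟨v, hv, hgv⟩ := hg
  have h0 : Q v ≠ 0 := by rw [hv]; exact hc
  exact ⟨v, h0, hv, isom_ext hgv⟩

lemma polar_F3 {c : ZMod 3} (hc : c ≠ 0) (p : ZMod 3) : p = 0 ∨ p = c ∨ p = -c := by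
  revert c p; decide

lemma refl_neg {v : Fin n → ZMod 3} (hv : Q v ≠ 0) (hv' : Q (-v) ≠ 0) : refl Q (-v) hv' = refl Q v hv := by
  apply refl_congr
  have := reflMat_smul Q (-1 : ZMod 3) (by decide) v hv
  simpa using this

lemma refl_ne_one {v : Fin n → ZMod 3} (hv : Q v ≠ 0) : refl Q v hv ≠ 1 := by
  intro h
  have h1 := congrArg (fun g : ↥(Cfsg.isometryGroup (ZMod 3) (⇑Q)) => (g : GL (Fin n) (ZMod 3)).val *ᵥ v) h
  simp only [refl_coe] at h1
  rw [reflection_self Q v hv] at h1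
  have h2 : (((1 : ↥(Cfsg.isometryGroup (ZMod 3) (⇑Q))) : GL (Fin n) (ZMod 3)) : Matrix (Fin n) (Fin n) (ZMod 3)) *ᵥ v = v := by
    simp
  rw [h2] at h1
  have h3 : v = 0 := by
    funext i
    have := congrFun h1 i
    simp only [Pi.neg_apply] at this
    simp only [Pi.zero_apply]
    generalize v i = z at this
    revert z
    decide
  apply hv
  rw [h3]
  simp

end F3

end Cfsg.Agent.H01.R3
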