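import Mathlib
import Cfsg.Agent.Lib.H01.R3B

/-! Reflections of a fixed norm over `F₃`, continued: index two and the 3-transposition class. -/

set_option autoImplicit false
open Cfsg

namespace Cfsg.Agent.H01.R3

open Cfsg.Agent.H11 Cfsg.Agent.H03 Cfsg.Agent.H03.OGen Cfsg.Agent.H03.OSpin Cfsg.Agent.H03.OPlane Matrix QuadraticMap

variable {n : ℕ} (Q : QuadraticForm (ZMod 3) (Fin n → ZMod 3))

theorem index_two (hn : 5 ≤ n) (hQ : (QuadraticMap.polarBilin Q).Nondegenerate) {c : ZMod 3} (hc : c ≠ 0) :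
    (Cfsg.reflectionSubgroup (⇑Q) c).index = 2 := by
  rw [RC_eq]
  obtain ⟨-, χ, -, hker, hs⟩ := RC_main (F := ZMod 3) (by decide) (n := n) (by omega)
    (fun _ => ⟨by omega, by omega⟩) Q hQ c hc
  rw [hker, Subgroup.index_ker, MonoidHom.range_eq_top.2 hs, Nat.card_congr Subgroup.topEquiv.toEquiv,
    Nat.card_eq_fintype_card, Fintype.card_units_int]

lemma refl_group_sq {v w : Fin n → ZMod 3} (hv : Q v ≠ 0) (hw : Q w ≠ 0) (hp : polar Q v w = 0) :
    (refl Q v hv * refl Q w hw) ^ 2 = 1 := by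
  apply Subtype.ext
  apply Units.ext
  exact refl_sq_of_perp Q hv hw hp

lemma refl_group_cube {v w : Fin n → ZMod 3} {c : ZMod 3} (hc : c ≠ 0) (hv : Q v = c) (hw : Q w = c)
    (hv0 : Q v ≠ 0) (hw0 : Q w ≠ 0) (hp : polar Q v w = c) :
    (refl Q v hv0 * refl Q w hw0) ^ 3 = 1 := by
  apply Subtype.ext
  apply Units.ext
  exact refl_cube Q hc hv hw hp

lemma refl_pair {v w : Fin n → ZMod 3} {c : ZMod 3} (hc : c ≠ 0) (hv : Q v = c) (hw : Q w = c)
    (hv0 : Q v ≠ 0) (hw0 : Q w ≠ 0) :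
    (refl Q v hv0 * refl Q w hw0) ^ 2 = 1 ∨ (refl Q v hv0 * refl Q w hw0) ^ 3 = 1 := by
  rcases polar_F3 hc (polar Q v w) with h | h | h
  · exact Or.inl (refl_group_sq Q hv0 hw0 h)
  · exact Or.inr (refl_group_cube Q hc hv hw hv0 hw0 h)
  · right
    have hw' : Q (-w) = c := by rw [QuadraticMap.map_neg, hw]
    have hw0' : Q (-w) ≠ 0 := by rw [hw']; exact hc
    rw [← refl_neg Q hw0 hw0']
    exact refl_group_cube Q hc hv hw' hv0 hw0' (by rw [polar_neg_right, h, neg_neg])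

lemma conj_of_polar {c : ZMod 3} (hc : c ≠ 0) {v w : Fin n → ZMod 3} (hv : Q v = c) (hw : Q w = c)
    (hv0 : Q v ≠ 0) (hw0 : Q w ≠ 0) (hp : polar Q v w = c) :
    ∃ g ∈ Cfsg.reflectionSubgroup (⇑Q) c, g * refl Q v hv0 * g⁻¹ = refl Q w hw0 := by
  have hpw : polar Q w v = c := by rw [polar_comm]; exact hp
  have hy : Q (v - w) = c := by
    rw [Q_sub, hv, hw, hp]; ring
  have hy0 : Q (v - w) ≠ 0 := by rw [hy]; exact hc
  refine ⟨refl Q (v - w) hy0, refl_mem Q hy hy0, ?_⟩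
  have e : ((refl Q (v - w) hy0 : ↥(Cfsg.isometryGroup (ZMod 3) (⇑Q))) : GL (Fin n) (ZMod 3)).val *ᵥ v = w := by
    rw [refl_coe, reflection_mulVec, hy, polar_sub_left, polar_self', hv, hpw]
    have h1 : c⁻¹ * (2 * c - c) = 1 := by field_simp; ring
    rw [h1]
    module
  have hne : Q (((refl Q (v - w) hy0 : ↥(Cfsg.isometryGroup (ZMod 3) (⇑Q))) : GL (Fin n) (ZMod 3)).val *ᵥ v) ≠ 0 := by
    rw [e]; exact hw0
  rw [conj_refl Q _ v hv0 hne]
  exact refl_congr Q hne hw0 (by rw [e])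

lemma conj_of_polar' {c : ZMod 3} (hc : c ≠ 0) {v w : Fin n → ZMod 3} (hv : Q v = c) (hw : Q w = c)
    (hv0 : Q v ≠ 0) (hw0 : Q w ≠ 0) (hp : polar Q v w ≠ 0) :
    ∃ g ∈ Cfsg.reflectionSubgroup (⇑Q) c, g * refl Q v hv0 * g⁻¹ = refl Q w hw0 := by
  rcases polar_F3 hc (polar Q v w) with h | h | h
  · exact absurd h hp
  · exact conj_of_polar Q hc hv hw hv0 hw0 h
  · have hw' : Q (-w) = c := by rw [QuadraticMap.map_neg, hw]
    have hw0' : Q (-w) ≠ 0 := by rw [hw']; exact hc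
    rw [← refl_neg Q hw0 hw0']
    exact conj_of_polar Q hc hv hw' hv0 hw0' (by rw [polar_neg_right, h, neg_neg])

lemma perp2_nondeg (hQ : (QuadraticMap.polarBilin Q).Nondegenerate) {c : ZMod 3} (hc : c ≠ 0) {v w : Fin n → ZMod 3}
    (hv : Q v = c) (hw : Q w = c) (hp : polar Q v w = 0) :
    (polarBilin (Q.comp (perp2 Q v w).subtype)).Nondegenerate ∧ Module.finrank (ZMod 3) (perp2 Q v w) + 2 = n := by
  have h20 : (2 : ZMod 3) ≠ 0 := by decide
  have h2c : (2 * c : ZMod 3) ≠ 0 := mul_ne_zero (by decide) hc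
  have hpw : polar Q w v = 0 := by rw [polar_comm]; exact hp
  have hvv : polar Q v v = 2 * c := by rw [polar_self', hv]
  have hww : polar Q w w = 2 * c := by rw [polar_self', hw]
  constructor
  · apply sub_nondeg hQ {v, w} (perp2 Q v w)
    · intro x
      rw [mem_perp2]
      simp
    · rw [eq_top_iff]
      intro x _
      have hx : x = ((2 * c)⁻¹ * polar Q v x) • v + ((2 * c)⁻¹ * polar Q w x) • w +
          (x - ((2 * c)⁻¹ * polar Q v x) • v - ((2 * c)⁻¹ * polar Q w x) • w) := by abel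
      rw [hx]
      apply Submodule.mem_sup.2
      refine ⟨((2 * c)⁻¹ * polar Q v x) • v + ((2 * c)⁻¹ * polar Q w x) • w, ?_, _, ?_, rfl⟩
      · apply Submodule.add_mem
        · exact Submodule.smul_mem _ _ (Submodule.subset_span (by simp))
        · exact Submodule.smul_mem _ _ (Submodule.subset_span (by simp))
      · rw [mem_perp2]
        constructor
        · rw [polar_sub_right, polar_sub_right, polar_smul_right, polar_smul_right, hvv, hp]
          simp only [smul_eq_mul]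
          field_simp
          ring
        · rw [polar_sub_right, polar_sub_right, polar_smul_right, polar_smul_right, hww, hpw]
          simp only [smul_eq_mul]
          field_simp
          ring
  · have := finrank_perp2 Q v w ((2 * c)⁻¹ • v) ((2 * c)⁻¹ • w)
      (by rw [polar_smul_right, hvv]; simp only [smul_eq_mul]; field_simp)
      (by rw [polar_smul_right, hpw]; simp)
      (by rw [polar_smul_right, hp]; simp)
      (by rw [polar_smul_right, hww]; simp only [smul_eq_mul]; field_simp)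
    rw [Module.finrank_fintype_fun_eq_card] at this
    simpa using this

lemma exists_mid (hn : 5 ≤ n) (hQ : (QuadraticMap.polarBilin Q).Nondegenerate) {c : ZMod 3} (hc : c ≠ 0)
    {v w : Fin n → ZMod 3} (hv : Q v = c) (hw : Q w = c) (hp : polar Q v w = 0) :
    ∃ u, Q u = c ∧ polar Q v u ≠ 0 ∧ polar Q u w ≠ 0 := by
  obtain ⟨hnd, hfr⟩ := perp2_nondeg Q hQ hc hv hw hp
  obtain ⟨k, hk⟩ := exists_value_of_nondeg (Q.comp (perp2 Q v w).subtype) hnd (by omega) (-c)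
  have hk' : Q (k : Fin n → ZMod 3) = -c := hk
  obtain ⟨hk1, hk2⟩ := (mem_perp2 Q v w k).1 k.2
  have h2c : (2 * c : ZMod 3) ≠ 0 := mul_ne_zero (by decide) hc
  have hpw : polar Q w v = 0 := by rw [polar_comm]; exact hp
  have hvv : polar Q v v = 2 * c := by rw [polar_self', hv]
  have hww : polar Q w w = 2 * c := by rw [polar_self', hw]
  refine ⟨v + w + (k : Fin n → ZMod 3), ?_, ?_, ?_⟩
  · rw [Q_add, Q_add, hk', hv, hw, hp, polar_add_left, hk1, hk2]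
    ring
  · rw [polar_add_right, polar_add_right, hvv, hp, hk1]
    simpa using h2c
  · rw [polar_add_left, polar_add_left, hp, hww, polar_comm Q (k : Fin n → ZMod 3) w, hk2]
    simpa using h2c

theorem conj_all (hn : 5 ≤ n) (hQ : (QuadraticMap.polarBilin Q).Nondegenerate) {c : ZMod 3} (hc : c ≠ 0)
    {v w : Fin n → ZMod 3} (hv : Q v = c) (hw : Q w = c) (hv0 : Q v ≠ 0) (hw0 : Q w ≠ 0) :
    ∃ g ∈ Cfsg.reflectionSubgroup (⇑Q) c, g * refl Q v hv0 * g⁻¹ = refl Q w hw0 := by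
  by_cases hp : polar Q v w = 0
  · obtain ⟨u, hu, h1, h2⟩ := exists_mid Q hn hQ hc hv hw hp
    have hu0 : Q u ≠ 0 := by rw [hu]; exact hc
    obtain ⟨g₁, hg₁, e₁⟩ := conj_of_polar' Q hc hv hu hv0 hu0 h1
    obtain ⟨g₂, hg₂, e₂⟩ := conj_of_polar' Q hc hu hw hu0 hw0 h2
    refine ⟨g₂ * g₁, Subgroup.mul_mem _ hg₂ hg₁, ?_⟩
    rw [← e₂, ← e₁]
    group
  · exact conj_of_polar' Q hc hv hw hv0 hw0 hp

/-- The reflections of norm `c`, inside the group they generate, as a set. -/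
abbrev DD (c : ZMod 3) : Set ↥(Cfsg.reflectionSubgroup (⇑Q) c) :=
  {g : ↥(Cfsg.reflectionSubgroup (⇑Q) c) | (g : ↥(Cfsg.isometryGroup (ZMod 3) (⇑Q))) ∈ Cfsg.reflectionsOfNorm (⇑Q) c}

lemma DD_closure (c : ZMod 3) : Subgroup.closure (DD Q c) = ⊤ :=
  Subgroup.closure_closure_coe_preimage

lemma DD_conj_mem {c : ZMod 3} (hc : c ≠ 0) {d : ↥(Cfsg.reflectionSubgroup (⇑Q) c)} (hd : d ∈ DD Q c)
    (g : ↥(Cfsg.reflectionSubgroup (⇑Q) c)) : g * d * g⁻¹ ∈ DD Q c := by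
  obtain ⟨v, hv0, hv, e⟩ := of_mem Q hc hd
  have h1 : Q (((g : ↥(Cfsg.isometryGroup (ZMod 3) (⇑Q))) : GL (Fin n) (ZMod 3)).val *ᵥ v) = Q v :=
    (g : ↥(Cfsg.isometryGroup (ZMod 3) (⇑Q))).2 v v
  have h2 : Q (((g : ↥(Cfsg.isometryGroup (ZMod 3) (⇑Q))) : GL (Fin n) (ZMod 3)).val *ᵥ v) ≠ 0 := by
    rw [h1]; exact hv0
  show ((g * d * g⁻¹ : ↥(Cfsg.reflectionSubgroup (⇑Q) c)) : ↥(Cfsg.isometryGroup (ZMod 3) (⇑Q))) ∈ Cfsg.reflectionsOfNorm (⇑Q) c
  have e2 : ((g * d * g⁻¹ : ↥(Cfsg.reflectionSubgroup (⇑Q) c)) : ↥(Cfsg.isometryGroup (ZMod 3) (⇑Q))) =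
      (g : ↥(Cfsg.isometryGroup (ZMod 3) (⇑Q))) * refl Q v hv0 * (g : ↥(Cfsg.isometryGroup (ZMod 3) (⇑Q)))⁻¹ := by
    rw [← e]; rfl
  rw [e2, conj_refl Q _ v hv0 h2]
  exact refl_mem' Q (by rw [h1, hv]) h2

lemma DD_conj (hn : 5 ≤ n) (hQ : (QuadraticMap.polarBilin Q).Nondegenerate) {c : ZMod 3} (hc : c ≠ 0)
    {a b : ↥(Cfsg.reflectionSubgroup (⇑Q) c)} (ha : a ∈ DD Q c) (hb : b ∈ DD Q c) :
    ∃ g : ↥(Cfsg.reflectionSubgroup (⇑Q) c), g * a * g⁻¹ = b := by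
  obtain ⟨v, hv0, hv, e⟩ := of_mem Q hc ha
  obtain ⟨w, hw0, hw, e'⟩ := of_mem Q hc hb
  obtain ⟨g, hg, eg⟩ := conj_all Q hn hQ hc hv hw hv0 hw0
  refine ⟨⟨g, hg⟩, Subtype.ext ?_⟩
  rw [e'] at *
  rw [← eg, ← e]
  rfl

theorem three_trans (hn : 5 ≤ n) (hQ : (QuadraticMap.polarBilin Q).Nondegenerate) {c : ZMod 3} (hc : c ≠ 0) :
    Cfsg.IsThreeTranspositionClass (DD Q c) := by
  refine ⟨⟨?_, ?_⟩, ?_, DD_closure Q c⟩
  · intro d hd
    obtain ⟨v, hv0, hv, e⟩ := of_mem Q hc hd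
    haveI : Fact (Nat.Prime 2) := ⟨Nat.prime_two⟩
    apply orderOf_eq_prime
    · apply Subtype.ext
      show (d : ↥(Cfsg.isometryGroup (ZMod 3) (⇑Q))) ^ 2 = 1
      rw [e, pow_two, refl_mul_self]
    · intro h
      apply refl_ne_one Q hv0
      rw [← e, h]
      rfl
  · intro d hd f hf
    obtain ⟨v, hv0, hv, e⟩ := of_mem Q hc hd
    obtain ⟨w, hw0, hw, e'⟩ := of_mem Q hc hf
    rcases refl_pair Q hc hv hw hv0 hw0 with h | h
    · left
      apply Subtype.ext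
      show ((d : ↥(Cfsg.isometryGroup (ZMod 3) (⇑Q))) * (f : ↥(Cfsg.isometryGroup (ZMod 3) (⇑Q)))) ^ 2 = 1
      rw [e, e', h]
    · right
      apply Subtype.ext
      show ((d : ↥(Cfsg.isometryGroup (ZMod 3) (⇑Q))) * (f : ↥(Cfsg.isometryGroup (ZMod 3) (⇑Q)))) ^ 3 = 1
      rw [e, e', h]
  · obtain ⟨v, hv⟩ := exists_value_of_nondeg Q hQ (by rw [Module.finrank_fintype_fun_eq_card]; simp; omega) c
    have hv0 : Q v ≠ 0 := by rw [hv]; exact hc
    have hm := refl_mem Q hv hv0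
    have hmm : (⟨refl Q v hv0, hm⟩ : ↥(Cfsg.reflectionSubgroup (⇑Q) c)) ∈ DD Q c := refl_mem' Q hv hv0
    refine ⟨⟨refl Q v hv0, hm⟩, hmm, ?_⟩
    ext x
    constructor
    · intro hx
      obtain ⟨g, hg⟩ := DD_conj Q hn hQ hc hmm hx
      exact isConj_iff.2 ⟨g, hg⟩
    · intro hx
      obtain ⟨g, hg⟩ := isConj_iff.1 hx
      rw [← hg]
      exact DD_conj_mem Q hc hmm g

end Cfsg.Agent.H01.R3
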