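import Mathlib
import Cfsg.Prelude.Def_ChevG2
import Cfsg.Prelude.Def_ChevWords

/-! Bit-sliced linear algebra over the field with three elements, for matrices indexed as in type `G₂`.
A vector is a pair of bit patterns `(p, m)`; its coordinate is `p + 2 m`. -/

set_option autoImplicit false
open Matrix

namespace Cfsg.Agent.H01.Ree3
open Cfsg.Lie

/-- The bit position of an index. -/
def idxN : chevG2.Idx → ℕ
  | Sum.inl i => i.val
  | Sum.inr u => 2 + u.val

lemma idxN_lt (k : chevG2.Idx) : idxN k < 14 := by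
  rcases k with i | u
  · have : i.val < 2 := i.isLt
    show i.val < 14
    omega
  · have : u.val < 12 := u.isLt
    show 2 + u.val < 14
    omega

/-- A coordinate of a bit-sliced vector. -/
def val3 (v : ℕ × ℕ) (i : ℕ) : ZMod 3 := (if v.1.testBit i then 1 else 0) + 2 * (if v.2.testBit i then 1 else 0)

/-- The vector with given patterns. -/
def toT (n : ℕ × ℕ) : chevG2.Idx → ZMod 3 := fun k => val3 n (idxN k)

/-- Addition. -/
def addN (a1 a2 b1 b2 : ℕ) : ℕ × ℕ :=
  (((a2 ||| b2) ^^^ ((a1 ||| b2) ^^^ (a2 ||| b1))), ((a1 ||| b1) ^^^ ((a1 ||| b2) ^^^ (a2 ||| b1))))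

/-- Addition. -/
def add3 (a b : ℕ × ℕ) : ℕ × ℕ :=
  addN (a.1 ^^^ (a.1 &&& a.2)) (a.2 ^^^ (a.1 &&& a.2)) (b.1 ^^^ (b.1 &&& b.2)) (b.2 ^^^ (b.1 &&& b.2))

lemma val3_add (a b : ℕ × ℕ) (i : ℕ) : val3 (add3 a b) i = val3 a i + val3 b i := by
  simp only [val3, add3, addN, Nat.testBit_xor, Nat.testBit_land, Nat.testBit_lor]
  cases a.1.testBit i <;> cases a.2.testBit i <;> cases b.1.testBit i <;> cases b.2.testBit i <;> decide

/-- Scaling by a coordinate of another vector. -/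
def sc (n : ℕ × ℕ) (j : ℕ) (x : ℕ × ℕ) : ℕ × ℕ :=
  if n.1.testBit j then (if n.2.testBit j then (0, 0) else x) else (if n.2.testBit j then (x.2, x.1) else (0, 0))

lemma val3_sc (n : ℕ × ℕ) (j : ℕ) (x : ℕ × ℕ) (i : ℕ) : val3 (sc n j x) i = val3 x i * val3 n j := by
  cases h1 : n.1.testBit j <;> cases h1' : n.2.testBit j <;> cases h2 : x.1.testBit i <;> cases h2' : x.2.testBit i <;>
    simp [sc, val3, h1, h1', h2, h2'] <;> decide

/-- Applying a matrix given by its columns to a vector. -/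
def mm3 (C : List (ℕ × ℕ)) (n : ℕ × ℕ) : ℕ → ℕ × ℕ
  | 0 => (0, 0)
  | m + 1 => add3 (mm3 C n m) (sc n m (C.getD m (0, 0)))

lemma mm3_bit (C : List (ℕ × ℕ)) (n : ℕ × ℕ) (i m : ℕ) :
    val3 (mm3 C n m) i = ∑ j ∈ Finset.range m, val3 (C.getD j (0, 0)) i * val3 n j := by
  induction m with
  | zero => simp [mm3, val3]
  | succ m ih =>
    rw [Finset.sum_range_succ, ← ih, mm3, val3_add, val3_sc]

/-- The matrix with given columns. -/
def decM (C : List (ℕ × ℕ)) : Matrix chevG2.Idx chevG2.Idx (ZMod 3) :=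
  Matrix.of fun i j => val3 (C.getD (idxN j) (0, 0)) (idxN i)

lemma mulVec_decM (C : List (ℕ × ℕ)) (n : ℕ × ℕ) (k : chevG2.Idx) :
    (decM C *ᵥ toT n) k = toT (mm3 C n 14) k := by
  show ∑ j : chevG2.Idx, decM C k j * toT n j = val3 (mm3 C n 14) (idxN k)
  rw [mm3_bit, Fintype.sum_sum_type]
  have h := Finset.sum_range_add (fun j => val3 (C.getD j (0, 0)) (idxN k) * val3 n j) 2 12
  rw [show (14 : ℕ) = 2 + 12 from rfl, h]
  congr 1

/-- The product of two matrices, given by their columns. -/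
def mulC (C C' : List (ℕ × ℕ)) : List (ℕ × ℕ) :=
  (List.range 14).map fun j => mm3 C (C'.getD j (0, 0)) 14

lemma decM_mul (C C' : List (ℕ × ℕ)) : decM C * decM C' = decM (mulC C C') := by
  ext i j
  have h := mulVec_decM C (C'.getD (idxN j) (0, 0)) i
  rw [Matrix.mul_apply]
  have h2 : (mulC C C').getD (idxN j) (0, 0) = mm3 C (C'.getD (idxN j) (0, 0)) 14 := by
    have hlt := idxN_lt j
    simp [mulC, List.getD_eq_getElem?_getD, hlt]
  show _ = val3 ((mulC C C').getD (idxN j) (0, 0)) (idxN i)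
  rw [h2]
  exact h

end Cfsg.Agent.H01.Ree3
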