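import Mathlib
import Cfsg.Agent.Lib.H01.Ree3B
import Cfsg.Agent.Lib.H01.PtIso
import Cfsg.Agent.Lib.H17.Mob6
import Cfsg.Agent.Lib.Lead.CardSL

/-! `²G₂(3)′ ≅ PSL₂(8)`: the group theory. -/

set_option autoImplicit false
open Matrix

namespace Cfsg.Agent.H01.Ree3
open Cfsg.Lie Cfsg.Agent.H01.PtIso
open scoped commutatorElement

/-- `SL₂(8)`. -/
abbrev SL8 := Matrix.SpecialLinearGroup (Fin 2) F8

/-- The twisted group. -/
abbrev GG := twistedG2 (ZMod 3) 1

/-- An element of `SL₂(8)` from its entries. -/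
def mkS (a b c d : F8) (h : a * d - b * c = 1) : SL8 := ⟨!![a, b; c, d], by rw [Matrix.det_fin_two_of]; exact h⟩

lemma det_SL (x : SL8) : x.1 0 0 * x.1 1 1 - x.1 0 1 * x.1 1 0 = 1 := by
  have := x.2
  rwa [Matrix.det_fin_two] at this

lemma mkS_entries (x : SL8) : x = mkS (x.1 0 0) (x.1 0 1) (x.1 1 0) (x.1 1 1) (det_SL x) := by
  apply Subtype.ext
  ext i j
  fin_cases i <;> fin_cases j <;> rfl

/-- The points. -/
def O (x : SL8) : chevG2.Idx → ZMod 3 := toT (lk (x.1 0 0) (x.1 0 1) (x.1 1 0) (x.1 1 1))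

lemma lkP_mul (A x : SL8) : lkP (A.1 0 0) (A.1 0 1) (A.1 1 0) (A.1 1 1) (x.1 0 0) (x.1 0 1) (x.1 1 0) (x.1 1 1) =
    lk ((A * x).1 0 0) ((A * x).1 0 1) ((A * x).1 1 0) ((A * x).1 1 1) := by
  simp [lkP, Matrix.mul_apply, Fin.sum_univ_two]

/-- The images of the generators. -/
def b (s : Fin 2) : SL8 := mkS (bT s 0) (bT s 1) (bT s 2) (bT s 3) (det_b s)

/-! ### The generators of `SL₂(8)` -/

theorem stage : ∀ (n : ℕ) (x : SL8), dd (x.1 0 0) (x.1 0 1) (x.1 1 0) (x.1 1 1) = n →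
    ∃ h ∈ Subgroup.closure (Set.range b), h * x = 1 := by
  intro n
  induction n using Nat.strong_induction_on with
  | _ n ih =>
    intro x hd
    rcases depth_check _ _ _ _ (det_SL x) with ⟨h1, h2, h3, h4⟩ | ⟨s, hs⟩
    · refine ⟨1, Subgroup.one_mem _, ?_⟩
      rw [one_mul, mkS_entries x]
      simp only [h1, h2, h3, h4]
      apply Subtype.ext
      ext i j
      fin_cases i <;> fin_cases j <;> rfl
    · rw [hd] at hs
      have hy : dd ((b s * x).1 0 0) ((b s * x).1 0 1) ((b s * x).1 1 0) ((b s * x).1 1 1) < n := by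
        have e : ((b s * x).1 0 0) = bT s 0 * x.1 0 0 + bT s 1 * x.1 1 0 ∧
            ((b s * x).1 0 1) = bT s 0 * x.1 0 1 + bT s 1 * x.1 1 1 ∧
            ((b s * x).1 1 0) = bT s 2 * x.1 0 0 + bT s 3 * x.1 1 0 ∧
            ((b s * x).1 1 1) = bT s 2 * x.1 0 1 + bT s 3 * x.1 1 1 := by
          refine ⟨?_, ?_, ?_, ?_⟩ <;>
          · show ((b s).1 * x.1) _ _ = _
            simp [b, mkS, Matrix.mul_apply, Fin.sum_univ_two]
        rw [e.1, e.2.1, e.2.2.1, e.2.2.2]
        exact hs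
      obtain ⟨h, hh, he⟩ := ih _ hy _ rfl
      refine ⟨h * b s, Subgroup.mul_mem _ hh (Subgroup.subset_closure ⟨s, rfl⟩), ?_⟩
      rw [mul_assoc]
      exact he

theorem closure_b : Subgroup.closure (Set.range b) = ⊤ := by
  rw [eq_top_iff]
  intro x _
  obtain ⟨h, hh, he⟩ := stage _ x rfl
  rw [eq_inv_of_mul_eq_one_right he]
  exact Subgroup.inv_mem _ hh

/-! ### Faithfulness and spanning -/

lemma hfaith (c : SL8) (hc : ∀ x, O (c • x) = O x) : c = 1 := by
  have h1 := hc 1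
  rw [smul_eq_mul, mul_one] at h1
  have h2 := faith_check _ _ _ _ (det_SL c) (fun k => by
    have := congrFun h1 k
    exact this)
  obtain ⟨h3, h4, h5, h6⟩ := h2
  apply Subtype.ext
  ext i j
  fin_cases i <;> fin_cases j
  · exact h3
  · exact h4
  · exact h5
  · exact h6

lemma hspan (g : GL chevG2.Idx (ZMod 3)) (hg : ∀ x, g.val *ᵥ O x = O x) : g = 1 := by
  have h1 : ∀ l : List (chevG2.Idx → ZMod 3), (∀ v ∈ l, g.val *ᵥ v = v) → g.val *ᵥ l.sum = l.sum := by
    intro l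
    induction l with
    | nil => simp
    | cons a l ih =>
      intro h
      rw [List.sum_cons, Matrix.mulVec_add, h a (List.mem_cons_self ..), ih (fun v hv => h v (List.mem_cons_of_mem _ hv))]
  have hk : ∀ k, g.val *ᵥ (spanP k).sum = (spanP k).sum := by
    intro k
    apply h1
    intro v hv
    obtain ⟨n, hn, rfl⟩ := List.mem_map.1 hv
    have h3 := hg (mkS _ _ _ _ (span_det ⟨idxN k, idxN_lt k⟩ n hn))
    exact h3
  have hs : ∀ k, (spanP k).sum = Pi.single k 1 := by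
    intro k
    funext j
    rw [spanP_sum', Pi.single_apply]
    rfl
  apply Units.ext
  ext i j
  have h2 := congrFun (hk j) i
  rw [hs j, Matrix.mulVec_single_one] at h2
  simpa [Matrix.one_apply, Pi.single_apply, eq_comm] using h2

/-! ### Frobenius -/

/-- Squaring as a ring isomorphism. -/
noncomputable def frF : F8 ≃+* F8 where
  toFun x := x * x
  invFun x := x * x * (x * x)
  left_inv := by
    show ∀ x : F8, x * x * (x * x) * (x * x * (x * x)) = x
    decide +kernel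
  right_inv := by
    show ∀ x : F8, x * x * (x * x) * (x * x * (x * x)) = x
    decide +kernel
  map_mul' x y := mul_mul_mul_comm x y x y
  map_add' := by
    show ∀ x y : F8, (x + y) * (x + y) = x * x + y * y
    decide +kernel

/-- The Frobenius automorphism of `SL₂(8)`. -/
noncomputable def frS : MulAut SL8 where
  toFun := Matrix.SpecialLinearGroup.map (frF : F8 →+* F8)
  invFun := Matrix.SpecialLinearGroup.map (frF.symm : F8 →+* F8)
  left_inv g := by
    apply Subtype.ext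
    ext i j
    exact frF.symm_apply_apply _
  right_inv g := by
    apply Subtype.ext
    ext i j
    exact frF.apply_symm_apply _
  map_mul' := map_mul _

lemma frS_val (x : SL8) (i j : Fin 2) : (frS x).1 i j = x.1 i j * x.1 i j := rfl

lemma frS_pow_val (n : ℕ) (x : SL8) (i j : Fin 2) : ((frS ^ n) x).1 i j = pwF n (x.1 i j) := by
  induction n generalizing x with
  | zero => rfl
  | succ n ih =>
    rw [pow_succ, MulAut.mul_apply, ih, frS_val]
    rfl

lemma pwF_three : ∀ a : F8, pwF 3 a = a := by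
  decide +kernel

lemma frS_cube : frS ^ 3 = 1 := by
  ext x i j
  rw [frS_pow_val, pwF_three]
  rfl

/-- The twisting homomorphism. -/
noncomputable def twH : Multiplicative (ZMod 3) →* MulAut SL8 :=
  MonoidHom.mk' (fun e => frS ^ (Multiplicative.toAdd e).val) (by
    intro e f
    rw [← pow_add, toAdd_mul, ZMod.val_add, ← pow_eq_pow_mod _ frS_cube])

lemma twH_val (e : ZMod 3) (x : SL8) (i j : Fin 2) :
    (twH (Multiplicative.ofAdd e) x).1 i j = pwF e.val (x.1 i j) :=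
  frS_pow_val _ _ _ _

/-- The pairs acting semilinearly. -/
noncomputable def RR : Subgroup (GL chevG2.Idx (ZMod 3) × Multiplicative (ZMod 3)) where
  carrier := {p | ∃ A : SL8, ∀ x, p.1.val *ᵥ O x = O (A * twH p.2 x)}
  one_mem' := ⟨1, fun x => by
    show (1 : Matrix chevG2.Idx chevG2.Idx (ZMod 3)) *ᵥ O x = O (1 * twH 1 x)
    rw [map_one, one_mul, Matrix.one_mulVec]
    rfl⟩
  mul_mem' := by
    rintro ⟨g, ε⟩ ⟨h, δ⟩ ⟨A, hA⟩ ⟨B, hB⟩
    refine ⟨A * twH ε B, fun x => ?_⟩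
    show (g * h).val *ᵥ O x = O (A * twH ε B * twH (ε * δ) x)
    have hA' := fun x => hA x
    have hB' := fun x => hB x
    simp only at hA' hB'
    rw [Units.val_mul, ← Matrix.mulVec_mulVec, hB', hA', map_mul, map_mul, MulAut.mul_apply, mul_assoc]
  inv_mem' := by
    rintro ⟨g, ε⟩ ⟨A, hA⟩
    refine ⟨twH ε⁻¹ A⁻¹, fun x => ?_⟩
    show (g⁻¹).val *ᵥ O x = O (twH ε⁻¹ A⁻¹ * twH ε⁻¹ x)
    have h := hA (twH ε⁻¹ (A⁻¹ * x))
    simp only at h
    have e : twH ε (twH ε⁻¹ (A⁻¹ * x)) = A⁻¹ * x := by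
      rw [← MulAut.mul_apply, ← map_mul, mul_inv_cancel, map_one, MulAut.one_apply]
    rw [e, mul_inv_cancel_left] at h
    rw [← h, Matrix.mulVec_mulVec, ← Units.val_mul, inv_mul_cancel, Units.val_one, Matrix.one_mulVec, map_mul]

lemma act_word (i : Fin 54) (g : GL chevG2.Idx (ZMod 3)) (hg : g.val = decM (tW i)) :
    (g, Multiplicative.ofAdd (eT i)) ∈ RR := by
  refine ⟨mkS (aa i) (ab i) (ac i) (ad i) (det_a i), fun x => ?_⟩
  show g.val *ᵥ O x = O (mkS (aa i) (ab i) (ac i) (ad i) (det_a i) * twH (Multiplicative.ofAdd (eT i)) x)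
  rw [hg]
  funext k
  show (decM (tW i) *ᵥ toT _) k = _
  rw [mulVec_decM, act_all _ _ _ _ (det_SL x) i]
  show _ = toT (lk _ _ _ _) k
  rw [← lkP_mul]
  simp only [twH_val]
  rfl

lemma GG_mem (g : GL chevG2.Idx (ZMod 3)) (hg : g ∈ GG) : ∃ ε, (g, ε) ∈ RR := by
  have h2 : GG ≤ RR.map (MonoidHom.fst _ _) := by
    refine (Subgroup.closure_le _).2 ?_
    rintro x ⟨w, ⟨t, u, v, hw⟩, hx⟩
    rcases hw with rfl | rfl
    · exact ⟨(x, _), act_word _ x (hx.trans (word_U t u v)), rfl⟩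
    · exact ⟨(x, _), act_word _ x (hx.trans (word_V t u v)), rfl⟩
  obtain ⟨⟨g', ε⟩, hp, rfl⟩ := h2 hg
  exact ⟨ε, hp⟩

/-! ### The commutators -/

/-- Four elements of the group. -/
noncomputable def gA (s : Fin 4) : GL chevG2.Idx (ZMod 3) :=
  ⟨decM (tW (i4 s)), decM (tW (j4 s)), by rw [decM_mul, mul_ij, decM_id], by rw [decM_mul, mul_ji, decM_id]⟩

lemma gA_kind : ∀ s : Fin 4, ∃ t u v : ZMod 3, i4 s = iU t u v ∨ i4 s = iV t u v := by
  decide +kernel

lemma gA_mem (s : Fin 4) : gA s ∈ GG := by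
  obtain ⟨t, u, v, h | h⟩ := gA_kind s
  · refine Subgroup.subset_closure ⟨_, ⟨t, u, v, Or.inl rfl⟩, ?_⟩
    rw [word_U, ← h]
    rfl
  · refine Subgroup.subset_closure ⟨_, ⟨t, u, v, Or.inr rfl⟩, ?_⟩
    rw [word_V, ← h]
    rfl

/-- The elements, in the group. -/
noncomputable def gA' (s : Fin 4) : ↥GG := ⟨gA s, gA_mem s⟩

/-- The two commutators. -/
noncomputable def a (s : Fin 2) : ↥GG := ⁅gA' ⟨2 * s.val, by omega⟩, gA' ⟨2 * s.val + 1, by omega⟩⁆

lemma a_val (s : Fin 2) : (a s).1.val = decM (aC s) := by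
  rw [← a_eq, ← decM_mul, ← decM_mul, ← decM_mul]
  rfl

lemma a_act (s : Fin 2) (x : SL8) : (a s).1.val *ᵥ O x = O (b s • x) := by
  rw [a_val]
  funext k
  show (decM (aC s) *ᵥ toT _) k = _
  rw [mulVec_decM, act_a _ _ _ _ (det_SL x) s, smul_eq_mul]
  exact congrFun (congrArg toT (lkP_mul (b s) x)) k

/-- The graph of the correspondence. -/
noncomputable def PP : Subgroup (↥GG × SL8) :=
  (graphP O).comap (MonoidHom.prodMap GG.subtype (MonoidHom.id SL8))

theorem iso_D : Nonempty (↥(Subgroup.closure (Set.range a)) ≃* ↥(Subgroup.closure (Set.range b))) := by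
  apply graph_iso PP ?_ ?_ a b (fun s x => a_act s x)
  · rintro ⟨g, c⟩ hp h
    change g = 1 at h
    subst h
    have hc : c = 1 := by
      apply hfaith
      intro x
      have := hp x
      simpa using this.symm
    rw [hc]
    rfl
  · rintro ⟨g, c⟩ hp h
    change c = 1 at h
    subst h
    have hg : g = 1 := by
      apply Subtype.ext
      apply hspan
      intro x
      have := hp x
      simpa using this
    rw [hg]
    rfl

lemma exists_d (A : SL8) (hA : A ∈ Subgroup.closure (Set.range b)) :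
    ∃ d ∈ Subgroup.closure (Set.range a), ∀ x, d.1.val *ᵥ O x = O (A * x) := by
  induction hA using Subgroup.closure_induction with
  | mem x hx =>
    obtain ⟨s, rfl⟩ := hx
    exact ⟨a s, Subgroup.subset_closure ⟨s, rfl⟩, a_act s⟩
  | one =>
    refine ⟨1, Subgroup.one_mem _, fun x => ?_⟩
    show (1 : Matrix chevG2.Idx chevG2.Idx (ZMod 3)) *ᵥ O x = O (1 * x)
    rw [one_mul, Matrix.one_mulVec]
  | mul x y _ _ hx hy =>
    obtain ⟨d, hd, hdx⟩ := hx
    obtain ⟨d', hd', hdy⟩ := hy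
    refine ⟨d * d', Subgroup.mul_mem _ hd hd', fun z => ?_⟩
    show (d.1 * d'.1).val *ᵥ O z = O (x * y * z)
    rw [Units.val_mul, ← Matrix.mulVec_mulVec, hdy, hdx, mul_assoc]
  | inv x _ hx =>
    obtain ⟨d, hd, hdx⟩ := hx
    refine ⟨d⁻¹, Subgroup.inv_mem _ hd, fun z => ?_⟩
    show (d.1⁻¹).val *ᵥ O z = O (x⁻¹ * z)
    have h := hdx (x⁻¹ * z)
    rw [mul_inv_cancel_left] at h
    rw [← h, Matrix.mulVec_mulVec, ← Units.val_mul, inv_mul_cancel, Units.val_one, Matrix.one_mulVec]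

theorem comm_le : commutator ↥GG ≤ Subgroup.closure (Set.range a) := by
  rw [commutator_def, Subgroup.commutator_le]
  intro g _ h _
  obtain ⟨ε, hε⟩ := GG_mem g.1 g.2
  obtain ⟨δ, hδ⟩ := GG_mem h.1 h.2
  have hp := RR.mul_mem (RR.mul_mem (RR.mul_mem hε hδ) (RR.inv_mem hε)) (RR.inv_mem hδ)
  obtain ⟨A, hA⟩ := hp
  have h2 : ε * δ * ε⁻¹ * δ⁻¹ = 1 := by
    rw [mul_comm ε δ, mul_assoc δ, mul_inv_cancel, mul_one, mul_inv_cancel]
  have hA' : ∀ x, (⁅g, h⁆ : ↥GG).1.val *ᵥ O x = O (A * x) := by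
    intro x
    have := hA x
    simp only [Prod.fst_mul, Prod.snd_mul, Prod.fst_inv, Prod.snd_inv, h2, map_one, MulAut.one_apply] at this
    exact this
  obtain ⟨d, hd, hdx⟩ := exists_d A (by rw [closure_b]; trivial)
  have he : ⁅g, h⁆ = d := by
    have h3 : (⁅g, h⁆ : ↥GG).1⁻¹ * d.1 = 1 := by
      apply hspan
      intro x
      rw [Units.val_mul, ← Matrix.mulVec_mulVec, hdx, ← hA', Matrix.mulVec_mulVec, ← Units.val_mul, inv_mul_cancel,
        Units.val_one, Matrix.one_mulVec]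
    apply Subtype.ext
    exact (inv_mul_eq_one.1 h3)
  rw [he]
  exact hd

theorem le_comm' : Subgroup.closure (Set.range a) ≤ commutator ↥GG := by
  rw [Subgroup.closure_le]
  rintro _ ⟨s, rfl⟩
  rw [commutator_def]
  exact Subgroup.commutator_mem_commutator (Subgroup.mem_top _) (Subgroup.mem_top _)

theorem main_SL : Nonempty (↥(commutator ↥GG) ≃* SL8) := by
  obtain ⟨e⟩ := iso_D
  exact ⟨(MulEquiv.subgroupCongr (le_antisymm comm_le le_comm')).trans
    (e.trans ((MulEquiv.subgroupCongr closure_b).trans Subgroup.topEquiv))⟩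

lemma center_SL8 : Subgroup.center SL8 = ⊥ := by
  rw [eq_bot_iff]
  intro z hz
  rw [Subgroup.mem_bot]
  obtain ⟨r, hr, hz'⟩ := Matrix.SpecialLinearGroup.mem_center_iff.1 hz
  have h1 : ∀ r : F8, r ^ Fintype.card (Fin 2) = 1 → r = 1 := by
    decide +kernel
  rw [h1 r hr] at hz'
  apply Subtype.ext
  rw [← hz']
  simp

theorem card_SL8 : Nat.card SL8 = 504 := by
  have h := Cfsg.Agent.Lead.card_SL (F := F8) 2 (by norm_num)
  rw [F8.card_F8, Fin.prod_univ_two] at h
  have h2 : 7 * Nat.card SL8 = 7 * 504 := by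
    refine Eq.trans h ?_
    norm_num
  exact Nat.eq_of_mul_eq_mul_left (by norm_num) h2

theorem final {L : Type*} [Field L] [Fintype L] (hL : Fintype.card L = 8) :
    Nat.card ↥(commutator ↥(twistedG2 (ZMod 3) 1)) = 504 ∧
      Nonempty (↥(commutator ↥(twistedG2 (ZMod 3) 1)) ≃* Matrix.ProjectiveSpecialLinearGroup (Fin 2) L) := by
  obtain ⟨m⟩ := main_SL
  refine ⟨by rw [Nat.card_congr m.toEquiv, card_SL8], ?_⟩
  let z : SL8 ≃* Matrix.ProjectiveSpecialLinearGroup (Fin 2) F8 :=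
    (QuotientGroup.quotientBot.symm).trans (QuotientGroup.quotientMulEquivOfEq center_SL8.symm)
  obtain ⟨t⟩ := Cfsg.Agent.H17.Mob.psl_congr (FiniteField.ringEquivOfCardEq (K := F8) (K' := L) (by rw [F8.card_F8, hL]))
  exact ⟨m.trans (z.trans t)⟩

end Cfsg.Agent.H01.Ree3
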