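import Mathlib

/-! An explicit field with eight elements, computable in the kernel. -/

set_option autoImplicit false

namespace Cfsg.Agent.H01.Ree3

/-- The field with eight elements; the code of `a + b x + c x²` is `a + 2 b + 4 c`, where `x³ = x + 1`. -/
structure F8 where
  v : Fin 8
  deriving DecidableEq

namespace F8

/-- The identification with `Fin 8`. -/
def equivFin : F8 ≃ Fin 8 := ⟨F8.v, F8.mk, fun _ => rfl, fun _ => rfl⟩

instance : Fintype F8 := Fintype.ofEquiv _ equivFin.symm

/-- The multiplication table. -/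
def MT : ℕ := nat_lit 0x73157889d3f0cfa868356ee0467b98bcbd10fac688000000

/-- The inversion table. -/
def IT : ℕ := nat_lit 0x8d7d48

instance : Zero F8 := ⟨⟨0⟩⟩
instance : One F8 := ⟨⟨1⟩⟩
instance : Add F8 := ⟨fun x y => ⟨Fin.ofNat 8 (x.v.val ^^^ y.v.val)⟩⟩
instance : Neg F8 := ⟨fun x => x⟩
instance : Sub F8 := ⟨fun x y => ⟨Fin.ofNat 8 (x.v.val ^^^ y.v.val)⟩⟩
instance : Mul F8 := ⟨fun x y => ⟨Fin.ofNat 8 ((MT >>> (3 * (8 * x.v.val + y.v.val))) % 8)⟩⟩
instance : Inv F8 := ⟨fun x => ⟨Fin.ofNat 8 ((IT >>> (3 * x.v.val)) % 8)⟩⟩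

theorem add_assoc' : ∀ a b c : F8, a + b + c = a + (b + c) := by decide +kernel
theorem zero_add' : ∀ a : F8, 0 + a = a := by decide +kernel
theorem add_zero' : ∀ a : F8, a + 0 = a := by decide +kernel
theorem add_comm' : ∀ a b : F8, a + b = b + a := by decide +kernel
theorem neg_add_cancel' : ∀ a : F8, -a + a = 0 := by decide +kernel
theorem sub_eq_add_neg' : ∀ a b : F8, a - b = a + -b := by decide +kernel
theorem mul_assoc' : ∀ a b c : F8, a * b * c = a * (b * c) := by decide +kernel
theorem one_mul' : ∀ a : F8, 1 * a = a := by decide +kernel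
theorem mul_one' : ∀ a : F8, a * 1 = a := by decide +kernel
theorem mul_comm' : ∀ a b : F8, a * b = b * a := by decide +kernel
theorem zero_mul' : ∀ a : F8, 0 * a = 0 := by decide +kernel
theorem mul_zero' : ∀ a : F8, a * 0 = 0 := by decide +kernel
theorem left_distrib' : ∀ a b c : F8, a * (b + c) = a * b + a * c := by decide +kernel
theorem right_distrib' : ∀ a b c : F8, (a + b) * c = a * c + b * c := by decide +kernel
theorem mul_inv_cancel' : ∀ a : F8, a ≠ 0 → a * a⁻¹ = 1 := by decide +kernel
theorem inv_zero' : (0 : F8)⁻¹ = 0 := by decide +kernel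
theorem zero_ne_one' : (0 : F8) ≠ 1 := by decide +kernel

instance : CommRing F8 :=
  { add_assoc := add_assoc'
    zero_add := zero_add'
    add_zero := add_zero'
    add_comm := add_comm'
    neg_add_cancel := neg_add_cancel'
    sub_eq_add_neg := sub_eq_add_neg'
    mul_assoc := mul_assoc'
    one_mul := one_mul'
    mul_one := mul_one'
    mul_comm := mul_comm'
    zero_mul := zero_mul'
    mul_zero := mul_zero'
    left_distrib := left_distrib'
    right_distrib := right_distrib'
    nsmul := nsmulRec
    zsmul := zsmulRec }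

noncomputable instance : Field F8 :=
  { (inferInstance : CommRing F8) with
    inv := Inv.inv
    exists_pair_ne := ⟨0, 1, zero_ne_one'⟩
    mul_inv_cancel := mul_inv_cancel'
    inv_zero := inv_zero'
    nnqsmul := _
    nnqsmul_def := fun _ _ => rfl
    qsmul := _
    qsmul_def := fun _ _ => rfl }

theorem card_F8 : Fintype.card F8 = 8 := by decide +kernel

end F8

end Cfsg.Agent.H01.Ree3
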