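import Mathlib
import Cfsg.Agent.Lib.H01.GuCl1
import Cfsg.Agent.Lib.H12.UTrans

/-! Regular unipotent elements of `GU_n`: moments of a cyclic vector. -/

set_option linter.unusedSectionVars false
set_option autoImplicit false

namespace Cfsg.Agent.H01.PglCl

open Polynomial Module Matrix
open Cfsg.Agent.Lead

theorem rec_lemma {K : Type*} [Field K] (n m : ℕ) (D : ℕ → ℕ → K)
    (hR : ∀ a b, D a (b + 1) = - D (a + 1) b - D (a + 1) (b + 1))
    (hV : ∀ a b, n ≤ a → D a b = 0) (h0 : ∀ k, m < k → D k 0 = 0) :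
    ∀ b a, (m < a + b → D a b = 0) ∧ (a + b = m → D a b = (-1) ^ b * D m 0) := by
  intro b
  induction b with
  | zero =>
    intro a
    refine ⟨fun h => h0 a (by omega), fun h => ?_⟩
    have : a = m := by omega
    subst this
    simp
  | succ b ih =>
    have hF : ∀ t a, n ≤ a + t → m < a + (b + 1) → D a (b + 1) = 0 := by
      intro t
      induction t with
      | zero =>
        intro a h1 _
        exact hV a _ (by omega)
      | succ t iht =>
        intro a h1 h2
        rw [hR, (ih (a + 1)).1 (by omega), iht (a + 1) (by omega) (by omega)]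
        simp
    intro a
    refine ⟨fun h => hF n a (by omega) h, fun h => ?_⟩
    rw [hR, (ih (a + 1)).2 (by omega), hF n (a + 1) (by omega) (by omega), pow_succ]
    ring

variable {K : Type*} [Field K] [Fintype K] {q n : ℕ}

local notation "hh" => Cfsg.hermForm n K q

/-- `g - 1` as an endomorphism -/
noncomputable def NN (g : GL (Fin n) K) : End K (Fin n → K) := L g - 1

theorem L_eq_NN (g : GL (Fin n) K) (x : Fin n → K) : L g x = x + NN g x := by
  simp [NN]

theorem herm_rec (hF : Fintype.card K = q ^ 2) (g : GL (Fin n) K) (hg : g ∈ Cfsg.GU n K q)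
    (x z : Fin n → K) : hh x (NN g z) = - hh (NN g x) z - hh (NN g x) (NN g z) := by
  have h1 := herm_L g hg x z
  rw [L_eq_NN, L_eq_NN, herm_add_left, herm_add_right hF, herm_add_right hF] at h1
  linear_combination h1

/-- the Gram function of a vector -/
noncomputable def GG (g : GL (Fin n) K) (q : ℕ) (y : Fin n → K) (a b : ℕ) : K :=
  Cfsg.hermForm n K q ((NN g ^ a) y) ((NN g ^ b) y)

theorem GG_rec (hF : Fintype.card K = q ^ 2) (g : GL (Fin n) K) (hg : g ∈ Cfsg.GU n K q)
    (y : Fin n → K) (a b : ℕ) :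
    GG g q y a (b + 1) = - GG g q y (a + 1) b - GG g q y (a + 1) (b + 1) := by
  unfold GG
  have h := herm_rec hF g hg ((NN g ^ a) y) ((NN g ^ b) y)
  simp only [← Module.End.mul_apply, ← pow_succ'] at h
  exact h

theorem pow_apply_zero {N : End K (Fin n → K)} (hN : N ^ n = 0) (a : ℕ) (ha : n ≤ a) (y : Fin n → K) :
    (N ^ a) y = 0 := by
  rw [pow_eq_zero_of_le ha hN]
  rfl

theorem GG_van (hF : Fintype.card K = q ^ 2) (g : GL (Fin n) K) (hN : NN g ^ n = 0)
    (y : Fin n → K) (a b : ℕ) (ha : n ≤ a) : GG g q y a b = 0 := by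
  unfold GG
  rw [pow_apply_zero hN a ha]
  simp [Cfsg.hermForm]

theorem GG_conj (hF : Fintype.card K = q ^ 2) (g : GL (Fin n) K) (y : Fin n → K) (a b : ℕ) :
    GG g q y b a = (GG g q y a b) ^ q := herm_conj hF _ _

theorem GG_high (hF : Fintype.card K = q ^ 2) (g : GL (Fin n) K) (hg : g ∈ Cfsg.GU n K q)
    (hN : NN g ^ n = 0) (y : Fin n → K) (a b : ℕ) (hab : n ≤ a + b) : GG g q y a b = 0 := by
  have := (rec_lemma n (n - 1) (GG g q y) (GG_rec hF g hg y) (fun a b ha => GG_van hF g hN y a b ha)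
    (fun k hk => GG_van hF g hN y k 0 (by omega)) b a).1
  rcases Nat.eq_zero_or_pos n with h0 | h0
  · exact GG_van hF g hN y a b (by omega)
  · exact this (by omega)

theorem GG_anti (hF : Fintype.card K = q ^ 2) (g : GL (Fin n) K) (hg : g ∈ Cfsg.GU n K q)
    (hN : NN g ^ n = 0) (y : Fin n → K) (a b : ℕ) (hab : a + b = n - 1) :
    GG g q y a b = (-1) ^ b * GG g q y (n - 1) 0 :=
  (rec_lemma n (n - 1) (GG g q y) (GG_rec hF g hg y) (fun a b ha => GG_van hF g hN y a b ha)
    (fun k hk => GG_van hF g hN y k 0 (by omega)) b a).2 hab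

/-- comparison of two Gram functions -/
theorem GG_diff (hF : Fintype.card K = q ^ 2) (g g' : GL (Fin n) K) (hg : g ∈ Cfsg.GU n K q)
    (hg' : g' ∈ Cfsg.GU n K q) (hN : NN g ^ n = 0) (hN' : NN g' ^ n = 0) (y y' : Fin n → K) (m : ℕ)
    (h0 : ∀ k, m < k → GG g q y k 0 = GG g' q y' k 0) (a b : ℕ) :
    (m < a + b → GG g q y a b = GG g' q y' a b) ∧
      (a + b = m → GG g q y a b - GG g' q y' a b = (-1) ^ b * (GG g q y m 0 - GG g' q y' m 0)) := by
  have := rec_lemma n m (fun a b => GG g q y a b - GG g' q y' a b)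
    (fun a b => by
      rw [GG_rec hF g hg, GG_rec hF g' hg']
      ring)
    (fun a b ha => by
      rw [GG_van hF g hN y a b ha, GG_van hF g' hN' y' a b ha, sub_zero])
    (fun k hk => by
      rw [h0 k hk, sub_self]) b a
  exact ⟨fun h => sub_eq_zero.1 (this.1 h), this.2⟩

theorem GG_eq_of_moments (hF : Fintype.card K = q ^ 2) (g g' : GL (Fin n) K) (hg : g ∈ Cfsg.GU n K q)
    (hg' : g' ∈ Cfsg.GU n K q) (hN : NN g ^ n = 0) (hN' : NN g' ^ n = 0) (y y' : Fin n → K)
    (h0 : ∀ k, GG g q y k 0 = GG g' q y' k 0) (a b : ℕ) : GG g q y a b = GG g' q y' a b := by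
  have := (GG_diff hF g g' hg hg' hN hN' y y' (a + b) (fun k _ => h0 k) a b).2 rfl
  rw [h0, sub_self, mul_zero] at this
  exact sub_eq_zero.1 this

theorem NN_pow_smul_add (g : GL (Fin n) K) (k j : ℕ) (b : K) (y : Fin n → K) :
    (NN g ^ k) (y + b • (NN g ^ j) y) = (NN g ^ k) y + b • (NN g ^ (k + j)) y := by
  rw [map_add, map_smul, pow_add, Module.End.mul_apply]

/-- correcting one moment -/
theorem adjust (hF : Fintype.card K = q ^ 2) (g g' : GL (Fin n) K) (hg : g ∈ Cfsg.GU n K q)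
    (hg' : g' ∈ Cfsg.GU n K q) (hN : NN g ^ n = 0) (hN' : NN g' ^ n = 0) (y y' : Fin n → K)
    (hτ : GG g q y (n - 1) 0 ≠ 0) (m : ℕ) (hm : m < n - 1)
    (hM : ∀ k, m < k → GG g q y k 0 = GG g' q y' k 0) :
    ∃ y₁ : Fin n → K, ∀ k, m ≤ k → GG g q y₁ k 0 = GG g' q y' k 0 := by
  have hq2 := two_le_q hF
  obtain ⟨φ, hφ⟩ := exists_frob hF
  set τ := GG g q y (n - 1) 0 with hτd
  obtain ⟨j, hj⟩ : ∃ j, n - 1 = m + j := ⟨n - 1 - m, by omega⟩
  have hj0 : 0 < j := by omega
  let s : K := (-1) ^ j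
  have hss : s * s = 1 := by
    simp only [s]
    rw [← pow_add, ← two_mul, pow_mul]
    simp
  set D := GG g' q y' m 0 - GG g q y m 0 with hD
  have h1 : D ^ q = (-1) ^ m * D := by
    have h2 := (GG_diff hF g g' hg hg' hN hN' y y' m hM 0 m).2 (by omega)
    rw [GG_conj hF g y m 0, GG_conj hF g' y' m 0] at h2
    have h3 : D ^ q = (GG g' q y' m 0) ^ q - (GG g q y m 0) ^ q := by
      rw [hD, ← hφ, map_sub, hφ, hφ]
    rw [h3, hD]
    linear_combination -h2
  have h4 : τ ^ q = (-1) ^ (n - 1) * τ := by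
    rw [hτd, ← GG_conj hF g y (n - 1) 0]
    exact GG_anti hF g hg hN y 0 (n - 1) (by omega)
  let w : K := D / τ
  have hwτ : w * τ = D := div_mul_cancel₀ _ hτ
  have hsign : (-1 : K) ^ (n - 1) = (-1) ^ m * s := by
    rw [hj, pow_add]
  have hm1 : ((-1 : K) ^ m) * ((-1 : K) ^ m) = 1 := by
    rw [← pow_add, ← two_mul, pow_mul]
    simp
  have hw : w ^ q = s * w := by
    have h5 : w ^ q * τ ^ q = D ^ q := by rw [← mul_pow, hwτ]
    rw [h4, h1, hsign, ← hwτ] at h5
    have h6 : w ^ q * s * τ = w * τ := by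
      calc w ^ q * s * τ = ((-1) ^ m * (-1) ^ m) * (w ^ q * s * τ) := by rw [hm1, one_mul]
        _ = (-1) ^ m * (w ^ q * ((-1) ^ m * s * τ)) := by ring
        _ = (-1) ^ m * ((-1) ^ m * (w * τ)) := by rw [h5]
        _ = ((-1) ^ m * (-1) ^ m) * (w * τ) := by ring
        _ = w * τ := by rw [hm1, one_mul]
    have h7 : w ^ q * s = w := mul_right_cancel₀ hτ h6
    calc w ^ q = w ^ q * (s * s) := by rw [hss, mul_one]
      _ = (w ^ q * s) * s := by ring
      _ = s * w := by rw [h7, mul_comm]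
  obtain ⟨z, hz⟩ := Cfsg.Agent.H12.UTrans.exists_trace_eq hF (1 : K) (one_pow _)
  let b : K := z * w
  have hb : b + s * b ^ q = w := by
    simp only [b]
    rw [mul_pow, hw]
    have : z * w + s * (z ^ q * (s * w)) = (z + (s * s) * z ^ q) * w := by ring
    rw [this, hss, one_mul, hz, one_mul]
  refine ⟨y + b • (NN g ^ j) y, fun k hk => ?_⟩
  have hexp : GG g q (y + b • (NN g ^ j) y) k 0 = GG g q y k 0 + b ^ q * GG g q y k j +
      b * GG g q y (k + j) 0 + b * b ^ q * GG g q y (k + j) j := by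
    unfold GG
    simp only [pow_zero, Module.End.one_apply]
    rw [NN_pow_smul_add, herm_add_left, herm_add_right hF, herm_add_right hF, herm_smul_left,
      herm_smul_left, herm_smul_right hF, herm_smul_right hF]
    ring
  rw [hexp]
  rcases Nat.lt_or_ge m k with hlt | hge
  · rw [GG_high hF g hg hN y k j (by omega), GG_van hF g hN y (k + j) 0 (by omega),
      GG_van hF g hN y (k + j) j (by omega), hM k hlt]
    ring
  · have hkm : k = m := by omega
    subst hkm
    have h8 : GG g q y k j = s * τ := GG_anti hF g hg hN y k j (by omega)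
    have h9 : k + j = n - 1 := by omega
    rw [h8, h9, ← hτd, GG_high hF g hg hN y (n - 1) j (by omega)]
    have : GG g q y k 0 + b ^ q * (s * τ) + b * τ + b * b ^ q * 0 =
        GG g q y k 0 + (b + s * b ^ q) * τ := by ring
    rw [this, hb, hwτ, hD]
    ring

theorem GG_smul (hF : Fintype.card K = q ^ 2) (g : GL (Fin n) K) (c : K) (y : Fin n → K) (a b : ℕ) :
    GG g q (c • y) a b = c ^ (q + 1) * GG g q y a b := by
  unfold GG
  rw [map_smul, map_smul, herm_smul_left, herm_smul_right hF, pow_succ]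
  ring

/-- matching all moments -/
theorem all_match (hF : Fintype.card K = q ^ 2) (hn : 0 < n) (g g' : GL (Fin n) K)
    (hg : g ∈ Cfsg.GU n K q) (hg' : g' ∈ Cfsg.GU n K q) (hN : NN g ^ n = 0) (hN' : NN g' ^ n = 0)
    (y y' : Fin n → K) (hτ : GG g q y (n - 1) 0 ≠ 0) (hτ' : GG g' q y' (n - 1) 0 ≠ 0) :
    ∃ y₁ : Fin n → K, ∀ a b, GG g q y₁ a b = GG g' q y' a b := by
  have hq2 := two_le_q hF
  have key : ∀ j, j ≤ n - 1 → ∃ y₁ : Fin n → K, ∀ k, n - 1 - j ≤ k → GG g q y₁ k 0 = GG g' q y' k 0 := by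
    intro j
    induction j with
    | zero =>
      intro _
      set τ := GG g q y (n - 1) 0 with hd
      set τ' := GG g' q y' (n - 1) 0 with hd'
      have h1 : τ ^ q = (-1) ^ (n - 1) * τ := by
        rw [hd, ← GG_conj hF g y (n - 1) 0]
        exact GG_anti hF g hg hN y 0 (n - 1) (by omega)
      have h2 : τ' ^ q = (-1) ^ (n - 1) * τ' := by
        rw [hd', ← GG_conj hF g' y' (n - 1) 0]
        exact GG_anti hF g' hg' hN' y' 0 (n - 1) (by omega)
      have hs : ((-1 : K) ^ (n - 1)) ≠ 0 := pow_ne_zero _ (by simp)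
      have h3 : (τ' / τ) ^ q = τ' / τ := by
        rw [div_pow, h1, h2, mul_div_mul_left _ _ hs]
      obtain ⟨c, hc0, hc⟩ := exists_norm_eq hF (τ' / τ) (div_ne_zero hτ' hτ) h3
      refine ⟨c • y, fun k hk => ?_⟩
      rcases Nat.lt_or_ge (n - 1) k with hlt | hge
      · rw [GG_van hF g' hN' y' k 0 (by omega), GG_smul hF, GG_van hF g hN y k 0 (by omega), mul_zero]
      · have : k = n - 1 := by omega
        subst this
        rw [GG_smul hF, hc, ← hd, div_mul_cancel₀ _ hτ]
    | succ j ih =>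
      intro hj
      obtain ⟨y₁, hy₁⟩ := ih (by omega)
      have hτ₁ : GG g q y₁ (n - 1) 0 ≠ 0 := by
        rw [hy₁ (n - 1) (by omega)]
        exact hτ'
      obtain ⟨y₂, hy₂⟩ := adjust hF g g' hg hg' hN hN' y₁ y' hτ₁ (n - 1 - (j + 1)) (by omega)
        (fun k hk => hy₁ k (by omega))
      exact ⟨y₂, hy₂⟩
  obtain ⟨y₁, hy₁⟩ := key (n - 1) le_rfl
  exact ⟨y₁, GG_eq_of_moments hF g g' hg hg' hN hN' y₁ y' fun k => hy₁ k (by omega)⟩

end Cfsg.Agent.H01.PglCl
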