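import Mathlib
import Cfsg.Agent.Lib.H01.RegU1

/-! Regular unipotent elements of `GU_n`: conjugacy and centralisers. -/

set_option linter.unusedSectionVars false
set_option autoImplicit false

namespace Cfsg.Agent.H01.PglCl

open Polynomial Module Matrix
open Cfsg.Agent.Lead

variable {K : Type*} [Field K] {n : ℕ}

theorem finrank_ker_pow_le (N : End K (Fin n → K)) (hk : finrank K (LinearMap.ker N) = 1) (k : ℕ) :
    finrank K (LinearMap.ker (N ^ k)) ≤ k := by
  induction k with
  | zero =>
    have : LinearMap.ker (N ^ 0) = ⊥ := by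
      rw [pow_zero]
      exact LinearMap.ker_id
    rw [this]
    simp
  | succ k ih =>
    have hS : ∀ x ∈ LinearMap.ker (N ^ (k + 1)), N x ∈ LinearMap.ker (N ^ k) := by
      intro x hx
      rw [LinearMap.mem_ker] at hx ⊢
      rw [← Module.End.mul_apply, ← pow_succ]
      exact hx
    let f := N.restrict hS
    have h1 := LinearMap.finrank_range_add_finrank_ker f
    have h2 : finrank K (LinearMap.range f) ≤ finrank K (LinearMap.ker (N ^ k)) :=
      Submodule.finrank_le _
    let ι : LinearMap.ker f →ₗ[K] LinearMap.ker N :=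
      LinearMap.codRestrict _ ((LinearMap.ker (N ^ (k + 1))).subtype ∘ₗ (LinearMap.ker f).subtype)
        (fun x => by
          have h3 := x.2
          rw [LinearMap.mem_ker] at h3 ⊢
          exact congrArg Subtype.val h3)
    have hι : Function.Injective ι := by
      intro a b hab
      have h3 := congrArg Subtype.val hab
      exact Subtype.ext (Subtype.ext h3)
    have h4 := LinearMap.finrank_le_finrank_of_injective hι
    omega

theorem exists_cyclic (N : End K (Fin n → K)) (hk : finrank K (LinearMap.ker N) = 1) (hn : 0 < n) :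
    ∃ y : Fin n → K, (N ^ (n - 1)) y ≠ 0 := by
  by_contra hcon
  push Not at hcon
  have h1 : LinearMap.ker (N ^ (n - 1)) = ⊤ := by
    rw [eq_top_iff]
    intro y _
    exact hcon y
  have h2 := finrank_ker_pow_le N hk (n - 1)
  rw [h1, finrank_top] at h2
  simp at h2
  omega

theorem decomp_cyc (N : End K (Fin n → K)) (hN : N ^ n = 0) (hk : finrank K (LinearMap.ker N) = 1)
    (hn : 0 < n) (y : Fin n → K) (hy : (N ^ (n - 1)) y ≠ 0) (x : Fin n → K) :
    ∃ (α : K) (t : Fin n → K), x = α • y + N t := by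
  have h1 := LinearMap.finrank_range_add_finrank_ker N
  simp only [finrank_fintype_fun_eq_card, Fintype.card_fin] at h1
  have hyN : y ∉ LinearMap.range N := by
    rintro ⟨t, rfl⟩
    apply hy
    rw [← Module.End.mul_apply, ← pow_succ]
    have : n - 1 + 1 = n := by omega
    rw [this, hN]
    rfl
  have hlt : LinearMap.range N < Submodule.span K {y} ⊔ LinearMap.range N := by
    refine lt_of_le_of_ne le_sup_right fun h => hyN ?_
    rw [h]
    exact Submodule.mem_sup_left (Submodule.mem_span_singleton_self y)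
  have h2 := Submodule.finrank_lt_finrank_of_lt hlt
  have h3 : Submodule.span K {y} ⊔ LinearMap.range N = ⊤ := by
    apply Submodule.eq_top_of_finrank_eq
    have h4 := Submodule.finrank_le (Submodule.span K {y} ⊔ LinearMap.range N)
    simp only [finrank_fintype_fun_eq_card, Fintype.card_fin] at h4 ⊢
    omega
  have h5 : x ∈ Submodule.span K {y} ⊔ LinearMap.range N := by
    rw [h3]
    trivial
  obtain ⟨a, ha, b, ⟨t, rfl⟩, rfl⟩ := Submodule.mem_sup.1 h5
  obtain ⟨α, rfl⟩ := Submodule.mem_span_singleton.1 ha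
  exact ⟨α, t, rfl⟩

theorem lin_indep_cyc (N : End K (Fin n → K)) (hN : N ^ n = 0) (y : Fin n → K)
    (hy : (N ^ (n - 1)) y ≠ 0) : LinearIndependent K (fun a : Fin n => (N ^ (a : ℕ)) y) := by
  classical
  rw [Fintype.linearIndependent_iff]
  intro c hc
  have key : ∀ t : ℕ, ∀ a : Fin n, (a : ℕ) = t → c a = 0 := by
    intro t
    induction t using Nat.strong_induction_on with
    | _ t ih =>
      intro a ha
      have h1 := congrArg (N ^ (n - 1 - t)) hc
      rw [map_sum, map_zero, Finset.sum_eq_single a] at h1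
      · rw [map_smul, ← Module.End.mul_apply, ← pow_add] at h1
        have h2 : n - 1 - t + (a : ℕ) = n - 1 := by
          have := a.2
          omega
        rw [h2] at h1
        exact (smul_eq_zero.1 h1).resolve_right hy
      · intro b _ hb
        rw [map_smul, ← Module.End.mul_apply, ← pow_add]
        rcases lt_or_gt_of_ne (fun h : (b : ℕ) = a => hb (Fin.ext h)) with hlt | hgt
        · rw [ih b (by omega) b rfl, zero_smul]
        · have h2 : n ≤ n - 1 - t + (b : ℕ) := by
            have := a.2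
            omega
          rw [pow_eq_zero_of_le h2 hN]
          simp
      · simp
  exact fun a => key a a rfl

theorem exists_gl_of_equiv (e : (Fin n → K) ≃ₗ[K] (Fin n → K)) :
    ∃ P : GL (Fin n) K, ∀ v, L P v = e v := by
  let A : Matrix (Fin n) (Fin n) K := LinearMap.toMatrix' e.toLinearMap
  let B : Matrix (Fin n) (Fin n) K := LinearMap.toMatrix' e.symm.toLinearMap
  have hAB : A * B = 1 := by
    simp only [A, B]
    rw [← LinearMap.toMatrix'_comp]
    simp
  have hBA : B * A = 1 := by
    simp only [A, B]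
    rw [← LinearMap.toMatrix'_comp]
    simp
  refine ⟨⟨A, B, hAB, hBA⟩, fun v => ?_⟩
  rw [L_apply]
  show A.mulVec v = e v
  simp only [A]
  rw [LinearMap.toMatrix'_mulVec]
  rfl

theorem det_of_nilp (c : K) (A : Matrix (Fin n) (Fin n) K) (hA : IsNilpotent A) :
    (c • (1 : Matrix (Fin n) (Fin n) K) + A).det = c ^ n := by
  have h1 := Matrix.isNilpotent_charpoly_sub_pow_of_isNilpotent hA.neg
  have h2 := sub_eq_zero.1 h1.eq_zero
  have h3 := Matrix.eval_charpoly (-A) c
  rw [h2] at h3
  simp only [Fintype.card_fin, eval_pow, eval_X] at h3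
  rw [h3]
  congr 1
  ext i j
  simp [Matrix.scalar_apply, Matrix.one_apply, Matrix.diagonal_apply]

variable [Fintype K] {q : ℕ}

local notation "hh" => Cfsg.hermForm n K q

theorem tau_ne (hF : Fintype.card K = q ^ 2) (hn : 0 < n) (g : GL (Fin n) K) (hg : g ∈ Cfsg.GU n K q)
    (hN : NN g ^ n = 0) (hk : finrank K (LinearMap.ker (NN g)) = 1) (y : Fin n → K)
    (hy : (NN g ^ (n - 1)) y ≠ 0) : GG g q y (n - 1) 0 ≠ 0 := by
  intro h0
  have hq2 := two_le_q hF
  apply hy
  set x₀ := (NN g ^ (n - 1)) y with hx₀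
  have hNx : NN g x₀ = 0 := by
    rw [hx₀, ← Module.End.mul_apply, ← pow_succ']
    have : n - 1 + 1 = n := by omega
    rw [this, hN]
    rfl
  have hzero : ∀ x : Fin n → K, hh x₀ x = 0 := by
    intro x
    obtain ⟨α, t, rfl⟩ := decomp_cyc (NN g) hN hk hn y hy x
    have h1 : hh x₀ y = 0 := by
      have : GG g q y (n - 1) 0 = hh x₀ y := by
        unfold GG
        simp [hx₀]
      rw [← this, h0]
    rw [herm_add_right hF, herm_smul_right hF, h1, mul_zero, zero_add, herm_rec hF g hg, hNx]
    simp [Cfsg.hermForm]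
  funext j
  have := hzero (Pi.single j 1)
  rwa [herm_single hF] at this

theorem reg_conj (hF : Fintype.card K = q ^ 2) (hn : 0 < n) (g g' : GL (Fin n) K)
    (hg : g ∈ Cfsg.GU n K q) (hg' : g' ∈ Cfsg.GU n K q) (hN : NN g ^ n = 0) (hN' : NN g' ^ n = 0)
    (hk : finrank K (LinearMap.ker (NN g)) = 1) (hk' : finrank K (LinearMap.ker (NN g')) = 1) :
    ∃ P ∈ Cfsg.GU n K q, P * g * P⁻¹ = g' := by
  classical
  have hq2 := two_le_q hF
  obtain ⟨y₀, hy₀⟩ := exists_cyclic (NN g) hk hn
  obtain ⟨y', hy'⟩ := exists_cyclic (NN g') hk' hn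
  have hτ := tau_ne hF hn g hg hN hk y₀ hy₀
  have hτ' := tau_ne hF hn g' hg' hN' hk' y' hy'
  obtain ⟨y, hG⟩ := all_match hF hn g g' hg hg' hN hN' y₀ y' hτ hτ'
  have hy : (NN g ^ (n - 1)) y ≠ 0 := by
    intro h0
    apply hτ'
    rw [← hG]
    unfold GG
    rw [h0]
    simp [Cfsg.hermForm]
  haveI : NeZero n := ⟨by omega⟩
  have hli := lin_indep_cyc (NN g) hN y hy
  have hli' := lin_indep_cyc (NN g') hN' y' hy'
  let b := basisOfLinearIndependentOfCardEqFinrank hli (by simp)
  let b' := basisOfLinearIndependentOfCardEqFinrank hli' (by simp)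
  have hb : ∀ a : Fin n, b a = (NN g ^ (a : ℕ)) y := fun a => by
    simp [b]
  have hb' : ∀ a : Fin n, b' a = (NN g' ^ (a : ℕ)) y' := fun a => by
    simp [b']
  let e : (Fin n → K) ≃ₗ[K] (Fin n → K) := b.equiv b' (Equiv.refl _)
  have he : ∀ a, e (b a) = b' a := fun a => by simp [e]
  have hintN : e.toLinearMap ∘ₗ NN g = NN g' ∘ₗ e.toLinearMap := by
    refine b.ext fun a => ?_
    simp only [LinearMap.comp_apply, LinearEquiv.coe_coe]
    rw [he, hb, hb', ← Module.End.mul_apply, ← Module.End.mul_apply, ← pow_succ', ← pow_succ']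
    by_cases ha : (a : ℕ) + 1 < n
    · have h1 := he ⟨(a : ℕ) + 1, ha⟩
      rw [hb, hb'] at h1
      exact h1
    · have ha' : n ≤ (a : ℕ) + 1 := by omega
      rw [pow_eq_zero_of_le ha' hN, pow_eq_zero_of_le ha' hN']
      simp
  have hint : ∀ v, e (L g v) = L g' (e v) := by
    intro v
    have := LinearMap.congr_fun hintN v
    simp only [LinearMap.comp_apply, LinearEquiv.coe_coe] at this
    rw [L_eq_NN, L_eq_NN, map_add, this]
  have hiso1 : ∀ (x : Fin n → K) (a : Fin n), hh (e x) (e (b a)) = hh x (b a) := by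
    intro x a
    have hx : x ∈ Submodule.span K (Set.range b) := by
      rw [b.span_eq]
      trivial
    induction hx using Submodule.span_induction with
    | mem z hz =>
      obtain ⟨c, rfl⟩ := hz
      rw [he, he, hb, hb, hb', hb']
      exact (hG c a).symm
    | zero =>
      simp [Cfsg.hermForm]
    | add u v _ _ hu hv =>
      rw [map_add, herm_add_left, herm_add_left, hu, hv]
    | smul c u _ hu =>
      rw [map_smul, herm_smul_left, herm_smul_left, hu]
  have hiso : ∀ x z : Fin n → K, hh (e x) (e z) = hh x z := by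
    intro x z
    have hz : z ∈ Submodule.span K (Set.range b) := by
      rw [b.span_eq]
      trivial
    induction hz using Submodule.span_induction with
    | mem u hu =>
      obtain ⟨c, rfl⟩ := hu
      exact hiso1 x c
    | zero =>
      have h0 : (0 : K) ^ q = 0 := zero_pow (by omega)
      simp [Cfsg.hermForm, h0]
    | add u v _ _ hu hv =>
      rw [map_add, herm_add_right hF, herm_add_right hF, hu, hv]
    | smul c u _ hu =>
      rw [map_smul, herm_smul_right hF, herm_smul_right hF, hu]
  obtain ⟨P, hP⟩ := exists_gl_of_equiv e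
  refine ⟨P, ?_, ?_⟩
  · apply mem_GU_of
    intro x z
    rw [hP, hP]
    exact hiso x z
  · rw [mul_inv_eq_iff_eq_mul]
    apply L_inj
    refine LinearMap.ext fun v => ?_
    rw [L_mul, L_mul, Module.End.mul_apply, Module.End.mul_apply, hP, hP]
    exact hint v

theorem cent_det (hF : Fintype.card K = q ^ 2) (hn : 0 < n) (g : GL (Fin n) K)
    (hg : g ∈ Cfsg.GU n K q) (hN : NN g ^ n = 0) (hk : finrank K (LinearMap.ker (NN g)) = 1)
    (w : GL (Fin n) K) (hw : w ∈ Cfsg.GU n K q) (hc : w * g = g * w) :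
    ∃ c : Kˣ, c ^ (q + 1) = 1 ∧ (w : Matrix (Fin n) (Fin n) K).det = (c : K) ^ n := by
  have hq2 := two_le_q hF
  have hcomm : ∀ x, L w (NN g x) = NN g (L w x) := by
    intro x
    have h1 : L w * L g = L g * L w := by rw [← L_mul, hc, L_mul]
    have h2 := LinearMap.congr_fun h1 x
    simp only [Module.End.mul_apply] at h2
    simp only [NN, LinearMap.sub_apply, Module.End.one_apply, map_sub, h2]
  have hcommp : ∀ (k : ℕ) x, L w ((NN g ^ k) x) = (NN g ^ k) (L w x) := by
    intro k
    induction k with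
    | zero => simp
    | succ k ih =>
      intro x
      rw [pow_succ, Module.End.mul_apply, Module.End.mul_apply, ih, hcomm]
  obtain ⟨y, hy⟩ := exists_cyclic (NN g) hk hn
  have hτ := tau_ne hF hn g hg hN hk y hy
  obtain ⟨α, r, hαr⟩ := decomp_cyc (NN g) hN hk hn y hy (L w y)
  set x₀ := (NN g ^ (n - 1)) y with hx₀
  have hn1 : n - 1 + 1 = n := by omega
  have hNx : NN g x₀ = 0 := by
    rw [hx₀, ← Module.End.mul_apply, ← pow_succ', hn1, hN]
    rfl
  have hwx : L w x₀ = α • x₀ := by
    rw [hx₀, hcommp, hαr, map_add, map_smul, ← Module.End.mul_apply, ← pow_succ, hn1, hN]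
    simp
  have hτ' : hh x₀ y ≠ 0 := by
    have : GG g q y (n - 1) 0 = hh x₀ y := by
      unfold GG
      simp [hx₀]
    rwa [← this]
  have h1 := herm_L w hw x₀ y
  rw [hwx, hαr, herm_smul_left, herm_add_right hF, herm_smul_right hF, herm_rec hF g hg, hNx] at h1
  have h2 : hh (0 : Fin n → K) r = 0 := by simp [Cfsg.hermForm]
  have h3 : hh (0 : Fin n → K) (NN g r) = 0 := by simp [Cfsg.hermForm]
  rw [h2, h3] at h1
  have h4 : α ^ (q + 1) = 1 := by
    apply mul_right_cancel₀ hτ'
    rw [one_mul, pow_succ]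
    linear_combination h1
  have hα0 : α ≠ 0 := by
    rintro rfl
    rw [zero_pow (by omega)] at h4
    exact zero_ne_one h4
  refine ⟨Units.mk0 α hα0, by
    apply Units.ext
    simpa using h4, ?_⟩
  -- nilpotency
  let M : End K (Fin n → K) := L w - α • 1
  have hMN : ∀ x, M (NN g x) = NN g (M x) := by
    intro x
    simp only [M, LinearMap.sub_apply, LinearMap.smul_apply, Module.End.one_apply, map_sub, map_smul,
      hcomm]
  have hMpow : ∀ (k : ℕ) x, (M ^ k) (NN g x) = NN g ((M ^ k) x) := by
    intro k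
    induction k with
    | zero => simp
    | succ k ih =>
      intro x
      rw [pow_succ, Module.End.mul_apply, Module.End.mul_apply, hMN, ih]
  have hM1 : ∀ x, ∃ t, M x = NN g t := by
    intro x
    obtain ⟨β, t', rfl⟩ := decomp_cyc (NN g) hN hk hn y hy x
    refine ⟨β • r + M t', ?_⟩
    rw [map_add, map_smul, map_add, map_smul, hMN]
    congr 2
    simp only [M, LinearMap.sub_apply, LinearMap.smul_apply, Module.End.one_apply]
    rw [hαr]
    simp
  have hMk : ∀ (k : ℕ) x, ∃ t, (M ^ k) x = (NN g ^ k) t := by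
    intro k
    induction k with
    | zero =>
      intro x
      exact ⟨x, by simp⟩
    | succ k ih =>
      intro x
      obtain ⟨t, ht⟩ := hM1 x
      obtain ⟨t', ht'⟩ := ih t
      refine ⟨t', ?_⟩
      rw [pow_succ, Module.End.mul_apply, ht, hMpow, ht', pow_succ', Module.End.mul_apply]
  have hMn : M ^ n = 0 := by
    refine LinearMap.ext fun x => ?_
    obtain ⟨t, ht⟩ := hMk n x
    rw [ht, hN]
    rfl
  let φ := Matrix.toLinAlgEquiv' (R := K) (n := Fin n)
  let A : Matrix (Fin n) (Fin n) K := (w : Matrix (Fin n) (Fin n) K) - α • 1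
  have hA : φ A = M := by
    simp only [A, M, map_sub, map_smul, map_one]
    rfl
  have hnil : IsNilpotent A := ⟨n, by
    apply φ.injective
    rw [map_pow, hA, hMn, map_zero]⟩
  have h5 := det_of_nilp α A hnil
  have h6 : α • (1 : Matrix (Fin n) (Fin n) K) + A = (w : Matrix (Fin n) (Fin n) K) := by
    simp [A]
  rw [h6] at h5
  simpa using h5

end Cfsg.Agent.H01.PglCl
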