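import Mathlib
import Cfsg.Agent.Lib.Lead.HermCount
import Cfsg.Agent.Lib.H12.UTrans

/-! Quadratic extension by a cube root of unity and orthonormal frames of Hermitian spaces. -/

set_option autoImplicit false
set_option linter.unusedSectionVars false

namespace Cfsg.Agent.H01.SpCen

open Cfsg.Agent.Lead

/-- The ring `F[ω]/(ω² + ω + 1)`. -/
@[ext] structure E3 (F : Type*) where
  re : F
  im : F

namespace E3

variable {F : Type*} [Field F]

instance : Zero (E3 F) := ⟨⟨0, 0⟩⟩
instance : One (E3 F) := ⟨⟨1, 0⟩⟩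
instance : Add (E3 F) := ⟨fun x y => ⟨x.re + y.re, x.im + y.im⟩⟩
instance : Neg (E3 F) := ⟨fun x => ⟨-x.re, -x.im⟩⟩
instance : Sub (E3 F) := ⟨fun x y => ⟨x.re - y.re, x.im - y.im⟩⟩
instance : Mul (E3 F) := ⟨fun x y => ⟨x.re * y.re - x.im * y.im, x.re * y.im + x.im * y.re - x.im * y.im⟩⟩

@[simp] lemma zero_re : (0 : E3 F).re = 0 := rfl
@[simp] lemma zero_im : (0 : E3 F).im = 0 := rfl
@[simp] lemma one_re : (1 : E3 F).re = 1 := rfl
@[simp] lemma one_im : (1 : E3 F).im = 0 := rfl
@[simp] lemma add_re (x y : E3 F) : (x + y).re = x.re + y.re := rfl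
@[simp] lemma add_im (x y : E3 F) : (x + y).im = x.im + y.im := rfl
@[simp] lemma neg_re (x : E3 F) : (-x).re = -x.re := rfl
@[simp] lemma neg_im (x : E3 F) : (-x).im = -x.im := rfl
@[simp] lemma sub_re (x y : E3 F) : (x - y).re = x.re - y.re := rfl
@[simp] lemma sub_im (x y : E3 F) : (x - y).im = x.im - y.im := rfl
@[simp] lemma mul_re (x y : E3 F) : (x * y).re = x.re * y.re - x.im * y.im := rfl
@[simp] lemma mul_im (x y : E3 F) : (x * y).im = x.re * y.im + x.im * y.re - x.im * y.im := rfl

instance : CommRing (E3 F) where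
  add_assoc a b c := by ext <;> simp [add_assoc]
  zero_add a := by ext <;> simp
  add_zero a := by ext <;> simp
  add_comm a b := by ext <;> simp [add_comm]
  neg_add_cancel a := by ext <;> simp
  sub_eq_add_neg a b := by ext <;> simp [sub_eq_add_neg]
  mul_assoc a b c := by ext <;> simp <;> ring
  one_mul a := by ext <;> simp
  mul_one a := by ext <;> simp
  mul_comm a b := by ext <;> simp <;> ring
  zero_mul a := by ext <;> simp
  mul_zero a := by ext <;> simp
  left_distrib a b c := by ext <;> simp <;> ring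
  right_distrib a b c := by ext <;> simp <;> ring
  nsmul := nsmulRec
  zsmul := zsmulRec

/-- The element `ω`. -/
def om : E3 F := ⟨0, 1⟩

/-- The base field. -/
def iota : F →+* E3 F where
  toFun a := ⟨a, 0⟩
  map_one' := rfl
  map_mul' a b := by ext <;> simp [mul_re, mul_im]
  map_zero' := rfl
  map_add' a b := by ext <;> simp

lemma iota_re (a : F) : (iota a).re = a := rfl
lemma iota_im (a : F) : (iota a).im = 0 := rfl

lemma eq_iota_add (x : E3 F) : x = iota x.re + iota x.im * om := by
  ext <;> simp [om, iota]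

lemma om_sq : (om : E3 F) * om = -om - 1 := by
  ext <;> simp [om]

lemma om_cube : (om : E3 F) ^ 3 = 1 := by
  have h := om_sq (F := F)
  calc (om : E3 F) ^ 3 = om * om * om := by ring
    _ = (-om - 1) * om := by rw [h]
    _ = -(om * om) - om := by ring
    _ = 1 := by rw [h]; ring

/-- The anisotropy of the norm form. -/
def Aniso (F : Type*) [Field F] : Prop := ∀ a b : F, a * a - a * b + b * b = 0 → a = 0 ∧ b = 0

variable [hA : Fact (Aniso F)]

instance : Inv (E3 F) := ⟨fun x =>
  ⟨(x.re - x.im) * (x.re * x.re - x.re * x.im + x.im * x.im)⁻¹, -x.im * (x.re * x.re - x.re * x.im + x.im * x.im)⁻¹⟩⟩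

lemma inv_re (x : E3 F) : (x⁻¹).re = (x.re - x.im) * (x.re * x.re - x.re * x.im + x.im * x.im)⁻¹ := rfl
lemma inv_im (x : E3 F) : (x⁻¹).im = -x.im * (x.re * x.re - x.re * x.im + x.im * x.im)⁻¹ := rfl

lemma mul_inv_cancel' (x : E3 F) (hx : x ≠ 0) : x * x⁻¹ = 1 := by
  have hN : x.re * x.re - x.re * x.im + x.im * x.im ≠ 0 := by
    intro h
    obtain ⟨h1, h2⟩ := hA.out _ _ h
    exact hx (E3.ext h1 h2)
  have h1 := mul_inv_cancel₀ hN
  ext
  · simp only [mul_re, inv_re, inv_im, one_re]
    linear_combination h1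
  · simp only [mul_im, inv_re, inv_im, one_im]
    ring

noncomputable instance : Field (E3 F) :=
  { (inferInstance : CommRing (E3 F)) with
    inv := Inv.inv
    exists_pair_ne := ⟨0, 1, fun h => zero_ne_one (congrArg E3.re h)⟩
    mul_inv_cancel := mul_inv_cancel'
    inv_zero := by
      ext <;> simp [inv_re, inv_im]
    nnqsmul := _
    nnqsmul_def := fun _ _ => rfl
    qsmul := _
    qsmul_def := fun _ _ => rfl }

/-- As a set, two copies of the field. -/
def equivProd : E3 F ≃ F × F where
  toFun x := (x.re, x.im)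
  invFun x := ⟨x.1, x.2⟩
  left_inv _ := rfl
  right_inv _ := rfl

section card

variable [Fintype F]

noncomputable instance : Fintype (E3 F) := Fintype.ofEquiv _ equivProd.symm

lemma card_E3 {q : ℕ} (hq : Fintype.card F = q) : Fintype.card (E3 F) = q ^ 2 := by
  rw [Fintype.card_congr equivProd, Fintype.card_prod, hq, pow_two]

/-- Frobenius on the extension is the conjugation, when `q ≡ 2 (mod 3)`. -/
lemma pow_q {q : ℕ} (hq : Fintype.card F = q) (h3 : q % 3 = 2) (x : E3 F) :
    x ^ q = ⟨x.re - x.im, -x.im⟩ := by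
  obtain ⟨φ, hφ⟩ := exists_frob (card_E3 hq)
  have h1 : ∀ a : F, φ (iota a) = iota a := by
    intro a
    rw [hφ, ← map_pow, ← hq, FiniteField.pow_card]
  have h2 : φ om = -om - 1 := by
    rw [hφ]
    have e : q = 3 * (q / 3) + 2 := by omega
    rw [e, pow_add, pow_mul, om_cube, one_pow, one_mul, pow_two, om_sq]
  rw [← hφ]
  conv_lhs => rw [eq_iota_add x]
  rw [map_add, map_mul, h1, h1, h2]
  ext <;> simp [iota, om] <;> ring

end card

end E3

section ON

universe u

variable {E : Type*} [Field E] [Fintype E] {q : ℕ}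

/-- Existence of orthonormal frames. -/
theorem exists_ON (hE : Fintype.card E = q ^ 2) (n : ℕ) :
    ∀ (W : Type u) [AddCommGroup W] [Module E W] [FiniteDimensional E W] (h : W → W → E)
      (_ : ∀ u v w, h (u + v) w = h u w + h v w) (_ : ∀ (e : E) u v, h (e • u) v = e * h u v)
      (_ : ∀ u v, h v u = (h u v) ^ q) (_ : ∀ u, (∀ v, h u v = 0) → u = 0)
      (_ : Module.finrank E W = n),
      ∃ b : Fin n → W, ∀ i j, h (b i) (b j) = if i = j then 1 else 0 := by
  obtain ⟨φ, hφ⟩ := exists_frob hE
  induction n with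
  | zero =>
    intro W _ _ _ h _ _ _ _ _
    exact ⟨Fin.elim0, fun i => i.elim0⟩
  | succ n ih =>
    intro W _ _ _ h hadd hsmul hconj hnd hdim
    have hq := two_le_q hE
    have hzero : ∀ v, h 0 v = 0 := by
      intro v
      have := hsmul 0 0 v
      simpa using this
    have haddr : ∀ u v w, h u (v + w) = h u v + h u w := by
      intro u v w
      rw [hconj (v + w) u, hadd, ← hφ, map_add, hφ, hφ, ← hconj, ← hconj]
    have hsmulr : ∀ (e : E) u v, h u (e • v) = e ^ q * h u v := by
      intro e u v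
      rw [hconj (e • v) u, hsmul, mul_pow, ← hconj]
    -- a vector of nonzero norm
    haveI : Nontrivial W := Module.nontrivial_of_finrank_pos (R := E) (by omega)
    obtain ⟨u₀, hu₀⟩ := exists_ne (0 : W)
    have : ∃ v, h u₀ v ≠ 0 := by
      by_contra hc
      push Not at hc
      exact hu₀ (hnd u₀ hc)
    obtain ⟨v, hv⟩ := this
    have hex : ∃ z, h z z ≠ 0 := by
      by_contra hc
      push Not at hc
      obtain ⟨s, hs⟩ := Cfsg.Agent.H12.UTrans.exists_trace_eq hE (1 : E) (one_pow q)
      set c := h u₀ v with hcdef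
      set t := s * c⁻¹ with ht
      have htc : t * c = s := by
        rw [ht, mul_assoc, inv_mul_cancel₀ hv, mul_one]
      have e : h (t • u₀ + v) (t • u₀ + v) = t * c + t ^ q * c ^ q := by
        have e1 : h v u₀ = c ^ q := hconj u₀ v
        simp only [hadd, haddr, hsmul, hsmulr, hc, e1]
        ring
      rw [hc, ← mul_pow, htc, hs] at e
      exact zero_ne_one e
    obtain ⟨z, hz⟩ := hex
    have hfix : (h z z)⁻¹ ^ q = (h z z)⁻¹ := by
      rw [inv_pow, ← hconj z z]
    obtain ⟨a, ha0, ha⟩ := exists_norm_eq hE (h z z)⁻¹ (inv_ne_zero hz) hfix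
    set b₀ := a • z with hb₀
    have hb₀1 : h b₀ b₀ = 1 := by
      rw [hb₀, hsmul, hsmulr, ← mul_assoc, mul_comm a, ← pow_succ, ha, inv_mul_cancel₀ hz]
    -- the orthogonal complement
    let ℓ : W →ₗ[E] E :=
      { toFun := fun y => h y b₀
        map_add' := fun x y => hadd x y b₀
        map_smul' := fun e x => hsmul e x b₀ }
    have hℓ : ℓ ≠ 0 := by
      intro h0
      have h3 : ℓ b₀ = 0 := by rw [h0]; rfl
      have h4 : ℓ b₀ = 1 := hb₀1
      rw [h3] at h4
      exact zero_ne_one h4
    have hker : Module.finrank E (LinearMap.ker ℓ) = n := by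
      have h5 := Module.Dual.finrank_ker_add_one_of_ne_zero (f := ℓ) hℓ
      omega
    obtain ⟨b', hb'⟩ := ih (LinearMap.ker ℓ) (fun x y => h x.1 y.1)
      (fun x y w => hadd x.1 y.1 w.1) (fun e x y => hsmul e x.1 y.1) (fun x y => hconj x.1 y.1)
      (by
        intro x hx
        apply Subtype.ext
        apply hnd x.1
        intro y
        have hx0 : h x.1 b₀ = 0 := x.2
        have hm : y - h y b₀ • b₀ ∈ LinearMap.ker ℓ := by
          show h (y - h y b₀ • b₀) b₀ = 0
          have e1 : y - h y b₀ • b₀ = y + (- h y b₀) • b₀ := by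
            rw [sub_eq_add_neg, neg_smul]
          rw [e1, hadd, hsmul, hb₀1]
          ring
        have h6 : h x.1 (y - h y b₀ • b₀) = 0 := hx ⟨_, hm⟩
        have e2 : h x.1 y = h x.1 (y - h y b₀ • b₀) + h x.1 (h y b₀ • b₀) := by
          rw [← haddr]
          congr 1
          abel
        rw [e2, h6, hsmulr, hx0, mul_zero, add_zero]) hker
    have hperp : ∀ i, h (b' i).1 b₀ = 0 := fun i => (b' i).2
    have hperp' : ∀ i, h b₀ (b' i).1 = 0 := by
      intro i
      rw [hconj (b' i).1 b₀, hperp, zero_pow (by omega)]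
    refine ⟨Fin.cons b₀ (fun i => (b' i).1), ?_⟩
    intro i j
    refine Fin.cases ?_ (fun i => ?_) i <;> refine Fin.cases ?_ (fun j => ?_) j
    · simpa using hb₀1
    · simpa [Fin.succ_ne_zero, (Fin.succ_ne_zero j).symm] using hperp' j
    · simpa [Fin.succ_ne_zero] using hperp i
    · simpa [Fin.succ_inj] using hb' i j

end ON

end Cfsg.Agent.H01.SpCen
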