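import Mathlib
import Cfsg.Agent.Lib.H01.RegU2
import Cfsg.Agent.Lib.H01.SpCen1

/-! Existence of a regular unipotent element of `GU_n`: a Cayley transform of a self-adjoint
nilpotent shift for the antidiagonal Hermitian form. -/

set_option linter.unusedSectionVars false
set_option autoImplicit false

namespace Cfsg.Agent.H01.PglCl

open Polynomial Module Matrix
open Cfsg.Agent.Lead

variable {K : Type*} [Field K] {q m : ℕ}

/-- the antidiagonal Hermitian form -/
def hA (q : ℕ) {m : ℕ} (x y : Fin (m + 1) → K) : K := ∑ i, x i * (y (Fin.rev i)) ^ q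

theorem hA_add_left (u v w : Fin (m + 1) → K) : hA q (u + v) w = hA q u w + hA q v w := by
  simp [hA, add_mul, Finset.sum_add_distrib]

theorem hA_smul_left (c : K) (u w : Fin (m + 1) → K) : hA q (c • u) w = c * hA q u w := by
  simp [hA, Finset.mul_sum, mul_assoc]

theorem hA_sum_left {ι : Type*} (s : Finset ι) (f : ι → (Fin (m + 1) → K)) (w : Fin (m + 1) → K) :
    hA q (∑ i ∈ s, f i) w = ∑ i ∈ s, hA q (f i) w := by
  classical
  induction s using Finset.induction_on with
  | empty => simp [hA]
  | insert a s ha ih => rw [Finset.sum_insert ha, Finset.sum_insert ha, hA_add_left, ih]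

/-- the shift -/
def shiftT (K : Type*) [Field K] (m : ℕ) : End K (Fin (m + 1) → K) where
  toFun x := Fin.cons 0 (fun i : Fin m => x i.castSucc)
  map_add' x y := by
    funext i
    refine Fin.cases ?_ (fun j => ?_) i <;> simp
  map_smul' c x := by
    funext i
    refine Fin.cases ?_ (fun j => ?_) i <;> simp

theorem shiftT_zero (x : Fin (m + 1) → K) : shiftT K m x 0 = 0 := rfl

theorem shiftT_succ (x : Fin (m + 1) → K) (j : Fin m) : shiftT K m x j.succ = x j.castSucc := rfl

theorem shiftT_pow (k : ℕ) (x : Fin (m + 1) → K) (i : Fin (m + 1)) (hi : (i : ℕ) < k) :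
    (shiftT K m ^ k) x i = 0 := by
  induction k generalizing i with
  | zero => omega
  | succ k ih =>
    rw [pow_succ', Module.End.mul_apply]
    refine Fin.cases (motive := fun i => (i : ℕ) < k + 1 → shiftT K m ((shiftT K m ^ k) x) i = 0)
      (fun _ => shiftT_zero _) (fun j hj => ?_) i hi
    rw [shiftT_succ]
    apply ih
    simp at hj ⊢
    omega

theorem shiftT_nil : shiftT K m ^ (m + 1) = 0 := by
  refine LinearMap.ext fun x => ?_
  funext i
  exact shiftT_pow (m + 1) x i i.2

theorem ker_shiftT : finrank K (LinearMap.ker (shiftT K m)) = 1 := by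
  classical
  have h1 : LinearMap.ker (shiftT K m) = Submodule.span K {(Pi.single (Fin.last m) 1 : Fin (m + 1) → K)} := by
    ext x
    rw [LinearMap.mem_ker, Submodule.mem_span_singleton]
    constructor
    · intro h
      refine ⟨x (Fin.last m), ?_⟩
      funext i
      refine Fin.lastCases ?_ (fun j => ?_) i
      · simp
      · have h2 := congrFun h j.succ
        rw [shiftT_succ] at h2
        have h3 : j.castSucc ≠ Fin.last m := (Fin.castSucc_lt_last j).ne
        simp only [Pi.smul_apply, smul_eq_mul, Pi.single_eq_of_ne h3, mul_zero]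
        rw [h2]
        rfl
    · rintro ⟨c, rfl⟩
      funext i
      refine Fin.cases ?_ (fun j => ?_) i
      · rfl
      · rw [shiftT_succ]
        have h3 : j.castSucc ≠ Fin.last m := (Fin.castSucc_lt_last j).ne
        simp [Pi.single_eq_of_ne h3]
  rw [h1]
  apply finrank_span_singleton
  intro h
  have := congrFun h (Fin.last m)
  simp at this

variable [Fintype K]

theorem hA_add_right (hF : Fintype.card K = q ^ 2) (u v w : Fin (m + 1) → K) :
    hA q u (v + w) = hA q u v + hA q u w := by
  obtain ⟨φ, hφ⟩ := exists_frob hF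
  simp only [hA, Pi.add_apply, ← hφ, map_add, mul_add, Finset.sum_add_distrib]

theorem hA_smul_right (c : K) (u w : Fin (m + 1) → K) : hA q u (c • w) = c ^ q * hA q u w := by
  simp only [hA, Pi.smul_apply, smul_eq_mul, mul_pow, Finset.mul_sum]
  exact Finset.sum_congr rfl fun i _ => by ring

theorem hA_conj (hF : Fintype.card K = q ^ 2) (u v : Fin (m + 1) → K) :
    hA q v u = (hA q u v) ^ q := by
  obtain ⟨φ, hφ⟩ := exists_frob hF
  simp only [hA, ← hφ, map_sum, map_mul]
  rw [← Equiv.sum_comp (Fin.revPerm)]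
  refine Finset.sum_congr rfl fun i _ => ?_
  simp only [Fin.revPerm_apply, Fin.rev_rev]
  have hφφ : ∀ z, φ (φ z) = z := fun z => by rw [hφ, hφ, pow_q_sq hF]
  rw [hφφ, mul_comm]

theorem hA_single (hF : Fintype.card K = q ^ 2) (u : Fin (m + 1) → K) (j : Fin (m + 1)) :
    hA q u (Pi.single (Fin.rev j) 1) = u j := by
  classical
  have hq2 := two_le_q hF
  unfold hA
  rw [Finset.sum_eq_single j]
  · simp
  · intro b _ hb
    have : Fin.rev b ≠ Fin.rev j := fun h => hb (Fin.rev_injective h)
    rw [Pi.single_eq_of_ne this, zero_pow (by omega), mul_zero]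
  · simp

theorem hA_shift (hF : Fintype.card K = q ^ 2) (x y : Fin (m + 1) → K) :
    hA q (shiftT K m x) y = hA q x (shiftT K m y) := by
  have hq2 := two_le_q hF
  unfold hA
  rw [Fin.sum_univ_succ, Fin.sum_univ_castSucc (fun i => x i * (shiftT K m y (Fin.rev i)) ^ q)]
  simp only [shiftT_zero, zero_mul, zero_add, Fin.rev_last, zero_pow (show q ≠ 0 by omega), mul_zero,
    add_zero, shiftT_succ, Fin.rev_succ, Fin.rev_castSucc]

theorem exists_not_fixed (hF : Fintype.card K = q ^ 2) : ∃ μ : K, μ ^ q ≠ μ := by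
  classical
  have hq2 := two_le_q hF
  by_contra hcon
  push Not at hcon
  obtain ⟨ζ, hζ⟩ := IsCyclic.exists_generator (α := Kˣ)
  have h1 : ζ ^ (q - 1) = 1 := by
    apply Units.ext
    have h2 := hcon (ζ : K)
    have h3 : (ζ : K) ^ (q - 1) * ζ = 1 * ζ := by
      rw [← pow_succ, one_mul]
      have : q - 1 + 1 = q := by omega
      rw [this, h2]
    have h4 := mul_right_cancel₀ ζ.ne_zero h3
    simpa using h4
  have h2 : orderOf ζ = Fintype.card Kˣ := orderOf_eq_card_of_forall_mem_zpowers hζ |>.trans Nat.card_eq_fintype_card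
  have h3 := orderOf_dvd_of_pow_eq_one h1
  rw [h2, Fintype.card_units, hF] at h3
  have h4 := Nat.le_of_dvd (by omega) h3
  have : q ^ 2 = q * q := by ring
  have h5 : 2 * q ≤ q * q := Nat.mul_le_mul_right _ hq2
  omega

theorem exists_reg_aux (hF : Fintype.card K = q ^ 2) :
    ∃ g : GL (Fin (m + 1)) K, g ∈ Cfsg.GU (m + 1) K q ∧ NN g ^ (m + 1) = 0 ∧
      finrank K (LinearMap.ker (NN g)) = 1 := by
  classical
  have hq2 := two_le_q hF
  obtain ⟨μ, hμ⟩ := exists_not_fixed hF
  let T := shiftT K m
  have hTn : T ^ (m + 1) = 0 := shiftT_nil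
  let a : End K (Fin (m + 1) → K) := 1 + μ • T
  let b : End K (Fin (m + 1) → K) := 1 + μ ^ q • T
  have hnilb : IsNilpotent (μ ^ q • T) := ⟨m + 1, by rw [_root_.smul_pow, hTn, smul_zero]⟩
  obtain ⟨bu, hbu⟩ := hnilb.isUnit_one_add
  let binv : End K (Fin (m + 1) → K) := (bu⁻¹ : (End K (Fin (m + 1) → K))ˣ)
  have hb1 : b * binv = 1 := by
    show b * ((bu⁻¹ : (End K (Fin (m + 1) → K))ˣ) : End K (Fin (m + 1) → K)) = 1
    rw [show b = (bu : End K (Fin (m + 1) → K)) from hbu.symm, Units.mul_inv]
  have hb2 : binv * b = 1 := by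
    show ((bu⁻¹ : (End K (Fin (m + 1) → K))ˣ) : End K (Fin (m + 1) → K)) * b = 1
    rw [show b = (bu : End K (Fin (m + 1) → K)) from hbu.symm, Units.inv_mul]
  have hTb : Commute T b := by
    show T * (1 + μ ^ q • T) = (1 + μ ^ q • T) * T
    simp [mul_add, add_mul]
  have hTbinv : Commute T binv := by
    have h1 : Commute T (bu : End K (Fin (m + 1) → K)) := by rw [hbu]; exact hTb
    exact h1.units_inv_right
  have hab : Commute a b := by
    show (1 + μ • T) * (1 + μ ^ q • T) = (1 + μ ^ q • T) * (1 + μ • T)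
    simp only [mul_add, add_mul, one_mul, mul_one, smul_mul_assoc, mul_smul_comm]
    rw [smul_add, smul_add, smul_smul, smul_smul, mul_comm (μ ^ q) μ]
    abel
  let u : End K (Fin (m + 1) → K) := a * binv
  let ρ : K := μ - μ ^ q
  have hρ : ρ ≠ 0 := fun h => hμ (sub_eq_zero.1 h).symm
  let N : End K (Fin (m + 1) → K) := ρ • (T * binv)
  have huN : u - 1 = N := by
    have h1 : u - 1 = (a - b) * binv := by
      rw [sub_mul, hb1]
    rw [h1]
    have h2 : a - b = ρ • T := by
      refine LinearMap.ext fun x => ?_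
      show (x + μ • T x) - (x + μ ^ q • T x) = (μ - μ ^ q) • T x
      rw [_root_.sub_smul]
      abel
    rw [h2, smul_mul_assoc]
  have hNn : N ^ (m + 1) = 0 := by
    simp only [N]
    rw [_root_.smul_pow, hTbinv.mul_pow, hTn, zero_mul, smul_zero]
  have hbinvinj : Function.Injective binv := by
    intro x y h
    have := congrArg b h
    rw [← Module.End.mul_apply, ← Module.End.mul_apply, hb1] at this
    exact this
  have hkerN : LinearMap.ker N = LinearMap.ker T := by
    ext x
    simp only [LinearMap.mem_ker, N, LinearMap.smul_apply]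
    rw [smul_eq_zero, or_iff_right hρ]
    have h1 : (T * binv) x = binv (T x) := by
      have := hTbinv.eq
      rw [this]
      rfl
    rw [h1]
    constructor
    · intro h
      exact hbinvinj (h.trans (map_zero binv).symm)
    · intro h
      rw [h, map_zero]
  have hfr : finrank K (LinearMap.ker N) = 1 := by
    rw [hkerN]
    exact ker_shiftT
  have hqq : ∀ c : K, (c ^ q) ^ q = c := pow_q_sq hF
  have hadj1 : ∀ x y, hA q (a x) y = hA q x (b y) := by
    intro x y
    show hA q (x + μ • T x) y = hA q x (y + μ ^ q • T y)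
    rw [hA_add_left, hA_add_right hF, hA_smul_left, hA_smul_right, hqq, hA_shift hF]
  have hadj2 : ∀ x y, hA q (b x) y = hA q x (a y) := by
    intro x y
    show hA q (x + μ ^ q • T x) y = hA q x (y + μ • T y)
    rw [hA_add_left, hA_add_right hF, hA_smul_left, hA_smul_right, hA_shift hF]
  have hbb : ∀ x, b (binv x) = x := fun x => by
    rw [← Module.End.mul_apply, hb1]
    rfl
  have hiso : ∀ x y, hA q (u x) (u y) = hA q x y := by
    intro x y
    show hA q (a (binv x)) (a (binv y)) = _
    rw [hadj1]
    have h1 : b (a (binv y)) = a (b (binv y)) := (LinearMap.congr_fun hab.eq (binv y)).symm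
    rw [h1, hbb, ← hadj2, hbb]
  have hnd : ∀ x : Fin (m + 1) → K, (∀ v, hA q x v = 0) → x = 0 := by
    intro x hx
    funext j
    have := hx (Pi.single (Fin.rev j) 1)
    rwa [hA_single hF] at this
  have h0left : ∀ v : Fin (m + 1) → K, hA q (0 : Fin (m + 1) → K) v = 0 := fun v => by simp [hA]
  have hfin : finrank K (Fin (m + 1) → K) = m + 1 := by simp
  obtain ⟨c, hc⟩ := Cfsg.Agent.H01.SpCen.exists_ON hF (m + 1) (Fin (m + 1) → K) (hA q)
    hA_add_left hA_smul_left (hA_conj hF) hnd hfin
  let B : End K (Fin (m + 1) → K) :=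
    { toFun := fun x => ∑ i, x i • c i
      map_add' := fun x y => by simp [add_smul, Finset.sum_add_distrib]
      map_smul' := fun t x => by simp [mul_smul, Finset.smul_sum] }
  have hB : ∀ x y : Fin (m + 1) → K, hA q (B x) (B y) = Cfsg.hermForm (m + 1) K q x y := by
    intro x y
    show hA q (∑ i, x i • c i) (∑ i, y i • c i) = _
    rw [hA_sum_left]
    unfold Cfsg.hermForm
    refine Finset.sum_congr rfl fun i _ => ?_
    rw [hA_smul_left]
    congr 1
    rw [hA_conj hF, hA_sum_left]
    rw [Finset.sum_eq_single i]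
    · rw [hA_smul_left, hc, if_pos rfl, mul_one]
    · intro j _ hj
      rw [hA_smul_left, hc, if_neg hj, mul_zero]
    · simp
  have hBinj : Function.Injective B := by
    rw [injective_iff_map_eq_zero]
    intro x hx
    funext j
    have h1 := hB x (Pi.single j 1)
    rw [hx, h0left, herm_single hF] at h1
    exact h1.symm
  let e : (Fin (m + 1) → K) ≃ₗ[K] (Fin (m + 1) → K) := LinearEquiv.ofInjectiveEndo B hBinj
  have hee : ∀ x, e x = B x := fun x => rfl
  have huinj : Function.Injective u := by
    rw [injective_iff_map_eq_zero]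
    intro x hx
    apply hnd
    intro v
    rw [← hiso, hx, h0left]
  let U : (Fin (m + 1) → K) ≃ₗ[K] (Fin (m + 1) → K) := LinearEquiv.ofInjectiveEndo u huinj
  have hUU : ∀ x, U x = u x := fun x => rfl
  let F := e.trans (U.trans e.symm)
  obtain ⟨g, hg⟩ := exists_gl_of_equiv F
  have hFe : ∀ v, e (L g v) = u (e v) := by
    intro v
    rw [hg]
    simp [F, hUU]
  have hNg : ∀ v, e (NN g v) = N (e v) := by
    intro v
    simp only [NN, LinearMap.sub_apply, Module.End.one_apply, map_sub, hFe]
    rw [← huN]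
    rfl
  have hNgk : ∀ (k : ℕ) v, e ((NN g ^ k) v) = (N ^ k) (e v) := by
    intro k
    induction k with
    | zero => simp
    | succ k ih =>
      intro v
      rw [pow_succ', Module.End.mul_apply, hNg, ih, pow_succ', Module.End.mul_apply]
  refine ⟨g, ?_, ?_, ?_⟩
  · apply mem_GU_of
    intro x y
    rw [← hB, ← hB, ← hee, ← hee, ← hee, ← hee, hFe, hFe, hiso]
  · refine LinearMap.ext fun v => ?_
    apply e.injective
    rw [hNgk, hNn]
    simp
  · refine Eq.trans ?_ hfr
    have h1 : LinearMap.ker N = (LinearMap.ker (NN g)).map e.toLinearMap := by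
      ext x
      simp only [LinearMap.mem_ker, Submodule.mem_map]
      constructor
      · intro h
        refine ⟨e.symm x, ?_, by simp⟩
        apply e.injective
        rw [hNg]
        simp [h]
      · rintro ⟨w, hw, rfl⟩
        simp only [LinearEquiv.coe_coe]
        rw [← hNg, hw, map_zero]
    rw [h1]
    exact (LinearEquiv.finrank_map_eq e _).symm

end Cfsg.Agent.H01.PglCl
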