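import Mathlib
import Cfsg.Agent.Lib.H01.RegU3
import Cfsg.Agent.Lib.H01.GuCl5
import Cfsg.Agent.Lib.Lead.SUOrder

/-! Regular unipotent classes of `SU_n`. -/

set_option linter.unusedSectionVars false
set_option autoImplicit false

namespace Cfsg.Agent.H01.PglCl

open Polynomial Module Matrix
open Cfsg.Agent.Lead

variable {K : Type*} [Field K] {n : ℕ}

theorem NN_eq_mulVecLin (g : GL (Fin n) K) :
    NN g = ((g : Matrix (Fin n) (Fin n) K) - 1).mulVecLin := by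
  refine LinearMap.ext fun v => ?_
  simp only [NN, LinearMap.sub_apply, Module.End.one_apply, Matrix.mulVecLin_apply, Matrix.sub_mulVec,
    Matrix.one_mulVec, L_apply]

theorem NN_eq_phi (g : GL (Fin n) K) :
    NN g = Matrix.toLinAlgEquiv' ((g : Matrix (Fin n) (Fin n) K) - 1) := by
  simp only [NN, L, map_sub, map_one]

theorem reg_iff (hn : 0 < n) (g : GL (Fin n) K) :
    ((((g : Matrix (Fin n) (Fin n) K) - 1) ^ n = 0) ∧ ((g : Matrix (Fin n) (Fin n) K) - 1).rank = n - 1) ↔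
      (NN g ^ n = 0 ∧ finrank K (LinearMap.ker (NN g)) = 1) := by
  have h1 : ((g : Matrix (Fin n) (Fin n) K) - 1) ^ n = 0 ↔ NN g ^ n = 0 := by
    rw [NN_eq_phi, ← map_pow]
    constructor
    · intro h
      rw [h, map_zero]
    · intro h
      exact (Matrix.toLinAlgEquiv' (R := K) (n := Fin n)).injective (h.trans (map_zero _).symm)
  have h2 : ((g : Matrix (Fin n) (Fin n) K) - 1).rank = finrank K (LinearMap.range (NN g)) := by
    rw [NN_eq_mulVecLin]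
    rfl
  have h3 := LinearMap.finrank_range_add_finrank_ker (NN g)
  simp only [finrank_fintype_fun_eq_card, Fintype.card_fin] at h3
  rw [h1, h2]
  constructor
  · rintro ⟨a, b⟩
    exact ⟨a, by omega⟩
  · rintro ⟨a, b⟩
    exact ⟨a, by omega⟩

theorem det_of_reg (g : GL (Fin n) K) (hN : NN g ^ n = 0) :
    (g : Matrix (Fin n) (Fin n) K).det = 1 := by
  have h1 : IsNilpotent ((g : Matrix (Fin n) (Fin n) K) - 1) := ⟨n, by
    apply (Matrix.toLinAlgEquiv' (R := K) (n := Fin n)).injective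
    rw [map_pow, ← NN_eq_phi, hN, map_zero]⟩
  have h2 := det_of_nilp 1 _ h1
  simpa using h2

theorem ker_NN_eq (g : GL (Fin n) K) : LinearMap.ker (NN g) = (L g).eigenspace 1 := by
  ext v
  rw [LinearMap.mem_ker, Module.End.mem_eigenspace_iff, one_smul]
  simp only [NN, LinearMap.sub_apply, Module.End.one_apply, sub_eq_zero]

theorem reg_conj_inv (P g : GL (Fin n) K) (hN : NN g ^ n = 0)
    (hk : finrank K (LinearMap.ker (NN g)) = 1) :
    NN (P * g * P⁻¹) ^ n = 0 ∧ finrank K (LinearMap.ker (NN (P * g * P⁻¹))) = 1 := by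
  constructor
  · obtain ⟨e, he⟩ := intertwine_of_conj P g _ rfl
    have h1 : ∀ v, e (NN g v) = NN (P * g * P⁻¹) (e v) := by
      intro v
      simp only [NN, LinearMap.sub_apply, Module.End.one_apply, map_sub, he]
    have h2 : ∀ (k : ℕ) v, e ((NN g ^ k) v) = (NN (P * g * P⁻¹) ^ k) (e v) := by
      intro k
      induction k with
      | zero => simp
      | succ k ih =>
        intro v
        rw [pow_succ', Module.End.mul_apply, h1, ih, pow_succ', Module.End.mul_apply]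
    refine LinearMap.ext fun v => ?_
    have h3 := h2 n (e.symm v)
    rw [hN, LinearEquiv.apply_symm_apply] at h3
    rw [← h3]
    simp
  · rw [ker_NN_eq]
    have := m_conj P g (1 : K)
    unfold m at this
    rw [this, ← ker_NN_eq, hk]

variable [Fintype K] {q : ℕ}

/-- the inclusion of `SU_n` in `GL_n` -/
noncomputable abbrev iu (s : Cfsg.SU n K q) : GL (Fin n) K :=
  Matrix.SpecialLinearGroup.toGL (s : Matrix.SpecialLinearGroup (Fin n) K)

theorem iu_mem (s : Cfsg.SU n K q) : iu s ∈ Cfsg.GU n K q := s.2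

theorem iu_mul (s t : Cfsg.SU n K q) : iu (s * t) = iu s * iu t := map_mul _ _ _

theorem iu_inv (s : Cfsg.SU n K q) : iu s⁻¹ = (iu s)⁻¹ :=
  map_inv Matrix.SpecialLinearGroup.toGL (s : Matrix.SpecialLinearGroup (Fin n) K)

/-- elements of `GU_n` of determinant one -/
def mkSU (g : GL (Fin n) K) (hg : g ∈ Cfsg.GU n K q) (hd : (g : Matrix (Fin n) (Fin n) K).det = 1) :
    Cfsg.SU n K q :=
  ⟨⟨(g : Matrix (Fin n) (Fin n) K), hd⟩, fun x y => hg x y⟩

theorem iu_mkSU (g : GL (Fin n) K) (hg : g ∈ Cfsg.GU n K q)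
    (hd : (g : Matrix (Fin n) (Fin n) K).det = 1) : iu (mkSU g hg hd) = g :=
  Units.ext rfl

theorem iu_inj {s t : Cfsg.SU n K q} (h : iu s = iu t) : s = t :=
  Subtype.ext (Matrix.SpecialLinearGroup.toGL_injective h)

/-- the classes in question -/
abbrev RegT (K : Type*) [Field K] [Fintype K] (n q : ℕ) :=
  {C : ConjClasses ↥(Cfsg.SU n K q) // ∃ u : ↥(Cfsg.SU n K q), ConjClasses.mk u = C ∧
    (((u : GL (Fin n) K) : Matrix (Fin n) (Fin n) K) - 1) ^ n = 0 ∧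
    (((u : GL (Fin n) K) : Matrix (Fin n) (Fin n) K) - 1).rank = n - 1}

/-- the `n`-th powers of unit-norm scalars -/
abbrev PwN (K : Type*) [Field K] (q n : ℕ) : Subgroup (Nm K q) :=
  (powMonoidHom n : Nm K q →* Nm K q).range

/-- an element of `GU_n` of given determinant -/
noncomputable def dOf (hF : Fintype.card K = q ^ 2) (hn : 0 < n) (c : Nm K q) : Cfsg.GU n K q :=
  Classical.choose (exists_GU_det hF hn (((c : Kˣ)) : K) (by
    rw [← Units.val_pow_eq_pow_val, mem_Mu.1 c.2, Units.val_one]))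

theorem det_dOf (hF : Fintype.card K = q ^ 2) (hn : 0 < n) (c : Nm K q) :
    (((dOf hF hn c : Cfsg.GU n K q) : GL (Fin n) K) : Matrix (Fin n) (Fin n) K).det = ((c : Kˣ) : K) :=
  Classical.choose_spec (exists_GU_det hF hn (((c : Kˣ)) : K) (by
    rw [← Units.val_pow_eq_pow_val, mem_Mu.1 c.2, Units.val_one]))

theorem det_mul_val (a b : GL (Fin n) K) :
    ((a * b : GL (Fin n) K) : Matrix (Fin n) (Fin n) K).det =
      (a : Matrix (Fin n) (Fin n) K).det * (b : Matrix (Fin n) (Fin n) K).det := by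
  rw [Units.val_mul, Matrix.det_mul]

theorem det_inv_val (a : GL (Fin n) K) :
    ((a⁻¹ : GL (Fin n) K) : Matrix (Fin n) (Fin n) K).det =
      ((a : Matrix (Fin n) (Fin n) K).det)⁻¹ := by
  have h1 := det_mul_val a a⁻¹
  rw [mul_inv_cancel, Units.val_one, Matrix.det_one] at h1
  exact eq_inv_of_mul_eq_one_right h1.symm

section main
variable (hF : Fintype.card K = q ^ 2) (hn : 0 < n) (g₀ : GL (Fin n) K) (hg₀ : g₀ ∈ Cfsg.GU n K q)
  (hN₀ : NN g₀ ^ n = 0) (hk₀ : finrank K (LinearMap.ker (NN g₀)) = 1)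

include hF hn hg₀ hN₀ hk₀ in
theorem conj_reg_facts (c : Nm K q) :
    let D : GL (Fin n) K := ((dOf hF hn c : Cfsg.GU n K q) : GL (Fin n) K)
    D * g₀ * D⁻¹ ∈ Cfsg.GU n K q ∧ NN (D * g₀ * D⁻¹) ^ n = 0 ∧
      finrank K (LinearMap.ker (NN (D * g₀ * D⁻¹))) = 1 := by
  intro D
  have hD : D ∈ Cfsg.GU n K q := (dOf hF hn c).2
  obtain ⟨h1, h2⟩ := reg_conj_inv D g₀ hN₀ hk₀
  exact ⟨(Cfsg.GU n K q).mul_mem ((Cfsg.GU n K q).mul_mem hD hg₀) ((Cfsg.GU n K q).inv_mem hD), h1, h2⟩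

/-- the representative attached to a scalar -/
noncomputable def sOf (c : Nm K q) : Cfsg.SU n K q :=
  mkSU (((dOf hF hn c : Cfsg.GU n K q) : GL (Fin n) K) * g₀ * ((dOf hF hn c : Cfsg.GU n K q) : GL (Fin n) K)⁻¹)
    (conj_reg_facts hF hn g₀ hg₀ hN₀ hk₀ c).1 (det_of_reg _ (conj_reg_facts hF hn g₀ hg₀ hN₀ hk₀ c).2.1)

theorem iu_sOf (c : Nm K q) : iu (sOf hF hn g₀ hg₀ hN₀ hk₀ c) =
    ((dOf hF hn c : Cfsg.GU n K q) : GL (Fin n) K) * g₀ * ((dOf hF hn c : Cfsg.GU n K q) : GL (Fin n) K)⁻¹ :=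
  iu_mkSU _ _ _

/-- the class attached to a coset -/
noncomputable def regMap (x : Nm K q ⧸ PwN K q n) : RegT K n q :=
  ⟨ConjClasses.mk (sOf hF hn g₀ hg₀ hN₀ hk₀ (Quotient.out x)), sOf hF hn g₀ hg₀ hN₀ hk₀ (Quotient.out x), rfl, by
    have h1 : iu (sOf hF hn g₀ hg₀ hN₀ hk₀ (Quotient.out x)) = _ := iu_sOf hF hn g₀ hg₀ hN₀ hk₀ _
    have h2 := (reg_iff hn (iu (sOf hF hn g₀ hg₀ hN₀ hk₀ (Quotient.out x)))).2 (by
      rw [h1]
      exact (conj_reg_facts hF hn g₀ hg₀ hN₀ hk₀ (Quotient.out x)).2)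
    exact h2⟩

theorem regMap_inj : Function.Injective (regMap hF hn g₀ hg₀ hN₀ hk₀) := by
  intro x y h
  have h1 := congrArg Subtype.val h
  simp only [regMap] at h1
  rw [ConjClasses.mk_eq_mk_iff_isConj, isConj_iff] at h1
  obtain ⟨Q, hQ⟩ := h1
  set a : Nm K q := Quotient.out x with ha
  set b : Nm K q := Quotient.out y with hb
  have h2 := congrArg iu hQ
  rw [iu_mul, iu_mul, iu_sOf, iu_sOf, iu_inv] at h2
  set Da : GL (Fin n) K := ((dOf hF hn a : Cfsg.GU n K q) : GL (Fin n) K) with hDa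
  set Db : GL (Fin n) K := ((dOf hF hn b : Cfsg.GU n K q) : GL (Fin n) K) with hDb
  have hDam : Da ∈ Cfsg.GU n K q := (dOf hF hn a).2
  have hDbm : Db ∈ Cfsg.GU n K q := (dOf hF hn b).2
  let w : GL (Fin n) K := Db⁻¹ * iu Q * Da
  have hwm : w ∈ Cfsg.GU n K q :=
    (Cfsg.GU n K q).mul_mem ((Cfsg.GU n K q).mul_mem ((Cfsg.GU n K q).inv_mem hDbm) (iu_mem Q)) hDam
  have hcomm : w * g₀ = g₀ * w := by
    have h3 : iu Q * Da * g₀ = Db * g₀ * Db⁻¹ * iu Q * Da := by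
      rw [← h2]
      group
    simp only [w]
    calc Db⁻¹ * iu Q * Da * g₀ = Db⁻¹ * (iu Q * Da * g₀) := by group
      _ = Db⁻¹ * (Db * g₀ * Db⁻¹ * iu Q * Da) := by rw [h3]
      _ = g₀ * (Db⁻¹ * iu Q * Da) := by group
  obtain ⟨c, hc, hdet⟩ := cent_det hF hn g₀ hg₀ hN₀ hk₀ w hwm hcomm
  have hdw : (w : Matrix (Fin n) (Fin n) K).det = ((b : Kˣ) : K)⁻¹ * ((a : Kˣ) : K) := by
    simp only [w]
    rw [det_mul_val, det_mul_val, det_inv_val, hDa, hDb, det_dOf, det_dOf]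
    have : ((iu Q : GL (Fin n) K) : Matrix (Fin n) (Fin n) K).det = 1 := (Q : Matrix.SpecialLinearGroup (Fin n) K).2
    rw [this, mul_one]
  have h4 : a = ⟨c, mem_Mu.2 hc⟩ ^ n * b := by
    apply Subtype.ext
    apply Units.ext
    have h5 : ((a : Kˣ) : K) = (c : K) ^ n * ((b : Kˣ) : K) := by
      rw [← hdet, hdw]
      field_simp
    simpa using h5
  rw [← QuotientGroup.out_eq' x, ← QuotientGroup.out_eq' y]
  show ((a : Nm K q) : Nm K q ⧸ PwN K q n) = ((b : Nm K q) : Nm K q ⧸ PwN K q n)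
  rw [h4, QuotientGroup.mk_mul]
  have h3 : (((⟨c, mem_Mu.2 hc⟩ : Nm K q) ^ n : Nm K q) : Nm K q ⧸ PwN K q n) = 1 :=
    (QuotientGroup.eq_one_iff _).2 ⟨⟨c, mem_Mu.2 hc⟩, rfl⟩
  rw [h3]
  exact one_mul ((b : Nm K q) : Nm K q ⧸ PwN K q n)

theorem regMap_surj : Function.Surjective (regMap hF hn g₀ hg₀ hN₀ hk₀) := by
  rintro ⟨C, u, rfl, h1, h2⟩
  obtain ⟨hNu, hku⟩ := (reg_iff hn (iu u)).1 ⟨h1, h2⟩
  obtain ⟨P, hPm, hP⟩ := reg_conj hF hn g₀ (iu u) hg₀ (iu_mem u) hN₀ hNu hk₀ hku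
  have hd1 := det_pow_of_GU hF (⟨P, hPm⟩ : Cfsg.GU n K q)
  have hd0 : (P : Matrix (Fin n) (Fin n) K).det ≠ 0 := by
    intro h0
    have hq2 := two_le_q hF
    simp only at hd1
    rw [h0, zero_pow (by omega)] at hd1
    exact zero_ne_one hd1
  let d : Kˣ := Units.mk0 _ hd0
  have hd2 : d ^ (q + 1) = 1 := by
    apply Units.ext
    simpa [d] using hd1
  let d' : Nm K q := ⟨d, mem_Mu.2 hd2⟩
  let x : Nm K q ⧸ PwN K q n := (d' : Nm K q ⧸ PwN K q n)
  refine ⟨x, ?_⟩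
  apply Subtype.ext
  simp only [regMap]
  rw [ConjClasses.mk_eq_mk_iff_isConj, isConj_iff]
  obtain ⟨⟨_, c, rfl⟩, hout⟩ := QuotientGroup.mk_out_eq_mul (PwN K q n) d'
  have hout' : Quotient.out x = d' * c ^ n := hout
  set a : Nm K q := Quotient.out x with ha
  set Da : GL (Fin n) K := ((dOf hF hn a : Cfsg.GU n K q) : GL (Fin n) K) with hDa
  have hDam : Da ∈ Cfsg.GU n K q := (dOf hF hn a).2
  let Q : GL (Fin n) K := P * sc (c : Kˣ) * Da⁻¹
  have hsc : (sc (c : Kˣ) : GL (Fin n) K) ∈ Cfsg.GU n K q :=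
    (sc_mem_iff hF _).2 (Or.inr (mem_Mu.1 c.2))
  have hQm : Q ∈ Cfsg.GU n K q :=
    (Cfsg.GU n K q).mul_mem ((Cfsg.GU n K q).mul_mem hPm hsc) ((Cfsg.GU n K q).inv_mem hDam)
  have hQd : (Q : Matrix (Fin n) (Fin n) K).det = 1 := by
    simp only [Q]
    rw [det_mul_val, det_mul_val, det_inv_val, hDa, det_dOf]
    have h3 : ((sc (c : Kˣ) : GL (Fin n) K) : Matrix (Fin n) (Fin n) K).det = ((c : Kˣ) : K) ^ n := by
      rw [Matrix.GeneralLinearGroup.coe_scalar, Matrix.scalar_apply, Matrix.det_diagonal]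
      simp
    rw [h3, hout']
    have h4 : (((d' * c ^ n : Nm K q) : Kˣ) : K) = (P : Matrix (Fin n) (Fin n) K).det * ((c : Kˣ) : K) ^ n := by
      simp [d', d]
    rw [h4]
    have h5 : ((c : Kˣ) : K) ^ n ≠ 0 := pow_ne_zero _ (c : Kˣ).ne_zero
    field_simp
  refine ⟨mkSU Q hQm hQd, ?_⟩
  apply iu_inj
  rw [iu_mul, iu_mul, iu_inv, iu_mkSU, iu_sOf, ← hP]
  simp only [Q]
  have h6 := sc_comm (c : Kˣ) g₀
  calc P * sc (c : Kˣ) * Da⁻¹ * (Da * g₀ * Da⁻¹) * (P * sc (c : Kˣ) * Da⁻¹)⁻¹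
      = P * (sc (c : Kˣ) * g₀) * (sc (c : Kˣ))⁻¹ * P⁻¹ := by group
    _ = P * g₀ * P⁻¹ := by rw [h6]; group

end main

theorem reg_main (hF : Fintype.card K = q ^ 2) (hn : 2 ≤ n) :
    Nat.card (RegT K n q) = Nat.gcd n (q + 1) := by
  classical
  have hn0 : 0 < n := by omega
  obtain ⟨m, rfl⟩ : ∃ m, n = m + 1 := ⟨n - 1, by omega⟩
  obtain ⟨g₀, hg₀, hN₀, hk₀⟩ := exists_reg_aux (m := m) hF
  have h1 := Nat.card_congr (Equiv.ofBijective (regMap hF hn0 g₀ hg₀ hN₀ hk₀)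
    ⟨regMap_inj hF hn0 g₀ hg₀ hN₀ hk₀, regMap_surj hF hn0 g₀ hg₀ hN₀ hk₀⟩)
  rw [← h1]
  have h2 := IsCyclic.index_powMonoidHom_range (G := Nm K q) (m + 1)
  rw [card_Nm hF] at h2
  rw [Nat.gcd_comm, ← h2]
  rfl

end Cfsg.Agent.H01.PglCl
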