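import Mathlib
import Cfsg.Agent.Lib.H01.RegU4

/-! Moments of a vector under a unipotent isometry, with two ambient dimensions. -/

set_option linter.unusedSectionVars false
set_option autoImplicit false

namespace Cfsg.Agent.H01.PglCl

open Polynomial Module Matrix
open Cfsg.Agent.Lead

variable {K : Type*} [Field K] [Fintype K] {q n n' : ℕ}

theorem GG_vanB {g : GL (Fin n) K} {y : Fin n → K} {D : ℕ} (hV : ∀ a, D ≤ a → (NN g ^ a) y = 0)
    (a b : ℕ) (ha : D ≤ a) : GG g q y a b = 0 := by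
  unfold GG
  rw [hV a ha]
  simp [Cfsg.hermForm]

theorem GG_highB (hF : Fintype.card K = q ^ 2) (g : GL (Fin n) K) (hg : g ∈ Cfsg.GU n K q)
    (y : Fin n → K) (D : ℕ) (hV : ∀ a, D ≤ a → (NN g ^ a) y = 0) (a b : ℕ) (hab : D ≤ a + b) :
    GG g q y a b = 0 := by
  have := (rec_lemma D (D - 1) (GG g q y) (GG_rec hF g hg y) (fun a b ha => GG_vanB hV a b ha)
    (fun k hk => GG_vanB hV k 0 (by omega)) b a).1
  rcases Nat.eq_zero_or_pos D with h0 | h0
  · exact GG_vanB hV a b (by omega)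
  · exact this (by omega)

theorem GG_antiB (hF : Fintype.card K = q ^ 2) (g : GL (Fin n) K) (hg : g ∈ Cfsg.GU n K q)
    (y : Fin n → K) (D : ℕ) (hV : ∀ a, D ≤ a → (NN g ^ a) y = 0) (a b : ℕ) (hab : a + b = D - 1) :
    GG g q y a b = (-1) ^ b * GG g q y (D - 1) 0 :=
  (rec_lemma D (D - 1) (GG g q y) (GG_rec hF g hg y) (fun a b ha => GG_vanB hV a b ha)
    (fun k hk => GG_vanB hV k 0 (by omega)) b a).2 hab

theorem GG_diffB (hF : Fintype.card K = q ^ 2) (g : GL (Fin n) K) (g' : GL (Fin n') K)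
    (hg : g ∈ Cfsg.GU n K q) (hg' : g' ∈ Cfsg.GU n' K q) (y : Fin n → K) (y' : Fin n' → K) (D : ℕ)
    (hV : ∀ a, D ≤ a → (NN g ^ a) y = 0) (hV' : ∀ a, D ≤ a → (NN g' ^ a) y' = 0) (m : ℕ)
    (h0 : ∀ k, m < k → GG g q y k 0 = GG g' q y' k 0) (a b : ℕ) :
    (m < a + b → GG g q y a b = GG g' q y' a b) ∧
      (a + b = m → GG g q y a b - GG g' q y' a b = (-1) ^ b * (GG g q y m 0 - GG g' q y' m 0)) := by
  have := rec_lemma D m (fun a b => GG g q y a b - GG g' q y' a b)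
    (fun a b => by
      rw [GG_rec hF g hg, GG_rec hF g' hg']
      ring)
    (fun a b ha => by
      rw [GG_vanB hV a b ha, GG_vanB hV' a b ha, sub_zero])
    (fun k hk => by
      rw [h0 k hk, sub_self]) b a
  exact ⟨fun h => sub_eq_zero.1 (this.1 h), this.2⟩

theorem GG_eq_of_momentsB (hF : Fintype.card K = q ^ 2) (g : GL (Fin n) K) (g' : GL (Fin n') K)
    (hg : g ∈ Cfsg.GU n K q) (hg' : g' ∈ Cfsg.GU n' K q) (y : Fin n → K) (y' : Fin n' → K) (D : ℕ)
    (hV : ∀ a, D ≤ a → (NN g ^ a) y = 0) (hV' : ∀ a, D ≤ a → (NN g' ^ a) y' = 0)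
    (h0 : ∀ k, GG g q y k 0 = GG g' q y' k 0) (a b : ℕ) : GG g q y a b = GG g' q y' a b := by
  have := (GG_diffB hF g g' hg hg' y y' D hV hV' (a + b) (fun k _ => h0 k) a b).2 rfl
  rw [h0, sub_self, mul_zero] at this
  exact sub_eq_zero.1 this

theorem pow_mem_inv {g : GL (Fin n) K} {W : Submodule K (Fin n → K)}
    (hW : ∀ x ∈ W, NN g x ∈ W) (k : ℕ) {x : Fin n → K} (hx : x ∈ W) : (NN g ^ k) x ∈ W := by
  induction k with
  | zero => simpa using hx
  | succ k ih =>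
    rw [pow_succ', Module.End.mul_apply]
    exact hW _ ih

/-- correcting one moment -/
theorem adjustB (hF : Fintype.card K = q ^ 2) (g : GL (Fin n) K) (g' : GL (Fin n') K)
    (hg : g ∈ Cfsg.GU n K q) (hg' : g' ∈ Cfsg.GU n' K q) (D : ℕ)
    (W : Submodule K (Fin n → K)) (hW : ∀ x ∈ W, NN g x ∈ W)
    (hWV : ∀ x ∈ W, ∀ a, D ≤ a → (NN g ^ a) x = 0)
    (y : Fin n → K) (hyW : y ∈ W) (y' : Fin n' → K) (hV' : ∀ a, D ≤ a → (NN g' ^ a) y' = 0)
    (hτ : GG g q y (D - 1) 0 ≠ 0) (m : ℕ) (hm : m < D - 1)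
    (hM : ∀ k, m < k → GG g q y k 0 = GG g' q y' k 0) :
    ∃ y₁ ∈ W, ∀ k, m ≤ k → GG g q y₁ k 0 = GG g' q y' k 0 := by
  have hq2 := two_le_q hF
  obtain ⟨φ, hφ⟩ := exists_frob hF
  have hV := hWV y hyW
  set τ := GG g q y (D - 1) 0 with hτd
  obtain ⟨j, hj⟩ : ∃ j, D - 1 = m + j := ⟨D - 1 - m, by omega⟩
  have hj0 : 0 < j := by omega
  let s : K := (-1) ^ j
  have hss : s * s = 1 := by
    simp only [s]
    rw [← pow_add, ← two_mul, pow_mul]
    simp
  set E := GG g' q y' m 0 - GG g q y m 0 with hD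
  have h1 : E ^ q = (-1) ^ m * E := by
    have h2 := (GG_diffB hF g g' hg hg' y y' D hV hV' m hM 0 m).2 (by omega)
    rw [GG_conj hF g y m 0, GG_conj hF g' y' m 0] at h2
    have h3 : E ^ q = (GG g' q y' m 0) ^ q - (GG g q y m 0) ^ q := by
      rw [hD, ← hφ, map_sub, hφ, hφ]
    rw [h3, hD]
    linear_combination -h2
  have h4 : τ ^ q = (-1) ^ (D - 1) * τ := by
    rw [hτd, ← GG_conj hF g y (D - 1) 0]
    exact GG_antiB hF g hg y D hV 0 (D - 1) (by omega)
  let w : K := E / τ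
  have hwτ : w * τ = E := div_mul_cancel₀ _ hτ
  have hsign : (-1 : K) ^ (D - 1) = (-1) ^ m * s := by
    rw [hj, pow_add]
  have hm1 : ((-1 : K) ^ m) * ((-1 : K) ^ m) = 1 := by
    rw [← pow_add, ← two_mul, pow_mul]
    simp
  have hw : w ^ q = s * w := by
    have h5 : w ^ q * τ ^ q = E ^ q := by rw [← mul_pow, hwτ]
    rw [h4, h1, hsign, ← hwτ] at h5
    have h6 : w ^ q * s * τ = w * τ := by
      calc w ^ q * s * τ = ((-1) ^ m * (-1) ^ m) * (w ^ q * s * τ) := by rw [hm1, one_mul]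
        _ = (-1) ^ m * (w ^ q * ((-1) ^ m * s * τ)) := by ring
        _ = (-1) ^ m * ((-1) ^ m * (w * τ)) := by rw [h5]
        _ = ((-1) ^ m * (-1) ^ m) * (w * τ) := by ring
        _ = w * τ := by rw [hm1, one_mul]
    have h7 : w ^ q * s = w := mul_right_cancel₀ hτ h6
    calc w ^ q = w ^ q * (s * s) := by rw [hss, mul_one]
      _ = (w ^ q * s) * s := by ring
      _ = s * w := by rw [h7, mul_comm]
  obtain ⟨z, hz⟩ := Cfsg.Agent.H12.UTrans.exists_trace_eq hF (1 : K) (one_pow _)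
  let b : K := z * w
  have hb : b + s * b ^ q = w := by
    simp only [b]
    rw [mul_pow, hw]
    have : z * w + s * (z ^ q * (s * w)) = (z + (s * s) * z ^ q) * w := by ring
    rw [this, hss, one_mul, hz, one_mul]
  refine ⟨y + b • (NN g ^ j) y, W.add_mem hyW (W.smul_mem _ (pow_mem_inv hW j hyW)), fun k hk => ?_⟩
  have hexp : GG g q (y + b • (NN g ^ j) y) k 0 = GG g q y k 0 + b ^ q * GG g q y k j +
      b * GG g q y (k + j) 0 + b * b ^ q * GG g q y (k + j) j := by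
    unfold GG
    simp only [pow_zero, Module.End.one_apply]
    rw [NN_pow_smul_add, herm_add_left, herm_add_right hF, herm_add_right hF, herm_smul_left,
      herm_smul_left, herm_smul_right hF, herm_smul_right hF]
    ring
  rw [hexp]
  rcases Nat.lt_or_ge m k with hlt | hge
  · rw [GG_highB hF g hg y D hV k j (by omega), GG_vanB hV (k + j) 0 (by omega),
      GG_vanB hV (k + j) j (by omega), hM k hlt]
    ring
  · have hkm : k = m := by omega
    subst hkm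
    have h8 : GG g q y k j = s * τ := GG_antiB hF g hg y D hV k j (by omega)
    have h9 : k + j = D - 1 := by omega
    rw [h8, h9, ← hτd, GG_highB hF g hg y D hV (D - 1) j (by omega)]
    have : GG g q y k 0 + b ^ q * (s * τ) + b * τ + b * b ^ q * 0 =
        GG g q y k 0 + (b + s * b ^ q) * τ := by ring
    rw [this, hb, hwτ, hD]
    ring

/-- matching all moments -/
theorem all_matchB (hF : Fintype.card K = q ^ 2) (g : GL (Fin n) K) (g' : GL (Fin n') K)
    (hg : g ∈ Cfsg.GU n K q) (hg' : g' ∈ Cfsg.GU n' K q) (D : ℕ) (hD0 : 0 < D)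
    (W : Submodule K (Fin n → K)) (hW : ∀ x ∈ W, NN g x ∈ W)
    (hWV : ∀ x ∈ W, ∀ a, D ≤ a → (NN g ^ a) x = 0)
    (y : Fin n → K) (hyW : y ∈ W) (y' : Fin n' → K) (hV' : ∀ a, D ≤ a → (NN g' ^ a) y' = 0)
    (hτ : GG g q y (D - 1) 0 ≠ 0) (hτ' : GG g' q y' (D - 1) 0 ≠ 0) :
    ∃ y₁ ∈ W, ∀ a b, GG g q y₁ a b = GG g' q y' a b := by
  have hq2 := two_le_q hF
  have hV := hWV y hyW
  have key : ∀ j, j ≤ D - 1 → ∃ y₁ ∈ W, ∀ k, D - 1 - j ≤ k → GG g q y₁ k 0 = GG g' q y' k 0 := by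
    intro j
    induction j with
    | zero =>
      intro _
      set τ := GG g q y (D - 1) 0 with hd
      set τ' := GG g' q y' (D - 1) 0 with hd'
      have h1 : τ ^ q = (-1) ^ (D - 1) * τ := by
        rw [hd, ← GG_conj hF g y (D - 1) 0]
        exact GG_antiB hF g hg y D hV 0 (D - 1) (by omega)
      have h2 : τ' ^ q = (-1) ^ (D - 1) * τ' := by
        rw [hd', ← GG_conj hF g' y' (D - 1) 0]
        exact GG_antiB hF g' hg' y' D hV' 0 (D - 1) (by omega)
      have hs : ((-1 : K) ^ (D - 1)) ≠ 0 := pow_ne_zero _ (by simp)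
      have h3 : (τ' / τ) ^ q = τ' / τ := by
        rw [div_pow, h1, h2, mul_div_mul_left _ _ hs]
      obtain ⟨c, hc0, hc⟩ := exists_norm_eq hF (τ' / τ) (div_ne_zero hτ' hτ) h3
      refine ⟨c • y, W.smul_mem _ hyW, fun k hk => ?_⟩
      rcases Nat.lt_or_ge (D - 1) k with hlt | hge
      · rw [GG_vanB hV' k 0 (by omega), GG_smul hF, GG_vanB hV k 0 (by omega), mul_zero]
      · have : k = D - 1 := by omega
        subst this
        rw [GG_smul hF, hc, ← hd, div_mul_cancel₀ _ hτ]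
    | succ j ih =>
      intro hj
      obtain ⟨y₁, hy₁W, hy₁⟩ := ih (by omega)
      have hτ₁ : GG g q y₁ (D - 1) 0 ≠ 0 := by
        rw [hy₁ (D - 1) (by omega)]
        exact hτ'
      obtain ⟨y₂, hy₂W, hy₂⟩ := adjustB hF g g' hg hg' D W hW hWV y₁ hy₁W y' hV' hτ₁
        (D - 1 - (j + 1)) (by omega) (fun k hk => hy₁ k (by omega))
      exact ⟨y₂, hy₂W, hy₂⟩
  obtain ⟨y₁, hy₁W, hy₁⟩ := key (D - 1) le_rfl
  exact ⟨y₁, hy₁W, GG_eq_of_momentsB hF g g' hg hg' y₁ y' D (hWV y₁ hy₁W) hV' fun k => hy₁ k (by omega)⟩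

end Cfsg.Agent.H01.PglCl
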