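import Mathlib
import Cfsg.Agent.Lib.H01.RegB1

/-! Jordan blocks for unipotent elements of `GU_n`: extraction of regular blocks. -/

set_option linter.unusedSectionVars false
set_option autoImplicit false

namespace Cfsg.Agent.H01.PglCl

open Polynomial Module Matrix
open Cfsg.Agent.Lead

variable {K : Type*} [Field K] [Fintype K] {q n : ℕ}

local notation "hh" => Cfsg.hermForm n K q

theorem exists_regAll (hF : Fintype.card K = q ^ 2) (d : ℕ) :
    ∃ g : GL (Fin d) K, g ∈ Cfsg.GU d K q ∧ NN g ^ d = 0 ∧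
      (0 < d → finrank K (LinearMap.ker (NN g)) = 1) := by
  cases d with
  | zero =>
    refine ⟨1, one_mem _, ?_, by omega⟩
    refine LinearMap.ext fun x => ?_
    funext i
    exact i.elim0
  | succ m =>
    obtain ⟨g, h1, h2, h3⟩ := exists_reg_aux (m := m) hF
    exact ⟨g, h1, h2, fun _ => h3⟩

/-- the chosen regular unipotent element -/
noncomputable def RR (hF : Fintype.card K = q ^ 2) (d : ℕ) : GL (Fin d) K :=
  (exists_regAll hF d).choose

theorem RR_mem (hF : Fintype.card K = q ^ 2) (d : ℕ) : RR hF d ∈ Cfsg.GU d K q :=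
  (exists_regAll hF d).choose_spec.1

theorem RR_nil (hF : Fintype.card K = q ^ 2) (d : ℕ) : NN (RR hF d) ^ d = 0 :=
  (exists_regAll hF d).choose_spec.2.1

theorem RR_ker (hF : Fintype.card K = q ^ 2) {d : ℕ} (hd : 0 < d) :
    finrank K (LinearMap.ker (NN (RR hF d))) = 1 :=
  (exists_regAll hF d).choose_spec.2.2 hd

/-- a frame of regular blocks -/
structure IsFrame (hF : Fintype.card K = q ^ 2) (g : GL (Fin n) K) {ι : Type} {d : ι → ℕ}
    (T : ∀ i, (Fin (d i) → K) →ₗ[K] (Fin n → K)) : Prop where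
  iso : ∀ i x z, hh (T i x) (T i z) = Cfsg.hermForm (d i) K q x z
  orth : ∀ i j, i ≠ j → ∀ x z, hh (T i x) (T j z) = 0
  int : ∀ i x, L g (T i x) = T i (L (RR hF (d i)) x)

theorem hsubL (x y z : Fin n → K) : hh (x - y) z = hh x z - hh y z := by
  simp [Cfsg.hermForm, sub_mul, Finset.sum_sub_distrib]

theorem hsubR (hF : Fintype.card K = q ^ 2) (x y z : Fin n → K) :
    hh x (y - z) = hh x y - hh x z := by
  rw [sub_eq_add_neg, herm_add_right hF, ← neg_one_smul K z, herm_smul_right hF]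
  have h := herm_smul_right (n := n) hF (-1 : K) x z
  have hq2 := two_le_q hF
  have h1 : hh x (-z) = - hh x z := by
    obtain ⟨φ, hφ⟩ := exists_frob hF
    simp only [Cfsg.hermForm, Pi.neg_apply, ← hφ, map_neg, mul_neg, Finset.sum_neg_distrib]
  have h2 : (-1 : K) ^ q * hh x z = hh x (-z) := by
    rw [← h, neg_one_smul]
  rw [h2, h1, sub_eq_add_neg]

theorem herm_zeroL (z : Fin n → K) : hh 0 z = 0 := by
  simp [Cfsg.hermForm]

theorem herm_T_expand {d : ℕ} (hF : Fintype.card K = q ^ 2) (T : (Fin d → K) →ₗ[K] (Fin n → K))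
    (v : Fin n → K) (w : Fin d → K) :
    hh v (T w) = Cfsg.hermForm d K q (fun b => hh v (T (Pi.single b 1))) w := by
  classical
  have h : w = ∑ b, w b • (Pi.single b (1 : K) : Fin d → K) := by
    funext j
    simp [Finset.sum_apply, Pi.single_apply]
  conv_lhs => rw [h]
  rw [map_sum, herm_sum_right hF]
  unfold Cfsg.hermForm
  refine Finset.sum_congr rfl fun b _ => ?_
  rw [map_smul]
  have := herm_smul_right (n := n) hF (w b) v (T (Pi.single b 1))
  unfold Cfsg.hermForm at this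
  rw [this]
  ring

section frame

variable {ι : Type} {d : ι → ℕ}

/-- the orthogonal complement of a frame -/
def perpF (hF : Fintype.card K = q ^ 2) (T : ∀ i, (Fin (d i) → K) →ₗ[K] (Fin n → K)) :
    Submodule K (Fin n → K) where
  carrier := {x | ∀ i z, hh x (T i z) = 0}
  add_mem' := by
    intro a b ha hb i z
    rw [herm_add_left, ha, hb, add_zero]
  zero_mem' := by
    intro i z
    exact herm_zeroL _
  smul_mem' := by
    intro c x hx i z
    rw [herm_smul_left, hx, mul_zero]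

theorem mem_perpF (hF : Fintype.card K = q ^ 2) (T : ∀ i, (Fin (d i) → K) →ₗ[K] (Fin n → K))
    (x : Fin n → K) : x ∈ perpF hF T ↔ ∀ i z, hh x (T i z) = 0 := Iff.rfl

theorem L_perp (hF : Fintype.card K = q ^ 2) {g : GL (Fin n) K} (hg : g ∈ Cfsg.GU n K q)
    {T : ∀ i, (Fin (d i) → K) →ₗ[K] (Fin n → K)} (hT : IsFrame hF g T) (x : Fin n → K)
    (hx : x ∈ perpF hF T) : L g x ∈ perpF hF T := by
  intro i z
  have h1 : T i z = L g (T i (L (RR hF (d i))⁻¹ z)) := by
    rw [hT.int, L_L_inv]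
  rw [h1, herm_L g hg]
  exact hx i _

theorem NN_perp (hF : Fintype.card K = q ^ 2) {g : GL (Fin n) K} (hg : g ∈ Cfsg.GU n K q)
    {T : ∀ i, (Fin (d i) → K) →ₗ[K] (Fin n → K)} (hT : IsFrame hF g T) (x : Fin n → K)
    (hx : x ∈ perpF hF T) : NN g x ∈ perpF hF T := by
  have : NN g x = L g x - x := by
    simp [NN]
  rw [this]
  exact Submodule.sub_mem _ (L_perp hF hg hT x hx) hx

variable [Fintype ι]

/-- the sum of the blocks -/
noncomputable def bigE (T : ∀ i, (Fin (d i) → K) →ₗ[K] (Fin n → K)) :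
    (∀ i, Fin (d i) → K) →ₗ[K] (Fin n → K) :=
  ∑ i, (T i) ∘ₗ LinearMap.proj i

theorem bigE_apply (T : ∀ i, (Fin (d i) → K) →ₗ[K] (Fin n → K)) (x : ∀ i, Fin (d i) → K) :
    bigE T x = ∑ i, T i (x i) := by
  simp [bigE, LinearMap.sum_apply]

theorem bigE_herm_T (hF : Fintype.card K = q ^ 2) {g : GL (Fin n) K}
    {T : ∀ i, (Fin (d i) → K) →ₗ[K] (Fin n → K)} (hT : IsFrame hF g T)
    (x : ∀ i, Fin (d i) → K) (i : ι) (z : Fin (d i) → K) :
    hh (bigE T x) (T i z) = Cfsg.hermForm (d i) K q (x i) z := by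
  classical
  rw [bigE_apply, herm_sum_left, Finset.sum_eq_single i]
  · exact hT.iso i _ _
  · intro j _ hj
    exact hT.orth j i hj _ _
  · simp

theorem bigE_herm (hF : Fintype.card K = q ^ 2) {g : GL (Fin n) K}
    {T : ∀ i, (Fin (d i) → K) →ₗ[K] (Fin n → K)} (hT : IsFrame hF g T)
    (x z : ∀ i, Fin (d i) → K) :
    hh (bigE T x) (bigE T z) = ∑ i, Cfsg.hermForm (d i) K q (x i) (z i) := by
  rw [bigE_apply T z, herm_sum_right hF]
  exact Finset.sum_congr rfl fun i _ => bigE_herm_T hF hT x i (z i)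

theorem bigE_inj (hF : Fintype.card K = q ^ 2) {g : GL (Fin n) K}
    {T : ∀ i, (Fin (d i) → K) →ₗ[K] (Fin n → K)} (hT : IsFrame hF g T) :
    Function.Injective (bigE T) := by
  rw [injective_iff_map_eq_zero]
  intro x hx
  funext i b
  have h := bigE_herm_T hF hT x i (Pi.single b 1)
  rw [hx, herm_zeroL, herm_single hF] at h
  exact h.symm

theorem sum_le_of_frame (hF : Fintype.card K = q ^ 2) {g : GL (Fin n) K}
    {T : ∀ i, (Fin (d i) → K) →ₗ[K] (Fin n → K)} (hT : IsFrame hF g T) : ∑ i, d i ≤ n := by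
  have h := LinearMap.finrank_le_finrank_of_injective (bigE_inj hF hT)
  rw [Module.finrank_pi_fintype] at h
  simpa using h

theorem perp_nondeg (hF : Fintype.card K = q ^ 2) {g : GL (Fin n) K}
    {T : ∀ i, (Fin (d i) → K) →ₗ[K] (Fin n → K)} (hT : IsFrame hF g T) (x₀ : Fin n → K)
    (hx₀ : x₀ ∈ perpF hF T) (hne : x₀ ≠ 0) : ∃ z ∈ perpF hF T, hh x₀ z ≠ 0 := by
  classical
  obtain ⟨j, hj⟩ : ∃ j, x₀ j ≠ 0 := by
    by_contra hcon
    push Not at hcon
    exact hne (funext hcon)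
  let v : Fin n → K := Pi.single j 1
  let c : ∀ i, Fin (d i) → K := fun i b => hh v (T i (Pi.single b 1))
  refine ⟨v - bigE T c, ?_, ?_⟩
  · intro i w
    rw [hsubL, bigE_herm_T hF hT, herm_T_expand hF (T i) v w, sub_self]
  · rw [hsubR hF, bigE_apply, herm_sum_right hF, Finset.sum_eq_zero fun i _ => hx₀ i _, sub_zero]
    rw [herm_single hF]
    exact hj

theorem exists_perp_ne (hF : Fintype.card K = q ^ 2) {g : GL (Fin n) K}
    {T : ∀ i, (Fin (d i) → K) →ₗ[K] (Fin n → K)} (hT : IsFrame hF g T) (hlt : ∑ i, d i < n) :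
    ∃ x ∈ perpF hF T, x ≠ 0 := by
  classical
  let f : (Fin n → K) →ₗ[K] ((Σ i, Fin (d i)) → K) :=
    { toFun := fun x p => hh x (T p.1 (Pi.single p.2 1))
      map_add' := by
        intro x y
        funext p
        exact herm_add_left _ _ _
      map_smul' := by
        intro c x
        funext p
        exact herm_smul_left _ _ _ }
  have hlt' : finrank K ((Σ i, Fin (d i)) → K) < finrank K (Fin n → K) := by
    simpa using hlt
  have hk := LinearMap.ker_ne_bot_of_finrank_lt (f := f) hlt'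
  obtain ⟨x, hx, hx0⟩ := (Submodule.ne_bot_iff _).1 hk
  refine ⟨x, ?_, hx0⟩
  intro i z
  rw [herm_T_expand hF (T i) x z]
  have h0 : (fun b => hh x (T i (Pi.single b 1))) = 0 := by
    funext b
    have := congrFun (LinearMap.mem_ker.1 hx) ⟨i, b⟩
    exact this
  rw [h0]
  exact herm_zeroL _

end frame

/-- polarization -/
theorem exists_anis (hF : Fintype.card K = q ^ 2) (A : End K (Fin n → K))
    (W : Submodule K (Fin n → K))
    (hnd : ∀ x ∈ W, A x ≠ 0 → ∃ z ∈ W, hh (A x) z ≠ 0) (x : Fin n → K) (hx : x ∈ W) (hAx : A x ≠ 0) :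
    ∃ y ∈ W, hh (A y) y ≠ 0 := by
  by_contra hcon
  push Not at hcon
  obtain ⟨z, hz, hB⟩ := hnd x hx hAx
  obtain ⟨μ, hμ⟩ := exists_not_fixed hF
  have hexp : ∀ c : K, hh (A (x + c • z)) (x + c • z) = hh (A x) x + c ^ q * hh (A x) z +
      c * hh (A z) x + c * c ^ q * hh (A z) z := by
    intro c
    rw [map_add, map_smul, herm_add_left, herm_add_right hF, herm_add_right hF, herm_smul_left,
      herm_smul_left, herm_smul_right hF, herm_smul_right hF]
    ring
  have h1 := hcon (x + (1 : K) • z) (W.add_mem hx (W.smul_mem _ hz))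
  have h2 := hcon (x + μ • z) (W.add_mem hx (W.smul_mem _ hz))
  rw [hexp, hcon x hx, hcon z hz] at h1 h2
  rw [one_pow] at h1
  apply hB
  have h3 : (μ ^ q - μ) * hh (A x) z = 0 := by
    linear_combination h2 - μ * h1
  exact (mul_eq_zero.1 h3).resolve_left (sub_ne_zero.2 hμ)

/-- a new regular block from a vector with nonzero top moment -/
theorem exists_new_block (hF : Fintype.card K = q ^ 2) (g : GL (Fin n) K) (hg : g ∈ Cfsg.GU n K q)
    (D : ℕ) (hD0 : 0 < D) (W : Submodule K (Fin n → K)) (hW : ∀ x ∈ W, NN g x ∈ W)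
    (hWV : ∀ x ∈ W, ∀ a, D ≤ a → (NN g ^ a) x = 0) (y : Fin n → K) (hyW : y ∈ W)
    (hτ : GG g q y (D - 1) 0 ≠ 0) :
    ∃ Tn : (Fin D → K) →ₗ[K] (Fin n → K),
      (∀ x z, hh (Tn x) (Tn z) = Cfsg.hermForm D K q x z) ∧
      (∀ x, L g (Tn x) = Tn (L (RR hF D) x)) ∧ ∀ x, Tn x ∈ W := by
  classical
  have hq2 := two_le_q hF
  let R := RR hF D
  have hRm : R ∈ Cfsg.GU D K q := RR_mem hF D
  have hRn : NN R ^ D = 0 := RR_nil hF D
  have hRk : finrank K (LinearMap.ker (NN R)) = 1 := RR_ker hF hD0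
  obtain ⟨y₀, hy₀⟩ := exists_cyclic (NN R) hRk hD0
  have hτ₀ := tau_ne hF hD0 R hRm hRn hRk y₀ hy₀
  have hV₀ : ∀ a, D ≤ a → (NN R ^ a) y₀ = 0 := fun a ha => pow_apply_zero hRn a ha y₀
  obtain ⟨y₁, hy₁W, hG⟩ := all_matchB hF g R hg hRm D hD0 W hW hWV y hyW y₀ hV₀ hτ hτ₀
  haveI : NeZero D := ⟨by omega⟩
  have hli := lin_indep_cyc (NN R) hRn y₀ hy₀
  let b := basisOfLinearIndependentOfCardEqFinrank hli (by simp)
  have hb : ∀ a : Fin D, b a = (NN R ^ (a : ℕ)) y₀ := fun a => by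
    simp [b]
  let Tn : (Fin D → K) →ₗ[K] (Fin n → K) := b.constr K (fun a : Fin D => (NN g ^ (a : ℕ)) y₁)
  have hTb : ∀ a : Fin D, Tn (b a) = (NN g ^ (a : ℕ)) y₁ := fun a => by
    simp only [Tn]
    exact b.constr_basis K _ a
  have hTa : ∀ a : ℕ, Tn ((NN R ^ a) y₀) = (NN g ^ a) y₁ := by
    intro a
    by_cases ha : a < D
    · have := hTb ⟨a, ha⟩
      rwa [hb] at this
    · rw [hV₀ a (by omega), hWV y₁ hy₁W a (by omega), map_zero]
  have hspan : ∀ x : Fin D → K, x ∈ Submodule.span K (Set.range b) := fun x => by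
    rw [b.span_eq]
    trivial
  have hiso1 : ∀ (x : Fin D → K) (a : Fin D),
      hh (Tn x) (Tn (b a)) = Cfsg.hermForm D K q x (b a) := by
    intro x a
    induction hspan x using Submodule.span_induction with
    | mem z hz =>
      obtain ⟨c, rfl⟩ := hz
      rw [hb, hb, hTa, hTa]
      exact hG c a
    | zero =>
      rw [map_zero, herm_zeroL, herm_zeroL]
    | add u v _ _ hu hv =>
      rw [map_add, herm_add_left, herm_add_left, hu, hv]
    | smul c u _ hu =>
      rw [map_smul, herm_smul_left, herm_smul_left, hu]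
  have hiso : ∀ x z : Fin D → K, hh (Tn x) (Tn z) = Cfsg.hermForm D K q x z := by
    intro x z
    induction hspan z using Submodule.span_induction with
    | mem u hu =>
      obtain ⟨c, rfl⟩ := hu
      exact hiso1 x c
    | zero =>
      have h0 : (0 : K) ^ q = 0 := zero_pow (by omega)
      simp [Cfsg.hermForm, h0]
    | add u v _ _ hu hv =>
      rw [map_add, herm_add_right hF, herm_add_right hF, hu, hv]
    | smul c u _ hu =>
      rw [map_smul, herm_smul_right hF, herm_smul_right hF, hu]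
  have hint1 : Tn ∘ₗ NN R = NN g ∘ₗ Tn := by
    refine b.ext fun a => ?_
    simp only [LinearMap.comp_apply]
    rw [hb, ← Module.End.mul_apply, ← pow_succ', hTa, hTa, ← Module.End.mul_apply, ← pow_succ']
  refine ⟨Tn, hiso, ?_, ?_⟩
  · intro x
    have h1 := LinearMap.congr_fun hint1 x
    simp only [LinearMap.comp_apply] at h1
    rw [L_eq_NN, L_eq_NN, map_add, h1]
  · intro x
    induction hspan x using Submodule.span_induction with
    | mem z hz =>
      obtain ⟨c, rfl⟩ := hz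
      rw [hb, hTa]
      exact pow_mem_inv hW _ hy₁W
    | zero =>
      rw [map_zero]
      exact W.zero_mem
    | add u v _ _ hu hv =>
      rw [map_add]
      exact W.add_mem hu hv
    | smul c u _ hu =>
      rw [map_smul]
      exact W.smul_mem _ hu

/-- extracting a block from a nilpotent action on an invariant nondegenerate subspace -/
theorem exists_block_of_perp (hF : Fintype.card K = q ^ 2) (g : GL (Fin n) K)
    (hg : g ∈ Cfsg.GU n K q) (D₀ : ℕ) (hnil : NN g ^ D₀ = 0) (W : Submodule K (Fin n → K))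
    (hW : ∀ x ∈ W, NN g x ∈ W) (hnd : ∀ x ∈ W, x ≠ 0 → ∃ z ∈ W, hh x z ≠ 0)
    (x₀ : Fin n → K) (hx₀ : x₀ ∈ W) (hx₀0 : x₀ ≠ 0) :
    ∃ D, 0 < D ∧ ∃ Tn : (Fin D → K) →ₗ[K] (Fin n → K),
      (∀ x z, hh (Tn x) (Tn z) = Cfsg.hermForm D K q x z) ∧
      (∀ x, L g (Tn x) = Tn (L (RR hF D) x)) ∧ ∀ x, Tn x ∈ W := by
  classical
  have hex : ∃ k, ∀ x ∈ W, (NN g ^ k) x = 0 := ⟨D₀, fun x _ => by rw [hnil]; rfl⟩
  let D := Nat.find hex
  have hDs : ∀ x ∈ W, (NN g ^ D) x = 0 := Nat.find_spec hex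
  have hD0 : 0 < D := by
    rcases Nat.eq_zero_or_pos D with h | h
    · exfalso
      have := hDs x₀ hx₀
      rw [h] at this
      exact hx₀0 (by simpa using this)
    · exact h
  have hmin : ∃ x ∈ W, (NN g ^ (D - 1)) x ≠ 0 := by
    have := Nat.find_min hex (m := D - 1) (by
      show D - 1 < D
      omega)
    push Not at this
    exact this
  obtain ⟨x, hxW, hxne⟩ := hmin
  have hWV : ∀ x ∈ W, ∀ a, D ≤ a → (NN g ^ a) x = 0 := by
    intro x hx a ha
    obtain ⟨t, rfl⟩ := Nat.exists_eq_add_of_le ha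
    rw [add_comm, pow_add, Module.End.mul_apply, hDs x hx, map_zero]
  obtain ⟨y, hyW, hy⟩ := exists_anis hF (NN g ^ (D - 1)) W
    (fun x hx hne => hnd _ (pow_mem_inv hW _ hx) hne) x hxW hxne
  have hτ : GG g q y (D - 1) 0 ≠ 0 := by
    unfold GG
    simpa using hy
  exact ⟨D, hD0, exists_new_block hF g hg D hD0 W hW hWV y hyW hτ⟩

/-- the block sizes with one more block -/
def optD {ι : Type} (D : ℕ) (d : ι → ℕ) : Option ι → ℕ
  | none => D
  | some i => d i

/-- the frame with one more block -/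
def optT {ι : Type} {D : ℕ} {d : ι → ℕ} (Tn : (Fin D → K) →ₗ[K] (Fin n → K))
    (T : ∀ i, (Fin (d i) → K) →ₗ[K] (Fin n → K)) :
    ∀ o, (Fin (optD D d o) → K) →ₗ[K] (Fin n → K)
  | none => Tn
  | some i => T i

theorem frame_ext (hF : Fintype.card K = q ^ 2) {g : GL (Fin n) K} {ι : Type} {D : ℕ} {d : ι → ℕ}
    {Tn : (Fin D → K) →ₗ[K] (Fin n → K)} {T : ∀ i, (Fin (d i) → K) →ₗ[K] (Fin n → K)}
    (hT : IsFrame hF g T) (h1 : ∀ x z, hh (Tn x) (Tn z) = Cfsg.hermForm D K q x z)
    (h2 : ∀ x, L g (Tn x) = Tn (L (RR hF D) x)) (h3 : ∀ x, Tn x ∈ perpF hF T) :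
    IsFrame hF g (optT Tn T) := by
  refine ⟨?_, ?_, ?_⟩
  · rintro (_ | i) x z
    · exact h1 x z
    · exact hT.iso i x z
  · rintro (_ | i) (_ | j) hij x z
    · exact absurd rfl hij
    · exact h3 x j z
    · show hh (T i x) (Tn z) = 0
      rw [herm_conj hF, h3 z i x, zero_pow (by have := two_le_q hF; omega)]
    · exact hT.orth i j (fun h => hij (by rw [h])) x z
  · rintro (_ | i) x
    · exact h2 x
    · exact hT.int i x

/-- every unipotent isometry has a full frame of regular blocks -/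
theorem exists_full_frame (hF : Fintype.card K = q ^ 2) (g : GL (Fin n) K)
    (hg : g ∈ Cfsg.GU n K q) (D₀ : ℕ) (hnil : NN g ^ D₀ = 0) :
    ∃ (ι : Type) (_ : Fintype ι) (d : ι → ℕ) (T : ∀ i, (Fin (d i) → K) →ₗ[K] (Fin n → K)),
      IsFrame hF g T ∧ (∀ i, 0 < d i) ∧ ∑ i, d i = n := by
  classical
  have key : ∀ (k : ℕ) (ι : Type) (_ : Fintype ι) (d : ι → ℕ)
      (T : ∀ i, (Fin (d i) → K) →ₗ[K] (Fin n → K)), IsFrame hF g T → (∀ i, 0 < d i) →
      n - ∑ i, d i = k →
      ∃ (ι : Type) (_ : Fintype ι) (d : ι → ℕ) (T : ∀ i, (Fin (d i) → K) →ₗ[K] (Fin n → K)),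
        IsFrame hF g T ∧ (∀ i, 0 < d i) ∧ ∑ i, d i = n := by
    intro k
    induction k using Nat.strong_induction_on with
    | _ k ih =>
      intro ι _ d T hT hpos hk
      have hle := sum_le_of_frame hF hT
      by_cases heq : ∑ i, d i = n
      · exact ⟨ι, _, d, T, hT, hpos, heq⟩
      have hlt : ∑ i, d i < n := by omega
      obtain ⟨x₀, hx₀, hne⟩ := exists_perp_ne hF hT hlt
      obtain ⟨D, hD0, Tn, h1, h2, h3⟩ := exists_block_of_perp hF g hg D₀ hnil (perpF hF T)
        (fun x hx => NN_perp hF hg hT x hx) (fun x hx hne => perp_nondeg hF hT x hx hne) x₀ hx₀ hne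
      have hsum : ∑ o, optD D d o = D + ∑ i, d i := by
        rw [Fintype.sum_option]
        rfl
      refine ih (n - ∑ o, optD D d o) (by omega) (Option ι) _ (optD D d) (optT Tn T)
        (frame_ext hF hT h1 h2 h3) ?_ rfl
      rintro (_ | i)
      · exact hD0
      · exact hpos i
  refine key _ Empty inferInstance (fun i => i.elim) (fun i => i.elim) ⟨fun i => i.elim, fun i => i.elim, fun i => i.elim⟩
    (fun i => i.elim) rfl

end Cfsg.Agent.H01.PglCl
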