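import Mathlib
import Cfsg.Agent.Lib.H01.RegB2

/-! Full frames of regular blocks: conjugacy, kernels, existence. -/

set_option linter.unusedSectionVars false
set_option autoImplicit false

namespace Cfsg.Agent.H01.PglCl

open Polynomial Module Matrix
open Cfsg.Agent.Lead

variable {K : Type*} [Field K] [Fintype K] {q n : ℕ}

local notation "hh" => Cfsg.hermForm n K q

/-- `L g` as an equivalence -/
noncomputable def Leq (g : GL (Fin n) K) : (Fin n → K) ≃ₗ[K] (Fin n → K) :=
  LinearEquiv.ofLinear (L g) (L g⁻¹) (LinearMap.ext fun x => L_L_inv g x)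
    (LinearMap.ext fun x => L_inv_L g x)

theorem Leq_apply (g : GL (Fin n) K) (x : Fin n → K) : Leq g x = L g x := rfl

section frame

variable {ι : Type} [Fintype ι] {d : ι → ℕ}

theorem L_bigE (hF : Fintype.card K = q ^ 2) {g : GL (Fin n) K}
    {T : ∀ i, (Fin (d i) → K) →ₗ[K] (Fin n → K)} (hT : IsFrame hF g T) (x : ∀ i, Fin (d i) → K) :
    L g (bigE T x) = bigE T (fun i => L (RR hF (d i)) (x i)) := by
  rw [bigE_apply, bigE_apply, map_sum]
  exact Finset.sum_congr rfl fun i _ => hT.int i (x i)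

theorem bigE_bij (hF : Fintype.card K = q ^ 2) {g : GL (Fin n) K}
    {T : ∀ i, (Fin (d i) → K) →ₗ[K] (Fin n → K)} (hT : IsFrame hF g T) (hs : ∑ i, d i = n) :
    Function.Bijective (bigE T) := by
  have hinj := bigE_inj hF hT
  refine ⟨hinj, ?_⟩
  refine (LinearMap.injective_iff_surjective_of_finrank_eq_finrank ?_).1 hinj
  rw [Module.finrank_pi_fintype]
  simpa using hs

theorem frame_conj (hF : Fintype.card K = q ^ 2) {g g' : GL (Fin n) K}
    {T T' : ∀ i, (Fin (d i) → K) →ₗ[K] (Fin n → K)} (hT : IsFrame hF g T) (hT' : IsFrame hF g' T')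
    (hs : ∑ i, d i = n) : ∃ P ∈ Cfsg.GU n K q, P * g * P⁻¹ = g' := by
  let E := LinearEquiv.ofBijective (bigE T) (bigE_bij hF hT hs)
  let E' := LinearEquiv.ofBijective (bigE T') (bigE_bij hF hT' hs)
  have hE : ∀ x, E x = bigE T x := fun x => rfl
  have hE' : ∀ x, E' x = bigE T' x := fun x => rfl
  let e := E.symm.trans E'
  have he : ∀ x, e (bigE T x) = bigE T' x := by
    intro x
    show E' (E.symm (bigE T x)) = _
    rw [← hE, LinearEquiv.symm_apply_apply, hE']
  obtain ⟨P, hP⟩ := exists_gl_of_equiv e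
  have hsurj : ∀ v : Fin n → K, ∃ x, bigE T x = v := (bigE_bij hF hT hs).2
  refine ⟨P, ?_, ?_⟩
  · apply mem_GU_of
    intro u v
    obtain ⟨x, rfl⟩ := hsurj u
    obtain ⟨z, rfl⟩ := hsurj v
    rw [hP, hP, he, he, bigE_herm hF hT, bigE_herm hF hT']
  · rw [mul_inv_eq_iff_eq_mul]
    apply L_inj
    refine LinearMap.ext fun v => ?_
    obtain ⟨x, rfl⟩ := hsurj v
    rw [L_mul, L_mul, Module.End.mul_apply, Module.End.mul_apply, hP, hP, L_bigE hF hT, he, he,
      L_bigE hF hT']

theorem NN_T (hF : Fintype.card K = q ^ 2) {g : GL (Fin n) K}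
    {T : ∀ i, (Fin (d i) → K) →ₗ[K] (Fin n → K)} (hT : IsFrame hF g T) (i : ι)
    (x : Fin (d i) → K) : NN g (T i x) = T i (NN (RR hF (d i)) x) := by
  have h1 : ∀ {m : ℕ} (h : GL (Fin m) K) (y : Fin m → K), NN h y = L h y - y := by
    intro m h y
    simp [NN]
  rw [h1, h1, map_sub, hT.int]

theorem NN_pow_T (hF : Fintype.card K = q ^ 2) {g : GL (Fin n) K}
    {T : ∀ i, (Fin (d i) → K) →ₗ[K] (Fin n → K)} (hT : IsFrame hF g T) (k : ℕ) (i : ι)
    (x : Fin (d i) → K) : (NN g ^ k) (T i x) = T i ((NN (RR hF (d i)) ^ k) x) := by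
  induction k with
  | zero => simp
  | succ k ih =>
    rw [pow_succ', pow_succ', Module.End.mul_apply, Module.End.mul_apply, ih, NN_T hF hT]

theorem NN_pow_bigE (hF : Fintype.card K = q ^ 2) {g : GL (Fin n) K}
    {T : ∀ i, (Fin (d i) → K) →ₗ[K] (Fin n → K)} (hT : IsFrame hF g T) (k : ℕ)
    (x : ∀ i, Fin (d i) → K) :
    (NN g ^ k) (bigE T x) = bigE T (fun i => (NN (RR hF (d i)) ^ k) (x i)) := by
  rw [bigE_apply, bigE_apply, map_sum]
  exact Finset.sum_congr rfl fun i _ => NN_pow_T hF hT k i (x i)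

theorem finrank_ker_frame (hF : Fintype.card K = q ^ 2) {g : GL (Fin n) K}
    {T : ∀ i, (Fin (d i) → K) →ₗ[K] (Fin n → K)} (hT : IsFrame hF g T) (hs : ∑ i, d i = n) (k : ℕ) :
    finrank K (LinearMap.ker (NN g ^ k)) =
      ∑ i, finrank K (LinearMap.ker (NN (RR hF (d i)) ^ k)) := by
  classical
  let Φ₀ : (∀ i, LinearMap.ker (NN (RR hF (d i)) ^ k)) →ₗ[K] (Fin n → K) :=
    bigE T ∘ₗ LinearMap.pi (fun i => (LinearMap.ker (NN (RR hF (d i)) ^ k)).subtype ∘ₗ LinearMap.proj i)
  have hΦ₀ : ∀ x, Φ₀ x = bigE T (fun i => ((x i : LinearMap.ker (NN (RR hF (d i)) ^ k)) :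
      Fin (d i) → K)) := fun x => rfl
  have hmem : ∀ x, Φ₀ x ∈ LinearMap.ker (NN g ^ k) := by
    intro x
    rw [LinearMap.mem_ker, hΦ₀, NN_pow_bigE hF hT]
    have : (fun i => (NN (RR hF (d i)) ^ k) ((x i : LinearMap.ker (NN (RR hF (d i)) ^ k)) :
        Fin (d i) → K)) = 0 := by
      funext i
      exact LinearMap.mem_ker.1 (x i).2
    rw [this, map_zero]
  let Φ := LinearMap.codRestrict (LinearMap.ker (NN g ^ k)) Φ₀ hmem
  have hΦ : Function.Bijective Φ := by
    constructor
    · intro x y hxy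
      have h1 : Φ₀ x = Φ₀ y := congrArg Subtype.val hxy
      rw [hΦ₀, hΦ₀] at h1
      have h2 := bigE_inj hF hT h1
      funext i
      exact Subtype.ext (congrFun h2 i)
    · rintro ⟨v, hv⟩
      obtain ⟨x, rfl⟩ := (bigE_bij hF hT hs).2 v
      rw [LinearMap.mem_ker, NN_pow_bigE hF hT] at hv
      have h3 : (fun i => (NN (RR hF (d i)) ^ k) (x i)) = 0 := by
        apply bigE_inj hF hT
        rw [hv, map_zero]
      refine ⟨fun i => ⟨x i, LinearMap.mem_ker.2 (congrFun h3 i)⟩, ?_⟩
      exact Subtype.ext rfl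
  have := (LinearEquiv.ofBijective Φ hΦ).finrank_eq
  rw [← this, Module.finrank_pi_fintype]

end frame

theorem reg_ker_aux {d : ℕ} (N : End K (Fin d → K)) (hN : N ^ d = 0)
    (hk : finrank K (LinearMap.ker N) = 1) (hd : 0 < d) (k : ℕ) :
    finrank K (LinearMap.ker (N ^ k)) = min k d := by
  obtain ⟨y, hy⟩ := exists_cyclic N hk hd
  have hlow : ∀ k, k ≤ d → k ≤ finrank K (LinearMap.ker (N ^ k)) := by
    intro k
    induction k with
    | zero => simp
    | succ k ih =>
      intro hkd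
      have h1 := ih (by omega)
      have hlt : LinearMap.ker (N ^ k) < LinearMap.ker (N ^ (k + 1)) := by
        refine lt_of_le_of_ne ?_ ?_
        · intro x hx
          rw [LinearMap.mem_ker] at hx ⊢
          rw [pow_succ', Module.End.mul_apply, hx, map_zero]
        · intro heq
          have hv : (N ^ (d - k - 1)) y ∈ LinearMap.ker (N ^ (k + 1)) := by
            rw [LinearMap.mem_ker, ← Module.End.mul_apply, ← pow_add]
            have : k + 1 + (d - k - 1) = d := by omega
            rw [this, hN]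
            rfl
          rw [← heq, LinearMap.mem_ker, ← Module.End.mul_apply, ← pow_add] at hv
          have : k + (d - k - 1) = d - 1 := by omega
          rw [this] at hv
          exact hy hv
      have h2 := Submodule.finrank_lt_finrank_of_lt hlt
      omega
  rcases le_total k d with h | h
  · rw [min_eq_left h]
    exact le_antisymm (finrank_ker_pow_le N hk k) (hlow k h)
  · rw [min_eq_right h, pow_eq_zero_of_le h hN, LinearMap.ker_zero, finrank_top]
    simp

theorem reg_ker (hF : Fintype.card K = q ^ 2) {d : ℕ} (hd : 0 < d) (k : ℕ) :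
    finrank K (LinearMap.ker (NN (RR hF d) ^ k)) = min k d :=
  reg_ker_aux _ (RR_nil hF d) (RR_ker hF hd) hd k

theorem ker_frame_min (hF : Fintype.card K = q ^ 2) {ι : Type} [Fintype ι] {d : ι → ℕ}
    {g : GL (Fin n) K} {T : ∀ i, (Fin (d i) → K) →ₗ[K] (Fin n → K)} (hT : IsFrame hF g T)
    (hpos : ∀ i, 0 < d i) (hs : ∑ i, d i = n) (k : ℕ) :
    finrank K (LinearMap.ker (NN g ^ k)) = ∑ i, min k (d i) := by
  rw [finrank_ker_frame hF hT hs]
  exact Finset.sum_congr rfl fun i _ => reg_ker hF (hpos i) k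

theorem pow_zero_iff_frame (hF : Fintype.card K = q ^ 2) {ι : Type} [Fintype ι] {d : ι → ℕ}
    {g : GL (Fin n) K} {T : ∀ i, (Fin (d i) → K) →ₗ[K] (Fin n → K)} (hT : IsFrame hF g T)
    (hpos : ∀ i, 0 < d i) (hs : ∑ i, d i = n) (k : ℕ) :
    NN g ^ k = 0 ↔ ∀ i, d i ≤ k := by
  have h1 := ker_frame_min hF hT hpos hs k
  constructor
  · intro h i
    rw [h, LinearMap.ker_zero, finrank_top] at h1
    simp only [finrank_fintype_fun_eq_card, Fintype.card_fin] at h1
    rw [← hs] at h1
    have h2 := (Finset.sum_eq_sum_iff_of_le (s := Finset.univ) (f := fun i => min k (d i))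
      (g := d) (fun i _ => min_le_right _ _)).1 h1.symm i (Finset.mem_univ i)
    omega
  · intro h
    have h2 : ∑ i, min k (d i) = n := by
      rw [← hs]
      exact Finset.sum_congr rfl fun i _ => min_eq_right (h i)
    rw [h2] at h1
    have h3 : LinearMap.ker (NN g ^ k) = ⊤ := by
      apply Submodule.eq_top_of_finrank_eq
      simpa using h1
    exact LinearMap.ker_eq_top.1 h3

/-- existence of an isometry with prescribed regular blocks -/
theorem frame_exists (hF : Fintype.card K = q ^ 2) {ι : Type} [Fintype ι] {d : ι → ℕ}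
    (hs : ∑ i, d i = n) : ∃ g ∈ Cfsg.GU n K q, ∃ T : ∀ i, (Fin (d i) → K) →ₗ[K] (Fin n → K),
      IsFrame hF g T := by
  classical
  have hq2 := two_le_q hF
  let e : (Σ i, Fin (d i)) ≃ Fin n := Fintype.equivOfCardEq (by simp [hs])
  let E₀ : (∀ i, Fin (d i) → K) ≃ₗ[K] (Fin n → K) :=
    { toFun := fun x j => x (e.symm j).1 (e.symm j).2
      map_add' := fun x y => rfl
      map_smul' := fun c x => rfl
      invFun := fun v i b => v (e ⟨i, b⟩)
      left_inv := by
        intro x
        funext i b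
        show x (e.symm (e ⟨i, b⟩)).1 (e.symm (e ⟨i, b⟩)).2 = x i b
        rw [Equiv.symm_apply_apply]
      right_inv := by
        intro v
        funext j
        show v (e (e.symm j)) = v j
        rw [Equiv.apply_symm_apply] }
  have hE₀ : ∀ x j, E₀ x j = x (e.symm j).1 (e.symm j).2 := fun x j => rfl
  have herm0 : ∀ x z, hh (E₀ x) (E₀ z) = ∑ i, Cfsg.hermForm (d i) K q (x i) (z i) := by
    intro x z
    unfold Cfsg.hermForm
    simp only [hE₀]
    rw [Equiv.sum_comp e.symm (fun p : Σ i, Fin (d i) => x p.1 p.2 * (z p.1 p.2) ^ q),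
      Fintype.sum_sigma]
  let F : (Fin n → K) ≃ₗ[K] (Fin n → K) :=
    E₀.symm.trans ((LinearEquiv.piCongrRight (fun i => Leq (RR hF (d i)))).trans E₀)
  obtain ⟨g, hg⟩ := exists_gl_of_equiv F
  have hgE : ∀ x, L g (E₀ x) = E₀ (fun i => L (RR hF (d i)) (x i)) := by
    intro x
    rw [hg]
    show E₀ ((LinearEquiv.piCongrRight (fun i => Leq (RR hF (d i)))) (E₀.symm (E₀ x))) = _
    rw [LinearEquiv.symm_apply_apply]
    rfl
  have hgu : g ∈ Cfsg.GU n K q := by
    apply mem_GU_of
    intro u v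
    obtain ⟨x, rfl⟩ := E₀.surjective u
    obtain ⟨z, rfl⟩ := E₀.surjective v
    rw [hgE, hgE, herm0, herm0]
    exact Finset.sum_congr rfl fun i _ => herm_L _ (RR_mem hF (d i)) _ _
  have hzR : ∀ {m : ℕ} (a : Fin m → K), Cfsg.hermForm m K q a 0 = 0 := by
    intro m a
    have h0 : (0 : K) ^ q = 0 := zero_pow (by omega)
    simp [Cfsg.hermForm, h0]
  let T : ∀ i, (Fin (d i) → K) →ₗ[K] (Fin n → K) := fun i =>
    E₀.toLinearMap ∘ₗ LinearMap.single K (fun i => Fin (d i) → K) i
  have hTa : ∀ i x, T i x = E₀ (Pi.single i x) := fun i x => rfl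
  refine ⟨g, hgu, T, ⟨?_, ?_, ?_⟩⟩
  · intro i x z
    rw [hTa, hTa, herm0, Finset.sum_eq_single i]
    · simp
    · intro j _ hj
      rw [Pi.single_eq_of_ne hj]
      exact herm_zeroL _
    · simp
  · intro i j hij x z
    rw [hTa, hTa, herm0]
    refine Finset.sum_eq_zero fun t _ => ?_
    by_cases ht : t = i
    · subst ht
      rw [Pi.single_eq_of_ne hij]
      exact hzR _
    · rw [Pi.single_eq_of_ne ht]
      exact herm_zeroL _
  · intro i x
    rw [hTa, hTa, hgE]
    congr 1
    funext t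
    by_cases ht : t = i
    · subst ht
      simp
    · rw [Pi.single_eq_of_ne ht, Pi.single_eq_of_ne ht, map_zero]

theorem frame_transport (hF : Fintype.card K = q ^ 2) {ι ι' : Type} [Fintype ι] [Fintype ι']
    {d : ι → ℕ} {d' : ι' → ℕ} {g' : GL (Fin n) K}
    {T' : ∀ i, (Fin (d' i) → K) →ₗ[K] (Fin n → K)} (hT' : IsFrame hF g' T') (π : ι ≃ ι')
    (hπ : ∀ i, d' (π i) = d i) :
    ∃ T : ∀ i, (Fin (d i) → K) →ₗ[K] (Fin n → K), IsFrame hF g' T := by
  have hd : (fun i => d' (π i)) = d := funext hπ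
  subst hd
  refine ⟨fun i => T' (π i), ⟨fun i x z => hT'.iso _ x z, fun i j hij x z => hT'.orth _ _
    (fun h => hij (π.injective h)) x z, fun i x => hT'.int _ x⟩⟩

theorem exists_equiv_of_map_eq {ι ι' : Type} [Fintype ι] [Fintype ι'] (d : ι → ℕ) (d' : ι' → ℕ)
    (h : Multiset.map d Finset.univ.val = Multiset.map d' Finset.univ.val) :
    ∃ π : ι ≃ ι', ∀ i, d' (π i) = d i := by
  classical
  have hc : ∀ a, Fintype.card {i // d i = a} = Fintype.card {i // d' i = a} := by
    intro a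
    have h1 := congrArg (Multiset.count a) h
    rw [Multiset.count_map, Multiset.count_map] at h1
    rw [Fintype.card_subtype, Fintype.card_subtype]
    have h2 : ∀ {β : Type} [Fintype β] (f : β → ℕ), (Finset.univ.filter fun i => f i = a).card =
        Multiset.card (Multiset.filter (fun i => a = f i) Finset.univ.val) := by
      intro β _ f
      rw [Finset.card, Finset.filter_val]
      congr 1
      exact Multiset.filter_congr fun i _ => eq_comm
    rw [h2, h2]
    exact h1
  refine ⟨Equiv.ofFiberEquiv (f := d) (g := d') fun a => Fintype.equivOfCardEq (hc a),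
    fun i => Equiv.ofFiberEquiv_map _ i⟩

/-- two full frames with the same multiset of blocks -/
theorem frame_conj_of_map (hF : Fintype.card K = q ^ 2) {ι ι' : Type} [Fintype ι] [Fintype ι']
    {d : ι → ℕ} {d' : ι' → ℕ} {g g' : GL (Fin n) K}
    {T : ∀ i, (Fin (d i) → K) →ₗ[K] (Fin n → K)} {T' : ∀ i, (Fin (d' i) → K) →ₗ[K] (Fin n → K)}
    (hT : IsFrame hF g T) (hT' : IsFrame hF g' T') (hs : ∑ i, d i = n)
    (h : Multiset.map d Finset.univ.val = Multiset.map d' Finset.univ.val) :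
    ∃ P ∈ Cfsg.GU n K q, P * g * P⁻¹ = g' := by
  obtain ⟨π, hπ⟩ := exists_equiv_of_map_eq d d' h
  obtain ⟨T'', hT''⟩ := frame_transport hF hT' π hπ
  exact frame_conj hF hT hT'' hs

end Cfsg.Agent.H01.PglCl
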