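import Mathlib
import Cfsg.Agent.Lib.H01.RegB3

/-! Classes of elements of order `p` in `GU_n` and partitions. -/

set_option linter.unusedSectionVars false
set_option autoImplicit false

namespace Cfsg.Agent.H01.PglCl

open Polynomial Module Matrix
open Cfsg.Agent.Lead

theorem ms_min_succ (s : Multiset ℕ) (k : ℕ) :
    (s.map (min (k + 1))).sum = (s.map (min k)).sum + Multiset.card (s.filter (k < ·)) := by
  induction s using Multiset.induction_on with
  | empty => simp
  | cons a s ih =>
    rw [Multiset.map_cons, Multiset.map_cons, Multiset.sum_cons, Multiset.sum_cons, ih]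
    by_cases h : k < a
    · rw [Multiset.filter_cons_of_pos (p := (k < ·)) _ h, Multiset.card_cons]
      have h1 : min (k + 1) a = k + 1 := by omega
      have h2 : min k a = k := by omega
      rw [h1, h2]
      omega
    · rw [Multiset.filter_cons_of_neg (p := (k < ·)) _ h]
      have h1 : min (k + 1) a = a := by omega
      have h2 : min k a = a := by omega
      rw [h1, h2]
      omega

theorem ms_filter_succ (s : Multiset ℕ) (b : ℕ) :
    Multiset.card (s.filter (b < ·)) = Multiset.card (s.filter (b + 1 < ·)) + s.count (b + 1) := by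
  induction s using Multiset.induction_on with
  | empty => simp
  | cons a s ih =>
    rw [Multiset.count_cons]
    by_cases h1 : a = b + 1
    · subst h1
      rw [Multiset.filter_cons_of_pos _ (by omega), Multiset.filter_cons_of_neg _ (by omega),
        Multiset.card_cons, ih]
      simp
      omega
    · by_cases h2 : b + 1 < a
      · rw [Multiset.filter_cons_of_pos (p := (b < ·)) _ (by omega),
          Multiset.filter_cons_of_pos (p := (b + 1 < ·)) _ h2,
          Multiset.card_cons, Multiset.card_cons, ih, if_neg (fun h => h1 h.symm)]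
        omega
      · rw [Multiset.filter_cons_of_neg (p := (b < ·)) _ (by omega),
          Multiset.filter_cons_of_neg (p := (b + 1 < ·)) _ h2, ih, if_neg (fun h => h1 h.symm)]
        omega

theorem ms_eq (s t : Multiset ℕ) (h0s : 0 ∉ s) (h0t : 0 ∉ t)
    (h : ∀ k, (s.map (min k)).sum = (t.map (min k)).sum) : s = t := by
  have h1 : ∀ k, Multiset.card (s.filter (k < ·)) = Multiset.card (t.filter (k < ·)) := by
    intro k
    have := h (k + 1)
    rw [ms_min_succ, ms_min_succ, h k] at this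
    omega
  ext a
  rcases a with _ | b
  · rw [Multiset.count_eq_zero.2 h0s, Multiset.count_eq_zero.2 h0t]
  · have h2 := ms_filter_succ s b
    have h3 := ms_filter_succ t b
    have h4 := h1 b
    have h5 := h1 (b + 1)
    omega

theorem exists_index (s : Multiset ℕ) :
    ∃ (k : ℕ) (d : Fin k → ℕ), Multiset.map d Finset.univ.val = s := by
  refine ⟨s.toList.length, s.toList.get, ?_⟩
  rw [Fin.univ_val_map, List.ofFn_get, Multiset.coe_toList]

variable {K : Type*} [Field K] [Fintype K] {q n : ℕ}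

local notation "hh" => Cfsg.hermForm n K q

/-- the type of a unipotent isometry -/
def HasType (hF : Fintype.card K = q ^ 2) (g : GL (Fin n) K) (s : Multiset ℕ) : Prop :=
  ∃ (ι : Type) (_ : Fintype ι) (d : ι → ℕ) (T : ∀ i, (Fin (d i) → K) →ₗ[K] (Fin n → K)),
    IsFrame hF g T ∧ Multiset.map d Finset.univ.val = s

theorem exists_of_partition (hF : Fintype.card K = q ^ 2) (μ : Nat.Partition n) :
    ∃ g ∈ Cfsg.GU n K q, HasType hF g μ.parts := by
  obtain ⟨k, d, hd⟩ := exists_index μ.parts
  have hs : ∑ i, d i = n := by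
    rw [← μ.parts_sum, ← hd]
    rfl
  obtain ⟨g, hg, T, hT⟩ := frame_exists (K := K) (q := q) hF hs
  exact ⟨g, hg, Fin k, inferInstance, d, T, hT, hd⟩

theorem exists_type (hF : Fintype.card K = q ^ 2) (g : GL (Fin n) K) (hg : g ∈ Cfsg.GU n K q)
    (D₀ : ℕ) (hnil : NN g ^ D₀ = 0) : ∃ μ : Nat.Partition n, HasType hF g μ.parts := by
  obtain ⟨ι, _, d, T, hT, hpos, hs⟩ := exists_full_frame hF g hg D₀ hnil
  refine ⟨⟨Multiset.map d Finset.univ.val, ?_, hs⟩, ι, _, d, T, hT, rfl⟩
  intro i hi
  obtain ⟨a, -, rfl⟩ := Multiset.mem_map.1 hi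
  exact hpos a

theorem ker_conj (P g g' : GL (Fin n) K) (h : P * g * P⁻¹ = g') (k : ℕ) :
    finrank K (LinearMap.ker (NN g ^ k)) = finrank K (LinearMap.ker (NN g' ^ k)) := by
  have h0 : P * g = g' * P := by
    rw [← h]
    group
  have hint : ∀ x, L P (NN g x) = NN g' (L P x) := by
    intro x
    have h1 : L P * L g = L g' * L P := by rw [← L_mul, h0, L_mul]
    have h2 := LinearMap.congr_fun h1 x
    simp only [Module.End.mul_apply] at h2
    simp only [NN, LinearMap.sub_apply, Module.End.one_apply, map_sub, h2]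
  have hintk : ∀ (k : ℕ) x, L P ((NN g ^ k) x) = (NN g' ^ k) (L P x) := by
    intro k
    induction k with
    | zero => simp
    | succ k ih =>
      intro x
      rw [pow_succ', pow_succ', Module.End.mul_apply, Module.End.mul_apply, hint, ih]
  have hker : LinearMap.ker (NN g' ^ k) =
      (LinearMap.ker (NN g ^ k)).map ((Leq P : (Fin n → K) ≃ₗ[K] (Fin n → K)) :
        (Fin n → K) →ₗ[K] (Fin n → K)) := by
    ext x
    rw [Submodule.mem_map_equiv, LinearMap.mem_ker, LinearMap.mem_ker]
    obtain ⟨u, rfl⟩ := (Leq P).surjective x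
    rw [LinearEquiv.symm_apply_apply, Leq_apply, ← hintk]
    constructor
    · intro h1
      have := L_inv_L P ((NN g ^ k) u)
      rw [h1, map_zero] at this
      exact this.symm
    · intro h1
      rw [h1, map_zero]
  rw [hker, LinearEquiv.finrank_map_eq]

section

variable {ι : Type} [Fintype ι] {d : ι → ℕ}

theorem type_sum_min (hF : Fintype.card K = q ^ 2) {g : GL (Fin n) K} (μ : Nat.Partition n)
    (h : HasType hF g μ.parts) (k : ℕ) :
    finrank K (LinearMap.ker (NN g ^ k)) = (μ.parts.map (min k)).sum := by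
  obtain ⟨ι, _, d, T, hT, hm⟩ := h
  have hpos : ∀ i, 0 < d i := fun i => μ.parts_pos (by
    rw [← hm]
    exact Multiset.mem_map_of_mem d (Finset.mem_univ i))
  have hs : ∑ i, d i = n := by
    rw [← μ.parts_sum, ← hm]
    rfl
  rw [ker_frame_min hF hT hpos hs, ← hm, Multiset.map_map]
  rfl

theorem type_unique (hF : Fintype.card K = q ^ 2) {g g' : GL (Fin n) K} (P : GL (Fin n) K)
    (hP : P * g * P⁻¹ = g') (μ μ' : Nat.Partition n) (h : HasType hF g μ.parts)
    (h' : HasType hF g' μ'.parts) : μ = μ' := by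
  apply Nat.Partition.ext
  apply ms_eq
  · intro h0
    exact absurd (μ.parts_pos h0) (lt_irrefl _)
  · intro h0
    exact absurd (μ'.parts_pos h0) (lt_irrefl _)
  · intro k
    rw [← type_sum_min hF μ h k, ← type_sum_min hF μ' h' k]
    exact ker_conj P g g' hP k

theorem type_conj (hF : Fintype.card K = q ^ 2) {g g' : GL (Fin n) K} (μ : Nat.Partition n)
    (h : HasType hF g μ.parts) (h' : HasType hF g' μ.parts) :
    ∃ P ∈ Cfsg.GU n K q, P * g * P⁻¹ = g' := by
  obtain ⟨ι, _, d, T, hT, hm⟩ := h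
  obtain ⟨ι', _, d', T', hT', hm'⟩ := h'
  have hs : ∑ i, d i = n := by
    rw [← μ.parts_sum, ← hm]
    rfl
  exact frame_conj_of_map hF hT hT' hs (hm.trans hm'.symm)

end

theorem L_eq_add (g : GL (Fin n) K) : L g = NN g + 1 := by
  simp [NN]

theorem pow_char_NN {p : ℕ} [Fact p.Prime] [CharP K p] (g : GL (Fin n) K) :
    L g ^ p = NN g ^ p + 1 := by
  have h0 : ((X : K[X]) + 1) ^ p = X ^ p + 1 := by
    have := add_pow_char (R := K[X]) (p := p) X 1
    rwa [one_pow] at this
  have h1 := congrArg (aeval (NN g)) h0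
  simp only [map_add, map_pow, aeval_X, map_one] at h1
  rw [L_eq_add, h1]

theorem pow_eq_one_iff_NN {p : ℕ} [Fact p.Prime] [CharP K p] (g : GL (Fin n) K) :
    g ^ p = 1 ↔ NN g ^ p = 0 := by
  constructor
  · intro h
    have h1 := pow_char_NN (p := p) g
    rw [← L_pow, h, L_one] at h1
    have h2 : NN g ^ p + 1 = 0 + 1 := by
      rw [← h1, zero_add]
    exact add_right_cancel h2
  · intro h
    apply L_inj
    rw [L_pow, L_one, pow_char_NN, h, zero_add]

theorem eq_one_iff_NN (g : GL (Fin n) K) : g = 1 ↔ NN g = 0 := by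
  constructor
  · rintro rfl
    simp [NN, L_one]
  · intro h
    apply L_inj
    rw [L_one, L_eq_add, h, zero_add]

theorem order_iff_type {p : ℕ} [Fact p.Prime] [CharP K p] (hF : Fintype.card K = q ^ 2)
    (g : Cfsg.GU n K q) (μ : Nat.Partition n) (h : HasType hF g.1 μ.parts) :
    orderOf g = p ↔ (∀ a ∈ μ.parts, a ≤ p) ∧ ∃ a ∈ μ.parts, a ≠ 1 := by
  have hp : p.Prime := Fact.out
  obtain ⟨ι, _, d, T, hT, hm⟩ := h
  have hpos : ∀ i, 0 < d i := fun i => μ.parts_pos (by
    rw [← hm]
    exact Multiset.mem_map_of_mem d (Finset.mem_univ i))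
  have hs : ∑ i, d i = n := by
    rw [← μ.parts_sum, ← hm]
    rfl
  have h1 : g ^ p = 1 ↔ ∀ i, d i ≤ p := by
    rw [← pow_zero_iff_frame hF hT hpos hs p, ← pow_eq_one_iff_NN, Subtype.ext_iff]
    rfl
  have h2 : g = 1 ↔ ∀ i, d i ≤ 1 := by
    have := pow_zero_iff_frame hF hT hpos hs 1
    rw [pow_one] at this
    rw [← this, ← eq_one_iff_NN, Subtype.ext_iff]
    rfl
  have h3 : orderOf g = p ↔ g ^ p = 1 ∧ g ≠ 1 := by
    constructor
    · intro h
      constructor
      · rw [← h]
        exact pow_orderOf_eq_one g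
      · rintro rfl
        rw [orderOf_one] at h
        exact hp.one_lt.ne h
    · rintro ⟨h4, h5⟩
      exact orderOf_eq_prime h4 h5
  rw [h3, h1, Ne, h2, ← hm]
  constructor
  · rintro ⟨h4, h5⟩
    refine ⟨?_, ?_⟩
    · intro a ha
      obtain ⟨i, -, rfl⟩ := Multiset.mem_map.1 ha
      exact h4 i
    · push Not at h5
      obtain ⟨i, hi⟩ := h5
      exact ⟨d i, Multiset.mem_map_of_mem d (Finset.mem_univ i), by omega⟩
  · rintro ⟨h4, a, ha, ha1⟩
    refine ⟨fun i => h4 _ (Multiset.mem_map_of_mem d (Finset.mem_univ i)), ?_⟩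
    obtain ⟨i, -, rfl⟩ := Multiset.mem_map.1 ha
    intro h5
    have := h5 i
    have := hpos i
    omega

/-- the all-ones partition -/
def onesP (n : ℕ) : Nat.Partition n where
  parts := Multiset.replicate n 1
  parts_pos := by
    intro i hi
    rw [Multiset.eq_of_mem_replicate hi]
    omega
  parts_sum := by
    simp

theorem eq_onesP_iff (μ : Nat.Partition n) : μ = onesP n ↔ ∀ a ∈ μ.parts, a = 1 := by
  constructor
  · rintro rfl a ha
    exact Multiset.eq_of_mem_replicate ha
  · intro h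
    apply Nat.Partition.ext
    have h1 : μ.parts = Multiset.replicate (Multiset.card μ.parts) 1 :=
      Multiset.eq_replicate_card.2 h
    have h2 : Multiset.card μ.parts = n := by
      have := μ.parts_sum
      rw [h1] at this
      simpa using this
    rw [h2] at h1
    exact h1

theorem gu_order_p_main {p : ℕ} [Fact p.Prime] [CharP K p] (hF : Fintype.card K = q ^ 2) :
    Nat.card {C : ConjClasses ↥(Cfsg.GU n K q) // ∃ g : ↥(Cfsg.GU n K q), ConjClasses.mk g = C ∧ orderOf g = p} =
      (Finset.univ.filter (fun μ : Nat.Partition n => ∀ a ∈ μ.parts, a ≤ p)).card - 1 := by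
  classical
  have hp : p.Prime := Fact.out
  set s := Finset.univ.filter (fun μ : Nat.Partition n => ∀ a ∈ μ.parts, a ≤ p) with hs
  have hone : onesP n ∈ s := by
    rw [hs, Finset.mem_filter]
    refine ⟨Finset.mem_univ _, fun a ha => ?_⟩
    rw [Multiset.eq_of_mem_replicate ha]
    exact hp.one_lt.le
  rw [← Finset.card_erase_of_mem hone]
  have hmem : ∀ μ : Nat.Partition n, μ ∈ s.erase (onesP n) ↔
      (∀ a ∈ μ.parts, a ≤ p) ∧ ∃ a ∈ μ.parts, a ≠ 1 := by
    intro μ
    rw [Finset.mem_erase, hs, Finset.mem_filter, Ne, eq_onesP_iff]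
    push Not
    constructor
    · rintro ⟨h1, -, h2⟩
      exact ⟨h2, h1⟩
    · rintro ⟨h1, h2⟩
      exact ⟨h2, Finset.mem_univ _, h1⟩
  have hex : ∀ μ : Nat.Partition n, ∃ g : Cfsg.GU n K q, HasType hF g.1 μ.parts := by
    intro μ
    obtain ⟨g, hg, h⟩ := exists_of_partition hF μ
    exact ⟨⟨g, hg⟩, h⟩
  choose gOf hgOf using hex
  let Ψ : {μ // μ ∈ s.erase (onesP n)} →
      {C : ConjClasses ↥(Cfsg.GU n K q) // ∃ g : ↥(Cfsg.GU n K q), ConjClasses.mk g = C ∧ orderOf g = p} :=
    fun μ => ⟨ConjClasses.mk (gOf μ.1), gOf μ.1, rfl,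
      (order_iff_type hF (gOf μ.1) μ.1 (hgOf μ.1)).2 ((hmem μ.1).1 μ.2)⟩
  have hΨ : Function.Bijective Ψ := by
    constructor
    · rintro ⟨μ, hμ⟩ ⟨μ', hμ'⟩ h
      have h1 : ConjClasses.mk (gOf μ) = ConjClasses.mk (gOf μ') := congrArg Subtype.val h
      rw [ConjClasses.mk_eq_mk_iff_isConj, isConj_iff] at h1
      obtain ⟨c, hc⟩ := h1
      have h2 : (c : GL (Fin n) K) * (gOf μ : GL (Fin n) K) * (c : GL (Fin n) K)⁻¹ = gOf μ' :=
        congrArg Subtype.val hc
      exact Subtype.ext (type_unique hF _ h2 μ μ' (hgOf μ) (hgOf μ'))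
    · rintro ⟨C, g, rfl, hord⟩
      have hgp : g ^ p = 1 := by
        rw [← hord]
        exact pow_orderOf_eq_one g
      have hgp' : (g : GL (Fin n) K) ^ p = 1 := congrArg Subtype.val hgp
      obtain ⟨μ, hμ⟩ := exists_type hF g.1 g.2 p ((pow_eq_one_iff_NN _).1 hgp')
      have hμs : μ ∈ s.erase (onesP n) := (hmem μ).2 ((order_iff_type hF g μ hμ).1 hord)
      refine ⟨⟨μ, hμs⟩, Subtype.ext ?_⟩
      show ConjClasses.mk (gOf μ) = ConjClasses.mk g
      rw [ConjClasses.mk_eq_mk_iff_isConj, isConj_iff]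
      obtain ⟨P, hP, h1⟩ := type_conj hF μ (hgOf μ) hμ
      refine ⟨⟨P, hP⟩, Subtype.ext h1⟩
  rw [← Nat.card_congr (Equiv.ofBijective Ψ hΨ), Nat.card_eq_fintype_card, Fintype.card_coe]

end Cfsg.Agent.H01.PglCl
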