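import Mathlib
import Cfsg.Agent.Lib.H05.Isolated2

/-! Simple groups acting on cosets; lower bound of the number of involutions. -/

set_option autoImplicit false

namespace Cfsg.Agent.H01

variable {G : Type*} [Group G]

/-- A simple group acts faithfully on the cosets of a proper subgroup. -/
theorem toPermHom_injective_of_simple [IsSimpleGroup G] {H : Subgroup G} (hH : H ≠ ⊤) :
    Function.Injective (MulAction.toPermHom G (G ⧸ H)) := by
  rw [← MonoidHom.ker_eq_bot_iff]
  rcases (MulAction.toPermHom G (G ⧸ H)).normal_ker.eq_bot_or_eq_top with h | h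
  · exact h
  · exfalso
    apply hH
    rw [eq_top_iff]
    intro g _
    have hg : g ∈ (MulAction.toPermHom G (G ⧸ H)).ker := by rw [h]; trivial
    have h1 : MulAction.toPermHom G (G ⧸ H) g = 1 := hg
    have h2 : g • ((1 : G) : G ⧸ H) = ((1 : G) : G ⧸ H) := by
      have := congrArg (fun σ : Equiv.Perm (G ⧸ H) => σ ((1 : G) : G ⧸ H)) h1
      exact this
    rw [MulAction.Quotient.smul_coe, QuotientGroup.eq] at h2
    simpa using inv_mem h2

/-- A simple group has order at most the factorial of the index of any proper subgroup. -/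
theorem card_le_factorial_index [Finite G] [IsSimpleGroup G] {H : Subgroup G} (hH : H ≠ ⊤) :
    Nat.card G ≤ Nat.factorial H.index := by
  classical
  have h1 := Nat.card_le_card_of_injective _ (toPermHom_injective_of_simple hH)
  have : Nat.card (Equiv.Perm (G ⧸ H)) = Nat.factorial H.index := by
    haveI := Fintype.ofFinite (G ⧸ H)
    rw [Nat.card_eq_fintype_card, Fintype.card_perm, ← Nat.card_eq_fintype_card]
    rfl
  rwa [this] at h1

/-- The number of involutions times the order of a centralizer of an involution is at least `|G|`. -/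
theorem card_le_mul_card_inv [Finite G] {t : G} (ht : orderOf t = 2) :
    Nat.card G ≤ Nat.card (Subgroup.centralizer ({t} : Set G)) * Nat.card {s : G // orderOf s = 2} := by
  rw [Cfsg.Agent.H05.card_class_mul t]
  apply Nat.mul_le_mul_left
  apply Nat.card_le_card_of_injective
    (fun y : {y : G // ∃ g : G, g * t * g⁻¹ = y} => (⟨y.1, by
      obtain ⟨y, g, rfl⟩ := y
      show orderOf (g * t * g⁻¹) = 2
      rw [← MulAut.conj_apply, MulEquiv.orderOf_eq, ht]⟩ : {s : G // orderOf s = 2}))
  rintro ⟨a, ha⟩ ⟨b, hb⟩ h
  have h' : a = b := congrArg (fun s : {s : G // orderOf s = 2} => (s : G)) h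
  exact Subtype.ext h'

end Cfsg.Agent.H01
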