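import Mathlib
import Cfsg.Agent.Lib.H01.SpCen1
import Cfsg.Agent.Lib.Lead.GUOrder
import Cfsg.Agent.Lib.Lead.AutPSpInd

/-! The centraliser of a fixed-point-free element of order three in `Sp_{2m}(q)`, `q ≡ 2 (mod 3)`. -/

set_option autoImplicit false
set_option linter.unusedSectionVars false

namespace Cfsg.Agent.H01.SpCen

open Matrix Cfsg.Agent.Lead E3

variable {F : Type*} [Field F] {m : ℕ}

local notation "VV" => (Fin m ⊕ Fin m → F)

/-- The scalar action of the extension. -/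
def eact (X : Matrix (Fin m ⊕ Fin m) (Fin m ⊕ Fin m) F) (e : E3 F) (v : Fin m ⊕ Fin m → F) : Fin m ⊕ Fin m → F :=
  e.re • v + e.im • (X *ᵥ v)

/-- The Hermitian form. -/
def hh (X : Matrix (Fin m ⊕ Fin m) (Fin m ⊕ Fin m) F) (u v : Fin m ⊕ Fin m → F) : E3 F :=
  ⟨Cfsg.Agent.Lead.sympForm u (X *ᵥ v), - Cfsg.Agent.Lead.sympForm u v⟩

variable {X : Matrix (Fin m ⊕ Fin m) (Fin m ⊕ Fin m) F}

lemma sq_mulVec (hX2 : X * X + X + 1 = 0) (v : VV) : X *ᵥ (X *ᵥ v) = - (X *ᵥ v) - v := by
  have h : (X * X + X + 1) *ᵥ v = 0 := by rw [hX2, Matrix.zero_mulVec]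
  rw [Matrix.add_mulVec, Matrix.add_mulVec, Matrix.one_mulVec, ← Matrix.mulVec_mulVec] at h
  have e : X *ᵥ (X *ᵥ v) = (X *ᵥ (X *ᵥ v) + X *ᵥ v + v) - X *ᵥ v - v := by abel
  rw [e, h]
  abel

lemma eact_one (v : VV) : eact X 1 v = v := by
  simp [eact]

lemma eact_mul (hX2 : X * X + X + 1 = 0) (a b : E3 F) (v : VV) : eact X (a * b) v = eact X a (eact X b v) := by
  simp only [eact, mul_re, mul_im, Matrix.mulVec_add, Matrix.mulVec_smul, sq_mulVec hX2]
  module

lemma eact_add_right (e : E3 F) (u v : VV) : eact X e (u + v) = eact X e u + eact X e v := by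
  simp only [eact, Matrix.mulVec_add]
  module

lemma eact_add_left (a b : E3 F) (v : VV) : eact X (a + b) v = eact X a v + eact X b v := by
  simp only [eact, add_re, add_im]
  module

lemma eact_zero_left (v : VV) : eact X 0 v = 0 := by
  simp [eact]

lemma eact_zero_right (e : E3 F) : eact X e (0 : VV) = 0 := by
  simp [eact]

lemma eact_iota (a : F) (v : VV) : eact X (iota a) v = a • v := by
  simp [eact, iota_re, iota_im]

lemma eact_om (v : VV) : eact X om v = X *ᵥ v := by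
  simp [eact, om]

/-- The extension acts on the space. -/
@[reducible] def modE (hX2 : X * X + X + 1 = 0) : Module (E3 F) (Fin m ⊕ Fin m → F) where
  smul := eact X
  one_smul := eact_one
  mul_smul := eact_mul hX2
  smul_zero := eact_zero_right
  smul_add := eact_add_right
  add_smul := eact_add_left
  zero_smul := eact_zero_left

lemma hh_add_left (u u' v : VV) : hh X (u + u') v = hh X u v + hh X u' v := by
  ext
  · simp [hh, sympForm_add_left]
  · simp [hh, sympForm_add_left]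
    ring

lemma form_X_left (hXf : ∀ u w : VV, Cfsg.Agent.Lead.sympForm (X *ᵥ u) (X *ᵥ w) = Cfsg.Agent.Lead.sympForm u w)
    (hX2 : X * X + X + 1 = 0) (u v : VV) :
    Cfsg.Agent.Lead.sympForm (X *ᵥ u) v = - Cfsg.Agent.Lead.sympForm u (X *ᵥ v) - Cfsg.Agent.Lead.sympForm u v := by
  have e : v = X *ᵥ (- (X *ᵥ v) - v) := by
    rw [Matrix.mulVec_sub, Matrix.mulVec_neg, sq_mulVec hX2]
    abel
  conv_lhs => rw [e]
  rw [hXf, sub_eq_add_neg (-(X *ᵥ v)) v, sympForm_add_right, ← neg_one_smul F (X *ᵥ v), ← neg_one_smul F v,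
    sympForm_smul_right, sympForm_smul_right]
  ring

lemma hh_smul_left (hXf : ∀ u w : VV, Cfsg.Agent.Lead.sympForm (X *ᵥ u) (X *ᵥ w) = Cfsg.Agent.Lead.sympForm u w)
    (hX2 : X * X + X + 1 = 0) (e : E3 F) (u v : VV) : hh X (eact X e u) v = e * hh X u v := by
  ext
  · simp only [hh, eact, mul_re, sympForm_add_left, sympForm_smul_left, hXf]
    ring
  · simp only [hh, eact, mul_im, sympForm_add_left, sympForm_smul_left, form_X_left hXf hX2]
    ring

section finite

variable [Fintype F] {q : ℕ} [Fact (Aniso F)]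

lemma hh_conj (hq : Fintype.card F = q) (h3 : q % 3 = 2) (hXf : ∀ u w : VV, Cfsg.Agent.Lead.sympForm (X *ᵥ u) (X *ᵥ w) = Cfsg.Agent.Lead.sympForm u w)
    (hX2 : X * X + X + 1 = 0) (u v : VV) : hh X v u = (hh X u v) ^ q := by
  rw [pow_q hq h3]
  ext
  · show Cfsg.Agent.Lead.sympForm v (X *ᵥ u) = Cfsg.Agent.Lead.sympForm u (X *ᵥ v) - - Cfsg.Agent.Lead.sympForm u v
    rw [sympForm_swap v, form_X_left hXf hX2]
    ring
  · show - Cfsg.Agent.Lead.sympForm v u = - - Cfsg.Agent.Lead.sympForm u v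
    rw [sympForm_swap v]

omit [Fintype F] [Fact (Aniso F)] in
lemma hh_nondeg (u : VV) (h : ∀ v, hh X u v = 0) : u = 0 := by
  by_contra hu
  obtain ⟨z, hz⟩ := sympForm_nondeg hu
  have h1 := congrArg E3.im (h z)
  simp only [hh, zero_im, neg_eq_zero] at h1
  exact hz h1

/-- Orthonormal frames exist. -/
theorem exists_frame (hq : Fintype.card F = q) (h3 : q % 3 = 2)
    (hXf : ∀ u w : VV, Cfsg.Agent.Lead.sympForm (X *ᵥ u) (X *ᵥ w) = Cfsg.Agent.Lead.sympForm u w) (hX2 : X * X + X + 1 = 0) :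
    ∃ v : Fin m → VV, ∀ i j, hh X (v i) (v j) = if i = j then 1 else 0 := by
  classical
  letI := modE hX2
  have hq2 : 2 ≤ q := by omega
  have hE : Fintype.card (E3 F) = q ^ 2 := card_E3 hq
  haveI : FiniteDimensional (E3 F) VV := Module.Finite.of_finite
  have hdim : Module.finrank (E3 F) VV = m := by
    have h1 := Module.card_eq_pow_finrank (K := E3 F) (V := VV)
    rw [hE] at h1
    have h2 : Fintype.card VV = (q ^ 2) ^ m := by
      rw [Fintype.card_fun, Fintype.card_sum, Fintype.card_fin, hq, ← pow_mul]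
      congr 1
      ring
    rw [h2] at h1
    have hq3 : 2 ≤ q ^ 2 := by nlinarith
    exact (Nat.pow_right_injective hq3 h1).symm
  exact exists_ON hE m VV (hh X) hh_add_left (hh_smul_left hXf hX2) (hh_conj hq h3 hXf hX2) hh_nondeg hdim

end finite

end Cfsg.Agent.H01.SpCen
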