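import Mathlib
import Cfsg.Agent.Lib.H01.SpCen2

/-! The centraliser of a fixed-point-free element of order three in `Sp_{2m}(q)`: the count. -/

set_option autoImplicit false
set_option linter.unusedSectionVars false

namespace Cfsg.Agent.H01.SpCen

open Matrix Cfsg.Agent.Lead E3

variable {F : Type*} [Field F] {m : ℕ}

local notation "VV" => (Fin m ⊕ Fin m → F)
local notation "fS" => Cfsg.Agent.Lead.sympForm

variable {X : Matrix (Fin m ⊕ Fin m) (Fin m ⊕ Fin m) F}

lemma hh_sum_left (s : Finset (Fin m)) (f : Fin m → VV) (v : VV) :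
    hh X (∑ i ∈ s, f i) v = ∑ i ∈ s, hh X (f i) v := by
  classical
  induction s using Finset.induction_on with
  | empty =>
    ext <;> simp [hh, Cfsg.Agent.Lead.sympForm]
  | insert a s ha ih =>
    rw [Finset.sum_insert ha, Finset.sum_insert ha, hh_add_left, ih]

lemma eact_sum (e : E3 F) (s : Finset (Fin m)) (f : Fin m → VV) :
    eact X e (∑ i ∈ s, f i) = ∑ i ∈ s, eact X e (f i) := by
  classical
  induction s using Finset.induction_on with
  | empty => simp [eact]
  | insert a s ha ih =>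
    rw [Finset.sum_insert ha, Finset.sum_insert ha, eact_add_right, ih]

variable [Fintype F] {q : ℕ} [Fact (Aniso F)]

/-- A frame. -/
structure Fr (X : Matrix (Fin m ⊕ Fin m) (Fin m ⊕ Fin m) F) (q : ℕ) (v : Fin m → (Fin m ⊕ Fin m → F)) : Prop where
  hq : Fintype.card F = q
  h3 : q % 3 = 2
  hXf : ∀ u w : (Fin m ⊕ Fin m → F), Cfsg.Agent.Lead.sympForm (X *ᵥ u) (X *ᵥ w) = Cfsg.Agent.Lead.sympForm u w
  hX2 : X * X + X + 1 = 0
  hon : ∀ i j, hh X (v i) (v j) = if i = j then 1 else 0

variable {v : Fin m → (Fin m ⊕ Fin m → F)}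

/-- Coordinates. -/
def kap (X : Matrix (Fin m ⊕ Fin m) (Fin m ⊕ Fin m) F) (v : Fin m → (Fin m ⊕ Fin m → F))
    (y : Fin m ⊕ Fin m → F) : Fin m → E3 F := fun i => hh X y (v i)

/-- The point with given coordinates. -/
def psi (X : Matrix (Fin m ⊕ Fin m) (Fin m ⊕ Fin m) F) (v : Fin m → (Fin m ⊕ Fin m → F))
    (c : Fin m → E3 F) : Fin m ⊕ Fin m → F := ∑ i, eact X (c i) (v i)

lemma kap_psi (hf : Fr X q v) (c : Fin m → E3 F) : kap X v (psi X v c) = c := by
  funext j
  simp only [kap, psi, hh_sum_left, hh_smul_left hf.hXf hf.hX2, hf.hon]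
  simp

lemma psi_inj (hf : Fr X q v) : Function.Injective (psi X v) := by
  intro a b h
  rw [← kap_psi hf a, ← kap_psi hf b, h]

lemma psi_bij (hf : Fr X q v) : Function.Bijective (psi X v) := by
  classical
  have hc : Nat.card (Fin m → E3 F) = Nat.card VV := by
    rw [Nat.card_eq_fintype_card, Nat.card_eq_fintype_card, Fintype.card_fun, Fintype.card_fun, Fintype.card_fin,
      Fintype.card_sum, Fintype.card_fin, card_E3 hf.hq, hf.hq, ← pow_mul]
    congr 1
    ring
  exact (Nat.bijective_iff_injective_and_card _).2 ⟨psi_inj hf, hc⟩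

lemma psi_kap (hf : Fr X q v) (y : VV) : psi X v (kap X v y) = y := by
  obtain ⟨c, rfl⟩ := (psi_bij hf).2 y
  rw [kap_psi hf]

/-- Parseval. -/
lemma hh_eq_herm (hf : Fr X q v) (y z : VV) :
    hh X y z = Cfsg.hermForm m (E3 F) q (kap X v y) (kap X v z) := by
  conv_lhs => rw [← psi_kap hf y]
  simp only [psi, hh_sum_left, hh_smul_left hf.hXf hf.hX2, Cfsg.hermForm, kap]
  refine Finset.sum_congr rfl fun i _ => ?_
  rw [hh_conj hf.hq hf.h3 hf.hXf hf.hX2 z (v i)]

lemma kap_add (y z : VV) : kap X v (y + z) = kap X v y + kap X v z := by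
  funext i
  exact hh_add_left y z (v i)

lemma kap_eact (hf : Fr X q v) (e : E3 F) (y : VV) (i : Fin m) : kap X v (eact X e y) i = e * kap X v y i :=
  hh_smul_left hf.hXf hf.hX2 e y (v i)

/-- The linear map attached to an orthonormal family of coordinate vectors. -/
def ell (X : Matrix (Fin m ⊕ Fin m) (Fin m ⊕ Fin m) F) (v : Fin m → (Fin m ⊕ Fin m → F))
    (u : Fin m → (Fin m → E3 F)) (y : Fin m ⊕ Fin m → F) : Fin m ⊕ Fin m → F :=
  ∑ j, eact X (kap X v y j) (psi X v (u j))

lemma ell_add (hf : Fr X q v) (u : Fin m → (Fin m → E3 F)) (y z : VV) :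
    ell X v u (y + z) = ell X v u y + ell X v u z := by
  simp only [ell, kap_add, Pi.add_apply, eact_add_left, Finset.sum_add_distrib]

lemma ell_eact (hf : Fr X q v) (u : Fin m → (Fin m → E3 F)) (e : E3 F) (y : VV) :
    ell X v u (eact X e y) = eact X e (ell X v u y) := by
  simp only [ell, eact_sum]
  refine Finset.sum_congr rfl fun j _ => ?_
  rw [kap_eact hf, eact_mul hf.hX2]

lemma ell_smul (hf : Fr X q v) (u : Fin m → (Fin m → E3 F)) (a : F) (y : VV) :
    ell X v u (a • y) = a • ell X v u y := by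
  rw [← eact_iota (X := X) a y, ell_eact hf, eact_iota]

/-- The matrix of that map. -/
noncomputable def mEll (hf : Fr X q v) (u : Fin m → (Fin m → E3 F)) : Matrix (Fin m ⊕ Fin m) (Fin m ⊕ Fin m) F :=
  LinearMap.toMatrix' ({ toFun := ell X v u, map_add' := ell_add hf u, map_smul' := ell_smul hf u } :
    (Fin m ⊕ Fin m → F) →ₗ[F] (Fin m ⊕ Fin m → F))

lemma mEll_mulVec (hf : Fr X q v) (u : Fin m → (Fin m → E3 F)) (y : VV) : mEll hf u *ᵥ y = ell X v u y := by
  rw [mEll, LinearMap.toMatrix'_mulVec]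
  rfl

lemma hh_psi_psi (hf : Fr X q v) {u : Fin m → (Fin m → E3 F)} (hu : Cfsg.Agent.Lead.IsON q u) (j k : Fin m) :
    hh X (psi X v (u j)) (psi X v (u k)) = if j = k then 1 else 0 := by
  rw [hh_eq_herm hf, kap_psi hf, kap_psi hf]
  exact hu j k

lemma hh_ell (hf : Fr X q v) {u : Fin m → (Fin m → E3 F)} (hu : Cfsg.Agent.Lead.IsON q u) (y z : VV) :
    hh X (ell X v u y) (ell X v u z) = hh X y z := by
  have h1 : ∀ j, hh X (ell X v u z) (psi X v (u j)) = kap X v z j := by
    intro j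
    conv_lhs => rw [ell]
    simp only [hh_sum_left, hh_smul_left hf.hXf hf.hX2, hh_psi_psi hf hu]
    simp
  have h2 : ∀ j, hh X (psi X v (u j)) (ell X v u z) = (kap X v z j) ^ q := by
    intro j
    rw [hh_conj hf.hq hf.h3 hf.hXf hf.hX2 (ell X v u z) (psi X v (u j)), h1]
  conv_lhs => rw [ell]
  simp only [hh_sum_left, hh_smul_left hf.hXf hf.hX2, h2]
  rw [hh_eq_herm hf y z]
  rfl

lemma form_ell (hf : Fr X q v) {u : Fin m → (Fin m → E3 F)} (hu : Cfsg.Agent.Lead.IsON q u) (y z : VV) :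
    fS (ell X v u y) (ell X v u z) = fS y z := by
  have h := congrArg E3.im (hh_ell hf hu y z)
  simp only [hh] at h
  exact neg_injective h

lemma ell_X (hf : Fr X q v) (u : Fin m → (Fin m → E3 F)) (y : VV) :
    ell X v u (X *ᵥ y) = X *ᵥ ell X v u y := by
  rw [← eact_om, ell_eact hf, eact_om]

lemma mEll_X (hf : Fr X q v) (u : Fin m → (Fin m → E3 F)) : mEll hf u * X = X * mEll hf u := by
  apply Cfsg.Agent.Lead.mat_ext_mulVec
  intro y
  rw [← Matrix.mulVec_mulVec, ← Matrix.mulVec_mulVec, mEll_mulVec, mEll_mulVec, ell_X hf]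

lemma ell_frame (hf : Fr X q v) (u : Fin m → (Fin m → E3 F)) (j : Fin m) :
    ell X v u (v j) = psi X v (u j) := by
  unfold ell
  rw [Finset.sum_eq_single j]
  · have : kap X v (v j) j = 1 := by
      simp only [kap, hf.hon, if_true]
    rw [this, eact_one]
  · intro i _ hi
    have : kap X v (v j) i = 0 := by
      simp only [kap, hf.hon]
      rw [if_neg hi.symm]
    rw [this, eact_zero_left]
  · intro h
    exact absurd (Finset.mem_univ j) h

end Cfsg.Agent.H01.SpCen
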