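import Mathlib
import Cfsg.Agent.Lib.H01.SpCen3

/-! The centraliser of a fixed-point-free element of order three in `Sp_{2m}(q)`: the order. -/

set_option autoImplicit false
set_option linter.unusedSectionVars false

namespace Cfsg.Agent.H01.SpCen

open Matrix Cfsg.Agent.Lead E3

variable {F : Type*} [Field F] {m : ℕ}

local notation "VV" => (Fin m ⊕ Fin m → F)
local notation "fS" => Cfsg.Agent.Lead.sympForm

variable [Fintype F] {q : ℕ} [Fact (Aniso F)]

variable {v : Fin m → (Fin m ⊕ Fin m → F)} {x : symplecticGroup (Fin m) F}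

local notation "XX" => ((x : Matrix (Fin m ⊕ Fin m) (Fin m ⊕ Fin m) F))

lemma form_sp (g : symplecticGroup (Fin m) F) (u w : VV) :
    fS ((g : Matrix (Fin m ⊕ Fin m) (Fin m ⊕ Fin m) F) *ᵥ u) ((g : Matrix (Fin m ⊕ Fin m) (Fin m ⊕ Fin m) F) *ᵥ w) =
      fS u w :=
  Cfsg.Agent.Lead.AutPSp.form_ap g u w

section cent

variable (g : ↥(Subgroup.centralizer ({x} : Set (symplecticGroup (Fin m) F))))

local notation "GG" => (((g : symplecticGroup (Fin m) F) : Matrix (Fin m ⊕ Fin m) (Fin m ⊕ Fin m) F))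

lemma cent_comm : GG * XX = XX * GG := by
  have h := Subgroup.mem_centralizer_singleton_iff.1 g.2
  exact congrArg Subtype.val h

lemma cent_mulVec (y : VV) : GG *ᵥ (XX *ᵥ y) = XX *ᵥ (GG *ᵥ y) := by
  rw [Matrix.mulVec_mulVec, Matrix.mulVec_mulVec, cent_comm]

lemma cent_eact (e : E3 F) (y : VV) : GG *ᵥ eact XX e y = eact XX e (GG *ᵥ y) := by
  simp only [eact, Matrix.mulVec_add, Matrix.mulVec_smul, cent_mulVec]

lemma cent_hh (u w : VV) : hh XX (GG *ᵥ u) (GG *ᵥ w) = hh XX u w := by
  ext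
  · show fS (GG *ᵥ u) (XX *ᵥ (GG *ᵥ w)) = fS u (XX *ᵥ w)
    rw [← cent_mulVec, form_sp]
  · show - fS (GG *ᵥ u) (GG *ᵥ w) = - fS u w
    rw [form_sp]

end cent

/-- The centraliser is in bijection with the orthonormal frames. -/
noncomputable def cenEquiv (hf : Fr XX q v) :
    ↥(Subgroup.centralizer ({x} : Set (symplecticGroup (Fin m) F))) ≃ ONT (E3 F) q m m where
  toFun g := ⟨fun j => kap XX v (((g : symplecticGroup (Fin m) F) : Matrix (Fin m ⊕ Fin m) (Fin m ⊕ Fin m) F) *ᵥ v j), by
    intro i j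
    rw [← hh_eq_herm hf, cent_hh, hf.hon]⟩
  invFun u := ⟨⟨mEll hf u.1, Cfsg.Agent.Lead.AutPSp.mem_sp_of_form (by
      intro a b
      rw [mEll_mulVec, mEll_mulVec]
      exact form_ell hf u.2 a b)⟩, by
    apply Subgroup.mem_centralizer_singleton_iff.2
    apply Subtype.ext
    exact mEll_X hf u.1⟩
  left_inv g := by
    apply Subtype.ext
    apply Subtype.ext
    apply Cfsg.Agent.Lead.mat_ext_mulVec
    intro y
    show mEll hf _ *ᵥ y = _
    rw [mEll_mulVec]
    unfold ell
    set G := ((g : symplecticGroup (Fin m) F) : Matrix (Fin m ⊕ Fin m) (Fin m ⊕ Fin m) F) with hG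
    calc ∑ j, eact XX (kap XX v y j) (psi XX v (kap XX v (G *ᵥ v j)))
        = ∑ j, G *ᵥ eact XX (kap XX v y j) (v j) :=
          Finset.sum_congr rfl fun j _ => by rw [psi_kap hf, hG, cent_eact]
      _ = G *ᵥ ∑ j, eact XX (kap XX v y j) (v j) := (Matrix.mulVec_sum _ _ _).symm
      _ = G *ᵥ y := by
          have := psi_kap hf y
          unfold psi at this
          rw [this]
  right_inv u := by
    apply Subtype.ext
    funext j
    show kap XX v (mEll hf u.1 *ᵥ v j) = u.1 j
    rw [mEll_mulVec, ell_frame hf, kap_psi hf]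

omit [Fact (Aniso F)] in
/-- No cube roots of unity in the field. -/
lemma aniso_of_mod (hq : Fintype.card F = q) (h3 : q % 3 = 2) : Aniso F := by
  classical
  intro a b hab
  by_cases hb : b = 0
  · subst hb
    have : a * a = 0 := by simpa using hab
    exact ⟨mul_self_eq_zero.1 this, rfl⟩
  exfalso
  set t := a * b⁻¹ with ht
  have h1 : t * t - t + 1 = 0 := by
    have e : t * t - t + 1 = (a * a - a * b + b * b) * (b⁻¹ * b⁻¹) := by
      rw [ht]
      field_simp
    rw [e, hab, zero_mul]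
  have h2 : (t + 1) * (t * t - t + 1) = t ^ 3 + 1 := by ring
  rw [h1, mul_zero] at h2
  have ht0 : (-t) ^ 3 = 1 := by
    have : t ^ 3 = -1 := by linear_combination -h2
    rw [Odd.neg_pow (by decide), this, neg_neg]
  have hne : -t ≠ 0 := by
    intro h0
    rw [h0] at ht0
    simp at ht0
  by_cases h4 : -t = 1
  · -- characteristic three
    have e3 : (3 : F) = 0 := by
      have e : t = -1 := by linear_combination -h4
      rw [e] at h1
      linear_combination h1
    obtain ⟨p, hp⟩ := CharP.exists F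
    obtain ⟨n, hpp, hn⟩ := FiniteField.card F p
    have hp3 : p ∣ 3 := by
      have : ((3 : ℕ) : F) = 0 := by exact_mod_cast e3
      exact (CharP.cast_eq_zero_iff F p 3).1 this
    have hp3' : p = 3 := (Nat.prime_dvd_prime_iff_eq hpp Nat.prime_three).1 hp3
    subst hp3'
    rw [hq] at hn
    have : 3 ∣ q := by
      rw [hn]
      exact dvd_pow_self 3 n.ne_zero
    omega
  · -- an element of order three
    let u : Fˣ := Units.mk0 (-t) hne
    have hu3 : u ^ 3 = 1 := Units.ext (by simpa [u] using ht0)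
    have hu1 : u ≠ 1 := by
      intro h
      apply h4
      have := congrArg Units.val h
      simpa [u] using this
    have ho : orderOf u = 3 := orderOf_eq_prime hu3 hu1
    have hd : orderOf u ∣ Fintype.card Fˣ := orderOf_dvd_card
    rw [ho, Fintype.card_units, hq] at hd
    omega

/-- The order of the centraliser. -/
theorem card_centralizer (hq : Fintype.card F = q) (h3 : q % 3 = 2) (x : symplecticGroup (Fin m) F)
    (hx2 : (x : Matrix (Fin m ⊕ Fin m) (Fin m ⊕ Fin m) F) * (x : Matrix (Fin m ⊕ Fin m) (Fin m ⊕ Fin m) F) +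
      (x : Matrix (Fin m ⊕ Fin m) (Fin m ⊕ Fin m) F) + 1 = 0) :
    Nat.card (Subgroup.centralizer ({x} : Set (symplecticGroup (Fin m) F))) =
      q ^ (m * (m - 1) / 2) * ∏ i ∈ Finset.range m, (if Even i then q ^ (i + 1) + 1 else q ^ (i + 1) - 1) := by
  have hXf := form_sp x
  obtain ⟨v, hv⟩ := exists_frame hq h3 hXf hx2
  have hf : Fr (x : Matrix (Fin m ⊕ Fin m) (Fin m ⊕ Fin m) F) q v := ⟨hq, h3, hXf, hx2, hv⟩
  rw [Nat.card_congr (cenEquiv hf), ← Nat.card_congr (guEquiv (card_E3 hq)), card_GU (card_E3 hq)]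

end Cfsg.Agent.H01.SpCen
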