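import Mathlib

/-! Involutions of symplectic spaces in characteristic two: systems and orthogonal decompositions. -/

set_option autoImplicit false
set_option linter.unusedSectionVars false

namespace Cfsg.Agent.H01.SpInv

universe u

/-- A finite symplectic space in characteristic two with a self-adjoint square-zero endomorphism
(the endomorphism `t - 1` of an involution `t`). -/
structure Sys (F : Type*) [Field F] where
  V : Type u
  [ag : AddCommGroup V]
  [md : Module F V]
  [fin : Finite V]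
  B : V → V → F
  add_l : ∀ x y z, B (x + y) z = B x z + B y z
  smul_l : ∀ (a : F) x z, B (a • x) z = a * B x z
  symm : ∀ x y, B x y = B y x
  alt : ∀ x, B x x = 0
  nd : ∀ x, (∀ y, B x y = 0) → x = 0
  N : V →ₗ[F] V
  N2 : ∀ x, N (N x) = 0
  Nsa : ∀ x y, B (N x) y = B x (N y)

attribute [instance] Sys.ag Sys.md Sys.fin

variable {F : Type*} [Field F]

namespace Sys

variable (S : Sys.{u} F)

lemma add_r (x y z : S.V) : S.B x (y + z) = S.B x y + S.B x z := by
  rw [S.symm, S.add_l, S.symm y, S.symm z]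

lemma smul_r (a : F) (x z : S.V) : S.B x (a • z) = a * S.B x z := by
  rw [S.symm, S.smul_l, S.symm z]

lemma zero_l (z : S.V) : S.B 0 z = 0 := by
  have := S.smul_l 0 0 z
  simpa using this

lemma zero_r (z : S.V) : S.B z 0 = 0 := by
  rw [S.symm, S.zero_l]

lemma sum_l {ι : Type*} (s : Finset ι) (f : ι → S.V) (z : S.V) : S.B (∑ i ∈ s, f i) z = ∑ i ∈ s, S.B (f i) z := by
  classical
  induction s using Finset.induction_on with
  | empty => simp [S.zero_l]
  | insert a s ha ih => rw [Finset.sum_insert ha, Finset.sum_insert ha, S.add_l, ih]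

lemma sum_r {ι : Type*} (s : Finset ι) (f : ι → S.V) (z : S.V) : S.B z (∑ i ∈ s, f i) = ∑ i ∈ s, S.B z (f i) := by
  rw [S.symm, S.sum_l]
  exact Finset.sum_congr rfl fun i _ => S.symm _ _

lemma neg_l (h2 : (2 : F) = 0) (x z : S.V) : S.B (-x) z = S.B x z := by
  have h := S.add_l x (-x) z
  rw [add_neg_cancel, S.zero_l] at h
  linear_combination -h - S.B x z * h2

lemma sub_l (h2 : (2 : F) = 0) (x y z : S.V) : S.B (x - y) z = S.B x z + S.B y z := by
  rw [sub_eq_add_neg, S.add_l, S.neg_l h2]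

lemma sub_r (h2 : (2 : F) = 0) (x y z : S.V) : S.B z (x - y) = S.B z x + S.B z y := by
  rw [S.symm, S.sub_l h2, S.symm x, S.symm y]

end Sys

/-- Isomorphisms of systems. -/
def Iso (S₁ S₂ : Sys.{u} F) : Type u :=
  {h : S₁.V ≃ₗ[F] S₂.V // (∀ x y, S₂.B (h x) (h y) = S₁.B x y) ∧ ∀ x, S₂.N (h x) = h (S₁.N x)}

namespace Iso

variable {S₁ S₂ S₃ : Sys.{u} F}

instance : Finite (Iso S₁ S₂) := by
  unfold Iso
  haveI : Finite (S₁.V ≃ₗ[F] S₂.V) := Finite.of_injective (fun e => (e : S₁.V → S₂.V)) (fun a b h => LinearEquiv.ext (congrFun h))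
  infer_instance

def refl (S : Sys.{u} F) : Iso S S := ⟨LinearEquiv.refl F S.V, fun _ _ => rfl, fun _ => rfl⟩

def trans (a : Iso S₁ S₂) (b : Iso S₂ S₃) : Iso S₁ S₃ :=
  ⟨a.1.trans b.1, fun x y => by
    show S₃.B (b.1 (a.1 x)) (b.1 (a.1 y)) = _
    rw [b.2.1, a.2.1], fun x => by
    show S₃.N (b.1 (a.1 x)) = b.1 (a.1 (S₁.N x))
    rw [b.2.2, a.2.2]⟩

def symm (a : Iso S₁ S₂) : Iso S₂ S₁ :=
  ⟨a.1.symm, fun x y => by
    have := a.2.1 (a.1.symm x) (a.1.symm y)
    simpa using this.symm, fun x => by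
    have := a.2.2 (a.1.symm x)
    rw [LinearEquiv.apply_symm_apply] at this
    rw [this, LinearEquiv.symm_apply_apply]⟩

/-- Isomorphisms into isomorphic targets are equinumerous. -/
lemma card_eq_of (a : Iso S₂ S₃) : Nat.card (Iso S₁ S₂) = Nat.card (Iso S₁ S₃) := by
  apply Nat.card_congr
  refine ⟨fun h => h.trans a, fun h => h.trans a.symm, fun h => ?_, fun h => ?_⟩
  · apply Subtype.ext
    apply LinearEquiv.ext
    intro x
    show a.1.symm (a.1 (h.1 x)) = h.1 x
    simp
  · apply Subtype.ext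
    apply LinearEquiv.ext
    intro x
    show a.1 (a.1.symm (h.1 x)) = h.1 x
    simp

end Iso

section Frame

variable {k : ℕ} (S : Sys.{u} F)

/-- Frames: small nondegenerate invariant pieces with a fixed shape. -/
structure IsFrame (σ : Fin k → Fin k) (τ : Fin k → Option (Fin k)) (x : Fin k → S.V) : Prop where
  inv : ∀ i, σ (σ i) = i
  gram : ∀ i j, S.B (x i) (x j) = if j = σ i then 1 else 0
  act : ∀ i, S.N (x i) = (τ i).elim 0 x

/-- The orthogonal complement of a family. -/
def Perp (x : Fin k → S.V) : Submodule F S.V where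
  carrier := {y | ∀ j, S.B y (x j) = 0}
  add_mem' := fun ha hb j => by rw [S.add_l, ha j, hb j, add_zero]
  zero_mem' := fun j => S.zero_l _
  smul_mem' := fun c y hy j => by rw [S.smul_l, hy j, mul_zero]

variable {S} {σ : Fin k → Fin k} {τ : Fin k → Option (Fin k)} {x : Fin k → S.V}

lemma mem_perp {y : S.V} : y ∈ Perp S x ↔ ∀ j, S.B y (x j) = 0 := Iff.rfl

/-- The coordinates of the component in the span of the frame. -/
def coef (S : Sys.{u} F) (σ : Fin k → Fin k) (x : Fin k → S.V) (y : S.V) : Fin k → F := fun i => S.B y (x (σ i))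

/-- The component in the span of a frame. -/
def spn (S : Sys.{u} F) (x : Fin k → S.V) (c : Fin k → F) : S.V := ∑ i, c i • x i

lemma B_spn_frame (hx : IsFrame S σ τ x) (c : Fin k → F) (j : Fin k) :
    S.B (spn S x c) (x (σ j)) = c j := by
  unfold spn
  rw [S.sum_l]
  simp only [S.smul_l, hx.gram]
  rw [Finset.sum_eq_single j]
  · simp
  · intro i _ hi
    have : σ j ≠ σ i := by
      intro h
      apply hi
      rw [← hx.inv i, ← h, hx.inv j]
    simp [this]
  · simp

lemma coef_spn (hx : IsFrame S σ τ x) (c : Fin k → F) : coef S σ x (spn S x c) = c := by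
  funext j
  exact B_spn_frame hx c j

lemma B_frame_right (hx : IsFrame S σ τ x) (c : Fin k → F) (j : Fin k) :
    S.B (spn S x c) (x j) = c (σ j) := by
  have := B_spn_frame hx c (σ j)
  rwa [hx.inv] at this

lemma sub_spn_mem (h2 : (2 : F) = 0) (hx : IsFrame S σ τ x) (y : S.V) :
    y - spn S x (coef S σ x y) ∈ Perp S x := by
  intro j
  rw [S.sub_l h2, B_frame_right hx]
  show S.B y (x j) + S.B y (x (σ (σ j))) = 0
  rw [hx.inv]
  linear_combination S.B y (x j) * h2

end Frame

end Cfsg.Agent.H01.SpInv
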