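import Cfsg.Agent.Lib.H01.SpInv1

/-! Decomposition along frames, gluing isomorphisms, and the count of automorphisms by frames. -/

set_option autoImplicit false
set_option linter.unusedSectionVars false

namespace Cfsg.Agent.H01.SpInv

universe u

variable {F : Type*} [Field F] [CharP F 2]

section Dec

variable {k : ℕ} {S : Sys.{u} F} {σ : Fin k → Fin k} {τ : Fin k → Option (Fin k)} {x : Fin k → S.V}

lemma coef_perp {y : S.V} (hy : y ∈ Perp S x) : coef S σ x y = 0 := by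
  funext i
  exact hy _

lemma spn_zero : spn S x 0 = 0 := by
  simp [spn]

lemma spn_add (c d : Fin k → F) : spn S x (c + d) = spn S x c + spn S x d := by
  simp [spn, add_smul, Finset.sum_add_distrib]

lemma spn_smul (a : F) (c : Fin k → F) : spn S x (a • c) = a • spn S x c := by
  simp [spn, Finset.smul_sum, mul_smul]

lemma spn_single (i : Fin k) : spn S x (Pi.single i 1) = x i := by
  classical
  unfold spn
  rw [Finset.sum_eq_single i]
  · simp
  · intro j _ hj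
    simp [Pi.single_apply, hj]
  · simp

lemma coef_add (y z : S.V) : coef S σ x (y + z) = coef S σ x y + coef S σ x z := by
  funext i
  exact S.add_l _ _ _

lemma coef_smul (a : F) (y : S.V) : coef S σ x (a • y) = a • coef S σ x y := by
  funext i
  exact S.smul_l _ _ _

lemma B_spn_perp {a : S.V} (ha : a ∈ Perp S x) (c : Fin k → F) : S.B (spn S x c) a = 0 := by
  unfold spn
  rw [S.sum_l]
  apply Finset.sum_eq_zero
  intro i _
  rw [S.smul_l, S.symm, ha i, mul_zero]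

lemma B_perp_spn {a : S.V} (ha : a ∈ Perp S x) (c : Fin k → F) : S.B a (spn S x c) = 0 := by
  rw [S.symm, B_spn_perp ha]

lemma B_spn_spn (hx : IsFrame S σ τ x) (c d : Fin k → F) :
    S.B (spn S x c) (spn S x d) = ∑ j, d j * c (σ j) := by
  conv_lhs => rw [spn.eq_1 S x d]
  rw [S.sum_r]
  apply Finset.sum_congr rfl
  intro j _
  rw [S.smul_r, B_frame_right hx]

/-- Every vector is the sum of its frame component and a perpendicular vector. -/
lemma eq_spn_add (y : S.V) : y = spn S x (coef S σ x y) + (y - spn S x (coef S σ x y)) := by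
  abel

/-- The decomposition along a frame. -/
def decEquiv (hx : IsFrame S σ τ x) : S.V ≃ₗ[F] (Fin k → F) × ↥(Perp S x) where
  toFun y := (coef S σ x y, ⟨y - spn S x (coef S σ x y), sub_spn_mem CharTwo.two_eq_zero hx y⟩)
  map_add' y z := by
    apply Prod.ext
    · exact coef_add y z
    · apply Subtype.ext
      show y + z - spn S x (coef S σ x (y + z)) = (y - spn S x (coef S σ x y)) + (z - spn S x (coef S σ x z))
      rw [coef_add, spn_add]
      abel
  map_smul' a y := by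
    apply Prod.ext
    · exact coef_smul a y
    · apply Subtype.ext
      show a • y - spn S x (coef S σ x (a • y)) = a • (y - spn S x (coef S σ x y))
      rw [coef_smul, spn_smul, smul_sub]
  invFun p := spn S x p.1 + p.2
  left_inv y := by
    show spn S x (coef S σ x y) + (y - spn S x (coef S σ x y)) = y
    abel
  right_inv p := by
    obtain ⟨c, a⟩ := p
    have h1 : coef S σ x (spn S x c + a) = c := by
      rw [coef_add, coef_spn hx, coef_perp a.2, add_zero]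
    apply Prod.ext
    · exact h1
    · apply Subtype.ext
      show spn S x c + a - spn S x (coef S σ x (spn S x c + a)) = a
      rw [h1]
      abel

lemma N_perp (hx : IsFrame S σ τ x) {a : S.V} (ha : a ∈ Perp S x) : S.N a ∈ Perp S x := by
  intro j
  rw [S.Nsa, hx.act]
  cases h : τ j with
  | none => exact S.zero_r _
  | some l => exact ha l

/-- The perpendicular system. -/
def Sub (hx : IsFrame S σ τ x) : Sys.{u} F where
  V := ↥(Perp S x)
  B a b := S.B a b
  add_l a b c := S.add_l _ _ _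
  smul_l c a b := S.smul_l _ _ _
  symm a b := S.symm _ _
  alt a := S.alt _
  nd a ha := by
    apply Subtype.ext
    apply S.nd
    intro y
    rw [eq_spn_add (σ := σ) (x := x) y, S.add_r, B_perp_spn a.2, zero_add]
    exact ha ⟨_, sub_spn_mem CharTwo.two_eq_zero hx y⟩
  N := (S.N).restrict (fun a ha => N_perp hx ha)
  N2 a := Subtype.ext (S.N2 _)
  Nsa a b := S.Nsa _ _

lemma Sub_B (hx : IsFrame S σ τ x) (a b : ↥(Perp S x)) : (Sub hx).B a b = S.B a.1 b.1 := rfl

/-- The action of `N` on the perpendicular system, as a map of the submodule. -/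
def subN (hx : IsFrame S σ τ x) (a : ↥(Perp S x)) : ↥(Perp S x) := (Sub hx).N a

lemma subN_val (hx : IsFrame S σ τ x) (a : ↥(Perp S x)) : (subN hx a).1 = S.N a.1 := rfl

end Dec

section Glue

variable {k : ℕ} {S₁ S₂ : Sys.{u} F} {σ : Fin k → Fin k} {τ : Fin k → Option (Fin k)} {x₁ : Fin k → S₁.V} {x₂ : Fin k → S₂.V}

/-- An isomorphism of perpendicular systems as a map of submodules. -/
def psi {h₁ : IsFrame S₁ σ τ x₁} {h₂ : IsFrame S₂ σ τ x₂} (ψ : Iso (Sub h₁) (Sub h₂)) (a : ↥(Perp S₁ x₁)) : ↥(Perp S₂ x₂) := ψ.1 a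

/-- The linear part of the gluing. -/
def glueL (h₁ : IsFrame S₁ σ τ x₁) (h₂ : IsFrame S₂ σ τ x₂) (ψ : Iso (Sub h₁) (Sub h₂)) : S₁.V ≃ₗ[F] S₂.V :=
  ((decEquiv h₁).trans (LinearEquiv.prodCongr (LinearEquiv.refl F (Fin k → F)) ψ.1)).trans (decEquiv h₂).symm

lemma glueL_apply (h₁ : IsFrame S₁ σ τ x₁) (h₂ : IsFrame S₂ σ τ x₂) (ψ : Iso (Sub h₁) (Sub h₂)) (c : Fin k → F) (a : ↥(Perp S₁ x₁)) :
    glueL h₁ h₂ ψ (spn S₁ x₁ c + a) = spn S₂ x₂ c + (psi ψ a).1 := by
  have h : decEquiv h₁ (spn S₁ x₁ c + a) = (c, a) := (decEquiv h₁).apply_symm_apply (c, a)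
  have h' : glueL h₁ h₂ ψ (spn S₁ x₁ c + a) = (decEquiv h₂).symm ((LinearEquiv.prodCongr (LinearEquiv.refl F (Fin k → F)) ψ.1) (decEquiv h₁ (spn S₁ x₁ c + a))) := rfl
  rw [h', h]
  rfl

lemma glueL_spn (h₁ : IsFrame S₁ σ τ x₁) (h₂ : IsFrame S₂ σ τ x₂) (ψ : Iso (Sub h₁) (Sub h₂)) (c : Fin k → F) :
    glueL h₁ h₂ ψ (spn S₁ x₁ c) = spn S₂ x₂ c := by
  have := glueL_apply h₁ h₂ ψ c 0
  have h0 : (psi ψ 0).1 = 0 := by
    have : psi ψ 0 = 0 := map_zero ψ.1
    rw [this]; rfl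
  rw [h0] at this
  simpa using this

lemma glueL_frame (h₁ : IsFrame S₁ σ τ x₁) (h₂ : IsFrame S₂ σ τ x₂) (ψ : Iso (Sub h₁) (Sub h₂)) (i : Fin k) :
    glueL h₁ h₂ ψ (x₁ i) = x₂ i := by
  have := glueL_spn h₁ h₂ ψ (Pi.single i 1)
  rwa [spn_single, spn_single] at this

lemma glueL_perp (h₁ : IsFrame S₁ σ τ x₁) (h₂ : IsFrame S₂ σ τ x₂) (ψ : Iso (Sub h₁) (Sub h₂)) (a : ↥(Perp S₁ x₁)) :
    glueL h₁ h₂ ψ a = (psi ψ a).1 := by
  have := glueL_apply h₁ h₂ ψ 0 a
  rw [spn_zero, spn_zero, zero_add, zero_add] at this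
  exact this

/-- Gluing an isomorphism of perpendicular systems along frames of the same shape. -/
def glue (h₁ : IsFrame S₁ σ τ x₁) (h₂ : IsFrame S₂ σ τ x₂) (ψ : Iso (Sub h₁) (Sub h₂)) : Iso S₁ S₂ :=
  ⟨glueL h₁ h₂ ψ, by
    intro y z
    have hy := eq_spn_add (σ := σ) (x := x₁) y
    have hz := eq_spn_add (σ := σ) (x := x₁) z
    set c := coef S₁ σ x₁ y
    set d := coef S₁ σ x₁ z
    set a : ↥(Perp S₁ x₁) := ⟨y - spn S₁ x₁ c, sub_spn_mem CharTwo.two_eq_zero h₁ y⟩ with ha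
    set b : ↥(Perp S₁ x₁) := ⟨z - spn S₁ x₁ d, sub_spn_mem CharTwo.two_eq_zero h₁ z⟩ with hb
    have hy' : y = spn S₁ x₁ c + a := hy
    have hz' : z = spn S₁ x₁ d + b := hz
    rw [hy', hz', glueL_apply, glueL_apply]
    rw [S₂.add_l, S₂.add_r, S₂.add_r, S₁.add_l, S₁.add_r, S₁.add_r]
    rw [B_spn_spn h₁, B_spn_spn h₂, B_spn_perp b.2, B_perp_spn a.2, B_spn_perp (psi ψ b).2, B_perp_spn (psi ψ a).2]
    have h7 : S₂.B (psi ψ a).1 (psi ψ b).1 = S₁.B a.1 b.1 := ψ.2.1 a b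
    rw [h7], by
    intro y
    have hy := eq_spn_add (σ := σ) (x := x₁) y
    set c := coef S₁ σ x₁ y
    set a : ↥(Perp S₁ x₁) := ⟨y - spn S₁ x₁ c, sub_spn_mem CharTwo.two_eq_zero h₁ y⟩ with ha
    have hy' : y = spn S₁ x₁ c + a := hy
    have key : ∀ i, S₂.N (x₂ i) = glueL h₁ h₂ ψ (S₁.N (x₁ i)) := by
      intro i
      rw [h₁.act, h₂.act]
      cases h : τ i with
      | none => simp
      | some l => exact (glueL_frame h₁ h₂ ψ l).symm
    have hspn : S₂.N (spn S₂ x₂ c) = glueL h₁ h₂ ψ (S₁.N (spn S₁ x₁ c)) := by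
      unfold spn
      rw [map_sum, map_sum, map_sum]
      apply Finset.sum_congr rfl
      intro i _
      rw [map_smul, map_smul, map_smul, key]
    rw [hy', glueL_apply, map_add, map_add, map_add, hspn]
    congr 1
    have h4 : S₂.N (psi ψ a).1 = (psi ψ (subN h₁ a)).1 := congrArg Subtype.val (ψ.2.2 a)
    rw [h4]
    exact (glueL_perp h₁ h₂ ψ (subN h₁ a)).symm⟩

lemma glue_frame (h₁ : IsFrame S₁ σ τ x₁) (h₂ : IsFrame S₂ σ τ x₂) (ψ : Iso (Sub h₁) (Sub h₂)) (i : Fin k) :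
    (glue h₁ h₂ ψ).1 (x₁ i) = x₂ i := glueL_frame h₁ h₂ ψ i

/-- Restricting an isomorphism that matches frames. -/
def restr (h₁ : IsFrame S₁ σ τ x₁) (h₂ : IsFrame S₂ σ τ x₂) (h : Iso S₁ S₂) (hh : ∀ i, h.1 (x₁ i) = x₂ i) : Iso (Sub h₁) (Sub h₂) :=
  ⟨({ toFun := fun a => ⟨h.1 a.1, fun j => by
        have := h.2.1 a.1 (x₁ j)
        rw [hh] at this
        rw [this]
        exact a.2 j⟩
      map_add' := fun a b => Subtype.ext (map_add h.1 _ _)
      map_smul' := fun c a => Subtype.ext (map_smul h.1 _ _)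
      invFun := fun b => ⟨h.1.symm b.1, fun j => by
        have := h.2.1 (h.1.symm b.1) (x₁ j)
        rw [hh, LinearEquiv.apply_symm_apply] at this
        rw [← this]
        exact b.2 j⟩
      left_inv := fun a => Subtype.ext (h.1.symm_apply_apply _)
      right_inv := fun b => Subtype.ext (h.1.apply_symm_apply _) } : ↥(Perp S₁ x₁) ≃ₗ[F] ↥(Perp S₂ x₂)), fun a b => h.2.1 _ _, fun a => Subtype.ext (h.2.2 _)⟩

lemma restr_apply (h₁ : IsFrame S₁ σ τ x₁) (h₂ : IsFrame S₂ σ τ x₂) (h : Iso S₁ S₂) (hh : ∀ i, h.1 (x₁ i) = x₂ i) (a : ↥(Perp S₁ x₁)) :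
    (psi (restr h₁ h₂ h hh) a).1 = h.1 a := rfl

/-- Isomorphisms agreeing on a frame and its perpendicular are equal. -/
lemma iso_ext (h₁ : IsFrame S₁ σ τ x₁) (g h : Iso S₁ S₂) (h1 : ∀ i, g.1 (x₁ i) = h.1 (x₁ i)) (h3 : ∀ a : ↥(Perp S₁ x₁), g.1 a = h.1 a) : g = h := by
  apply Subtype.ext
  apply LinearEquiv.ext
  intro y
  rw [eq_spn_add (σ := σ) (x := x₁) y]
  have ha := h3 ⟨y - spn S₁ x₁ (coef S₁ σ x₁ y), sub_spn_mem CharTwo.two_eq_zero h₁ y⟩
  simp only [] at ha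
  rw [map_add, map_add, ha]
  congr 1
  unfold spn
  rw [map_sum, map_sum]
  apply Finset.sum_congr rfl
  intro i _
  rw [map_smul, map_smul, h1]

/-- The fibre of the frame map is a set of isomorphisms of perpendicular systems. -/
def fibEquiv (h₁ : IsFrame S₁ σ τ x₁) (h₂ : IsFrame S₂ σ τ x₂) :
    {h : Iso S₁ S₂ // ∀ i, h.1 (x₁ i) = x₂ i} ≃ Iso (Sub h₁) (Sub h₂) where
  toFun h := restr h₁ h₂ h.1 h.2
  invFun ψ := ⟨glue h₁ h₂ ψ, glue_frame h₁ h₂ ψ⟩
  left_inv h := by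
    apply Subtype.ext
    apply iso_ext h₁
    · intro i
      rw [glue_frame, h.2]
    · intro a
      exact glueL_perp h₁ h₂ _ a
  right_inv ψ := by
    apply Subtype.ext
    apply LinearEquiv.ext
    intro a
    apply Subtype.ext
    exact glueL_perp h₁ h₂ ψ a

end Glue

section Count

variable {k : ℕ} {S : Sys.{u} F} {σ : Fin k → Fin k} {τ : Fin k → Option (Fin k)} {x₀ : Fin k → S.V}

/-- Counting automorphisms by the images of a frame. -/
theorem card_iso (h₀ : IsFrame S σ τ x₀) (X : Set (Fin k → S.V)) (hX : ∀ ξ ∈ X, IsFrame S σ τ ξ)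
    (hInv : ∀ h : Iso S S, (fun i => h.1 (x₀ i)) ∈ X)
    (hNe : ∀ ξ (hξ : ξ ∈ X), Nonempty (Iso (Sub h₀) (Sub (hX ξ hξ)))) :
    Nat.card (Iso S S) = Nat.card X * Nat.card (Iso (Sub h₀) (Sub h₀)) := by
  classical
  haveI : Fintype X := Fintype.ofFinite _
  let φ : Iso S S → X := fun h => ⟨fun i => h.1 (x₀ i), hInv h⟩
  have e1 := Nat.card_congr (Equiv.sigmaFiberEquiv φ).symm
  rw [e1, Nat.card_sigma]
  have e2 : ∀ ξ : X, Nat.card {h : Iso S S // φ h = ξ} = Nat.card (Iso (Sub h₀) (Sub h₀)) := by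
    intro ξ
    obtain ⟨ξ, hξ⟩ := ξ
    obtain ⟨b⟩ := hNe ξ hξ
    rw [Iso.card_eq_of (S₁ := Sub h₀) b]
    rw [← Nat.card_congr (fibEquiv h₀ (hX ξ hξ))]
    apply Nat.card_congr
    apply Equiv.subtypeEquivRight
    intro h
    constructor
    · intro hh i
      have := congrArg Subtype.val hh
      exact congrFun this i
    · intro hh
      apply Subtype.ext
      funext i
      exact hh i
  rw [Finset.sum_congr rfl (fun ξ _ => e2 ξ), Finset.sum_const, Finset.card_univ, smul_eq_mul, Nat.card_eq_fintype_card (α := X)]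

end Count

section Cards

variable {k : ℕ} {S : Sys.{u} F} {σ : Fin k → Fin k} {τ : Fin k → Option (Fin k)} {x : Fin k → S.V}

/-- The number of vectors killed by `N`. -/
noncomputable def kerC (S : Sys.{u} F) : ℕ := Nat.card {y : S.V // S.N y = 0}

lemma card_V (hx : IsFrame S σ τ x) : Nat.card S.V = Nat.card F ^ k * Nat.card (Sub hx).V := by
  rw [Nat.card_congr (decEquiv hx).toEquiv, Nat.card_prod]
  congr 1
  simp [Nat.card_fun]

lemma N_dec (hx : IsFrame S σ τ x) (c : Fin k → F) (a : ↥(Perp S x)) :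
    S.N (spn S x c + a) = 0 ↔ S.N (spn S x c) = 0 ∧ S.N a = 0 := by
  constructor
  · intro h
    rw [map_add] at h
    have h1 : S.N a = 0 := by
      apply S.nd
      intro y
      rw [eq_spn_add (σ := σ) (x := x) y, S.add_r]
      have hm : S.N a ∈ Perp S x := N_perp hx a.2
      rw [B_perp_spn hm, zero_add]
      have hb := sub_spn_mem (σ := σ) CharTwo.two_eq_zero hx y
      have h3 : S.N a = - S.N (spn S x c) := by
        rw [eq_neg_iff_add_eq_zero, add_comm]; exact h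
      rw [h3, S.neg_l CharTwo.two_eq_zero, S.Nsa]
      exact B_spn_perp (N_perp hx hb) c
    rw [h1, add_zero] at h
    exact ⟨h, h1⟩
  · rintro ⟨h1, h3⟩
    rw [map_add, h1, h3, add_zero]

lemma card_ker (hx : IsFrame S σ τ x) :
    kerC S = Nat.card {c : Fin k → F // S.N (spn S x c) = 0} * kerC (Sub hx) := by
  have e : kerC (Sub hx) = Nat.card {a : ↥(Perp S x) // S.N a.1 = 0} := by
    unfold kerC
    apply Nat.card_congr
    exact ⟨fun y => ⟨y.1, congrArg Subtype.val y.2⟩, fun y => ⟨y.1, Subtype.ext y.2⟩, fun _ => rfl, fun _ => rfl⟩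
  rw [e]
  unfold kerC
  rw [← Nat.card_prod]
  symm
  apply Nat.card_eq_of_bijective (fun p : {c : Fin k → F // S.N (spn S x c) = 0} × {a : ↥(Perp S x) // S.N a.1 = 0} =>
    (⟨spn S x p.1.1 + p.2.1.1, (N_dec hx _ _).2 ⟨p.1.2, p.2.2⟩⟩ : {y : S.V // S.N y = 0}))
  constructor
  · rintro ⟨⟨c, hc⟩, ⟨a, ha⟩⟩ ⟨⟨d, hd⟩, ⟨b, hb⟩⟩ h
    have h1 : spn S x c + a.1 = spn S x d + b.1 := congrArg Subtype.val h
    have h3 : decEquiv hx (spn S x c + a.1) = decEquiv hx (spn S x d + b.1) := by rw [h1]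
    have h5 : decEquiv hx (spn S x c + a.1) = (c, a) := (decEquiv hx).apply_symm_apply (c, a)
    have h6 : decEquiv hx (spn S x d + b.1) = (d, b) := (decEquiv hx).apply_symm_apply (d, b)
    rw [h5, h6] at h3
    have h4 := congrArg Prod.fst h3
    have h7 := congrArg Prod.snd h3
    simp only [] at h4 h7
    subst h4
    subst h7
    rfl
  · rintro ⟨y, hy⟩
    have hd := eq_spn_add (σ := σ) (x := x) y
    have hb := sub_spn_mem (σ := σ) CharTwo.two_eq_zero hx y
    rw [hd] at hy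
    have h1 := (N_dec hx (coef S σ x y) ⟨_, hb⟩).1 hy
    refine ⟨(⟨coef S σ x y, h1.1⟩, ⟨⟨_, hb⟩, h1.2⟩), ?_⟩
    apply Subtype.ext
    exact hd.symm

end Cards

end Cfsg.Agent.H01.SpInv
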