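import Cfsg.Agent.Lib.H01.SpInv2

/-! Counting lemmas and the shapes of frames. -/

set_option autoImplicit false
set_option linter.unusedSectionVars false

namespace Cfsg.Agent.H01.SpInv

universe u

variable {F : Type*} [Field F] [CharP F 2] [Finite F]

section Lin

variable (S : Sys.{u} F)

/-- The pairing with a family of vectors. -/
def pairL {r : ℕ} (y : Fin r → S.V) : S.V →ₗ[F] (Fin r → F) where
  toFun w i := S.B w (y i)
  map_add' a b := by funext i; exact S.add_l _ _ _
  map_smul' c a := by funext i; exact S.smul_l _ _ _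

variable {S}

lemma pairL_surj {r : ℕ} (y : Fin r → S.V) (hy : ∀ c : Fin r → F, ∑ i, c i • y i = 0 → c = 0) :
    Function.Surjective (pairL S y) := by
  classical
  rw [← LinearMap.range_eq_top]
  by_contra hne
  obtain ⟨f, hf, hle⟩ := Submodule.exists_le_ker_of_lt_top _ (lt_top_iff_ne_top.2 hne)
  apply hf
  let l : Fin r → F := fun i => f (fun j => if i = j then 1 else 0)
  have hl : l = 0 := by
    apply hy
    apply S.nd
    intro w
    rw [S.symm, S.sum_r]
    have h1 : f (pairL S y w) = 0 := hle ⟨w, rfl⟩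
    rw [LinearMap.pi_apply_eq_sum_univ f] at h1
    rw [← h1]
    apply Finset.sum_congr rfl
    intro i _
    rw [S.smul_r, smul_eq_mul]
    exact mul_comm _ _
  apply LinearMap.ext
  intro c
  rw [LinearMap.pi_apply_eq_sum_univ f]
  apply Finset.sum_eq_zero
  intro i _
  have : f (fun j => if i = j then 1 else 0) = l i := rfl
  rw [this, hl]
  simp

/-- Fibres of a surjective linear map over finite fields. -/
lemma card_fib {r : ℕ} (y : Fin r → S.V) (hy : ∀ c : Fin r → F, ∑ i, c i • y i = 0 → c = 0) (c : Fin r → F) :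
    Nat.card {w : S.V // ∀ i, S.B w (y i) = c i} * Nat.card F ^ r = Nat.card S.V := by
  classical
  have hs := pairL_surj y hy
  have key : ∀ c : Fin r → F, Nat.card {w : S.V // pairL S y w = c} = Nat.card {w : S.V // pairL S y w = 0} := by
    intro c
    obtain ⟨w₀, hw₀⟩ := hs c
    apply Nat.card_congr
    refine ⟨fun w => ⟨w.1 - w₀, by rw [map_sub, w.2, hw₀, sub_self]⟩, fun w => ⟨w.1 + w₀, by rw [map_add, w.2, hw₀, zero_add]⟩, fun w => ?_, fun w => ?_⟩
    · apply Subtype.ext
      simp
    · apply Subtype.ext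
      simp
  have e1 : Nat.card {w : S.V // ∀ i, S.B w (y i) = c i} = Nat.card {w : S.V // pairL S y w = c} := by
    apply Nat.card_congr
    apply Equiv.subtypeEquivRight
    intro w
    exact ⟨fun h => funext h, fun h i => congrFun h i⟩
  rw [e1, key c]
  have e2 := Nat.card_congr (Equiv.sigmaFiberEquiv (pairL S y)).symm
  haveI : Fintype (Fin r → F) := Fintype.ofFinite _
  rw [Nat.card_sigma, Finset.sum_congr rfl (fun c _ => key c), Finset.sum_const, Finset.card_univ, smul_eq_mul] at e2
  have e3 : Fintype.card (Fin r → F) = Nat.card F ^ r := by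
    rw [← Nat.card_eq_fintype_card, Nat.card_fun, Nat.card_eq_fintype_card (α := Fin r), Fintype.card_fin]
  rw [e2, e3, mul_comm]

lemma card_fib1 (y : S.V) (hy : y ≠ 0) (c : F) :
    Nat.card {w : S.V // S.B w y = c} * Nat.card F = Nat.card S.V := by
  have := card_fib (S := S) (r := 1) (fun _ => y) (by
    intro l hl
    simp only [Fin.sum_univ_one] at hl
    funext i
    fin_cases i
    exact (smul_eq_zero.1 hl).resolve_right hy) (fun _ => c)
  rw [pow_one] at this
  rw [← this]
  congr 1
  apply Nat.card_congr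
  apply Equiv.subtypeEquivRight
  intro w
  exact ⟨fun h _ => h, fun h => h 0⟩

lemma card_fib2 (y z : S.V) (hy : ∀ a b : F, a • y + b • z = 0 → a = 0 ∧ b = 0) (c d : F) :
    Nat.card {w : S.V // S.B w y = c ∧ S.B w z = d} * Nat.card F ^ 2 = Nat.card S.V := by
  have := card_fib (S := S) (r := 2) ![y, z] (by
    intro l hl
    simp only [Fin.sum_univ_two, Matrix.cons_val_zero, Matrix.cons_val_one] at hl
    have h := hy _ _ hl
    funext i
    fin_cases i
    · exact h.1
    · exact h.2) ![c, d]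
  rw [← this]
  congr 1
  apply Nat.card_congr
  apply Equiv.subtypeEquivRight
  intro w
  constructor
  · rintro ⟨h1, h3⟩ i
    fin_cases i
    · exact h1
    · exact h3
  · intro h
    exact ⟨h 0, h 1⟩

end Lin

lemma two_le_card : 2 ≤ Nat.card F := by
  haveI : Fintype F := Fintype.ofFinite _
  rw [Nat.card_eq_fintype_card]
  exact Fintype.one_lt_card

section Shapes

/-- Shapes of frames. -/
def σ2 : Fin 2 → Fin 2 := ![1, 0]
def τh : Fin 2 → Option (Fin 2) := ![none, none]
def τb : Fin 2 → Option (Fin 2) := ![some 1, none]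
def σ4 : Fin 4 → Fin 4 := ![3, 2, 1, 0]
def τa : Fin 4 → Option (Fin 4) := ![some 2, some 3, none, none]

variable {S : Sys.{u} F}

/-- Type `a`: `B x (N x)` vanishes. -/
def IsA (S : Sys.{u} F) : Prop := ∀ x, S.B x (S.N x) = 0

lemma frH (hN : ∀ x, S.N x = 0) (e f : S.V) (h : S.B e f = 1) : IsFrame S σ2 τh ![e, f] where
  inv := by decide
  gram := by
    intro i j
    fin_cases i <;> fin_cases j <;> simp [σ2, S.alt, h, S.symm f e]
  act := by
    intro i
    fin_cases i <;> simp [τh, hN]

lemma B_NN (a b : S.V) : S.B (S.N a) (S.N b) = 0 := by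
  rw [S.Nsa, S.N2, S.zero_r]

lemma frB (v : S.V) (h : S.B v (S.N v) = 1) : IsFrame S σ2 τb ![v, S.N v] where
  inv := by decide
  gram := by
    intro i j
    fin_cases i <;> fin_cases j <;> simp [σ2, S.alt, h, S.symm (S.N v) v]
  act := by
    intro i
    fin_cases i <;> simp [τb, S.N2]

lemma frA (hA : IsA S) (v w : S.V) (h1 : S.B w v = 0) (h3 : S.B w (S.N v) = 1) : IsFrame S σ4 τa ![v, w, S.N v, S.N w] where
  inv := by decide
  gram := by
    intro i j
    have a1 : S.B v w = 0 := by rw [S.symm, h1]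
    have a3 : S.B (S.N v) w = 1 := by rw [S.symm, h3]
    have a2 : S.B v (S.N w) = 1 := by rw [← S.Nsa, a3]
    have a4 : S.B (S.N w) v = 1 := by rw [S.symm, a2]
    fin_cases i <;> fin_cases j <;> simp [σ4, S.alt, hA v, hA w, B_NN, a1, a2, a3, a4, h1, h3, S.symm (S.N v) v, S.symm (S.N w) w]
  act := by
    intro i
    fin_cases i <;> simp [τa, S.N2]

/-- A frame of shape `h` in a system with `N = 0`. -/
lemma frH_eta {x : Fin 2 → S.V} : x = ![x 0, x 1] := by
  funext i
  fin_cases i <;> rfl

lemma frA_eta {x : Fin 4 → S.V} (hx : IsFrame S σ4 τa x) : x = ![x 0, x 1, S.N (x 0), S.N (x 1)] := by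
  have h0 := hx.act 0
  have h1 := hx.act 1
  simp only [τa, Matrix.cons_val_zero, Matrix.cons_val_one, Option.elim] at h0 h1
  funext i
  fin_cases i
  · rfl
  · rfl
  · exact h0.symm
  · exact h1.symm

lemma frB_eta {x : Fin 2 → S.V} (hx : IsFrame S σ2 τb x) : x = ![x 0, S.N (x 0)] := by
  have h0 := hx.act 0
  simp only [τb, Matrix.cons_val_zero, Option.elim] at h0
  funext i
  fin_cases i
  · rfl
  · exact h0.symm

lemma frB_one {x : Fin 2 → S.V} (hx : IsFrame S σ2 τb x) : S.B (x 0) (S.N (x 0)) = 1 := by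
  have h0 := hx.act 0
  simp only [τb, Matrix.cons_val_zero, Option.elim] at h0
  rw [h0]
  have := hx.gram 0 1
  simpa [σ2] using this

/-- Frames transported by isomorphisms. -/
lemma IsFrame.map {S₁ S₂ : Sys.{u} F} {k : ℕ} {σ : Fin k → Fin k} {τ : Fin k → Option (Fin k)} {x : Fin k → S₁.V}
    (hx : IsFrame S₁ σ τ x) (h : Iso S₁ S₂) : IsFrame S₂ σ τ (fun i => h.1 (x i)) where
  inv := hx.inv
  gram i j := by rw [h.2.1, hx.gram]
  act i := by
    rw [h.2.2, hx.act]
    cases τ i with
    | none => simp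
    | some l => rfl

lemma kappaH (hN : ∀ x, S.N x = 0) {x : Fin 2 → S.V} :
    Nat.card {c : Fin 2 → F // S.N (spn S x c) = 0} = Nat.card F ^ 2 := by
  have : Nat.card {c : Fin 2 → F // S.N (spn S x c) = 0} = Nat.card (Fin 2 → F) := by
    apply Nat.card_congr
    exact Equiv.subtypeUnivEquiv (fun c => hN _)
  rw [this]
  simp [Nat.card_fun]

lemma kappaB {x : Fin 2 → S.V} (hx : IsFrame S σ2 τb x) :
    Nat.card {c : Fin 2 → F // S.N (spn S x c) = 0} = Nat.card F := by
  have h0 := hx.act 0
  have h1 := hx.act 1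
  simp only [τb, Matrix.cons_val_zero, Matrix.cons_val_one, Option.elim] at h0 h1
  have key : ∀ c : Fin 2 → F, S.N (spn S x c) = 0 ↔ c 0 = 0 := by
    intro c
    have : S.N (spn S x c) = c 0 • x 1 := by
      unfold spn
      rw [map_sum, Fin.sum_univ_two, map_smul, map_smul, h0, h1, smul_zero, add_zero]
    rw [this]
    constructor
    · intro h
      have h3 := congrArg (fun z => S.B z (x 0)) h
      simp only [S.smul_l, S.zero_l, hx.gram] at h3
      simpa [σ2] using h3
    · intro h
      rw [h, zero_smul]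
  apply Nat.card_congr
  refine ⟨fun c => c.1 1, fun a => ⟨![0, a], (key _).2 rfl⟩, fun c => ?_, fun a => rfl⟩
  apply Subtype.ext
  funext i
  fin_cases i
  · exact ((key _).1 c.2).symm
  · rfl

lemma kappaA {x : Fin 4 → S.V} (hx : IsFrame S σ4 τa x) :
    Nat.card {c : Fin 4 → F // S.N (spn S x c) = 0} = Nat.card F ^ 2 := by
  have h0 := hx.act 0
  have h1 := hx.act 1
  have h2 := hx.act 2
  have h3 := hx.act 3
  simp only [τa] at h0 h1 h2 h3
  have h0' : S.N (x 0) = x 2 := h0
  have h1' : S.N (x 1) = x 3 := h1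
  have h2' : S.N (x 2) = 0 := h2
  have h3' : S.N (x 3) = 0 := h3
  have key : ∀ c : Fin 4 → F, S.N (spn S x c) = 0 ↔ c 0 = 0 ∧ c 1 = 0 := by
    intro c
    have : S.N (spn S x c) = c 0 • x 2 + c 1 • x 3 := by
      unfold spn
      rw [map_sum, Fin.sum_univ_four, map_smul, map_smul, map_smul, map_smul, h0', h1', h2', h3', smul_zero, smul_zero, add_zero, add_zero]
    rw [this]
    constructor
    · intro h
      have a1 := congrArg (fun z => S.B z (x 1)) h
      have a2 := congrArg (fun z => S.B z (x 0)) h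
      simp only [S.add_l, S.smul_l, S.zero_l, hx.gram] at a1 a2
      have e1 : σ4 2 = 1 := rfl
      have e2 : σ4 3 = 0 := rfl
      simp [e1, e2] at a1 a2
      exact ⟨a1, a2⟩
    · rintro ⟨a1, a2⟩
      rw [a1, a2, zero_smul, zero_smul, add_zero]
  rw [pow_two, ← Nat.card_prod]
  apply Nat.card_congr
  refine ⟨fun c => (c.1 2, c.1 3), fun a => ⟨![0, 0, a.1, a.2], (key _).2 ⟨rfl, rfl⟩⟩, fun c => ?_, fun a => rfl⟩
  apply Subtype.ext
  funext i
  have hc := (key _).1 c.2
  fin_cases i
  · exact hc.1.symm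
  · exact hc.2.symm
  · rfl
  · rfl

end Shapes

end Cfsg.Agent.H01.SpInv
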