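import Cfsg.Agent.Lib.H01.SpInv3

/-! Counting frames, and the three classes of systems. -/

set_option autoImplicit false
set_option linter.unusedSectionVars false

namespace Cfsg.Agent.H01.SpInv

universe u

variable {F : Type*} [Field F] [CharP F 2] [Finite F]

lemma card_compl {α : Type*} [Finite α] (P : α → Prop) : Nat.card {a // ¬ P a} = Nat.card α - Nat.card {a // P a} := by
  classical
  have := Nat.card_congr (Equiv.sumCompl P)
  rw [Nat.card_sum] at this
  omega

lemma sq_eq_one_char2 {a : F} (h : a ^ 2 = 1) : a = 1 := by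
  have h2 : (2 : F) = 0 := CharTwo.two_eq_zero
  have : (a + 1) ^ 2 = 0 := by
    linear_combination h + (a + 1) * h2
  have := pow_eq_zero_iff (two_ne_zero) |>.1 this
  linear_combination this - h2

lemma sq_inj_char2 {a b : F} (h : a ^ 2 = b ^ 2) : a = b := by
  have h2 : (2 : F) = 0 := CharTwo.two_eq_zero
  have : (a + b) ^ 2 = 0 := by
    linear_combination h + (a * b + b ^ 2) * h2
  have := pow_eq_zero_iff (two_ne_zero) |>.1 this
  linear_combination this - b * h2

variable {S : Sys.{u} F}

lemma pos_V : 0 < Nat.card S.V := Nat.card_pos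

lemma q_pos : 0 < Nat.card F := Nat.card_pos

lemma kerC_le : kerC S ≤ Nat.card S.V := by
  unfold kerC
  exact Nat.card_le_card_of_injective _ Subtype.val_injective

lemma kerC_eq_card_iff : kerC S = Nat.card S.V ↔ ∀ x, S.N x = 0 := by
  constructor
  · intro h
    by_contra hne
    push Not at hne
    obtain ⟨x, hx⟩ := hne
    have : Nat.card {a : S.V // ¬ S.N a = 0} = Nat.card S.V - kerC S := card_compl _
    rw [h, Nat.sub_self] at this
    haveI : Nonempty {a : S.V // ¬ S.N a = 0} := ⟨⟨x, hx⟩⟩
    have hp : 0 < Nat.card {a : S.V // ¬ S.N a = 0} := Nat.card_pos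
    omega
  · intro h
    unfold kerC
    apply Nat.card_congr
    exact Equiv.subtypeUnivEquiv h

section X

/-- Frames of shape `h`. -/
def XH (S : Sys.{u} F) : Set (Fin 2 → S.V) := {x | IsFrame S σ2 τh x}

/-- Frames of shape `a`. -/
def XA (S : Sys.{u} F) : Set (Fin 4 → S.V) := {x | IsFrame S σ4 τa x}

/-- Frames of shape `b`. -/
def XC (S : Sys.{u} F) : Set (Fin 2 → S.V) := {x | IsFrame S σ2 τb x}

/-- Frames of shape `b` with prescribed image. -/
def XB (S : Sys.{u} F) (d : S.V) : Set (Fin 2 → S.V) := {x | IsFrame S σ2 τb x ∧ S.N (x 0) = S.N d}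

/-- `d` represents the quadratic map `x ↦ B x (N x)`. -/
def Dd (S : Sys.{u} F) (d : S.V) : Prop := ∀ x, (S.B x (S.N d)) ^ 2 = S.B x (S.N x)

lemma card_XH (hN : ∀ x, S.N x = 0) {n : ℕ} (hV : Nat.card S.V = Nat.card F ^ (n + 1)) :
    Nat.card (XH S) = (Nat.card F ^ (n + 1) - 1) * Nat.card F ^ n := by
  classical
  have e : XH S ≃ Σ e : {e : S.V // ¬ e = 0}, {f : S.V // S.B f e.1 = 1} :=
    { toFun := fun x => ⟨⟨x.1 0, fun h0 => by
          have := x.2.gram 0 1
          rw [h0, S.zero_l] at this
          simp [σ2] at this⟩, ⟨x.1 1, by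
          have := x.2.gram 1 0
          simpa [σ2] using this⟩⟩
      invFun := fun p => ⟨![p.1.1, p.2.1], frH hN _ _ (by rw [S.symm]; exact p.2.2)⟩
      left_inv := fun x => Subtype.ext frH_eta.symm
      right_inv := fun p => rfl }
  rw [Nat.card_congr e]
  haveI : Fintype {e : S.V // ¬ e = 0} := Fintype.ofFinite _
  rw [Nat.card_sigma]
  have hf : ∀ e : {e : S.V // ¬ e = 0}, Nat.card {f : S.V // S.B f e.1 = 1} = Nat.card F ^ n := by
    intro e
    have := card_fib1 e.1 e.2 (1 : F)
    rw [hV, pow_succ] at this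
    exact Nat.eq_of_mul_eq_mul_right q_pos this
  rw [Finset.sum_congr rfl (fun e _ => hf e), Finset.sum_const, Finset.card_univ, smul_eq_mul, ← Nat.card_eq_fintype_card, card_compl, hV]
  congr 2
  exact Nat.card_unique

lemma card_XA (hA : IsA S) {n : ℕ} (hV : Nat.card S.V = Nat.card F ^ (n + 2)) :
    Nat.card (XA S) = (Nat.card F ^ (n + 2) - kerC S) * Nat.card F ^ n := by
  classical
  have e : XA S ≃ Σ v : {v : S.V // ¬ S.N v = 0}, {w : S.V // S.B w v.1 = 0 ∧ S.B w (S.N v.1) = 1} :=
    { toFun := fun x => ⟨⟨x.1 0, fun h0 => by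
          have h1 := x.2.act 0
          simp only [τa] at h1
          have h1' : S.N (x.1 0) = x.1 2 := h1
          have h3 := x.2.gram 1 2
          rw [← h1', h0, S.zero_r] at h3
          simp [σ4] at h3⟩, ⟨x.1 1, by
          have := x.2.gram 1 0
          simpa [σ4] using this, by
          have h1 := x.2.act 0
          simp only [τa] at h1
          have h1' : S.N (x.1 0) = x.1 2 := h1
          rw [h1']
          have := x.2.gram 1 2
          simpa [σ4] using this⟩⟩
      invFun := fun p => ⟨![p.1.1, p.2.1, S.N p.1.1, S.N p.2.1], frA hA _ _ p.2.2.1 p.2.2.2⟩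
      left_inv := fun x => Subtype.ext (frA_eta x.2).symm
      right_inv := fun p => rfl }
  rw [Nat.card_congr e]
  haveI : Fintype {v : S.V // ¬ S.N v = 0} := Fintype.ofFinite _
  rw [Nat.card_sigma]
  have hf : ∀ v : {v : S.V // ¬ S.N v = 0}, Nat.card {w : S.V // S.B w v.1 = 0 ∧ S.B w (S.N v.1) = 1} = Nat.card F ^ n := by
    intro v
    have := card_fib2 v.1 (S.N v.1) (by
      intro a b hab
      have h1 := congrArg S.N hab
      rw [map_add, map_smul, map_smul, S.N2, smul_zero, add_zero, map_zero] at h1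
      have ha : a = 0 := (smul_eq_zero.1 h1).resolve_right v.2
      rw [ha, zero_smul, zero_add] at hab
      exact ⟨ha, (smul_eq_zero.1 hab).resolve_right v.2⟩) (0 : F) (1 : F)
    rw [hV, pow_add] at this
    exact Nat.eq_of_mul_eq_mul_right (pow_pos q_pos 2) this
  rw [Finset.sum_congr rfl (fun e _ => hf e), Finset.sum_const, Finset.card_univ, smul_eq_mul, ← Nat.card_eq_fintype_card, card_compl, hV]
  rfl

lemma card_XC {d : S.V} (hd : Dd S d) (hNd : S.N d ≠ 0) {n : ℕ} (hV : Nat.card S.V = Nat.card F ^ (n + 1)) :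
    Nat.card (XC S) = Nat.card F ^ n := by
  have h1 := card_fib1 (S.N d) hNd (1 : F)
  rw [hV, pow_succ] at h1
  rw [← Nat.eq_of_mul_eq_mul_right q_pos h1]
  apply Nat.card_congr
  exact
    { toFun := fun x => ⟨x.1 0, by
        apply sq_eq_one_char2
        rw [hd, frB_one x.2]⟩
      invFun := fun v => ⟨![v.1, S.N v.1], frB _ (by
        rw [← hd, v.2, one_pow])⟩
      left_inv := fun x => Subtype.ext (frB_eta x.2).symm
      right_inv := fun v => rfl }

lemma B_of_N_eq {d v : S.V} (hv : S.N v = S.N d) : S.B v (S.N d) = S.B d (S.N d) := by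
  have h : S.B (v - d) (S.N d) = 0 := by
    rw [← S.Nsa, map_sub, hv, sub_self, S.zero_l]
  rw [S.sub_l CharTwo.two_eq_zero] at h
  have h2 : (2 : F) = 0 := CharTwo.two_eq_zero
  linear_combination h - S.B d (S.N d) * h2

lemma card_XB {d : S.V} (hd : Dd S d) (hy : S.B d (S.N d) = 1) :
    Nat.card (XB S d) = kerC S := by
  unfold kerC
  apply Nat.card_congr
  exact
    { toFun := fun x => ⟨x.1 0 - d, by rw [map_sub, x.2.2, sub_self]⟩
      invFun := fun v => ⟨![v.1 + d, S.N (v.1 + d)], ⟨frB _ (by
          have h1 : S.N (v.1 + d) = S.N d := by rw [map_add, v.2, zero_add]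
          rw [h1, B_of_N_eq h1, hy]), by
          show S.N (v.1 + d) = S.N d
          rw [map_add, v.2, zero_add]⟩⟩
      left_inv := fun x => by
        apply Subtype.ext
        have h := frB_eta x.2.1
        simp only [sub_add_cancel]
        exact h.symm
      right_inv := fun v => by
        apply Subtype.ext
        show v.1 + d - d = v.1
        simp }

end X

section Classes

/-- Type `b`. -/
def IsB (S : Sys.{u} F) : Prop := ∃ d, Dd S d ∧ S.B d (S.N d) = 1

/-- Type `c`. -/
def IsC (S : Sys.{u} F) : Prop := ∃ d, Dd S d ∧ S.B d (S.N d) = 0 ∧ S.N d ≠ 0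

lemma B_add_N (x y : S.V) : S.B (x + y) (S.N (x + y)) = S.B x (S.N x) + S.B y (S.N y) := by
  have h2 : (2 : F) = 0 := CharTwo.two_eq_zero
  have h3 : S.B y (S.N x) = S.B x (S.N y) := by
    rw [S.symm, S.Nsa]
  rw [map_add, S.add_l, S.add_r, S.add_r, h3]
  linear_combination S.B x (S.N y) * h2

lemma exists_sqrt : ∃ s : F → F, ∀ a, (s a) ^ 2 = a := by
  have hi : Function.Injective (fun a : F => a ^ 2) := fun a b h => sq_inj_char2 h
  have hs := Finite.injective_iff_surjective.1 hi
  choose s hs using hs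
  exact ⟨s, hs⟩

lemma exists_Dd (S : Sys.{u} F) : ∃ d, Dd S d := by
  classical
  obtain ⟨s, hs⟩ := exists_sqrt (F := F)
  have h2 : (2 : F) = 0 := CharTwo.two_eq_zero
  haveI : FiniteDimensional F S.V := Module.Finite.of_finite
  let ψ : S.V →ₗ[F] F :=
    { toFun := fun x => s (S.B x (S.N x))
      map_add' := fun x y => by
        apply sq_inj_char2
        rw [hs, B_add_N, add_sq, hs, hs]
        linear_combination -(s (S.B x (S.N x)) * s (S.B y (S.N y))) * h2
      map_smul' := fun c x => by
        apply sq_inj_char2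
        rw [hs, map_smul, S.smul_l, S.smul_r, smul_eq_mul, RingHom.id_apply, mul_pow, hs]
        ring }
  let Φ : S.V →ₗ[F] Module.Dual F S.V :=
    { toFun := fun d =>
        { toFun := fun x => S.B x (S.N d)
          map_add' := fun x y => S.add_l _ _ _
          map_smul' := fun c x => S.smul_l _ _ _ }
      map_add' := fun x y => by
        ext z
        show S.B z (S.N (x + y)) = S.B z (S.N x) + S.B z (S.N y)
        rw [map_add, S.add_r]
      map_smul' := fun c x => by
        ext z
        show S.B z (S.N (c • x)) = c * S.B z (S.N x)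
        rw [map_smul, S.smul_r] }
  have hker : LinearMap.ker Φ = LinearMap.ker S.N := by
    ext d
    rw [LinearMap.mem_ker, LinearMap.mem_ker]
    constructor
    · intro h
      apply S.nd
      intro y
      rw [S.symm]
      exact congrArg (fun f : Module.Dual F S.V => f y) h
    · intro h
      ext z
      show S.B z (S.N d) = 0
      rw [h, S.zero_r]
  have hle : LinearMap.range Φ ≤ (LinearMap.ker S.N).dualAnnihilator := by
    rintro _ ⟨d, rfl⟩
    rw [Submodule.mem_dualAnnihilator]
    intro k hk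
    show S.B k (S.N d) = 0
    rw [← S.Nsa, LinearMap.mem_ker.1 hk, S.zero_l]
  have hrank : Module.finrank F (LinearMap.range Φ) = Module.finrank F (LinearMap.ker S.N).dualAnnihilator := by
    have h1 := LinearMap.finrank_range_add_finrank_ker Φ
    have h3 := Subspace.finrank_add_finrank_dualAnnihilator_eq (LinearMap.ker S.N)
    rw [hker] at h1
    omega
  have heq := Submodule.eq_of_le_of_finrank_eq hle hrank
  have hψ : ψ ∈ LinearMap.range Φ := by
    rw [heq, Submodule.mem_dualAnnihilator]
    intro k hk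
    show s (S.B k (S.N k)) = 0
    rw [LinearMap.mem_ker.1 hk, S.zero_r]
    have := hs 0
    exact pow_eq_zero_iff (two_ne_zero) |>.1 this
  obtain ⟨d, hd⟩ := hψ
  refine ⟨d, fun x => ?_⟩
  have h1 : S.B x (S.N d) = s (S.B x (S.N x)) := congrArg (fun f : Module.Dual F S.V => f x) hd
  rw [h1, hs]

theorem trichotomy (S : Sys.{u} F) : IsA S ∨ IsB S ∨ IsC S := by
  obtain ⟨d, hd⟩ := exists_Dd S
  by_cases hN : S.N d = 0
  · left
    intro x
    rw [← hd, hN, S.zero_r]
    simp
  · have h1 := hd d
    have h3 : S.B d (S.N d) * (S.B d (S.N d) - 1) = 0 := by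
      linear_combination h1
    rcases mul_eq_zero.1 h3 with h0 | h0
    · exact Or.inr (Or.inr ⟨d, hd, h0, hN⟩)
    · exact Or.inr (Or.inl ⟨d, hd, by linear_combination h0⟩)

end Classes

end Cfsg.Agent.H01.SpInv
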