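import Cfsg.Agent.Lib.H01.SpInv4

/-! The recursion computing the order of the automorphism group of a system. -/

set_option autoImplicit false
set_option linter.unusedSectionVars false

namespace Cfsg.Agent.H01.SpInv

universe u

/-- The order of `Sp_2r(q)`. -/
def spN (q r : ℕ) : ℕ := q ^ (r ^ 2) * ∏ i ∈ Finset.range r, (q ^ (2 * (i + 1)) - 1)

/-- The answer for type `a`. -/
def Aa (q a r : ℕ) : ℕ := q ^ (2 * a ^ 2 + 4 * a * r + a) * spN q a * spN q r

/-- The answer for type `b`. -/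
def Bb (q a r : ℕ) : ℕ := q ^ (2 * a + 2 * r + 1) * Aa q a r

/-- The answer for type `c`. -/
def Cc (q a r : ℕ) : ℕ := q ^ (4 * a + 3 + 2 * r) * Bb q a r

lemma spN_succ (q r : ℕ) : spN q (r + 1) = (q ^ (2 * (r + 1)) - 1) * q ^ (2 * r + 1) * spN q r := by
  unfold spN
  rw [Finset.prod_range_succ]
  have : (r + 1) ^ 2 = r ^ 2 + (2 * r + 1) := by ring
  rw [this, pow_add]
  ring

lemma Aa_r (q r : ℕ) : Aa q 0 (r + 1) = (q ^ (2 * (r + 1)) - 1) * q ^ (2 * r + 1) * Aa q 0 r := by
  unfold Aa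
  rw [spN_succ]
  ring_nf

lemma Aa_a (q a r : ℕ) : Aa q (a + 1) r = (q ^ (4 * a + 2 * r + 4) - q ^ (2 * a + 2 * r + 2)) * q ^ (4 * a + 2 * r + 2) * Aa q a r := by
  have h : q ^ (4 * a + 2 * r + 4) - q ^ (2 * a + 2 * r + 2) = q ^ (2 * a + 2 * r + 2) * (q ^ (2 * (a + 1)) - 1) := by
    rw [Nat.mul_sub, mul_one, ← pow_add]
    congr 2
    ring
  rw [h]
  unfold Aa
  rw [spN_succ]
  generalize q ^ (2 * (a + 1)) - 1 = E
  ring

variable {F : Type*} [Field F] [CharP F 2] [Finite F]

section Main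

variable {k : ℕ} {S : Sys.{u} F} {σ : Fin k → Fin k} {τ : Fin k → Option (Fin k)} {x : Fin k → S.V}

lemma sub_V {n : ℕ} (hx : IsFrame S σ τ x) (h : Nat.card S.V = Nat.card F ^ (k + n)) : Nat.card (Sub hx).V = Nat.card F ^ n := by
  have := card_V hx
  rw [h, pow_add] at this
  exact (Nat.eq_of_mul_eq_mul_left (pow_pos q_pos k) this).symm

lemma le_of_frame {n : ℕ} (hx : IsFrame S σ τ x) (h : Nat.card S.V = Nat.card F ^ n) : k ≤ n := by
  have := card_V hx
  rw [h] at this
  have hd : Nat.card F ^ k ∣ Nat.card F ^ n := ⟨_, this⟩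
  exact (Nat.pow_dvd_pow_iff_le_right (two_le_card (F := F))).1 hd

lemma sub_IsA (hA : IsA S) (hx : IsFrame S σ τ x) : IsA (Sub hx) :=
  fun (a : ↥(Perp S x)) => hA a.1

lemma exists_frH (hN : ∀ x, S.N x = 0) (h1 : 1 < Nat.card S.V) : ∃ x, IsFrame S σ2 τh x := by
  haveI : Nontrivial S.V := Finite.one_lt_card_iff_nontrivial.1 h1
  obtain ⟨e, he⟩ := exists_ne (0 : S.V)
  have := card_fib1 e he (1 : F)
  have hp : 0 < Nat.card {w : S.V // S.B w e = 1} := by
    apply Nat.pos_of_ne_zero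
    intro h0
    rw [h0, zero_mul] at this
    exact (Nat.card_pos (α := S.V)).ne this
  obtain ⟨⟨f, hf⟩⟩ := (Nat.card_pos_iff.1 hp).1
  exact ⟨_, frH hN e f (by rw [S.symm]; exact hf)⟩

lemma exists_frA (hA : IsA S) (v : S.V) (hv : S.N v ≠ 0) : ∃ x, IsFrame S σ4 τa x := by
  have := card_fib2 v (S.N v) (by
      intro a b hab
      have h1 := congrArg S.N hab
      rw [map_add, map_smul, map_smul, S.N2, smul_zero, add_zero, map_zero] at h1
      have ha : a = 0 := (smul_eq_zero.1 h1).resolve_right hv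
      rw [ha, zero_smul, zero_add] at hab
      exact ⟨ha, (smul_eq_zero.1 hab).resolve_right hv⟩) (0 : F) (1 : F)
  have hp : 0 < Nat.card {w : S.V // S.B w v = 0 ∧ S.B w (S.N v) = 1} := by
    apply Nat.pos_of_ne_zero
    intro h0
    rw [h0, zero_mul] at this
    exact (Nat.card_pos (α := S.V)).ne this
  obtain ⟨⟨w, hw⟩⟩ := (Nat.card_pos_iff.1 hp).1
  exact ⟨_, frA hA v w hw.1 hw.2⟩

/-- The main recursion for type `a`. -/
theorem thA (m : ℕ) : ∀ S : Sys.{u} F, Nat.card S.V = Nat.card F ^ (2 * m) → IsA S →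
    ∃ a r, m = 2 * a + r ∧ kerC S = Nat.card F ^ (2 * m - 2 * a) ∧ Nat.card (Iso S S) = Aa (Nat.card F) a r ∧
      ∀ S₂ : Sys.{u} F, Nat.card S₂.V = Nat.card F ^ (2 * m) → IsA S₂ → kerC S₂ = kerC S → Nonempty (Iso S S₂) := by
  induction m using Nat.strong_induction_on with
  | _ m ih =>
    intro S hV hA
    have hq2 : 2 ≤ Nat.card F := two_le_card
    by_cases hN : ∀ x, S.N x = 0
    · rcases m with _ | m'
      · have hV1 : Nat.card S.V = 1 := by simpa using hV
        haveI : Subsingleton S.V := (Nat.card_eq_one_iff_unique.1 hV1).1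
        refine ⟨0, 0, rfl, ?_, ?_, ?_⟩
        · rw [kerC_eq_card_iff.2 hN, hV1]
          simp
        · have h1 : Aa (Nat.card F) 0 0 = 1 := by simp [Aa, spN]
          rw [h1, Nat.card_eq_one_iff_unique]
          refine ⟨⟨fun a b => ?_⟩, ⟨Iso.refl S⟩⟩
          apply Subtype.ext
          apply LinearEquiv.ext
          intro y
          exact Subsingleton.elim _ _
        · intro S₂ hV₂ _ _
          have hV₂1 : Nat.card S₂.V = 1 := by simpa using hV₂
          haveI : Subsingleton S₂.V := (Nat.card_eq_one_iff_unique.1 hV₂1).1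
          refine ⟨⟨LinearEquiv.ofSubsingleton S.V S₂.V, fun x y => ?_, fun x => Subsingleton.elim _ _⟩⟩
          rw [Subsingleton.elim x 0, S.zero_l, map_zero, S₂.zero_l]
      · have h1 : 1 < Nat.card S.V := by
          rw [hV]
          exact Nat.one_lt_pow (by omega) hq2
        obtain ⟨x₀, h₀⟩ := exists_frH hN h1
        have hV' : Nat.card S.V = Nat.card F ^ (2 + 2 * m') := by
          rw [hV]
          congr 1
          ring
        obtain ⟨a, r, hm, hk, hc, hu⟩ := ih m' (by omega) (Sub h₀) (sub_V h₀ hV') (sub_IsA hA h₀)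
        have hke : kerC S = Nat.card F ^ 2 * kerC (Sub h₀) := by rw [card_ker h₀, kappaH hN]
        have hkS : kerC S = Nat.card F ^ (2 + 2 * m') := by rw [kerC_eq_card_iff.2 hN, hV']
        have ha0 : a = 0 := by
          rw [hk, hkS, ← pow_add] at hke
          have := Nat.pow_right_injective hq2 hke
          omega
        subst ha0
        have hr : r = m' := by omega
        subst hr
        refine ⟨0, r + 1, by omega, ?_, ?_, ?_⟩
        · rw [hkS]
          congr 1
          omega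
        · have hX : ∀ ξ ∈ XH S, IsFrame S σ2 τh ξ := fun ξ h => h
          have hInv : ∀ h : Iso S S, (fun i => h.1 (x₀ i)) ∈ XH S := fun h => IsFrame.map h₀ h
          have hNe : ∀ ξ (hξ : ξ ∈ XH S), Nonempty (Iso (Sub h₀) (Sub (hX ξ hξ))) := by
            intro ξ hξ
            apply hu (Sub (hX ξ hξ)) (sub_V (hX ξ hξ) hV') (sub_IsA hA _)
            have h3 : kerC S = Nat.card F ^ 2 * kerC (Sub (hX ξ hξ)) := by rw [card_ker (hX ξ hξ), kappaH hN]
            exact Nat.eq_of_mul_eq_mul_left (pow_pos q_pos 2) (h3.symm.trans hke)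
          rw [card_iso h₀ (XH S) hX hInv hNe, hc, card_XH hN (n := 2 * r + 1) (hV.trans (congrArg _ (by ring))), Aa_r]
          congr 3
        · intro S₂ hV₂ hA₂ hk₂
          have hV₂' : Nat.card S₂.V = Nat.card F ^ (2 + 2 * r) := by
            rw [hV₂]
            congr 1
            ring
          have hN₂ : ∀ x, S₂.N x = 0 := kerC_eq_card_iff.1 (by rw [hk₂, hkS, hV₂'])
          obtain ⟨x₂, h₂⟩ := exists_frH hN₂ (by
            rw [hV₂]
            exact Nat.one_lt_pow (by omega) hq2)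
          have h3 : kerC S₂ = Nat.card F ^ 2 * kerC (Sub h₂) := by rw [card_ker h₂, kappaH hN₂]
          obtain ⟨ψ⟩ := hu (Sub h₂) (sub_V h₂ hV₂') (sub_IsA hA₂ _)
            (Nat.eq_of_mul_eq_mul_left (pow_pos q_pos 2) (h3.symm.trans (hk₂.trans hke)))
          exact ⟨glue h₀ h₂ ψ⟩
    · push Not at hN
      obtain ⟨v, hv⟩ := hN
      obtain ⟨x₀, h₀⟩ := exists_frA hA v hv
      have h4 := le_of_frame h₀ hV
      obtain ⟨m', rfl⟩ : ∃ m', m = m' + 2 := ⟨m - 2, by omega⟩
      have hV' : Nat.card S.V = Nat.card F ^ (4 + 2 * m') := by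
        rw [hV]
        congr 1
        ring
      obtain ⟨a, r, hm, hk, hc, hu⟩ := ih m' (by omega) (Sub h₀) (sub_V h₀ hV') (sub_IsA hA h₀)
      have hke : kerC S = Nat.card F ^ 2 * kerC (Sub h₀) := by rw [card_ker h₀, kappaA h₀]
      have hkS : kerC S = Nat.card F ^ (2 * a + 2 * r + 2) := by
        rw [hke, hk, ← pow_add]
        congr 1
        omega
      refine ⟨a + 1, r, by omega, ?_, ?_, ?_⟩
      · rw [hkS]
        congr 1
        omega
      · have hX : ∀ ξ ∈ XA S, IsFrame S σ4 τa ξ := fun ξ h => h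
        have hInv : ∀ h : Iso S S, (fun i => h.1 (x₀ i)) ∈ XA S := fun h => IsFrame.map h₀ h
        have hNe : ∀ ξ (hξ : ξ ∈ XA S), Nonempty (Iso (Sub h₀) (Sub (hX ξ hξ))) := by
          intro ξ hξ
          apply hu (Sub (hX ξ hξ)) (sub_V (hX ξ hξ) hV') (sub_IsA hA _)
          have h3 : kerC S = Nat.card F ^ 2 * kerC (Sub (hX ξ hξ)) := by rw [card_ker (hX ξ hξ), kappaA (hX ξ hξ)]
          exact Nat.eq_of_mul_eq_mul_left (pow_pos q_pos 2) (h3.symm.trans hke)
        have hV3 : Nat.card S.V = Nat.card F ^ ((4 * a + 2 * r + 2) + 2) := by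
          rw [hV]
          congr 1
          omega
        rw [card_iso h₀ (XA S) hX hInv hNe, hc, card_XA hA (n := 4 * a + 2 * r + 2) hV3, Aa_a, hkS]
      · intro S₂ hV₂ hA₂ hk₂
        have hV₂' : Nat.card S₂.V = Nat.card F ^ (4 + 2 * m') := by
          rw [hV₂]
          congr 1
          ring
        have hN₂ : ∃ v₂, S₂.N v₂ ≠ 0 := by
          by_contra hcon
          push Not at hcon
          have h5 := kerC_eq_card_iff.2 hcon
          rw [hk₂, hV₂, ← hV] at h5
          exact hv (kerC_eq_card_iff.1 h5 v)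
        obtain ⟨v₂, hv₂⟩ := hN₂
        obtain ⟨x₂, h₂⟩ := exists_frA hA₂ v₂ hv₂
        have h3 : kerC S₂ = Nat.card F ^ 2 * kerC (Sub h₂) := by rw [card_ker h₂, kappaA h₂]
        obtain ⟨ψ⟩ := hu (Sub h₂) (sub_V h₂ hV₂') (sub_IsA hA₂ _)
          (Nat.eq_of_mul_eq_mul_left (pow_pos q_pos 2) (h3.symm.trans (hk₂.trans hke)))
        exact ⟨glue h₀ h₂ ψ⟩

end Main

end Cfsg.Agent.H01.SpInv
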