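import Cfsg.Agent.Lib.H01.SpInv5

/-! The recursion for types `b` and `c`. -/

set_option autoImplicit false
set_option linter.unusedSectionVars false

namespace Cfsg.Agent.H01.SpInv

universe u

variable {F : Type*} [Field F] [CharP F 2] [Finite F]

variable {S : Sys.{u} F}

lemma iso_fix {d : S.V} (hd : Dd S d) (h : Iso S S) : S.N (h.1 d) = S.N d := by
  rw [h.2.2]
  have h2 : (2 : F) = 0 := CharTwo.two_eq_zero
  have key : ∀ w, S.B (h.1 w) (S.N d) = S.B w (S.N d) := by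
    intro w
    apply sq_inj_char2
    rw [hd, hd, h.2.2, h.2.1]
  have : h.1 (S.N d) - S.N d = 0 := by
    apply S.nd
    intro z
    obtain ⟨w, rfl⟩ := h.1.surjective z
    have e' : S.B (S.N d) (h.1 w) = S.B (S.N d) w := by
      rw [S.symm, key, S.symm]
    rw [S.sub_l h2, h.2.1, e']
    linear_combination S.B (S.N d) w * h2
  exact sub_eq_zero.1 this

/-- Perpendicular systems of frames through `d` have type `a`. -/
lemma subB_IsA {d : S.V} (hd : Dd S d) {x : Fin 2 → S.V} (hx : IsFrame S σ2 τb x) (hN : S.N (x 0) = S.N d) : IsA (Sub hx) := by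
  intro (a : ↥(Perp S x))
  show S.B a.1 (S.N a.1) = 0
  rw [← hd, ← hN]
  have h0 := hx.act 0
  simp only [τb, Matrix.cons_val_zero, Option.elim] at h0
  rw [h0, a.2 1]
  simp

/-- Perpendicular systems of frames in type `c` have type `b`. -/
lemma subC_IsB {d : S.V} (hd : Dd S d) (hy : S.B d (S.N d) = 0) {x : Fin 2 → S.V} (hx : IsFrame S σ2 τb x) : IsB (Sub hx) := by
  have h2 : (2 : F) = 0 := CharTwo.two_eq_zero
  have h0 := hx.act 0
  simp only [τb, Matrix.cons_val_zero, Option.elim] at h0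
  set v := x 0 with hv
  have h1 : S.B v (S.N v) = 1 := frB_one hx
  have hu : S.B v (S.N d) = 1 := by
    apply sq_eq_one_char2
    rw [hd, h1]
  have hu' : S.B d (S.N v) = 1 := by
    rw [← S.Nsa, S.symm, hu]
  set c := S.B d v with hc
  set d' := d + v + c • S.N v with hd'
  have hN' : S.N d' = S.N d + S.N v := by
    rw [hd', map_add, map_add, map_smul, S.N2, smul_zero, add_zero]
  have e1 : S.B d' v = 0 := by
    rw [hd', S.add_l, S.add_l, S.smul_l, S.alt, S.symm (S.N v), h1, ← hc]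
    linear_combination c * h2
  have e2 : S.B d' (S.N v) = 0 := by
    rw [hd', S.add_l, S.add_l, S.smul_l, B_NN, hu', h1]
    linear_combination h2
  have hmem : d' ∈ Perp S x := by
    intro j
    fin_cases j
    · exact e1
    · show S.B d' (x 1) = 0
      rw [← h0]
      exact e2
  refine ⟨(⟨d', hmem⟩ : ↥(Perp S x)), ?_, ?_⟩
  · intro (a : ↥(Perp S x))
    show (S.B a.1 (S.N d')) ^ 2 = S.B a.1 (S.N a.1)
    have h3 : S.B a.1 (S.N v) = 0 := by
      rw [h0]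
      exact a.2 1
    rw [hN', S.add_r, h3, add_zero, hd]
  · show S.B d' (S.N d') = 1
    rw [hN', S.add_r, e2, add_zero, hd', S.add_l, S.add_l, S.smul_l, S.symm (S.N v) (S.N d), B_NN, hy, hu, mul_zero, add_zero]
    linear_combination h2 * 0

lemma kerC_sub_eq_B {S₁ S₂ : Sys.{u} F} {x₁ : Fin 2 → S₁.V} {x₂ : Fin 2 → S₂.V} (h₁ : IsFrame S₁ σ2 τb x₁) (h₂ : IsFrame S₂ σ2 τb x₂)
    (hk : kerC S₂ = kerC S₁) : kerC (Sub h₂) = kerC (Sub h₁) := by
  have e1 : kerC S₁ = Nat.card F * kerC (Sub h₁) := by rw [card_ker h₁, kappaB h₁]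
  have e2 : kerC S₂ = Nat.card F * kerC (Sub h₂) := by rw [card_ker h₂, kappaB h₂]
  exact Nat.eq_of_mul_eq_mul_left q_pos (e2.symm.trans (hk.trans e1))

/-- The main recursion for type `b`. -/
theorem thB (m : ℕ) (S : Sys.{u} F) (hV : Nat.card S.V = Nat.card F ^ (2 * m)) (hB : IsB S) :
    ∃ a r, m = 2 * a + 1 + r ∧ kerC S = Nat.card F ^ (2 * m - (2 * a + 1)) ∧ Nat.card (Iso S S) = Bb (Nat.card F) a r ∧
      ∀ S₂ : Sys.{u} F, Nat.card S₂.V = Nat.card F ^ (2 * m) → IsB S₂ → kerC S₂ = kerC S → Nonempty (Iso S S₂) := by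
  obtain ⟨d, hd, hy⟩ := hB
  have h₀ := frB d hy
  have h4 := le_of_frame h₀ hV
  obtain ⟨m', rfl⟩ : ∃ m', m = m' + 1 := ⟨m - 1, by omega⟩
  have hV' : Nat.card S.V = Nat.card F ^ (2 + 2 * m') := by
    rw [hV]
    congr 1
    ring
  obtain ⟨a, r, hm, hk, hc, hu⟩ := thA m' (Sub h₀) (sub_V h₀ hV') (subB_IsA hd h₀ rfl)
  have hke : kerC S = Nat.card F * kerC (Sub h₀) := by rw [card_ker h₀, kappaB h₀]
  have hkS : kerC S = Nat.card F ^ (2 * a + 2 * r + 1) := by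
    rw [hke, hk, ← pow_succ']
    congr 1
    omega
  refine ⟨a, r, by omega, ?_, ?_, ?_⟩
  · rw [hkS]
    congr 1
    omega
  · have hX : ∀ ξ ∈ XB S d, IsFrame S σ2 τb ξ := fun ξ h => h.1
    have hInv : ∀ h : Iso S S, (fun i => h.1 (![d, S.N d] i)) ∈ XB S d := fun h => ⟨IsFrame.map h₀ h, iso_fix hd h⟩
    have hNe : ∀ ξ (hξ : ξ ∈ XB S d), Nonempty (Iso (Sub h₀) (Sub (hX ξ hξ))) := by
      intro ξ hξ
      apply hu (Sub (hX ξ hξ)) (sub_V (hX ξ hξ) hV') (subB_IsA hd _ hξ.2)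
      exact kerC_sub_eq_B h₀ _ rfl
    rw [card_iso h₀ (XB S d) hX hInv hNe, hc, card_XB hd hy, hkS]
    rfl
  · rintro S₂ hV₂ ⟨d₂, hd₂, hy₂⟩ hk₂
    have h₂ := frB d₂ hy₂
    have hV₂' : Nat.card S₂.V = Nat.card F ^ (2 + 2 * m') := by
      rw [hV₂]
      congr 1
      ring
    obtain ⟨ψ⟩ := hu (Sub h₂) (sub_V h₂ hV₂') (subB_IsA hd₂ _ rfl) (kerC_sub_eq_B h₀ h₂ hk₂)
    exact ⟨glue h₀ h₂ ψ⟩

lemma exists_frC {d : S.V} (hd : Dd S d) (hNd : S.N d ≠ 0) : ∃ x, IsFrame S σ2 τb x := by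
  have := card_fib1 (S.N d) hNd (1 : F)
  have hp : 0 < Nat.card {w : S.V // S.B w (S.N d) = 1} := by
    apply Nat.pos_of_ne_zero
    intro h0
    rw [h0, zero_mul] at this
    exact (Nat.card_pos (α := S.V)).ne this
  obtain ⟨⟨v, hv⟩⟩ := (Nat.card_pos_iff.1 hp).1
  exact ⟨_, frB v (by rw [← hd, hv, one_pow])⟩

/-- The main recursion for type `c`. -/
theorem thC (m : ℕ) (S : Sys.{u} F) (hV : Nat.card S.V = Nat.card F ^ (2 * m)) (hC : IsC S) :
    ∃ a r, m = 2 * a + 2 + r ∧ kerC S = Nat.card F ^ (2 * m - (2 * a + 2)) ∧ Nat.card (Iso S S) = Cc (Nat.card F) a r := by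
  obtain ⟨d, hd, hy, hNd⟩ := hC
  obtain ⟨x₀, h₀⟩ := exists_frC hd hNd
  have h4 := le_of_frame h₀ hV
  obtain ⟨m', rfl⟩ : ∃ m', m = m' + 1 := ⟨m - 1, by omega⟩
  have hV' : Nat.card S.V = Nat.card F ^ (2 + 2 * m') := by
    rw [hV]
    congr 1
    ring
  obtain ⟨a, r, hm, hk, hc, hu⟩ := thB m' (Sub h₀) (sub_V h₀ hV') (subC_IsB hd hy h₀)
  have hke : kerC S = Nat.card F * kerC (Sub h₀) := by rw [card_ker h₀, kappaB h₀]
  have hkS : kerC S = Nat.card F ^ (2 * a + 2 * r + 2) := by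
    rw [hke, hk, ← pow_succ']
    congr 1
    omega
  refine ⟨a, r, by omega, ?_, ?_⟩
  · rw [hkS]
    congr 1
    omega
  · have hX : ∀ ξ ∈ XC S, IsFrame S σ2 τb ξ := fun ξ h => h
    have hInv : ∀ h : Iso S S, (fun i => h.1 (x₀ i)) ∈ XC S := fun h => IsFrame.map h₀ h
    have hNe : ∀ ξ (hξ : ξ ∈ XC S), Nonempty (Iso (Sub h₀) (Sub (hX ξ hξ))) := by
      intro ξ hξ
      apply hu (Sub (hX ξ hξ)) (sub_V (hX ξ hξ) hV') (subC_IsB hd hy _)
      exact kerC_sub_eq_B h₀ _ rfl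
    have hV3 : Nat.card S.V = Nat.card F ^ ((4 * a + 3 + 2 * r) + 1) := by
      rw [hV]
      congr 1
      omega
    rw [card_iso h₀ (XC S) hX hInv hNe, hc, card_XC hd hNd hV3]
    rfl

end Cfsg.Agent.H01.SpInv
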