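import Cfsg.Agent.Lib.H01.SpInv6
import Cfsg.Agent.Lib.Lead.AutPSpInd

/-! The system attached to an involution of the symplectic group in characteristic two. -/

set_option autoImplicit false
set_option linter.unusedSectionVars false

namespace Cfsg.Agent.H01.SpInv

open Matrix

universe u

variable {F : Type u} [Field F] [CharP F 2] [Fintype F] {m : ℕ}

local notation "MM" => Matrix (Fin m ⊕ Fin m) (Fin m ⊕ Fin m) F
local notation "VV" => (Fin m ⊕ Fin m → F)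
local notation "fS" => Cfsg.Agent.Lead.sympForm

lemma form_sub_left (a b y : Fin m ⊕ Fin m → F) : fS (a - b) y = fS a y - fS b y := by
  simp [Cfsg.Agent.Lead.sympForm, sub_dotProduct]

lemma form_sp (g : symplecticGroup (Fin m) F) (u w : Fin m ⊕ Fin m → F) :
    fS ((g : Matrix (Fin m ⊕ Fin m) (Fin m ⊕ Fin m) F) *ᵥ u) ((g : Matrix (Fin m ⊕ Fin m) (Fin m ⊕ Fin m) F) *ᵥ w) =
      fS u w :=
  Cfsg.Agent.Lead.AutPSp.form_ap g u w

section Std

variable (t : symplecticGroup (Fin m) F) (ht : t ^ 2 = 1)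

include ht in
lemma T_T : (t : Matrix (Fin m ⊕ Fin m) (Fin m ⊕ Fin m) F) * (t : Matrix (Fin m ⊕ Fin m) (Fin m ⊕ Fin m) F) = 1 := by
  have := congrArg Subtype.val ht
  rw [pow_two] at this
  exact this

include ht in
lemma T_T_vec (x : Fin m ⊕ Fin m → F) : (t : Matrix (Fin m ⊕ Fin m) (Fin m ⊕ Fin m) F) *ᵥ ((t : Matrix (Fin m ⊕ Fin m) (Fin m ⊕ Fin m) F) *ᵥ x) = x := by
  rw [Matrix.mulVec_mulVec, T_T t ht, Matrix.one_mulVec]

/-- The system of an involution. -/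
def stdSys : Sys.{u} F where
  V := Fin m ⊕ Fin m → F
  B := fS
  add_l := Cfsg.Agent.Lead.sympForm_add_left
  smul_l := Cfsg.Agent.Lead.sympForm_smul_left
  symm x y := by rw [Cfsg.Agent.Lead.sympForm_swap, CharTwo.neg_eq]
  alt := Cfsg.Agent.Lead.sympForm_self
  nd x hx := by
    by_contra hne
    obtain ⟨z, hz⟩ := Cfsg.Agent.Lead.sympForm_nondeg hne
    exact hz (hx z)
  N := ((t : Matrix (Fin m ⊕ Fin m) (Fin m ⊕ Fin m) F) - 1).mulVecLin
  N2 x := by
    rw [Matrix.mulVecLin_apply, Matrix.mulVecLin_apply, Matrix.sub_mulVec, Matrix.sub_mulVec, Matrix.one_mulVec, Matrix.one_mulVec,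
      Matrix.mulVec_sub, T_T_vec t ht]
    funext k
    have h2 : (2 : F) = 0 := CharTwo.two_eq_zero
    simp only [Pi.sub_apply, Pi.zero_apply]
    linear_combination (x k - ((t : Matrix (Fin m ⊕ Fin m) (Fin m ⊕ Fin m) F) *ᵥ x) k) * h2
  Nsa x y := by
    rw [Matrix.mulVecLin_apply, Matrix.mulVecLin_apply, Matrix.sub_mulVec, Matrix.sub_mulVec, Matrix.one_mulVec, Matrix.one_mulVec,
      form_sub_left, Cfsg.Agent.Lead.sympForm_sub_right]
    congr 1
    have := form_sp t x ((t : Matrix (Fin m ⊕ Fin m) (Fin m ⊕ Fin m) F) *ᵥ y)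
    rw [T_T_vec t ht] at this
    exact this

lemma std_V : (stdSys t ht).V = (Fin m ⊕ Fin m → F) := rfl

lemma std_N (x : Fin m ⊕ Fin m → F) : (stdSys t ht).N x = ((t : Matrix (Fin m ⊕ Fin m) (Fin m ⊕ Fin m) F) - 1) *ᵥ x := rfl

lemma std_B (x y : Fin m ⊕ Fin m → F) : (stdSys t ht).B x y = fS x y := rfl

/-- Multiplication by a symplectic matrix as a linear equivalence. -/
def gLin (g : symplecticGroup (Fin m) F) : (Fin m ⊕ Fin m → F) ≃ₗ[F] (Fin m ⊕ Fin m → F) where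
  toFun y := (g : Matrix (Fin m ⊕ Fin m) (Fin m ⊕ Fin m) F) *ᵥ y
  map_add' := Matrix.mulVec_add _
  map_smul' c y := Matrix.mulVec_smul _ c y
  invFun y := ((g⁻¹ : symplecticGroup (Fin m) F) : Matrix (Fin m ⊕ Fin m) (Fin m ⊕ Fin m) F) *ᵥ y
  left_inv y := by
    show ((g⁻¹ : symplecticGroup (Fin m) F) : Matrix (Fin m ⊕ Fin m) (Fin m ⊕ Fin m) F) *ᵥ ((g : Matrix (Fin m ⊕ Fin m) (Fin m ⊕ Fin m) F) *ᵥ y) = y
    rw [Matrix.mulVec_mulVec]
    have : ((g⁻¹ : symplecticGroup (Fin m) F) : Matrix (Fin m ⊕ Fin m) (Fin m ⊕ Fin m) F) * (g : Matrix (Fin m ⊕ Fin m) (Fin m ⊕ Fin m) F) = 1 :=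
      congrArg Subtype.val (inv_mul_cancel g)
    rw [this, Matrix.one_mulVec]
  right_inv y := by
    show (g : Matrix (Fin m ⊕ Fin m) (Fin m ⊕ Fin m) F) *ᵥ (((g⁻¹ : symplecticGroup (Fin m) F) : Matrix (Fin m ⊕ Fin m) (Fin m ⊕ Fin m) F) *ᵥ y) = y
    rw [Matrix.mulVec_mulVec]
    have : (g : Matrix (Fin m ⊕ Fin m) (Fin m ⊕ Fin m) F) * ((g⁻¹ : symplecticGroup (Fin m) F) : Matrix (Fin m ⊕ Fin m) (Fin m ⊕ Fin m) F) = 1 :=
      congrArg Subtype.val (mul_inv_cancel g)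
    rw [this, Matrix.one_mulVec]

lemma cent_comm (g : symplecticGroup (Fin m) F) (hg : g ∈ Subgroup.centralizer ({t} : Set (symplecticGroup (Fin m) F))) :
    (g : Matrix (Fin m ⊕ Fin m) (Fin m ⊕ Fin m) F) * (t : Matrix (Fin m ⊕ Fin m) (Fin m ⊕ Fin m) F) = (t : Matrix (Fin m ⊕ Fin m) (Fin m ⊕ Fin m) F) * g := by
  have h := Subgroup.mem_centralizer_singleton_iff.1 hg
  exact congrArg Subtype.val h

lemma cent_vec (g : symplecticGroup (Fin m) F) (hg : g ∈ Subgroup.centralizer ({t} : Set (symplecticGroup (Fin m) F))) (x : Fin m ⊕ Fin m → F) :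
    ((t : Matrix (Fin m ⊕ Fin m) (Fin m ⊕ Fin m) F) - 1) *ᵥ ((g : Matrix (Fin m ⊕ Fin m) (Fin m ⊕ Fin m) F) *ᵥ x) =
      (g : Matrix (Fin m ⊕ Fin m) (Fin m ⊕ Fin m) F) *ᵥ (((t : Matrix (Fin m ⊕ Fin m) (Fin m ⊕ Fin m) F) - 1) *ᵥ x) := by
  rw [Matrix.mulVec_mulVec, Matrix.mulVec_mulVec, Matrix.sub_mul, Matrix.mul_sub, cent_comm t g hg, Matrix.one_mul, Matrix.mul_one]

/-- The automorphism of the system given by an element of the centraliser. -/
def toIso (g : ↥(Subgroup.centralizer ({t} : Set (symplecticGroup (Fin m) F)))) : Iso (stdSys t ht) (stdSys t ht) :=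
  ⟨gLin g.1, fun x y => form_sp g.1 x y, fun x => cent_vec t g.1 g.2 x⟩

/-- An automorphism as a linear map of column vectors. -/
def isoL (h : Iso (stdSys t ht) (stdSys t ht)) : (Fin m ⊕ Fin m → F) →ₗ[F] (Fin m ⊕ Fin m → F) := h.1.toLinearMap

lemma isoL_N (h : Iso (stdSys t ht) (stdSys t ht)) (x : Fin m ⊕ Fin m → F) :
    ((t : Matrix (Fin m ⊕ Fin m) (Fin m ⊕ Fin m) F) - 1) *ᵥ (isoL t ht h x) = isoL t ht h (((t : Matrix (Fin m ⊕ Fin m) (Fin m ⊕ Fin m) F) - 1) *ᵥ x) :=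
  h.2.2 x

lemma isoL_form (h : Iso (stdSys t ht) (stdSys t ht)) (x y : Fin m ⊕ Fin m → F) : fS (isoL t ht h x) (isoL t ht h y) = fS x y :=
  h.2.1 x y

/-- The matrix of an automorphism. -/
noncomputable def isoMat (h : Iso (stdSys t ht) (stdSys t ht)) : Matrix (Fin m ⊕ Fin m) (Fin m ⊕ Fin m) F :=
  LinearMap.toMatrix' (isoL t ht h)

lemma isoMat_vec (h : Iso (stdSys t ht) (stdSys t ht)) (x : Fin m ⊕ Fin m → F) : isoMat t ht h *ᵥ x = isoL t ht h x := by
  unfold isoMat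
  rw [LinearMap.toMatrix'_mulVec]

lemma isoMat_mem (h : Iso (stdSys t ht) (stdSys t ht)) : isoMat t ht h ∈ symplecticGroup (Fin m) F := by
  apply Cfsg.Agent.Lead.AutPSp.mem_sp_of_form
  intro x y
  rw [isoMat_vec, isoMat_vec]
  exact isoL_form t ht h x y

lemma isoMat_comm (h : Iso (stdSys t ht) (stdSys t ht)) :
    isoMat t ht h * (t : Matrix (Fin m ⊕ Fin m) (Fin m ⊕ Fin m) F) = (t : Matrix (Fin m ⊕ Fin m) (Fin m ⊕ Fin m) F) * isoMat t ht h := by
  apply Cfsg.Agent.Lead.mat_ext_mulVec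
  intro x
  rw [← Matrix.mulVec_mulVec, ← Matrix.mulVec_mulVec, isoMat_vec, isoMat_vec]
  have h1 := isoL_N t ht h x
  rw [Matrix.sub_mulVec, Matrix.sub_mulVec, Matrix.one_mulVec, Matrix.one_mulVec, map_sub] at h1
  exact (sub_left_inj.1 h1).symm

/-- The centraliser of an involution is the automorphism group of its system. -/
noncomputable def cenIso : ↥(Subgroup.centralizer ({t} : Set (symplecticGroup (Fin m) F))) ≃ Iso (stdSys t ht) (stdSys t ht) where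
  toFun := toIso t ht
  invFun h := ⟨⟨isoMat t ht h, isoMat_mem t ht h⟩, Subgroup.mem_centralizer_singleton_iff.2 (Subtype.ext (isoMat_comm t ht h))⟩
  left_inv g := by
    apply Subtype.ext
    apply Subtype.ext
    apply Cfsg.Agent.Lead.mat_ext_mulVec
    intro x
    show isoMat t ht (toIso t ht g) *ᵥ x = _
    rw [isoMat_vec]
    rfl
  right_inv h := by
    apply Subtype.ext
    apply LinearEquiv.ext
    intro x
    exact isoMat_vec t ht h x

lemma card_cen : Nat.card ↥(Subgroup.centralizer ({t} : Set (symplecticGroup (Fin m) F))) = Nat.card (Iso (stdSys t ht) (stdSys t ht)) :=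
  Nat.card_congr (cenIso t ht)

lemma std_card_V : Nat.card (stdSys t ht).V = Nat.card F ^ (2 * m) := by
  show Nat.card (Fin m ⊕ Fin m → F) = _
  rw [Nat.card_fun, Nat.card_sum]
  simp [two_mul]

lemma rank_le : ((t : Matrix (Fin m ⊕ Fin m) (Fin m ⊕ Fin m) F) - 1).rank ≤ 2 * m := by
  have := Matrix.rank_le_card_width ((t : Matrix (Fin m ⊕ Fin m) (Fin m ⊕ Fin m) F) - 1)
  simpa [two_mul] using this

lemma std_kerC : kerC (stdSys t ht) = Nat.card F ^ (2 * m - ((t : Matrix (Fin m ⊕ Fin m) (Fin m ⊕ Fin m) F) - 1).rank) := by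
  have e : kerC (stdSys t ht) = Nat.card (LinearMap.ker ((t : Matrix (Fin m ⊕ Fin m) (Fin m ⊕ Fin m) F) - 1).mulVecLin) := by
    unfold kerC
    apply Nat.card_congr
    exact ⟨fun y => ⟨y.1, LinearMap.mem_ker.2 y.2⟩, fun y => ⟨y.1, LinearMap.mem_ker.1 y.2⟩, fun _ => rfl, fun _ => rfl⟩
  rw [e, Module.natCard_eq_pow_finrank (K := F)]
  congr 1
  have h1 := LinearMap.finrank_range_add_finrank_ker ((t : Matrix (Fin m ⊕ Fin m) (Fin m ⊕ Fin m) F) - 1).mulVecLin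
  have h3 : Module.finrank F (Fin m ⊕ Fin m → F) = 2 * m := by
    simp [two_mul]
  rw [h3] at h1
  have h4 : ((t : Matrix (Fin m ⊕ Fin m) (Fin m ⊕ Fin m) F) - 1).rank = Module.finrank F (LinearMap.range ((t : Matrix (Fin m ⊕ Fin m) (Fin m ⊕ Fin m) F) - 1).mulVecLin) := rfl
  omega

end Std

end Cfsg.Agent.H01.SpInv
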