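import Cfsg.Agent.Lib.H01.SpInv7

/-! The centraliser orders of involutions in symplectic groups in characteristic two. -/

set_option autoImplicit false
set_option linter.unusedSectionVars false

namespace Cfsg.Agent.H01.SpInv

open Matrix

universe u

lemma spN_fin (q r : ℕ) : q ^ (r ^ 2) * ∏ i : Fin r, (q ^ (2 * ((i : ℕ) + 1)) - 1) = spN q r := by
  unfold spN
  rw [Fin.prod_univ_eq_prod_range (fun i => q ^ (2 * (i + 1)) - 1) r]

lemma formula_A (q m s a r : ℕ) (hm : m = 2 * a + r) (hs : s = 2 * a) :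
    q ^ (2 * m * s - (3 * s ^ 2 - s) / 2) * ((q : ℕ) ^ ((s / 2) ^ 2) * ∏ i : Fin (s / 2), (q ^ (2 * ((i : ℕ) + 1)) - 1)) * ((q : ℕ) ^ ((m - s) ^ 2) * ∏ i : Fin (m - s), (q ^ (2 * ((i : ℕ) + 1)) - 1)) = Aa q a r := by
  subst hm
  subst hs
  have e1 : 2 * a / 2 = a := Nat.mul_div_cancel_left a (by norm_num)
  have e2 : 2 * a + r - 2 * a = r := by omega
  rw [e1, e2, spN_fin, spN_fin]
  have ha : a ≤ 6 * a ^ 2 := by nlinarith
  obtain ⟨c, hc⟩ : ∃ c, c + a = 6 * a ^ 2 := ⟨6 * a ^ 2 - a, Nat.sub_add_cancel ha⟩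
  have e3 : 3 * (2 * a) ^ 2 - 2 * a = 2 * c := by
    apply Nat.sub_eq_of_eq_add
    nlinarith
  rw [e3, Nat.mul_div_cancel_left c (by norm_num : 0 < 2)]
  have e4 : 2 * (2 * a + r) * (2 * a) - c = 2 * a ^ 2 + 4 * a * r + a := by
    apply Nat.sub_eq_of_eq_add
    nlinarith
  rw [e4]
  rfl

lemma formula_B (q m s a r : ℕ) (hm : m = 2 * a + 1 + r) (hs : s = 2 * a + 1) :
    q ^ (2 * m * s - (3 * s ^ 2 - s) / 2) * ((q : ℕ) ^ (((s - 1) / 2) ^ 2) * ∏ i : Fin ((s - 1) / 2), (q ^ (2 * ((i : ℕ) + 1)) - 1)) * ((q : ℕ) ^ ((m - s) ^ 2) * ∏ i : Fin (m - s), (q ^ (2 * ((i : ℕ) + 1)) - 1)) = Bb q a r := by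
  subst hm
  subst hs
  have e1 : (2 * a + 1 - 1) / 2 = a := by omega
  have e2 : 2 * a + 1 + r - (2 * a + 1) = r := by omega
  rw [e1, e2, spN_fin, spN_fin]
  have e3 : 3 * (2 * a + 1) ^ 2 - (2 * a + 1) = 2 * (6 * a ^ 2 + 5 * a + 1) := by
    apply Nat.sub_eq_of_eq_add
    ring
  rw [e3, Nat.mul_div_cancel_left _ (by norm_num : 0 < 2)]
  have e4 : 2 * (2 * a + 1 + r) * (2 * a + 1) - (6 * a ^ 2 + 5 * a + 1) = 2 * a ^ 2 + 3 * a + 1 + 4 * a * r + 2 * r := by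
    apply Nat.sub_eq_of_eq_add
    ring
  rw [e4]
  unfold Bb Aa
  ring

lemma formula_C (q m s a r : ℕ) (hm : m = 2 * a + 2 + r) (hs : s = 2 * a + 2) :
    q ^ (2 * m * s - (3 * s ^ 2 - 3 * s) / 2 - 1) * ((q : ℕ) ^ (((s - 2) / 2) ^ 2) * ∏ i : Fin ((s - 2) / 2), (q ^ (2 * ((i : ℕ) + 1)) - 1)) * ((q : ℕ) ^ ((m - s) ^ 2) * ∏ i : Fin (m - s), (q ^ (2 * ((i : ℕ) + 1)) - 1)) = Cc q a r := by
  subst hm
  subst hs
  have e1 : (2 * a + 2 - 2) / 2 = a := by omega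
  have e2 : 2 * a + 2 + r - (2 * a + 2) = r := by omega
  rw [e1, e2, spN_fin, spN_fin]
  have e3 : 3 * (2 * a + 2) ^ 2 - 3 * (2 * a + 2) = 2 * (6 * a ^ 2 + 9 * a + 3) := by
    apply Nat.sub_eq_of_eq_add
    ring
  rw [e3, Nat.mul_div_cancel_left _ (by norm_num : 0 < 2)]
  have e4 : 2 * (2 * a + 2 + r) * (2 * a + 2) - (6 * a ^ 2 + 9 * a + 3) - 1 = 2 * a ^ 2 + 7 * a + 4 + 4 * a * r + 4 * r := by
    rw [Nat.sub_sub]
    apply Nat.sub_eq_of_eq_add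
    ring
  rw [e4]
  unfold Cc Bb Aa
  ring

variable {F : Type u} [Field F] [CharP F 2] [Fintype F] {m : ℕ}

variable (t : symplecticGroup (Fin m) F) (ht : t ^ 2 = 1)

theorem cen_A (hA : IsA (stdSys t ht)) : ∃ a r, m = 2 * a + r ∧ ((t : Matrix (Fin m ⊕ Fin m) (Fin m ⊕ Fin m) F) - 1).rank = 2 * a ∧
    Nat.card ↥(Subgroup.centralizer ({t} : Set (symplecticGroup (Fin m) F))) = Aa (Nat.card F) a r := by
  obtain ⟨a, r, hm, hk, hc, -⟩ := thA m (stdSys t ht) (std_card_V t ht) hA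
  refine ⟨a, r, hm, ?_, ?_⟩
  · rw [std_kerC] at hk
    have := Nat.pow_right_injective (two_le_card (F := F)) hk
    have h1 := rank_le t
    omega
  · rw [card_cen t ht, hc]

theorem cen_B (hB : IsB (stdSys t ht)) : ∃ a r, m = 2 * a + 1 + r ∧ ((t : Matrix (Fin m ⊕ Fin m) (Fin m ⊕ Fin m) F) - 1).rank = 2 * a + 1 ∧
    Nat.card ↥(Subgroup.centralizer ({t} : Set (symplecticGroup (Fin m) F))) = Bb (Nat.card F) a r := by
  obtain ⟨a, r, hm, hk, hc, -⟩ := thB m (stdSys t ht) (std_card_V t ht) hB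
  refine ⟨a, r, hm, ?_, ?_⟩
  · rw [std_kerC] at hk
    have := Nat.pow_right_injective (two_le_card (F := F)) hk
    have h1 := rank_le t
    omega
  · rw [card_cen t ht, hc]

theorem cen_C (hC : IsC (stdSys t ht)) : ∃ a r, m = 2 * a + 2 + r ∧ ((t : Matrix (Fin m ⊕ Fin m) (Fin m ⊕ Fin m) F) - 1).rank = 2 * a + 2 ∧
    Nat.card ↥(Subgroup.centralizer ({t} : Set (symplecticGroup (Fin m) F))) = Cc (Nat.card F) a r := by
  obtain ⟨a, r, hm, hk, hc⟩ := thC m (stdSys t ht) (std_card_V t ht) hC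
  refine ⟨a, r, hm, ?_, ?_⟩
  · rw [std_kerC] at hk
    have := Nat.pow_right_injective (two_le_card (F := F)) hk
    have h1 := rank_le t
    omega
  · rw [card_cen t ht, hc]

lemma isA_iff : IsA (stdSys t ht) ↔ ∀ v : Fin m ⊕ Fin m → F, Cfsg.Agent.Lead.sympForm v ((t : Matrix (Fin m ⊕ Fin m) (Fin m ⊕ Fin m) F) *ᵥ v) = 0 := by
  have key : ∀ v : Fin m ⊕ Fin m → F, (stdSys t ht).B v ((stdSys t ht).N v) = Cfsg.Agent.Lead.sympForm v ((t : Matrix (Fin m ⊕ Fin m) (Fin m ⊕ Fin m) F) *ᵥ v) := by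
    intro v
    show Cfsg.Agent.Lead.sympForm v (((t : Matrix (Fin m ⊕ Fin m) (Fin m ⊕ Fin m) F) - 1) *ᵥ v) = _
    rw [Matrix.sub_mulVec, Matrix.one_mulVec, Cfsg.Agent.Lead.sympForm_sub_right, Cfsg.Agent.Lead.sympForm_self, sub_zero]
  constructor
  · intro h v
    rw [← key]
    exact h v
  · intro h v
    exact (key v).trans (h v)

end Cfsg.Agent.H01.SpInv
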