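import Mathlib
import Cfsg.Agent.Lib.H01.SZ
import Cfsg.Agent.Lib.H01.NormalComp
import Cfsg.Agent.Lib.H01.AbSylow
import Cfsg.Agent.Lib.H13.Basic
import Cfsg.Agent.Lib.H13.Residual
import Cfsg.Agent.Lib.H18.Syl

/-! Splitting over `O^p(G)` when its Sylow `p`-subgroups are abelian. -/

set_option autoImplicit false

namespace Cfsg.Agent.H01

open scoped Pointwise
open scoped IsMulCommutative

/-- The core: a normal abelian Sylow subgroup `Q` of `L ⊲ M` with `C_Q(L) = 1` and `M / L` a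
`p`-group: then `L` has a complement in `M`. -/
theorem exists_complement_of_abelian_core {M : Type*} [Group M] [Finite M] {p : ℕ} [Fact p.Prime]
    (Q L : Subgroup M) [hQn : Q.Normal] [hLn : L.Normal] (hQL : Q ≤ L)
    (hQab : ∀ a ∈ Q, ∀ b ∈ Q, a * b = b * a) (hQp : IsPGroup p Q)
    (hnd : ¬ p ∣ (Q.subgroupOf L).index)
    (hC : ∀ a ∈ Q, (∀ l ∈ L, a * l = l * a) → a = 1) (hML : IsPGroup p (M ⧸ L)) :
    ∃ K : Subgroup M, Disjoint K L ∧ Nat.card K = L.index := by
  classical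
  have hpr : p.Prime := Fact.out
  -- the complement `T` in `L`
  let A : Subgroup L := Q.subgroupOf L
  have hcardA : Nat.card A = Nat.card Q := by
    show Nat.card (Q.subgroupOf L) = _
    rw [Cfsg.Agent.H18.card_subgroupOf, inf_eq_left.mpr hQL]
  obtain ⟨e₀, he₀⟩ := IsPGroup.iff_card.mp hQp
  have hcop : Nat.Coprime (Nat.card A) A.index := by
    rw [hcardA, he₀]
    exact Nat.Coprime.pow_left _ ((Nat.Prime.coprime_iff_not_dvd hpr).mpr hnd)
  haveI hAn : A.Normal := inferInstance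
  haveI hAc : IsMulCommutative A := ⟨⟨fun a b => Subtype.ext (Subtype.ext (hQab _ a.2 _ b.2))⟩⟩
  obtain ⟨T₀, hT₀⟩ := Subgroup.exists_right_complement'_of_coprime hcop
  let T : Subgroup M := T₀.map L.subtype
  have hTL : T ≤ L := Subgroup.map_subtype_le _
  have hcT₀ : Nat.card T₀ = A.index := card_complement_eq_index hT₀.symm
  have hcT : Nat.card T = A.index := by
    rw [← hcT₀]
    exact Nat.card_congr (T₀.equivMapOfInjective _ L.subtype_injective).toEquiv.symm
  have hQT : ∀ x, x ∈ Q → x ∈ T → x = 1 := by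
    rintro _ hxQ ⟨t, ht, rfl⟩
    have h1 : t ∈ A := hxQ
    have h2 := Subgroup.disjoint_def.mp hT₀.disjoint h1 ht
    rw [h2]; rfl
  have hLdec : ∀ l ∈ L, ∃ b ∈ Q, ∃ t ∈ T, l = b * t := by
    intro l hl
    have h1 : (⟨l, hl⟩ : L) ∈ A ⊔ T₀ := by rw [hT₀.sup_eq_top]; trivial
    rw [Subgroup.mem_sup_of_normal_left] at h1
    obtain ⟨b, hb, t, ht, e⟩ := h1
    refine ⟨b, hb, t, ⟨t, ht, rfl⟩, ?_⟩
    exact (congrArg Subtype.val e).symm
  -- `N(T)`
  let K' : Subgroup M := Subgroup.normalizer (T : Set M)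
  have hTK' : T ≤ K' := Subgroup.le_normalizer
  have hQK' : ∀ a, a ∈ Q → a ∈ K' → a = 1 := by
    intro a ha haK
    apply hC a ha
    intro l hl
    obtain ⟨b, hb, t, ht, rfl⟩ := hLdec l hl
    have h1 : a * t * a⁻¹ ∈ T := (Subgroup.mem_normalizer_iff.mp haK t).mp ht
    have h2 : a * t * a⁻¹ * t⁻¹ ∈ T := mul_mem h1 (inv_mem ht)
    have h3 : a * t * a⁻¹ * t⁻¹ ∈ Q := by
      have e : a * t * a⁻¹ * t⁻¹ = a * (t * a⁻¹ * t⁻¹) := by group
      rw [e]
      exact mul_mem ha (hQn.conj_mem _ (inv_mem ha) t)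
    have h4 := hQT _ h3 h2
    have h5 : a * t = t * a := by
      have := mul_inv_eq_one.mp h4
      exact mul_inv_eq_iff_eq_mul.mp this
    rw [← mul_assoc, hQab a ha b hb, mul_assoc, h5, mul_assoc]
  -- Frattini argument
  have hcardT₁ : ∀ g : M, Nat.card ((MulAut.conj g • T : Subgroup M).subgroupOf L) = Nat.card T := by
    intro g
    rw [Cfsg.Agent.H18.card_subgroupOf, inf_eq_left.mpr _, card_conj_smul]
    intro x hx
    have h1 : g⁻¹ * x * g ∈ T := mem_conj_smul_iff.mp hx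
    have h2 := hLn.conj_mem _ (hTL h1) g
    have e : g * (g⁻¹ * x * g) * g⁻¹ = x := by group
    rwa [e] at h2
  have hT₀T : Nat.card T₀ = Nat.card T := by rw [hcT₀, hcT]
  have hdec : ∀ g : M, ∃ a ∈ Q, ∃ k ∈ K', g = a * k := by
    intro g
    have hT₁ : A.IsComplement' ((MulAut.conj g • T : Subgroup M).subgroupOf L) := by
      apply Subgroup.isComplement'_of_coprime
      · rw [hcardT₁, ← hT₀T]
        exact hT₀.card_mul
      · rw [hcardT₁, hcT]
        exact hcop
    obtain ⟨a, ha, hac⟩ := schur_conj_abelian A hcop T₀ _ hT₀ hT₁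
    have hk : g⁻¹ * (a : M) ∈ K' := by
      apply Cfsg.Agent.H13.mem_normalizer_of_map_conj_le
      rintro _ ⟨x, ⟨t, ht, rfl⟩, rfl⟩
      have h1 : a * t * a⁻¹ ∈ MulAut.conj a • T₀ := conj_mem_conj_smul ht
      rw [hac] at h1
      have h2 : (a : M) * (t : M) * (a : M)⁻¹ ∈ (MulAut.conj g • T : Subgroup M) := h1
      have h3 := mem_conj_smul_iff.mp h2
      have e : (MulAut.conj (g⁻¹ * (a : M))).toMonoidHom (L.subtype t) =
          g⁻¹ * ((a : M) * (t : M) * (a : M)⁻¹) * g := by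
        show (g⁻¹ * (a : M)) * (t : M) * (g⁻¹ * (a : M))⁻¹ = _
        group
      rw [e]
      exact h3
    refine ⟨a, ha, (g⁻¹ * (a : M))⁻¹, inv_mem hk, ?_⟩
    group
  -- cards
  have hdisj : Disjoint Q K' := by
    rw [Subgroup.disjoint_def]
    exact fun hx hx' => hQK' _ hx hx'
  have hcompl : Q.IsComplement' K' := by
    apply Subgroup.isComplement'_of_disjoint_and_mul_eq_univ hdisj
    ext g
    simp only [Set.mem_univ, iff_true]
    obtain ⟨a, ha, k, hk, e⟩ := hdec g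
    exact Set.mem_mul.mpr ⟨a, ha, k, hk, e.symm⟩
  have hcK' : Nat.card K' = Nat.card T * L.index := by
    have h1 := hcompl.card_mul
    have h2 := L.card_mul_index
    have h3 := hT₀.card_mul
    rw [hcardA, hT₀T] at h3
    rw [← h3, mul_assoc] at h2
    have hpos : 0 < Nat.card Q := Nat.card_pos
    exact Nat.eq_of_mul_eq_mul_left hpos (h1.trans h2.symm)
  obtain ⟨e, he⟩ : ∃ e, L.index = p ^ e := by
    obtain ⟨e, he⟩ := IsPGroup.iff_card.mp hML
    exact ⟨e, by rw [Subgroup.index_eq_card, he]⟩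
  have hpT : ¬ p ∣ Nat.card T := by rw [hcT]; exact hnd
  let S₀ : Sylow p K' := default
  let K : Subgroup M := (S₀ : Subgroup K').map K'.subtype
  have hcK : Nat.card K = L.index := by
    have h1 : Nat.card K = Nat.card (S₀ : Subgroup K') :=
      Nat.card_congr ((S₀ : Subgroup K').equivMapOfInjective _ K'.subtype_injective).toEquiv.symm
    rw [h1, S₀.card_eq_multiplicity, hcK', he, Nat.factorization_mul Nat.card_pos.ne' (pow_ne_zero _ hpr.ne_zero)]
    simp [Nat.factorization_eq_zero_of_not_dvd hpT, hpr.factorization_pow]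
  refine ⟨K, ?_, hcK⟩
  rw [Subgroup.disjoint_def]
  rintro _ ⟨x, hx, rfl⟩ hxL
  obtain ⟨b, hb, t, ht, e⟩ := hLdec _ hxL
  have hbK : b ∈ K' := by
    have e' : b = (K'.subtype x) * t⁻¹ := by rw [e]; group
    rw [e']
    exact mul_mem x.2 (inv_mem (hTK' ht))
  have hb1 := hQK' b hb hbK
  rw [hb1, one_mul] at e
  have hxT : K'.subtype x ∈ T := e ▸ ht
  -- orders
  have h1 : orderOf (K'.subtype x) ∣ Nat.card T := Subgroup.orderOf_dvd_natCard T hxT
  have h2 : orderOf (K'.subtype x) = orderOf x := orderOf_injective _ K'.subtype_injective x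
  have h3 : orderOf x ∣ Nat.card (S₀ : Subgroup K') := Subgroup.orderOf_dvd_natCard _ hx
  obtain ⟨m, hm⟩ := IsPGroup.iff_card.mp S₀.isPGroup'
  rw [hm] at h3
  obtain ⟨j, -, hj⟩ := (Nat.dvd_prime_pow hpr).mp h3
  have h4 : orderOf x = 1 := by
    rcases j with _ | j
    · simpa using hj
    · exfalso
      apply hpT
      rw [h2, hj] at h1
      exact (dvd_pow_self p (Nat.succ_ne_zero j)).trans h1
  rw [orderOf_eq_one_iff] at h4
  rw [h4, map_one]

end Cfsg.Agent.H01
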