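import Mathlib
import Cfsg.Agent.Lib.H01.RegB4

/-! Orthogonal frames of blocks with prescribed models in `GU_n`. -/

set_option linter.unusedSectionVars false
set_option autoImplicit false

namespace Cfsg.Agent.H01.PglCl

open Polynomial Module Matrix
open Cfsg.Agent.Lead

variable {K : Type*} [Field K] [Fintype K] {q n : ℕ}

local notation "hh" => Cfsg.hermForm n K q

variable {Ty : Type} {Dm : Ty → ℕ}

/-- a frame of blocks isometric to given models -/
structure IsFrT (Rm : ∀ t, GL (Fin (Dm t)) K) (q : ℕ) (g : GL (Fin n) K) {ι : Type} (τ : ι → Ty)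
    (T : ∀ i, (Fin (Dm (τ i)) → K) →ₗ[K] (Fin n → K)) : Prop where
  iso : ∀ i x z, Cfsg.hermForm n K q (T i x) (T i z) = Cfsg.hermForm (Dm (τ i)) K q x z
  orth : ∀ i j, i ≠ j → ∀ x z, Cfsg.hermForm n K q (T i x) (T j z) = 0
  int : ∀ i x, L g (T i x) = T i (L (Rm (τ i)) x)

section frame

variable {Rm : ∀ t, GL (Fin (Dm t)) K} {ι : Type} {τ : ι → Ty}

theorem L_perpT (hF : Fintype.card K = q ^ 2) {g : GL (Fin n) K} (hg : g ∈ Cfsg.GU n K q)
    {T : ∀ i, (Fin (Dm (τ i)) → K) →ₗ[K] (Fin n → K)} (hT : IsFrT Rm q g τ T) (x : Fin n → K)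
    (hx : x ∈ perpF hF T) : L g x ∈ perpF hF T := by
  intro i z
  have h1 : T i z = L g (T i (L (Rm (τ i))⁻¹ z)) := by
    rw [hT.int, L_L_inv]
  rw [h1, herm_L g hg]
  exact hx i _

variable [Fintype ι]

theorem bigE_herm_TT (hF : Fintype.card K = q ^ 2) {g : GL (Fin n) K}
    {T : ∀ i, (Fin (Dm (τ i)) → K) →ₗ[K] (Fin n → K)} (hT : IsFrT Rm q g τ T)
    (x : ∀ i, Fin (Dm (τ i)) → K) (i : ι) (z : Fin (Dm (τ i)) → K) :
    hh (bigE T x) (T i z) = Cfsg.hermForm (Dm (τ i)) K q (x i) z := by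
  classical
  rw [bigE_apply, herm_sum_left, Finset.sum_eq_single i]
  · exact hT.iso i _ _
  · intro j _ hj
    exact hT.orth j i hj _ _
  · simp

theorem bigE_hermT (hF : Fintype.card K = q ^ 2) {g : GL (Fin n) K}
    {T : ∀ i, (Fin (Dm (τ i)) → K) →ₗ[K] (Fin n → K)} (hT : IsFrT Rm q g τ T)
    (x z : ∀ i, Fin (Dm (τ i)) → K) :
    hh (bigE T x) (bigE T z) = ∑ i, Cfsg.hermForm (Dm (τ i)) K q (x i) (z i) := by
  rw [bigE_apply T z, herm_sum_right hF]
  exact Finset.sum_congr rfl fun i _ => bigE_herm_TT hF hT x i (z i)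

theorem bigE_injT (hF : Fintype.card K = q ^ 2) {g : GL (Fin n) K}
    {T : ∀ i, (Fin (Dm (τ i)) → K) →ₗ[K] (Fin n → K)} (hT : IsFrT Rm q g τ T) :
    Function.Injective (bigE T) := by
  rw [injective_iff_map_eq_zero]
  intro x hx
  funext i b
  have h := bigE_herm_TT hF hT x i (Pi.single b 1)
  rw [hx, herm_zeroL, herm_single hF] at h
  exact h.symm

theorem T_injT (hF : Fintype.card K = q ^ 2) {g : GL (Fin n) K}
    {T : ∀ i, (Fin (Dm (τ i)) → K) →ₗ[K] (Fin n → K)} (hT : IsFrT Rm q g τ T) (i : ι) :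
    Function.Injective (T i) := by
  rw [injective_iff_map_eq_zero]
  intro x hx
  funext b
  have h := hT.iso i x (Pi.single b 1)
  rw [hx, herm_zeroL, herm_single hF] at h
  exact h.symm

theorem sum_le_T (hF : Fintype.card K = q ^ 2) {g : GL (Fin n) K}
    {T : ∀ i, (Fin (Dm (τ i)) → K) →ₗ[K] (Fin n → K)} (hT : IsFrT Rm q g τ T) :
    ∑ i, Dm (τ i) ≤ n := by
  have h := LinearMap.finrank_le_finrank_of_injective (bigE_injT hF hT)
  rw [Module.finrank_pi_fintype] at h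
  simpa using h

theorem perp_nondegT (hF : Fintype.card K = q ^ 2) {g : GL (Fin n) K}
    {T : ∀ i, (Fin (Dm (τ i)) → K) →ₗ[K] (Fin n → K)} (hT : IsFrT Rm q g τ T) (x₀ : Fin n → K)
    (hx₀ : x₀ ∈ perpF hF T) (hne : x₀ ≠ 0) : ∃ z ∈ perpF hF T, hh x₀ z ≠ 0 := by
  classical
  obtain ⟨j, hj⟩ : ∃ j, x₀ j ≠ 0 := by
    by_contra hcon
    push Not at hcon
    exact hne (funext hcon)
  let v : Fin n → K := Pi.single j 1
  let c : ∀ i, Fin (Dm (τ i)) → K := fun i b => hh v (T i (Pi.single b 1))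
  refine ⟨v - bigE T c, ?_, ?_⟩
  · intro i w
    rw [hsubL, bigE_herm_TT hF hT, herm_T_expand hF (T i) v w, sub_self]
  · rw [hsubR hF, bigE_apply, herm_sum_right hF, Finset.sum_eq_zero fun i _ => hx₀ i _, sub_zero]
    rw [herm_single hF]
    exact hj

theorem exists_perp_neT (hF : Fintype.card K = q ^ 2) {g : GL (Fin n) K}
    {T : ∀ i, (Fin (Dm (τ i)) → K) →ₗ[K] (Fin n → K)} (hT : IsFrT Rm q g τ T)
    (hlt : ∑ i, Dm (τ i) < n) : ∃ x ∈ perpF hF T, x ≠ 0 := by
  classical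
  let f : (Fin n → K) →ₗ[K] ((Σ i, Fin (Dm (τ i))) → K) :=
    { toFun := fun x p => hh x (T p.1 (Pi.single p.2 1))
      map_add' := by
        intro x y
        funext p
        exact herm_add_left _ _ _
      map_smul' := by
        intro c x
        funext p
        exact herm_smul_left _ _ _ }
  have hlt' : finrank K ((Σ i, Fin (Dm (τ i))) → K) < finrank K (Fin n → K) := by
    simpa using hlt
  have hk := LinearMap.ker_ne_bot_of_finrank_lt (f := f) hlt'
  obtain ⟨x, hx, hx0⟩ := (Submodule.ne_bot_iff _).1 hk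
  refine ⟨x, ?_, hx0⟩
  intro i z
  rw [herm_T_expand hF (T i) x z]
  have h0 : (fun b => hh x (T i (Pi.single b 1))) = 0 := by
    funext b
    have := congrFun (LinearMap.mem_ker.1 hx) ⟨i, b⟩
    exact this
  rw [h0]
  exact herm_zeroL _

theorem L_bigET (hF : Fintype.card K = q ^ 2) {g : GL (Fin n) K}
    {T : ∀ i, (Fin (Dm (τ i)) → K) →ₗ[K] (Fin n → K)} (hT : IsFrT Rm q g τ T)
    (x : ∀ i, Fin (Dm (τ i)) → K) :
    L g (bigE T x) = bigE T (fun i => L (Rm (τ i)) (x i)) := by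
  rw [bigE_apply, bigE_apply, map_sum]
  exact Finset.sum_congr rfl fun i _ => hT.int i (x i)

theorem bigE_bijT (hF : Fintype.card K = q ^ 2) {g : GL (Fin n) K}
    {T : ∀ i, (Fin (Dm (τ i)) → K) →ₗ[K] (Fin n → K)} (hT : IsFrT Rm q g τ T)
    (hs : ∑ i, Dm (τ i) = n) : Function.Bijective (bigE T) := by
  have hinj := bigE_injT hF hT
  refine ⟨hinj, ?_⟩
  refine (LinearMap.injective_iff_surjective_of_finrank_eq_finrank ?_).1 hinj
  rw [Module.finrank_pi_fintype]
  simpa using hs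

theorem frame_conjT (hF : Fintype.card K = q ^ 2) {g g' : GL (Fin n) K}
    {T T' : ∀ i, (Fin (Dm (τ i)) → K) →ₗ[K] (Fin n → K)} (hT : IsFrT Rm q g τ T)
    (hT' : IsFrT Rm q g' τ T') (hs : ∑ i, Dm (τ i) = n) :
    ∃ P ∈ Cfsg.GU n K q, P * g * P⁻¹ = g' := by
  let E := LinearEquiv.ofBijective (bigE T) (bigE_bijT hF hT hs)
  let E' := LinearEquiv.ofBijective (bigE T') (bigE_bijT hF hT' hs)
  have hE : ∀ x, E x = bigE T x := fun x => rfl
  have hE' : ∀ x, E' x = bigE T' x := fun x => rfl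
  let e := E.symm.trans E'
  have he : ∀ x, e (bigE T x) = bigE T' x := by
    intro x
    show E' (E.symm (bigE T x)) = _
    rw [← hE, LinearEquiv.symm_apply_apply, hE']
  obtain ⟨P, hP⟩ := exists_gl_of_equiv e
  have hsurj : ∀ v : Fin n → K, ∃ x, bigE T x = v := (bigE_bijT hF hT hs).2
  refine ⟨P, ?_, ?_⟩
  · apply mem_GU_of
    intro u v
    obtain ⟨x, rfl⟩ := hsurj u
    obtain ⟨z, rfl⟩ := hsurj v
    rw [hP, hP, he, he, bigE_hermT hF hT, bigE_hermT hF hT']
  · rw [mul_inv_eq_iff_eq_mul]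
    apply L_inj
    refine LinearMap.ext fun v => ?_
    obtain ⟨x, rfl⟩ := hsurj v
    rw [L_mul, L_mul, Module.End.mul_apply, Module.End.mul_apply, hP, hP, L_bigET hF hT, he, he,
      L_bigET hF hT']

theorem aeval_T {g : GL (Fin n) K}
    {T : ∀ i, (Fin (Dm (τ i)) → K) →ₗ[K] (Fin n → K)} (hT : IsFrT Rm q g τ T) (P : K[X]) (i : ι)
    (x : Fin (Dm (τ i)) → K) :
    aeval (L g) P (T i x) = T i (aeval (L (Rm (τ i))) P x) := by
  induction P using Polynomial.induction_on' with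
  | add p q' hp hq' =>
    rw [map_add, map_add, LinearMap.add_apply, LinearMap.add_apply, hp, hq', map_add]
  | monomial k c =>
    have hk : ∀ k : ℕ, (L g ^ k) (T i x) = T i ((L (Rm (τ i)) ^ k) x) := by
      intro k
      induction k with
      | zero => simp
      | succ k ih =>
        rw [pow_succ', pow_succ', Module.End.mul_apply, Module.End.mul_apply, ih, hT.int]
    rw [aeval_monomial, aeval_monomial]
    simp only [Module.End.mul_apply, Module.algebraMap_end_apply, hk, map_smul]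

theorem finrank_ker_frameT (hF : Fintype.card K = q ^ 2) {g : GL (Fin n) K}
    {T : ∀ i, (Fin (Dm (τ i)) → K) →ₗ[K] (Fin n → K)} (hT : IsFrT Rm q g τ T)
    (hs : ∑ i, Dm (τ i) = n) (P : K[X]) :
    finrank K (LinearMap.ker (aeval (L g) P)) =
      ∑ i, finrank K (LinearMap.ker (aeval (L (Rm (τ i))) P)) := by
  classical
  have hbig : ∀ x, aeval (L g) P (bigE T x) =
      bigE T (fun i => aeval (L (Rm (τ i))) P (x i)) := by
    intro x
    rw [bigE_apply, bigE_apply, map_sum]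
    exact Finset.sum_congr rfl fun i _ => aeval_T hT P i (x i)
  let Φ₀ : (∀ i, LinearMap.ker (aeval (L (Rm (τ i))) P)) →ₗ[K] (Fin n → K) :=
    bigE T ∘ₗ LinearMap.pi (fun i => (LinearMap.ker (aeval (L (Rm (τ i))) P)).subtype ∘ₗ LinearMap.proj i)
  have hΦ₀ : ∀ x, Φ₀ x = bigE T (fun i => ((x i : LinearMap.ker (aeval (L (Rm (τ i))) P)) :
      Fin (Dm (τ i)) → K)) := fun x => rfl
  have hmem : ∀ x, Φ₀ x ∈ LinearMap.ker (aeval (L g) P) := by
    intro x
    rw [LinearMap.mem_ker, hΦ₀, hbig]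
    have : (fun i => aeval (L (Rm (τ i))) P ((x i : LinearMap.ker (aeval (L (Rm (τ i))) P)) :
        Fin (Dm (τ i)) → K)) = 0 := by
      funext i
      exact LinearMap.mem_ker.1 (x i).2
    rw [this, map_zero]
  let Φ := LinearMap.codRestrict (LinearMap.ker (aeval (L g) P)) Φ₀ hmem
  have hΦ : Function.Bijective Φ := by
    constructor
    · intro x y hxy
      have h1 : Φ₀ x = Φ₀ y := congrArg Subtype.val hxy
      rw [hΦ₀, hΦ₀] at h1
      have h2 := bigE_injT hF hT h1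
      funext i
      exact Subtype.ext (congrFun h2 i)
    · rintro ⟨v, hv⟩
      obtain ⟨x, rfl⟩ := (bigE_bijT hF hT hs).2 v
      rw [LinearMap.mem_ker, hbig] at hv
      have h3 : (fun i => aeval (L (Rm (τ i))) P (x i)) = 0 := by
        apply bigE_injT hF hT
        rw [hv, map_zero]
      refine ⟨fun i => ⟨x i, LinearMap.mem_ker.2 (congrFun h3 i)⟩, ?_⟩
      exact Subtype.ext rfl
  have := (LinearEquiv.ofBijective Φ hΦ).finrank_eq
  rw [← this, Module.finrank_pi_fintype]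

theorem L_pow_T {g : GL (Fin n) K}
    {T : ∀ i, (Fin (Dm (τ i)) → K) →ₗ[K] (Fin n → K)} (hT : IsFrT Rm q g τ T) (k : ℕ) (i : ι)
    (x : Fin (Dm (τ i)) → K) : L (g ^ k) (T i x) = T i (L (Rm (τ i) ^ k) x) := by
  induction k with
  | zero => simp [L_one]
  | succ k ih =>
    rw [pow_succ', pow_succ', L_mul, L_mul, Module.End.mul_apply, Module.End.mul_apply, ih, hT.int]

theorem pow_eq_one_iff_T (hF : Fintype.card K = q ^ 2) {g : GL (Fin n) K}
    {T : ∀ i, (Fin (Dm (τ i)) → K) →ₗ[K] (Fin n → K)} (hT : IsFrT Rm q g τ T)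
    (hs : ∑ i, Dm (τ i) = n) (k : ℕ) : g ^ k = 1 ↔ ∀ i, Rm (τ i) ^ k = 1 := by
  constructor
  · intro h i
    apply L_inj
    refine LinearMap.ext fun x => ?_
    apply T_injT hF hT i
    rw [← L_pow_T hT, h, L_one, L_one]
    rfl
  · intro h
    apply L_inj
    refine LinearMap.ext fun v => ?_
    obtain ⟨x, rfl⟩ := (bigE_bijT hF hT hs).2 v
    rw [bigE_apply, map_sum, map_sum, L_one]
    refine Finset.sum_congr rfl fun i _ => ?_
    rw [L_pow_T hT, h i, L_one]
    rfl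

end frame

section ext

variable {Rm : ∀ t, GL (Fin (Dm t)) K}

/-- types with one more block -/
def optτ {ι : Type} (t : Ty) (τ : ι → Ty) : Option ι → Ty
  | none => t
  | some i => τ i

/-- the frame with one more block -/
def optTT {ι : Type} {t : Ty} {τ : ι → Ty} (Tn : (Fin (Dm t) → K) →ₗ[K] (Fin n → K))
    (T : ∀ i, (Fin (Dm (τ i)) → K) →ₗ[K] (Fin n → K)) :
    ∀ o, (Fin (Dm (optτ t τ o)) → K) →ₗ[K] (Fin n → K)
  | none => Tn
  | some i => T i

theorem frame_extT (hF : Fintype.card K = q ^ 2) {g : GL (Fin n) K} {ι : Type} {t : Ty} {τ : ι → Ty}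
    {Tn : (Fin (Dm t) → K) →ₗ[K] (Fin n → K)} {T : ∀ i, (Fin (Dm (τ i)) → K) →ₗ[K] (Fin n → K)}
    (hT : IsFrT Rm q g τ T) (h1 : ∀ x z, hh (Tn x) (Tn z) = Cfsg.hermForm (Dm t) K q x z)
    (h2 : ∀ x, L g (Tn x) = Tn (L (Rm t) x)) (h3 : ∀ x, Tn x ∈ perpF hF T) :
    IsFrT Rm q g (optτ t τ) (optTT Tn T) := by
  refine ⟨?_, ?_, ?_⟩
  · rintro (_ | i) x z
    · exact h1 x z
    · exact hT.iso i x z
  · rintro (_ | i) (_ | j) hij x z
    · exact absurd rfl hij
    · exact h3 x j z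
    · show hh (T i x) (Tn z) = 0
      rw [herm_conj hF, h3 z i x, zero_pow (by have := two_le_q hF; omega)]
    · exact hT.orth i j (fun h => hij (by rw [h])) x z
  · rintro (_ | i) x
    · exact h2 x
    · exact hT.int i x

/-- a block in an invariant subspace -/
def HasBlock (Rm : ∀ t, GL (Fin (Dm t)) K) (q : ℕ) (g : GL (Fin n) K)
    (W : Submodule K (Fin n → K)) : Prop :=
  ∃ t, ∃ Tn : (Fin (Dm t) → K) →ₗ[K] (Fin n → K),
    (∀ x z, Cfsg.hermForm n K q (Tn x) (Tn z) = Cfsg.hermForm (Dm t) K q x z) ∧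
    (∀ x, L g (Tn x) = Tn (L (Rm t) x)) ∧ ∀ x, Tn x ∈ W

theorem exists_full_frameT (hF : Fintype.card K = q ^ 2) (hpos : ∀ t, 0 < Dm t) (g : GL (Fin n) K)
    (hg : g ∈ Cfsg.GU n K q)
    (hblock : ∀ W : Submodule K (Fin n → K), (∀ x ∈ W, L g x ∈ W) →
      (∀ x ∈ W, x ≠ 0 → ∃ z ∈ W, hh x z ≠ 0) → (∃ x ∈ W, x ≠ 0) → HasBlock Rm q g W) :
    ∃ (ι : Type) (_ : Fintype ι) (τ : ι → Ty) (T : ∀ i, (Fin (Dm (τ i)) → K) →ₗ[K] (Fin n → K)),
      IsFrT Rm q g τ T ∧ ∑ i, Dm (τ i) = n := by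
  classical
  have key : ∀ (k : ℕ) (ι : Type) (_ : Fintype ι) (τ : ι → Ty)
      (T : ∀ i, (Fin (Dm (τ i)) → K) →ₗ[K] (Fin n → K)), IsFrT Rm q g τ T →
      n - ∑ i, Dm (τ i) = k →
      ∃ (ι : Type) (_ : Fintype ι) (τ : ι → Ty) (T : ∀ i, (Fin (Dm (τ i)) → K) →ₗ[K] (Fin n → K)),
        IsFrT Rm q g τ T ∧ ∑ i, Dm (τ i) = n := by
    intro k
    induction k using Nat.strong_induction_on with
    | _ k ih =>
      intro ι _ τ T hT hk
      have hle := sum_le_T hF hT
      by_cases heq : ∑ i, Dm (τ i) = n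
      · exact ⟨ι, _, τ, T, hT, heq⟩
      have hlt : ∑ i, Dm (τ i) < n := by omega
      obtain ⟨t, Tn, h1, h2, h3⟩ := hblock (perpF hF T) (fun x hx => L_perpT hF hg hT x hx)
        (fun x hx hne => perp_nondegT hF hT x hx hne) (exists_perp_neT hF hT hlt)
      have hsum : ∑ o, Dm (optτ t τ o) = Dm t + ∑ i, Dm (τ i) := by
        rw [Fintype.sum_option]
        rfl
      have hpt := hpos t
      refine ih (n - ∑ o, Dm (optτ t τ o)) (by omega) (Option ι) _ (optτ t τ) (optTT Tn T)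
        (frame_extT hF hT h1 h2 h3) rfl
  exact key _ Empty inferInstance (fun i => i.elim) (fun i => i.elim)
    ⟨fun i => i.elim, fun i => i.elim, fun i => i.elim⟩ rfl

end ext

/-- existence of an isometry with prescribed blocks -/
theorem frame_existsT (hF : Fintype.card K = q ^ 2) {Rm : ∀ t, GL (Fin (Dm t)) K}
    (hRm : ∀ t, Rm t ∈ Cfsg.GU (Dm t) K q) {ι : Type} [Fintype ι] {τ : ι → Ty}
    (hs : ∑ i, Dm (τ i) = n) : ∃ g ∈ Cfsg.GU n K q,
      ∃ T : ∀ i, (Fin (Dm (τ i)) → K) →ₗ[K] (Fin n → K), IsFrT Rm q g τ T := by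
  classical
  have hq2 := two_le_q hF
  let e : (Σ i, Fin (Dm (τ i))) ≃ Fin n := Fintype.equivOfCardEq (by simp [hs])
  let E₀ : (∀ i, Fin (Dm (τ i)) → K) ≃ₗ[K] (Fin n → K) :=
    { toFun := fun x j => x (e.symm j).1 (e.symm j).2
      map_add' := fun x y => rfl
      map_smul' := fun c x => rfl
      invFun := fun v i b => v (e ⟨i, b⟩)
      left_inv := by
        intro x
        funext i b
        show x (e.symm (e ⟨i, b⟩)).1 (e.symm (e ⟨i, b⟩)).2 = x i b
        rw [Equiv.symm_apply_apply]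
      right_inv := by
        intro v
        funext j
        show v (e (e.symm j)) = v j
        rw [Equiv.apply_symm_apply] }
  have hE₀ : ∀ x j, E₀ x j = x (e.symm j).1 (e.symm j).2 := fun x j => rfl
  have herm0 : ∀ x z, hh (E₀ x) (E₀ z) = ∑ i, Cfsg.hermForm (Dm (τ i)) K q (x i) (z i) := by
    intro x z
    unfold Cfsg.hermForm
    simp only [hE₀]
    rw [Equiv.sum_comp e.symm (fun p : Σ i, Fin (Dm (τ i)) => x p.1 p.2 * (z p.1 p.2) ^ q),
      Fintype.sum_sigma]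
  let F : (Fin n → K) ≃ₗ[K] (Fin n → K) :=
    E₀.symm.trans ((LinearEquiv.piCongrRight (fun i => Leq (Rm (τ i)))).trans E₀)
  obtain ⟨g, hg⟩ := exists_gl_of_equiv F
  have hgE : ∀ x, L g (E₀ x) = E₀ (fun i => L (Rm (τ i)) (x i)) := by
    intro x
    rw [hg]
    show E₀ ((LinearEquiv.piCongrRight (fun i => Leq (Rm (τ i)))) (E₀.symm (E₀ x))) = _
    rw [LinearEquiv.symm_apply_apply]
    rfl
  have hgu : g ∈ Cfsg.GU n K q := by
    apply mem_GU_of
    intro u v
    obtain ⟨x, rfl⟩ := E₀.surjective u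
    obtain ⟨z, rfl⟩ := E₀.surjective v
    rw [hgE, hgE, herm0, herm0]
    exact Finset.sum_congr rfl fun i _ => herm_L _ (hRm (τ i)) _ _
  have hzR : ∀ {m : ℕ} (a : Fin m → K), Cfsg.hermForm m K q a 0 = 0 := by
    intro m a
    have h0 : (0 : K) ^ q = 0 := zero_pow (by omega)
    simp [Cfsg.hermForm, h0]
  let T : ∀ i, (Fin (Dm (τ i)) → K) →ₗ[K] (Fin n → K) := fun i =>
    E₀.toLinearMap ∘ₗ LinearMap.single K (fun i => Fin (Dm (τ i)) → K) i
  have hTa : ∀ i x, T i x = E₀ (Pi.single i x) := fun i x => rfl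
  refine ⟨g, hgu, T, ⟨?_, ?_, ?_⟩⟩
  · intro i x z
    rw [hTa, hTa, herm0, Finset.sum_eq_single i]
    · simp
    · intro j _ hj
      rw [Pi.single_eq_of_ne hj]
      exact herm_zeroL _
    · simp
  · intro i j hij x z
    rw [hTa, hTa, herm0]
    refine Finset.sum_eq_zero fun t _ => ?_
    by_cases ht : t = i
    · subst ht
      rw [Pi.single_eq_of_ne hij]
      exact hzR _
    · rw [Pi.single_eq_of_ne ht]
      exact herm_zeroL _
  · intro i x
    rw [hTa, hTa, hgE]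
    congr 1
    funext t
    by_cases ht : t = i
    · subst ht
      simp
    · rw [Pi.single_eq_of_ne ht, Pi.single_eq_of_ne ht, map_zero]

theorem frame_transportT {Rm : ∀ t, GL (Fin (Dm t)) K} {ι ι' : Type} {τ : ι → Ty} {τ' : ι' → Ty}
    {g' : GL (Fin n) K} {T' : ∀ i, (Fin (Dm (τ' i)) → K) →ₗ[K] (Fin n → K)}
    (hT' : IsFrT Rm q g' τ' T') (π : ι ≃ ι') (hπ : ∀ i, τ' (π i) = τ i) :
    ∃ T : ∀ i, (Fin (Dm (τ i)) → K) →ₗ[K] (Fin n → K), IsFrT Rm q g' τ T := by
  have hd : (fun i => τ' (π i)) = τ := funext hπ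
  subst hd
  exact ⟨fun i => T' (π i), ⟨fun i x z => hT'.iso _ x z, fun i j hij x z => hT'.orth _ _
    (fun h => hij (π.injective h)) x z, fun i x => hT'.int _ x⟩⟩

theorem frame_conj_of_fib (hF : Fintype.card K = q ^ 2) {Rm : ∀ t, GL (Fin (Dm t)) K}
    {ι ι' : Type} [Fintype ι] [Fintype ι'] {τ : ι → Ty} {τ' : ι' → Ty} {g g' : GL (Fin n) K}
    {T : ∀ i, (Fin (Dm (τ i)) → K) →ₗ[K] (Fin n → K)}
    {T' : ∀ i, (Fin (Dm (τ' i)) → K) →ₗ[K] (Fin n → K)} (hT : IsFrT Rm q g τ T)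
    (hT' : IsFrT Rm q g' τ' T') (hs : ∑ i, Dm (τ i) = n)
    (hc : ∀ t, Nat.card {i // τ i = t} = Nat.card {i // τ' i = t}) :
    ∃ P ∈ Cfsg.GU n K q, P * g * P⁻¹ = g' := by
  classical
  let π : ι ≃ ι' := Equiv.ofFiberEquiv (f := τ) (g := τ') fun t =>
    Fintype.equivOfCardEq (by rw [← Nat.card_eq_fintype_card, ← Nat.card_eq_fintype_card]; exact hc t)
  have hπ : ∀ i, τ' (π i) = τ i := fun i => Equiv.ofFiberEquiv_map _ i
  obtain ⟨T'', hT''⟩ := frame_transportT hT' π hπ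
  exact frame_conjT hF hT hT'' hs

theorem ker_conj_aeval (P g g' : GL (Fin n) K) (h : P * g * P⁻¹ = g') (f : K[X]) :
    finrank K (LinearMap.ker (aeval (L g) f)) = finrank K (LinearMap.ker (aeval (L g') f)) := by
  have h0 : P * g = g' * P := by
    rw [← h]
    group
  have hint : ∀ x, L P (L g x) = L g' (L P x) := by
    intro x
    have h1 : L P * L g = L g' * L P := by rw [← L_mul, h0, L_mul]
    have h2 := LinearMap.congr_fun h1 x
    simpa only [Module.End.mul_apply] using h2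
  have hintk : ∀ (f : K[X]) x, L P (aeval (L g) f x) = aeval (L g') f (L P x) := by
    intro f
    induction f using Polynomial.induction_on' with
    | add p q' hp hq' =>
      intro x
      rw [map_add, map_add, LinearMap.add_apply, LinearMap.add_apply, map_add, hp, hq']
    | monomial k c =>
      intro x
      have hk : ∀ k : ℕ, L P ((L g ^ k) x) = (L g' ^ k) (L P x) := by
        intro k
        induction k with
        | zero => simp
        | succ k ih =>
          rw [pow_succ', pow_succ', Module.End.mul_apply, Module.End.mul_apply, hint, ih]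
      rw [aeval_monomial, aeval_monomial]
      simp only [Module.End.mul_apply, Module.algebraMap_end_apply, hk, map_smul]
  have hker : LinearMap.ker (aeval (L g') f) =
      (LinearMap.ker (aeval (L g) f)).map ((Leq P : (Fin n → K) ≃ₗ[K] (Fin n → K)) :
        (Fin n → K) →ₗ[K] (Fin n → K)) := by
    ext x
    rw [Submodule.mem_map_equiv, LinearMap.mem_ker, LinearMap.mem_ker]
    obtain ⟨u, rfl⟩ := (Leq P).surjective x
    rw [LinearEquiv.symm_apply_apply, Leq_apply, ← hintk]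
    constructor
    · intro h1
      have := L_inv_L P (aeval (L g) f u)
      rw [h1, map_zero] at this
      exact this.symm
    · intro h1
      rw [h1, map_zero]
  rw [hker, LinearEquiv.finrank_map_eq]

end Cfsg.Agent.H01.PglCl
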