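import Mathlib
import Cfsg.Agent.Lib.H01.SsF1

/-! Counting classes from frames of blocks. -/

set_option linter.unusedSectionVars false
set_option autoImplicit false

namespace Cfsg.Agent.H01.PglCl

open Polynomial Module Matrix
open Cfsg.Agent.Lead

theorem card_sig {A : Type} (m : A → ℕ) (o₀ : A) :
    Nat.card {i : Σ o, Fin (m o) // i.1 = o₀} = m o₀ := by
  have e : {i : Σ o, Fin (m o) // i.1 = o₀} ≃ Fin (m o₀) :=
    { toFun := fun i => i.2 ▸ i.1.2
      invFun := fun x => ⟨⟨o₀, x⟩, rfl⟩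
      left_inv := by
        rintro ⟨⟨o, x⟩, rfl⟩
        rfl
      right_inv := fun x => rfl }
  rw [Nat.card_congr e]
  simp

theorem card_le_tuples {S : Type} [Fintype S] [DecidableEq S] (m : ℕ) :
    Nat.card {a : S → ℕ // ∑ t, a t ≤ m} = (m + Fintype.card S).choose (Fintype.card S) := by
  classical
  let e : {a : S → ℕ // ∑ t, a t ≤ m} ≃ {b : Option S → ℕ // ∑ x, b x = m} :=
    { toFun := fun a => ⟨fun o => o.elim (m - ∑ t, a.1 t) a.1, by
        rw [Fintype.sum_option]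
        have := a.2
        show m - ∑ t, a.1 t + ∑ t, a.1 t = m
        omega⟩
      invFun := fun b => ⟨fun t => b.1 (some t), by
        have := b.2
        rw [Fintype.sum_option] at this
        show ∑ t, b.1 (some t) ≤ m
        omega⟩
      left_inv := fun a => by
        apply Subtype.ext
        rfl
      right_inv := fun b => by
        apply Subtype.ext
        funext o
        rcases o with _ | t
        · have := b.2
          rw [Fintype.sum_option] at this
          show m - ∑ t, b.1 (some t) = b.1 none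
          omega
        · rfl }
  rw [Nat.card_congr e, (card_W (A := Option S) m).2, Fintype.card_option]
  have h1 : Fintype.card S + 1 + m - 1 = m + Fintype.card S := by omega
  rw [h1, Nat.choose_symm_add]

theorem card_tuples {S : Type} [Fintype S] [DecidableEq S] (n D₀ : ℕ) (hD₀ : 0 < D₀) :
    Nat.card {a : S → ℕ // ∑ t, a t * D₀ ≤ n ∧ a ≠ 0} =
      (n / D₀ + Fintype.card S).choose (Fintype.card S) - 1 := by
  classical
  rw [← card_le_tuples (S := S) (n / D₀)]
  have hiff : ∀ a : S → ℕ, ∑ t, a t * D₀ ≤ n ↔ ∑ t, a t ≤ n / D₀ := by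
    intro a
    rw [← Finset.sum_mul, Nat.le_div_iff_mul_le hD₀]
  have hfin : Finite {a : S → ℕ // ∑ t, a t ≤ n / D₀} := by
    have := (card_W (A := Option S) (n / D₀)).1
    exact Finite.of_injective
      (fun a : {a : S → ℕ // ∑ t, a t ≤ n / D₀} =>
        (⟨fun o => o.elim (n / D₀ - ∑ t, a.1 t) a.1, by
          rw [Fintype.sum_option]
          have := a.2
          show n / D₀ - ∑ t, a.1 t + ∑ t, a.1 t = n / D₀
          omega⟩ : {b : Option S → ℕ // ∑ x, b x = n / D₀}))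
      (fun a b h => by
        apply Subtype.ext
        funext t
        exact congrFun (congrArg Subtype.val h) (some t))
  letI : Fintype {a : S → ℕ // ∑ t, a t ≤ n / D₀} := Fintype.ofFinite _
  let z : {a : S → ℕ // ∑ t, a t ≤ n / D₀} := ⟨0, by simp⟩
  let e : {a : S → ℕ // ∑ t, a t * D₀ ≤ n ∧ a ≠ 0} ≃
      {x : {a : S → ℕ // ∑ t, a t ≤ n / D₀} // ¬ x = z} :=
    { toFun := fun a => ⟨⟨a.1, (hiff a.1).1 a.2.1⟩, fun h => a.2.2 (congrArg Subtype.val h)⟩
      invFun := fun x => ⟨x.1.1, (hiff x.1.1).2 x.1.2, fun h => x.2 (Subtype.ext h)⟩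
      left_inv := fun a => rfl
      right_inv := fun x => rfl }
  rw [Nat.card_congr e, Nat.card_eq_fintype_card, Nat.card_eq_fintype_card,
    Fintype.card_subtype_compl, Fintype.card_subtype_eq]

variable {K : Type*} [Field K] [Fintype K] {q n : ℕ}

local notation "hh" => Cfsg.hermForm n K q

variable {S : Type} [Fintype S] [DecidableEq S]

/-- block dimensions -/
def dimO (D₀ : ℕ) : Option S → ℕ
  | none => 1
  | some _ => D₀

/-- block models -/
def repO {D₀ : ℕ} (R : S → GL (Fin D₀) K) : ∀ o : Option S, GL (Fin (dimO D₀ o)) K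
  | none => 1
  | some t => R t

/-- fibre counts -/
noncomputable def ct {ι : Type} (τ : ι → Option S) (o : Option S) : ℕ := Nat.card {i // τ i = o}

theorem sum_ct {ι : Type} [Fintype ι] (τ : ι → Option S) (F : Option S → ℕ) :
    ∑ i, F (τ i) = ∑ o, ct τ o * F o := by
  classical
  rw [← Finset.sum_fiberwise Finset.univ τ]
  refine Finset.sum_congr rfl fun o _ => ?_
  have h1 : ∀ i ∈ Finset.univ.filter (fun i => τ i = o), F (τ i) = F o := by
    intro i hi
    rw [(Finset.mem_filter.1 hi).2]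
  rw [Finset.sum_congr rfl h1, Finset.sum_const, smul_eq_mul, ct, Nat.card_eq_fintype_card,
    Fintype.card_subtype]

/-- type of a semisimple isometry -/
def HasTup {D₀ : ℕ} (R : S → GL (Fin D₀) K) (q : ℕ) (g : GL (Fin n) K) (a : S → ℕ) : Prop :=
  ∃ (ι : Type) (_ : Fintype ι) (τ : ι → Option S)
    (T : ∀ i, (Fin (dimO D₀ (τ i)) → K) →ₗ[K] (Fin n → K)),
    IsFrT (Dm := dimO D₀) (repO R) q g τ T ∧ ∑ i, dimO D₀ (τ i) = n ∧ ∀ t, ct τ (some t) = a t

variable {D₀ : ℕ} {R : S → GL (Fin D₀) K}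

theorem repO_mem (hF : Fintype.card K = q ^ 2) (hR : ∀ t, R t ∈ Cfsg.GU D₀ K q) (o : Option S) :
    repO R o ∈ Cfsg.GU (dimO D₀ o) K q := by
  rcases o with _ | t
  · exact one_mem _
  · exact hR t

theorem sum_dim_ct {ι : Type} [Fintype ι] (τ : ι → Option S) :
    ∑ i, dimO D₀ (τ i) = ct τ none + ∑ t, ct τ (some t) * D₀ := by
  rw [sum_ct τ (dimO D₀), Fintype.sum_option]
  simp [dimO]

theorem exists_of_tup (hF : Fintype.card K = q ^ 2) (hR : ∀ t, R t ∈ Cfsg.GU D₀ K q) (a : S → ℕ)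
    (ha : ∑ t, a t * D₀ ≤ n) : ∃ g ∈ Cfsg.GU n K q, HasTup R q g a := by
  classical
  let m : Option S → ℕ := fun o => o.elim (n - ∑ t, a t * D₀) a
  let τ : (Σ o, Fin (m o)) → Option S := fun i => i.1
  have hct : ∀ o, ct τ o = m o := fun o => card_sig m o
  have hs : ∑ i, dimO D₀ (τ i) = n := by
    rw [sum_dim_ct, hct]
    have : ∀ t, ct τ (some t) * D₀ = a t * D₀ := fun t => by
      rw [hct]
      rfl
    rw [Finset.sum_congr rfl fun t _ => this t]
    show n - ∑ t, a t * D₀ + ∑ t, a t * D₀ = n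
    omega
  obtain ⟨g, hg, T, hT⟩ := frame_existsT (Dm := dimO D₀) (Rm := repO R) hF
    (fun o => repO_mem hF hR o) (τ := τ) hs
  exact ⟨g, hg, _, inferInstance, τ, T, hT, hs, fun t => by rw [hct]; rfl⟩

theorem exists_tup (hF : Fintype.card K = q ^ 2) (hD₀ : 0 < D₀) (g : GL (Fin n) K)
    (hg : g ∈ Cfsg.GU n K q)
    (hB : ∀ W : Submodule K (Fin n → K), (∀ x ∈ W, L g x ∈ W) →
      (∀ x ∈ W, x ≠ 0 → ∃ z ∈ W, hh x z ≠ 0) → (∃ x ∈ W, x ≠ 0) →
      HasBlock (Dm := dimO D₀) (repO R) q g W) :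
    ∃ a : S → ℕ, ∑ t, a t * D₀ ≤ n ∧ HasTup R q g a := by
  obtain ⟨ι, _, τ, T, hT, hs⟩ := exists_full_frameT (Dm := dimO D₀) (Rm := repO R) hF (by
    rintro (_ | t)
    · show 0 < 1
      omega
    · exact hD₀) g hg hB
  refine ⟨fun t => ct τ (some t), ?_, ι, _, τ, T, hT, hs, fun t => rfl⟩
  rw [sum_dim_ct] at hs
  show ∑ t, ct τ (some t) * D₀ ≤ n
  omega

theorem tup_unique (hF : Fintype.card K = q ^ 2) (fS : S → K[X])
    (hk : ∀ t, LinearMap.ker (aeval (L (R t)) (fS t)) ≠ ⊥)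
    (hinj : ∀ t t', t ≠ t' → LinearMap.ker (aeval (L (R t')) (fS t)) = ⊥)
    (hone : ∀ t, (fS t).eval 1 ≠ 0) {g g' : GL (Fin n) K} (P : GL (Fin n) K)
    (hP : P * g * P⁻¹ = g') (a a' : S → ℕ) (h : HasTup R q g a) (h' : HasTup R q g' a') : a = a' := by
  classical
  obtain ⟨ι, _, τ, T, hT, hs, ha⟩ := h
  obtain ⟨ι', _, τ', T', hT', hs', ha'⟩ := h'
  funext t
  let Fk : Option S → ℕ := fun o => finrank K (LinearMap.ker (aeval (L (repO R o)) (fS t)))
  have hFn : Fk none = 0 := by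
    have h1 : LinearMap.ker (aeval (L (repO R (none : Option S))) (fS t)) = ⊥ := by
      rw [LinearMap.ker_eq_bot, injective_iff_map_eq_zero]
      intro x hx
      have h2 : repO R (none : Option S) = 1 := rfl
      have h3 : (1 : End K (Fin 1 → K)) = algebraMap K _ 1 := (map_one _).symm
      rw [h2, L_one] at hx
      have h4 : (aeval (1 : End K (Fin (dimO D₀ (none : Option S)) → K))) (fS t) =
          algebraMap K _ ((fS t).eval 1) := by
        have h5 : (1 : End K (Fin (dimO D₀ (none : Option S)) → K)) = algebraMap K _ 1 :=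
          (map_one _).symm
        rw [h5, aeval_algebraMap_apply_eq_algebraMap_eval]
      rw [h4, Algebra.algebraMap_eq_smul_one] at hx
      simp only [LinearMap.smul_apply, Module.End.one_apply] at hx
      exact (smul_eq_zero.1 hx).resolve_left (hone t)
    show finrank K (LinearMap.ker (aeval (L (repO R (none : Option S))) (fS t))) = 0
    rw [h1]
    simp
  have hFs : ∀ t', t' ≠ t → Fk (some t') = 0 := by
    intro t' ht'
    show finrank K (LinearMap.ker (aeval (L (R t')) (fS t))) = 0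
    rw [hinj t t' ht'.symm]
    simp
  have hκ : 0 < Fk (some t) := by
    show 0 < finrank K (LinearMap.ker (aeval (L (R t)) (fS t)))
    rw [Module.finrank_pos_iff]
    exact Submodule.nontrivial_iff_ne_bot.2 (hk t)
  have hsum : ∀ {ι₁ : Type} [Fintype ι₁] (τ₁ : ι₁ → Option S),
      ∑ i, Fk (τ₁ i) = ct τ₁ (some t) * Fk (some t) := by
    intro ι₁ _ τ₁
    rw [sum_ct, Fintype.sum_option, hFn, mul_zero, zero_add, Finset.sum_eq_single t]
    · intro t' _ ht'
      rw [hFs t' ht', mul_zero]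
    · simp
  have h1 := finrank_ker_frameT hF hT hs (fS t)
  have h2 := finrank_ker_frameT hF hT' hs' (fS t)
  have h3 := ker_conj_aeval P g g' hP (fS t)
  rw [h1, h2] at h3
  have h4 : ct τ (some t) * Fk (some t) = ct τ' (some t) * Fk (some t) := by
    rw [← hsum τ, ← hsum τ']
    exact h3
  rw [← ha, ← ha']
  exact Nat.eq_of_mul_eq_mul_right hκ h4

theorem tup_conj (hF : Fintype.card K = q ^ 2) {g g' : GL (Fin n) K} (a : S → ℕ)
    (h : HasTup R q g a) (h' : HasTup R q g' a) : ∃ P ∈ Cfsg.GU n K q, P * g * P⁻¹ = g' := by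
  classical
  obtain ⟨ι, _, τ, T, hT, hs, ha⟩ := h
  obtain ⟨ι', _, τ', T', hT', hs', ha'⟩ := h'
  refine frame_conj_of_fib (Dm := dimO D₀) hF hT hT' hs ?_
  have h1 := sum_dim_ct (D₀ := D₀) τ
  have h2 := sum_dim_ct (D₀ := D₀) τ'
  rintro (_ | t)
  · show ct τ none = ct τ' none
    have h3 : ∀ t, ct τ (some t) * D₀ = ct τ' (some t) * D₀ := fun t => by
      rw [ha, ha']
    rw [Finset.sum_congr rfl fun t _ => h3 t] at h1
    omega
  · show ct τ (some t) = ct τ' (some t)
    rw [ha, ha']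

theorem order_iff_tup {r : ℕ} [Fact r.Prime] (hF : Fintype.card K = q ^ 2)
    (hRr : ∀ t, R t ^ r = 1) (hR1 : ∀ t, R t ≠ 1) (g : Cfsg.GU n K q) (a : S → ℕ)
    (h : HasTup R q g.1 a) : orderOf g = r ↔ a ≠ 0 := by
  classical
  have hp : r.Prime := Fact.out
  obtain ⟨ι, _, τ, T, hT, hs, ha⟩ := h
  have h1 : (g : GL (Fin n) K) ^ r = 1 := by
    refine (pow_eq_one_iff_T hF hT hs r).2 fun i => ?_
    have : ∀ o : Option S, repO R o ^ r = 1 := by
      rintro (_ | t)
      · exact one_pow _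
      · exact hRr t
    exact this _
  have h1' : g ^ r = 1 := Subtype.ext h1
  have h2 : g = 1 ↔ a = 0 := by
    have h3 := pow_eq_one_iff_T hF hT hs 1
    rw [pow_one] at h3
    have h4 : ∀ o : Option S, repO R o ^ 1 = 1 ↔ o = none := by
      rintro (_ | t)
      · simp [repO]
      · simp only [reduceCtorEq, iff_false]
        rw [pow_one]
        exact hR1 t
    rw [Subtype.ext_iff]
    show (g : GL (Fin n) K) = 1 ↔ a = 0
    rw [h3]
    simp only [h4]
    constructor
    · intro h5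
      funext t
      rw [← ha]
      have : IsEmpty {i // τ i = some t} := ⟨fun i => by
        have := h5 i.1
        rw [i.2] at this
        exact absurd this (by simp)⟩
      show Nat.card _ = 0
      exact Nat.card_of_isEmpty
    · intro h5 i
      by_contra hi
      obtain ⟨t, ht⟩ := Option.ne_none_iff_exists'.1 hi
      have h6 := ha t
      rw [h5] at h6
      have h7 : Nat.card {i // τ i = some t} = 0 := h6
      rw [Nat.card_eq_zero] at h7
      rcases h7 with h7 | h7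
      · exact h7.false ⟨i, ht⟩
      · exact (not_finite_iff_infinite.2 h7) inferInstance
  constructor
  · intro h3 h4
    have := h2.2 h4
    rw [this, orderOf_one] at h3
    exact hp.one_lt.ne h3
  · intro h3
    exact orderOf_eq_prime h1' (fun h4 => h3 (h2.1 h4))

theorem ss_count_main {r : ℕ} [Fact r.Prime] (hF : Fintype.card K = q ^ 2) (hD₀ : 0 < D₀)
    (hR : ∀ t, R t ∈ Cfsg.GU D₀ K q) (hRr : ∀ t, R t ^ r = 1) (hR1 : ∀ t, R t ≠ 1) (fS : S → K[X])
    (hk : ∀ t, LinearMap.ker (aeval (L (R t)) (fS t)) ≠ ⊥)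
    (hinj : ∀ t t', t ≠ t' → LinearMap.ker (aeval (L (R t')) (fS t)) = ⊥)
    (hone : ∀ t, (fS t).eval 1 ≠ 0)
    (hB : ∀ g : GL (Fin n) K, g ∈ Cfsg.GU n K q → g ^ r = 1 →
      ∀ W : Submodule K (Fin n → K), (∀ x ∈ W, L g x ∈ W) →
      (∀ x ∈ W, x ≠ 0 → ∃ z ∈ W, hh x z ≠ 0) → (∃ x ∈ W, x ≠ 0) →
      HasBlock (Dm := dimO D₀) (repO R) q g W) :
    Nat.card {C : ConjClasses ↥(Cfsg.GU n K q) //
      ∃ g : ↥(Cfsg.GU n K q), ConjClasses.mk g = C ∧ orderOf g = r} =
      (n / D₀ + Fintype.card S).choose (Fintype.card S) - 1 := by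
  classical
  have hp : r.Prime := Fact.out
  rw [← card_tuples (S := S) n D₀ hD₀]
  have hex : ∀ a : {a : S → ℕ // ∑ t, a t * D₀ ≤ n ∧ a ≠ 0},
      ∃ g : Cfsg.GU n K q, HasTup R q g.1 a.1 := by
    intro a
    obtain ⟨g, hg, h⟩ := exists_of_tup hF hR a.1 a.2.1
    exact ⟨⟨g, hg⟩, h⟩
  choose gOf hgOf using hex
  let Ψ : {a : S → ℕ // ∑ t, a t * D₀ ≤ n ∧ a ≠ 0} →
      {C : ConjClasses ↥(Cfsg.GU n K q) //
        ∃ g : ↥(Cfsg.GU n K q), ConjClasses.mk g = C ∧ orderOf g = r} :=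
    fun a => ⟨ConjClasses.mk (gOf a), gOf a, rfl,
      (order_iff_tup hF hRr hR1 (gOf a) a.1 (hgOf a)).2 a.2.2⟩
  have hΨ : Function.Bijective Ψ := by
    constructor
    · intro a a' h
      have h1 : ConjClasses.mk (gOf a) = ConjClasses.mk (gOf a') := congrArg Subtype.val h
      rw [ConjClasses.mk_eq_mk_iff_isConj, isConj_iff] at h1
      obtain ⟨c, hc⟩ := h1
      have h2 : (c : GL (Fin n) K) * (gOf a : GL (Fin n) K) * (c : GL (Fin n) K)⁻¹ = gOf a' :=
        congrArg Subtype.val hc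
      exact Subtype.ext (tup_unique hF fS hk hinj hone _ h2 a.1 a'.1 (hgOf a) (hgOf a'))
    · rintro ⟨C, g, rfl, hord⟩
      have hgp : g ^ r = 1 := by
        rw [← hord]
        exact pow_orderOf_eq_one g
      have hgp' : (g : GL (Fin n) K) ^ r = 1 := congrArg Subtype.val hgp
      obtain ⟨a, ha, hga⟩ := exists_tup (R := R) hF hD₀ g.1 g.2 (hB g.1 g.2 hgp')
      have ha0 : a ≠ 0 := (order_iff_tup hF hRr hR1 g a hga).1 hord
      refine ⟨⟨a, ha, ha0⟩, Subtype.ext ?_⟩
      show ConjClasses.mk (gOf ⟨a, ha, ha0⟩) = ConjClasses.mk g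
      rw [ConjClasses.mk_eq_mk_iff_isConj, isConj_iff]
      obtain ⟨P, hP, h1⟩ := tup_conj hF a (hgOf ⟨a, ha, ha0⟩) hga
      exact ⟨⟨P, hP⟩, Subtype.ext h1⟩
  exact (Nat.card_congr (Equiv.ofBijective Ψ hΨ)).symm

end Cfsg.Agent.H01.PglCl
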