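import Mathlib
import Cfsg.Agent.Lib.H01.SsF2
import Cfsg.Agent.Lib.H01.SpCen1

/-! Adjoint polynomials and abstract models of blocks. -/

set_option linter.unusedSectionVars false
set_option autoImplicit false

namespace Cfsg.Agent.H01.PglCl

open Polynomial Module Matrix
open Cfsg.Agent.Lead

variable {K : Type*} [Field K] [Fintype K] {q n r : ℕ}

local notation "hh" => Cfsg.hermForm n K q

/-- the adjoint polynomial -/
noncomputable def dag (φ : K →+* K) (r : ℕ) : K[X] →+* K[X] :=
  eval₂RingHom (C.comp φ) (X ^ (r - 1))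

theorem dag_C (φ : K →+* K) (r : ℕ) (c : K) : dag φ r (C c) = C (φ c) := by
  simp [dag]

theorem dag_X (φ : K →+* K) (r : ℕ) : dag φ r X = X ^ (r - 1) := by
  simp [dag]

theorem aeval_mul_apply (A : End K (Fin n → K)) (P P' : K[X]) (y : Fin n → K) :
    aeval A (P * P') y = aeval A P (aeval A P' y) := by
  rw [map_mul, Module.End.mul_apply]

theorem herm_adj (hF : Fintype.card K = q ^ 2) (φ : K →+* K) (hφ : ∀ x, φ x = x ^ q) (hr : 0 < r)
    (g : GL (Fin n) K) (hg : g ∈ Cfsg.GU n K q) (hr1 : g ^ r = 1) (P : K[X]) :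
    ∀ u v : Fin n → K, hh (aeval (L g) P u) v = hh u (aeval (L g) (dag φ r P) v) := by
  have hinv : g ^ (r - 1) = g⁻¹ := by
    apply eq_inv_of_mul_eq_one_left
    rw [← pow_succ]
    have : r - 1 + 1 = r := by omega
    rw [this, hr1]
  have hX : ∀ u v : Fin n → K, hh (L g u) v = hh u ((L g ^ (r - 1)) v) := by
    intro u v
    rw [← L_pow, hinv]
    have := herm_L g hg u (L g⁻¹ v)
    rwa [L_L_inv] at this
  induction P using Polynomial.induction_on with
  | C c =>
    intro u v
    rw [dag_C, aeval_C, aeval_C, Module.algebraMap_end_apply, Module.algebraMap_end_apply,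
      herm_smul_left, herm_smul_right hF, hφ, pow_q_sq hF]
  | add p p' hp hp' =>
    intro u v
    rw [map_add, map_add, map_add, LinearMap.add_apply, LinearMap.add_apply, herm_add_left,
      herm_add_right hF, hp, hp']
  | monomial k c ih =>
    intro u v
    have h1 : (C c * X ^ (k + 1) : K[X]) = (C c * X ^ k) * X := by
      rw [pow_succ]
      ring
    have h2 : dag φ r (C c * X ^ k * X) = X ^ (r - 1) * dag φ r (C c * X ^ k) := by
      rw [map_mul (dag φ r) (C c * X ^ k) X, dag_X, mul_comm]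
    rw [h1, aeval_mul_apply, aeval_X, ih, hX, h2, aeval_mul_apply, map_pow, aeval_X]

theorem aeval_dag_dag (φ : K →+* K) (hφφ : ∀ c, φ (φ c) = c) (hr : 2 ≤ r) (g : GL (Fin n) K)
    (hr1 : g ^ r = 1) (P : K[X]) : aeval (L g) (dag φ r (dag φ r P)) = aeval (L g) P := by
  have key : ((aeval (L g) : K[X] →ₐ[K] End K (Fin n → K)) : K[X] →+* End K (Fin n → K)).comp
      ((dag φ r).comp (dag φ r)) =
      ((aeval (L g) : K[X] →ₐ[K] End K (Fin n → K)) : K[X] →+* End K (Fin n → K)) := by
    refine Polynomial.ringHom_ext (fun c => ?_) ?_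
    · simp only [RingHom.comp_apply, dag_C, hφφ]
    · simp only [RingHom.comp_apply, dag_X, map_pow, AlgHom.coe_toRingHom, aeval_X]
      rw [← pow_mul, ← L_pow]
      have h1 : (r - 1) * (r - 1) = r * (r - 2) + 1 := by
        obtain ⟨s, rfl⟩ : ∃ s, r = s + 2 := ⟨r - 2, by omega⟩
        simp only [Nat.add_sub_cancel]
        have : s + 2 - 1 = s + 1 := by omega
        rw [this]
        ring
      rw [h1, pow_succ, pow_mul, hr1, one_pow, one_mul]
  exact RingHom.congr_fun key P

theorem herm_adj2 (hF : Fintype.card K = q ^ 2) (φ : K →+* K) (hφ : ∀ x, φ x = x ^ q) (hr : 2 ≤ r)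
    (g : GL (Fin n) K) (hg : g ∈ Cfsg.GU n K q) (hr1 : g ^ r = 1) (P : K[X]) (u v : Fin n → K) :
    hh u (aeval (L g) P v) = hh (aeval (L g) (dag φ r P) u) v := by
  have hφφ : ∀ c, φ (φ c) = c := fun c => by rw [hφ, hφ, pow_q_sq hF]
  rw [herm_adj hF φ hφ (by omega) g hg hr1 (dag φ r P) u v, aeval_dag_dag φ hφφ hr g hr1]

theorem exists_cycMap {U : Type*} [AddCommGroup U] [Module K U] (f : K[X]) (A : End K U) (y : U)
    (hy : aeval A f y = 0) : ∃ T : AdjoinRoot f →ₗ[K] U, ∀ P, T (AdjoinRoot.mk f P) = aeval A P y := by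
  have hkey : ∀ P P' : K[X], AdjoinRoot.mk f P = AdjoinRoot.mk f P' → aeval A P y = aeval A P' y := by
    intro P P' h
    obtain ⟨W, hW⟩ := AdjoinRoot.mk_eq_mk.1 h
    have h1 : P = P' + W * f := by
      rw [mul_comm, ← hW]
      ring
    rw [h1, map_add, LinearMap.add_apply, map_mul, Module.End.mul_apply, hy, map_zero, add_zero]
  let rep : AdjoinRoot f → K[X] := fun a => (AdjoinRoot.mk_surjective a).choose
  have hrep : ∀ a, AdjoinRoot.mk f (rep a) = a := fun a => (AdjoinRoot.mk_surjective a).choose_spec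
  refine ⟨{ toFun := fun a => aeval A (rep a) y
            map_add' := ?_
            map_smul' := ?_ }, fun P => hkey _ _ (hrep _)⟩
  · intro a b
    show aeval A (rep (a + b)) y = aeval A (rep a) y + aeval A (rep b) y
    rw [← LinearMap.add_apply, ← map_add]
    exact hkey _ _ (by rw [hrep, map_add, hrep, hrep])
  · intro c a
    show aeval A (rep (c • a)) y = c • aeval A (rep a) y
    have h1 : c • aeval A (rep a) y = aeval A (C c * rep a) y := by
      rw [map_mul, Module.End.mul_apply, aeval_C, Module.algebraMap_end_apply]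
    rw [h1]
    refine hkey _ _ ?_
    rw [hrep, map_mul, hrep, AdjoinRoot.mk_C, Algebra.smul_def, AdjoinRoot.algebraMap_eq]

/-- an abstract nondegenerate Hermitian space with an isometry is a block of `GU_D` -/
theorem exists_model_R {M : Type*} [AddCommGroup M] [Module K M] [FiniteDimensional K M]
    (hF : Fintype.card K = q ^ 2) (H : M → M → K)
    (hadd : ∀ u v w, H (u + v) w = H u w + H v w) (hsmul : ∀ (c : K) u v, H (c • u) v = c * H u v)
    (hconj : ∀ u v, H v u = (H u v) ^ q) (hnd : ∀ u, (∀ v, H u v = 0) → u = 0) (D : ℕ)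
    (hD : finrank K M = D) (γ : M ≃ₗ[K] M) (hγ : ∀ u v, H (γ u) (γ v) = H u v) :
    ∃ (R : GL (Fin D) K) (ι : (Fin D → K) ≃ₗ[K] M), R ∈ Cfsg.GU D K q ∧
      (∀ x z, H (ι x) (ι z) = Cfsg.hermForm D K q x z) ∧ ∀ x, ι (L R x) = γ (ι x) := by
  classical
  obtain ⟨b, hb⟩ := Cfsg.Agent.H01.SpCen.exists_ON hF D M H hadd hsmul hconj hnd hD
  let ι₀ : (Fin D → K) →ₗ[K] M := Fintype.linearCombination K b
  have hι₀ : ∀ x, ι₀ x = ∑ i, x i • b i := fun x => by
    simp only [ι₀, Fintype.linearCombination_apply]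
  let Hl : M → M →ₗ[K] K := fun w =>
    { toFun := fun u => H u w
      map_add' := fun u v => hadd u v w
      map_smul' := fun c u => hsmul c u w }
  have hHl : ∀ w u, Hl w u = H u w := fun _ _ => rfl
  have hcoord : ∀ (z : Fin D → K) (i : Fin D), H (ι₀ z) (b i) = z i := by
    intro z i
    rw [← hHl, hι₀, map_sum, Finset.sum_eq_single i]
    · rw [map_smul, hHl, hb]
      simp
    · intro j _ hj
      rw [map_smul, hHl, hb, if_neg hj, smul_zero]
    · simp
  have hiso : ∀ x z, H (ι₀ x) (ι₀ z) = Cfsg.hermForm D K q x z := by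
    intro x z
    rw [← hHl, hι₀ x, map_sum]
    unfold Cfsg.hermForm
    refine Finset.sum_congr rfl fun i _ => ?_
    rw [map_smul, hHl, hconj (ι₀ z) (b i), hcoord]
    rfl
  have hinj : Function.Injective ι₀ := by
    rw [injective_iff_map_eq_zero]
    intro z hz
    funext i
    have h1 := hcoord z i
    rw [hz] at h1
    have h2 : H 0 (b i) = 0 := by
      have := hsmul 0 0 (b i)
      simpa using this
    rw [h2] at h1
    exact h1.symm
  let ι : (Fin D → K) ≃ₗ[K] M := LinearMap.linearEquivOfInjective ι₀ hinj (by simp [hD])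
  have hιa : ∀ x, ι x = ι₀ x := fun x => rfl
  obtain ⟨R, hR⟩ := exists_gl_of_equiv (ι.trans (γ.trans ι.symm))
  have hRι : ∀ x, ι (L R x) = γ (ι x) := by
    intro x
    rw [hR]
    show ι (ι.symm (γ (ι x))) = _
    rw [LinearEquiv.apply_symm_apply]
  refine ⟨R, ι, ?_, fun x z => ?_, hRι⟩
  · apply mem_GU_of
    intro x z
    rw [← hiso, ← hιa, ← hιa, hRι, hRι, hγ, hιa, hιa, hiso]
  · rw [hιa, hιa, hiso]

theorem orth_of_coprime (hF : Fintype.card K = q ^ 2) (φ : K →+* K) (hφ : ∀ x, φ x = x ^ q)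
    (hr : 0 < r) (g : GL (Fin n) K) (hg : g ∈ Cfsg.GU n K q) (hr1 : g ^ r = 1) (f f' : K[X])
    (hcop : IsCoprime f' (dag φ r f)) (x y : Fin n → K) (hx : aeval (L g) f x = 0)
    (hy : aeval (L g) f' y = 0) : hh x y = 0 := by
  obtain ⟨a, b, hab⟩ := hcop
  have h1 : y = aeval (L g) (dag φ r f) (aeval (L g) b y) := by
    have h2 := congrArg (fun P => aeval (L g) P y) hab
    simp only [map_add, LinearMap.add_apply, map_one, Module.End.one_apply] at h2
    rw [aeval_mul_apply, hy, map_zero, zero_add, aeval_mul_apply] at h2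
    rw [← aeval_mul_apply, mul_comm, aeval_mul_apply]
    exact h2.symm
  rw [h1, ← herm_adj hF φ hφ hr g hg hr1, hx, herm_zeroL]

theorem exists_proj (hF : Fintype.card K = q ^ 2) (φ : K →+* K) (hφ : ∀ x, φ x = x ^ q)
    (hr : 2 ≤ r) (g : GL (Fin n) K) (hg : g ∈ Cfsg.GU n K q) (hr1 : g ^ r = 1) (f f₀ G : K[X])
    (hfac : (X ^ r - 1 : K[X]) = f₀ * G) (hcop : IsCoprime f₀ G) (hdiv : f ∣ dag φ r f₀)
    (W : Submodule K (Fin n → K)) (hW : ∀ x ∈ W, L g x ∈ W) (x z : Fin n → K)
    (hx : aeval (L g) f x = 0) (hz : z ∈ W) :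
    ∃ z' ∈ W, aeval (L g) f₀ z' = 0 ∧ hh x z' = hh x z := by
  obtain ⟨u, v, huv⟩ := hcop
  have hann : aeval (L g) (X ^ r - 1 : K[X]) = 0 := by
    rw [map_sub, map_pow, aeval_X, map_one, ← L_pow, hr1, L_one, sub_self]
  refine ⟨aeval (L g) (v * G) z, aeval_mem W (L g) hW _ z hz, ?_, ?_⟩
  · rw [← aeval_mul_apply]
    have : f₀ * (v * G) = v * (X ^ r - 1) := by
      rw [hfac]
      ring
    rw [this, map_mul, hann, mul_zero]
    rfl
  · have h1 : z = aeval (L g) (u * f₀) z + aeval (L g) (v * G) z := by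
      rw [← LinearMap.add_apply, ← map_add, huv, map_one]
      rfl
    have h2 : hh x (aeval (L g) (u * f₀) z) = 0 := by
      rw [herm_adj2 hF φ hφ hr g hg hr1, map_mul (dag φ r)]
      obtain ⟨w, hw⟩ := hdiv
      rw [hw]
      have : dag φ r u * (f * w) = dag φ r u * w * f := by ring
      rw [this, aeval_mul_apply, hx, map_zero, herm_zeroL]
    conv_rhs => rw [h1]
    rw [herm_add_right hF, h2, zero_add]

/-- multiplication by a nonzero element -/
noncomputable def mulEquiv' {E : Type*} [Field E] [Algebra K E] (ρ : E) (h : ρ ≠ 0) : E ≃ₗ[K] E :=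
  LinearEquiv.ofLinear (LinearMap.mulLeft K ρ) (LinearMap.mulLeft K ρ⁻¹)
    (LinearMap.ext fun x => by simp [h])
    (LinearMap.ext fun x => by simp [h])

theorem mulEquiv'_apply {E : Type*} [Field E] [Algebra K E] (ρ : E) (h : ρ ≠ 0) (x : E) :
    mulEquiv' (K := K) ρ h x = ρ * x := rfl

/-- a functional taking the value one at one -/
theorem exists_ell_one {E : Type*} [Field E] [Algebra K E] :
    ∃ ℓ : E →ₗ[K] K, ℓ 1 = 1 := by
  have h0 : (1 : E) ≠ 0 := one_ne_zero
  by_contra hcon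
  push Not at hcon
  have h1 : ∀ φ : Module.Dual K E, φ 1 = 0 := by
    intro φ
    by_contra h
    apply hcon ((φ 1)⁻¹ • φ)
    simp [h]
  exact h0 ((Module.forall_dual_apply_eq_zero_iff K (1 : E)).1 h1)

end Cfsg.Agent.H01.PglCl
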