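import Mathlib
import Cfsg.Agent.Lib.H01.SsP1

/-! Self-dual irreducible blocks in `GU_n`. -/

set_option linter.unusedSectionVars false
set_option autoImplicit false

namespace Cfsg.Agent.H01.PglCl

open Polynomial Module Matrix
open Cfsg.Agent.Lead

variable {K : Type*} [Field K] [Fintype K] {q r : ℕ}

theorem root_pow_r {f : K[X]} [Fact (Irreducible f)] (hfX : f ∣ X ^ r - 1) :
    AdjoinRoot.root f ^ r = 1 := by
  have h : AdjoinRoot.mk f (X ^ r - 1) = 0 := AdjoinRoot.mk_eq_zero.2 hfX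
  rw [map_sub, map_pow, AdjoinRoot.mk_X, map_one] at h
  exact sub_eq_zero.1 h

theorem root_ne_one {f : K[X]} [Fact (Irreducible f)] (hf1 : f.eval 1 ≠ 0) :
    AdjoinRoot.root f ≠ 1 := by
  intro h
  have h1 : aeval (AdjoinRoot.root f) f = 0 := by
    rw [AdjoinRoot.aeval_eq, AdjoinRoot.mk_self]
  rw [h] at h1
  have h2 : aeval (1 : AdjoinRoot f) f = AdjoinRoot.of f (f.eval 1) := by
    have h3 : (1 : AdjoinRoot f) = algebraMap K _ 1 := (map_one _).symm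
    rw [h3, aeval_algebraMap_apply_eq_algebraMap_eval]
    rfl
  rw [h2] at h1
  exact hf1 ((map_eq_zero_iff _ (AdjoinRoot.of f).injective).1 h1)

theorem finrank_adjoin {f : K[X]} (hfi : Irreducible f) :
    finrank K (AdjoinRoot f) = f.natDegree := by
  rw [← AdjoinRoot.powerBasis_dim hfi.ne_zero, (AdjoinRoot.powerBasis hfi.ne_zero).finrank]

theorem model_sd (hF : Fintype.card K = q ^ 2) (φ : K →+* K) (hφ : ∀ x, φ x = x ^ q) (hr2 : 2 ≤ r)
    (b : ℕ) (hbo : Odd b) (hrb : r ∣ q ^ b + 1) (f G : K[X]) (hfi : Irreducible f)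
    (hfm : f.Monic) (hfd : f.natDegree = b) (hfac : (X ^ r - 1 : K[X]) = f * G)
    (hcop : IsCoprime f G) (hf1 : f.eval 1 ≠ 0) :
    ∃ R : GL (Fin b) K, R ∈ Cfsg.GU b K q ∧ R ^ r = 1 ∧ R ≠ 1 ∧ aeval (L R) f = 0 ∧
      (∀ P : K[X], ¬ f ∣ P → LinearMap.ker (aeval (L R) P) = ⊥) ∧
      ∀ (n : ℕ) (g : GL (Fin n) K), g ∈ Cfsg.GU n K q → g ^ r = 1 →
        ∀ W : Submodule K (Fin n → K), (∀ x ∈ W, L g x ∈ W) →
        (∀ x ∈ W, x ≠ 0 → ∃ z ∈ W, Cfsg.hermForm n K q x z ≠ 0) →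
        (∃ x ∈ W, x ≠ 0 ∧ aeval (L g) f x = 0) →
        ∃ Tn : (Fin b → K) →ₗ[K] (Fin n → K),
          (∀ x z, Cfsg.hermForm n K q (Tn x) (Tn z) = Cfsg.hermForm b K q x z) ∧
          (∀ x, L g (Tn x) = Tn (L R x)) ∧ ∀ x, Tn x ∈ W := by
  classical
  haveI : Fact (Irreducible f) := ⟨hfi⟩
  haveI hfin : Module.Finite K (AdjoinRoot f) := hfm.finite_adjoinRoot
  haveI : Finite (AdjoinRoot f) := Module.finite_of_finite K
  letI : Fintype (AdjoinRoot f) := Fintype.ofFinite _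
  have hq2 := two_le_q hF
  have hfr : finrank K (AdjoinRoot f) = b := by rw [finrank_adjoin hfi, hfd]
  have hcard : Fintype.card (AdjoinRoot f) = (q ^ b) ^ 2 := by
    rw [Module.card_eq_pow_finrank (K := K) (V := AdjoinRoot f), hF, hfr]
    ring
  set ρ := AdjoinRoot.root f with hρd
  have hfX : f ∣ X ^ r - 1 := ⟨G, hfac⟩
  have hρr : ρ ^ r = 1 := root_pow_r hfX
  have hρ1 : ρ ≠ 1 := root_ne_one hf1
  have hρ0 : ρ ≠ 0 := by
    rintro h
    rw [h, zero_pow (by omega)] at hρr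
    exact zero_ne_one hρr
  obtain ⟨ψ, hψ⟩ := exists_frob hcard
  have hψψ : ∀ a, ψ (ψ a) = a := fun a => by rw [hψ, hψ, pow_q_sq hcard]
  have hψc : ∀ c : K, ψ (AdjoinRoot.of f c) = AdjoinRoot.of f (φ c) := fun c => by
    rw [hψ, ← map_pow, pow_Q_eq hF hbo, hφ]
  obtain ⟨s, hs⟩ := hrb
  have hψρ : ψ ρ * ρ = 1 := by
    rw [hψ, ← pow_succ, hs, pow_mul, hρr, one_pow]
  have hψρ' : ψ ρ = ρ ^ (r - 1) := by
    apply mul_right_cancel₀ hρ0
    rw [hψρ, ← pow_succ]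
    have : r - 1 + 1 = r := by omega
    rw [this, hρr]
  have hmkdag : ∀ P, AdjoinRoot.mk f (dag φ r P) = ψ (AdjoinRoot.mk f P) := by
    have key : (AdjoinRoot.mk f).comp (dag φ r) = ψ.comp (AdjoinRoot.mk f) := by
      refine Polynomial.ringHom_ext (fun c => ?_) ?_
      · simp only [RingHom.comp_apply, dag_C, AdjoinRoot.mk_C, hψc]
      · simp only [RingHom.comp_apply, dag_X, map_pow, AdjoinRoot.mk_X]
        exact hψρ'.symm
    exact fun P => RingHom.congr_fun key P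
  have hdiv : f ∣ dag φ r f := by
    rw [← AdjoinRoot.mk_eq_zero, hmkdag, AdjoinRoot.mk_self, map_zero]
  have hsm : ∀ (c : K) (x : AdjoinRoot f), c • x = AdjoinRoot.of f c * x := fun c x => by
    rw [Algebra.smul_def, AdjoinRoot.algebraMap_eq]
  obtain ⟨ℓ₁, hℓ₁⟩ := exists_ell_one (K := K) (E := AdjoinRoot f)
  obtain ⟨z, hz⟩ := Cfsg.Agent.H12.UTrans.exists_trace_eq hF (1 : K) (one_pow _)
  let ℓ : AdjoinRoot f →ₗ[K] K :=
    { toFun := fun a => z * ℓ₁ a + φ (z * ℓ₁ (ψ a))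
      map_add' := fun a b => by
        simp only [map_add, mul_add]
        ring
      map_smul' := fun c a => by
        simp only [RingHom.id_apply, smul_eq_mul]
        rw [map_smul, hsm, map_mul ψ, hψc, ← hsm, map_smul, smul_eq_mul, smul_eq_mul]
        have h1 : φ (z * (φ c * ℓ₁ (ψ a))) = c * φ (z * ℓ₁ (ψ a)) := by
          rw [show z * (φ c * ℓ₁ (ψ a)) = φ c * (z * ℓ₁ (ψ a)) by ring, map_mul, hφ (φ c), hφ c,
            pow_q_sq hF]
        rw [h1]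
        ring }
  have hℓa : ∀ a, ℓ a = z * ℓ₁ a + φ (z * ℓ₁ (ψ a)) := fun a => rfl
  have hφφ : ∀ c, φ (φ c) = c := fun c => by rw [hφ, hφ, pow_q_sq hF]
  have hℓ1 : ℓ 1 = 1 := by
    rw [hℓa, map_one ψ, hℓ₁, mul_one, hφ]
    exact hz
  have hℓψ : ∀ a, ℓ (ψ a) = (ℓ a) ^ q := by
    intro a
    rw [← hφ, hℓa, hℓa, hψψ, map_add, hφφ]
    ring
  let H : AdjoinRoot f → AdjoinRoot f → K := fun a c => ℓ (a * ψ c)
  have hHa : ∀ a c, H a c = ℓ (a * ψ c) := fun _ _ => rfl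
  have hnd₀ : ∀ u, (∀ v, H u v = 0) → u = 0 := by
    intro u hu
    by_contra h0
    have h1 := hu (ψ u⁻¹)
    rw [hHa, hψψ, mul_inv_cancel₀ h0, hℓ1] at h1
    exact one_ne_zero h1
  have hγ : ∀ u v, H (mulEquiv' (K := K) ρ hρ0 u) (mulEquiv' (K := K) ρ hρ0 v) = H u v := by
    intro u v
    rw [mulEquiv'_apply, mulEquiv'_apply, hHa, hHa, map_mul ψ]
    congr 1
    calc ρ * u * (ψ ρ * ψ v) = (ψ ρ * ρ) * (u * ψ v) := by ring
      _ = u * ψ v := by rw [hψρ, one_mul]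
  obtain ⟨R, ι, hRm, hιH, hιR⟩ := exists_model_R hF H
    (fun u v w => by rw [hHa, hHa, hHa, add_mul, map_add])
    (fun c u v => by rw [hHa, hHa, smul_mul_assoc, map_smul, smul_eq_mul])
    (fun u v => by
      rw [hHa, hHa, ← hℓψ, map_mul ψ, hψψ, mul_comm]) hnd₀ b hfr (mulEquiv' (K := K) ρ hρ0) hγ
  have hιR' : ∀ x, ι (L R x) = ρ * ι x := fun x => hιR x
  have hιP : ∀ (P : K[X]) x, ι (aeval (L R) P x) = AdjoinRoot.mk f P * ι x := by
    intro P
    induction P using Polynomial.induction_on with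
    | C c =>
      intro x
      rw [aeval_C, Module.algebraMap_end_apply, map_smul, AdjoinRoot.mk_C, hsm]
    | add p p' hp hp' =>
      intro x
      rw [map_add, LinearMap.add_apply, map_add, hp, hp', map_add, add_mul]
    | monomial k c ih =>
      intro x
      have h1 : (C c * X ^ (k + 1) : K[X]) = (C c * X ^ k) * X := by
        rw [pow_succ]
        ring
      have h2 : AdjoinRoot.mk f (C c * X ^ k * X) = AdjoinRoot.mk f (C c * X ^ k) * ρ := by
        rw [map_mul (AdjoinRoot.mk f) (C c * X ^ k) X, AdjoinRoot.mk_X]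
      rw [h1, aeval_mul_apply, aeval_X, ih, hιR', h2]
      ring
  have hpowR : ∀ x, ι (L (R ^ r) x) = ι x := by
    intro x
    have h1 := hιP (X ^ r) x
    rw [map_pow, aeval_X, ← L_pow, map_pow, AdjoinRoot.mk_X, ← hρd, hρr, one_mul] at h1
    exact h1
  refine ⟨R, hRm, ?_, ?_, ?_, ?_, ?_⟩
  · apply L_inj
    refine LinearMap.ext fun x => ?_
    apply ι.injective
    rw [hpowR, L_one]
    rfl
  · rintro rfl
    have h1 := hιR' (ι.symm 1)
    rw [L_one, Module.End.one_apply, LinearEquiv.apply_symm_apply, mul_one] at h1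
    exact hρ1 h1.symm
  · refine LinearMap.ext fun x => ?_
    apply ι.injective
    rw [hιP, AdjoinRoot.mk_self, zero_mul, LinearMap.zero_apply, map_zero]
  · intro P hP
    rw [LinearMap.ker_eq_bot, injective_iff_map_eq_zero]
    intro x hx
    have h1 := hιP P x
    rw [hx, map_zero] at h1
    have h2 : AdjoinRoot.mk f P ≠ 0 := fun h => hP (AdjoinRoot.mk_eq_zero.1 h)
    have h3 : ι x = 0 := (mul_eq_zero.1 h1.symm).resolve_left h2
    exact (map_eq_zero_iff ι ι.injective).1 h3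
  · intro n g hg hr1 W hW hnd hex
    obtain ⟨x₀, hx₀W, hx₀ne, hx₀f⟩ := hex
    let W' : Submodule K (Fin n → K) := W ⊓ LinearMap.ker (aeval (L g) f)
    have hnd' : ∀ x ∈ W', x ≠ 0 → ∃ z ∈ W', Cfsg.hermForm n K q x z ≠ 0 := by
      intro x hx hne
      obtain ⟨z₀, hz₀, hz₀'⟩ := hnd x hx.1 hne
      obtain ⟨z', hz'W, hz'f, hz'h⟩ := exists_proj hF φ hφ hr2 g hg hr1 f f G hfac hcop hdiv W hW
        x z₀ (LinearMap.mem_ker.1 hx.2) hz₀
      exact ⟨z', ⟨hz'W, LinearMap.mem_ker.2 hz'f⟩, by rw [hz'h]; exact hz₀'⟩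
    obtain ⟨y₀, hy₀W', hy₀⟩ := exists_anis hF (1 : End K (Fin n → K)) W'
      (fun x hx hne => hnd' x hx hne) x₀ ⟨hx₀W, LinearMap.mem_ker.2 hx₀f⟩ hx₀ne
    have hy₀W : y₀ ∈ W := hy₀W'.1
    have hy₀f : aeval (L g) f y₀ = 0 := LinearMap.mem_ker.1 hy₀W'.2
    have hy₀' : Cfsg.hermForm n K q y₀ y₀ ≠ 0 := hy₀
    obtain ⟨T₀, hT₀⟩ := exists_cycMap f (L g) y₀ hy₀f
    let ℓ₀ : AdjoinRoot f →ₗ[K] K :=
      { toFun := fun a => Cfsg.hermForm n K q (T₀ a) y₀
        map_add' := fun a c => by rw [map_add, herm_add_left]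
        map_smul' := fun c a => by
          rw [map_smul, herm_smul_left]
          rfl }
    have hℓ₀ : ∀ P, ℓ₀ (AdjoinRoot.mk f P) = Cfsg.hermForm n K q (aeval (L g) P y₀) y₀ := fun P => by
      show Cfsg.hermForm n K q (T₀ (AdjoinRoot.mk f P)) y₀ = _
      rw [hT₀]
    let τ : AdjoinRoot f →ₗ[K] Module.Dual K (AdjoinRoot f) := (LinearMap.mul K _).compr₂ ℓ
    have hτ : ∀ t a, τ t a = ℓ (t * a) := fun _ _ => rfl
    have hinj : Function.Injective τ := by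
      rw [injective_iff_map_eq_zero]
      intro t ht
      by_contra h0
      have h1 : τ t t⁻¹ = 1 := by rw [hτ, mul_inv_cancel₀ h0, hℓ1]
      rw [ht] at h1
      exact zero_ne_one h1
    have hsurj : Function.Surjective τ :=
      (LinearMap.injective_iff_surjective_of_finrank_eq_finrank
        (Subspace.dual_finrank_eq (K := K) (V := AdjoinRoot f)).symm).1 hinj
    obtain ⟨t, ht⟩ := hsurj ℓ₀
    have ht' : ∀ a, ℓ (t * a) = ℓ₀ a := fun a => by rw [← ht]; rfl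
    have hone : ℓ₀ 1 = Cfsg.hermForm n K q y₀ y₀ := by
      have h := hℓ₀ 1
      rw [map_one (AdjoinRoot.mk f), map_one (aeval (L g))] at h
      exact h
    have ht0 : t ≠ 0 := by
      rintro rfl
      have h1 := ht' 1
      rw [zero_mul, map_zero, hone] at h1
      exact hy₀' h1.symm
    have hℓ₀ψ : ∀ a, ℓ₀ (ψ a) = (ℓ₀ a) ^ q := fun a => by
      obtain ⟨P, rfl⟩ := AdjoinRoot.mk_surjective a
      rw [← hmkdag, hℓ₀, hℓ₀, ← herm_adj2 hF φ hφ hr2 g hg hr1, herm_conj hF]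
    have htψ : ψ t = t := by
      apply hinj
      refine LinearMap.ext fun c => ?_
      rw [hτ, hτ]
      calc ℓ (ψ t * c) = ℓ (ψ (t * ψ c)) := by rw [map_mul ψ, hψψ]
        _ = (ℓ (t * ψ c)) ^ q := hℓψ _
        _ = (ℓ₀ (ψ c)) ^ q := by rw [ht']
        _ = ((ℓ₀ c) ^ q) ^ q := by rw [hℓ₀ψ]
        _ = ℓ₀ c := pow_q_sq hF _
        _ = ℓ (t * c) := (ht' c).symm
    have htQ : (t⁻¹) ^ (q ^ b) = t⁻¹ := by
      rw [inv_pow, ← hψ, htψ]
    obtain ⟨c, hc0, hc⟩ := exists_norm_eq hcard t⁻¹ (inv_ne_zero ht0) htQ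
    obtain ⟨C₀, hC₀⟩ := AdjoinRoot.mk_surjective c
    set y := aeval (L g) C₀ y₀ with hyd
    have hyf : aeval (L g) f y = 0 := by
      rw [hyd, ← aeval_mul_apply, mul_comm, aeval_mul_apply, hy₀f, map_zero]
    have hyW : y ∈ W := aeval_mem W (L g) hW C₀ y₀ hy₀W
    have hgram : ∀ P, Cfsg.hermForm n K q (aeval (L g) P y) y = ℓ (AdjoinRoot.mk f P) := by
      intro P
      conv_lhs => rw [hyd]
      have h2 : AdjoinRoot.mk f (dag φ r C₀ * P * C₀) = ψ c * (AdjoinRoot.mk f P * c) := by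
        rw [map_mul (AdjoinRoot.mk f), map_mul (AdjoinRoot.mk f), hmkdag, hC₀, mul_assoc]
      rw [herm_adj2 hF φ hφ hr2 g hg hr1, ← aeval_mul_apply, ← aeval_mul_apply, ← hℓ₀, ← ht', h2]
      congr 1
      have h1 : ψ c * c = t⁻¹ := by rw [hψ, ← pow_succ, hc]
      calc t * (ψ c * (AdjoinRoot.mk f P * c)) = t * (ψ c * c) * AdjoinRoot.mk f P := by ring
        _ = AdjoinRoot.mk f P := by rw [h1, mul_inv_cancel₀ ht0, one_mul]
    obtain ⟨T₁, hT₁⟩ := exists_cycMap f (L g) y hyf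
    have hT₁H : ∀ a c, Cfsg.hermForm n K q (T₁ a) (T₁ c) = H a c := by
      intro a c
      obtain ⟨P, rfl⟩ := AdjoinRoot.mk_surjective a
      obtain ⟨Q, rfl⟩ := AdjoinRoot.mk_surjective c
      rw [hT₁, hT₁, herm_adj2 hF φ hφ hr2 g hg hr1, ← aeval_mul_apply, hgram, hHa,
        map_mul (AdjoinRoot.mk f), hmkdag, mul_comm]
    have hT₁ρ : ∀ a, T₁ (ρ * a) = L g (T₁ a) := by
      intro a
      obtain ⟨P, rfl⟩ := AdjoinRoot.mk_surjective a
      have h1 : ρ * AdjoinRoot.mk f P = AdjoinRoot.mk f (X * P) := by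
        rw [map_mul, AdjoinRoot.mk_X]
      rw [h1, hT₁, hT₁, aeval_mul_apply, aeval_X]
    refine ⟨T₁ ∘ₗ ι.toLinearMap, ?_, ?_, ?_⟩
    · intro x z'
      simp only [LinearMap.comp_apply, LinearEquiv.coe_coe]
      rw [hT₁H, hιH]
    · intro x
      simp only [LinearMap.comp_apply, LinearEquiv.coe_coe]
      rw [hιR', hT₁ρ]
    · intro x
      simp only [LinearMap.comp_apply, LinearEquiv.coe_coe]
      obtain ⟨P, hP⟩ := AdjoinRoot.mk_surjective (ι x)
      rw [← hP, hT₁]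
      exact aeval_mem W (L g) hW P y hyW

end Cfsg.Agent.H01.PglCl
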