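import Mathlib
import Cfsg.Agent.Lib.H01.SsP2

/-! Paired irreducible blocks in `GU_n`. -/

set_option linter.unusedSectionVars false
set_option autoImplicit false

namespace Cfsg.Agent.H01.PglCl

open Polynomial Module Matrix
open Cfsg.Agent.Lead

variable {K : Type*} [Field K] [Fintype K] {q r : ℕ}

theorem model_pr (hF : Fintype.card K = q ^ 2) (φ : K →+* K) (hφ : ∀ x, φ x = x ^ q) (hr2 : 2 ≤ r)
    (b : ℕ) (f f' G G' : K[X]) (hfi : Irreducible f) (hfm : f.Monic) (hfd : f.natDegree = b)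
    (hfi' : Irreducible f') (hfm' : f'.Monic) (hfd' : f'.natDegree = b)
    (hfac : (X ^ r - 1 : K[X]) = f * G) (hcop : IsCoprime f G)
    (hfac' : (X ^ r - 1 : K[X]) = f' * G') (hcop' : IsCoprime f' G')
    (hdd : f ∣ dag φ r f') (hdd' : f' ∣ dag φ r f) (hno : ¬ f ∣ dag φ r f)
    (hno' : ¬ f' ∣ dag φ r f') (hf1 : f.eval 1 ≠ 0) (hf1' : f'.eval 1 ≠ 0) :
    ∃ R : GL (Fin (2 * b)) K, R ∈ Cfsg.GU (2 * b) K q ∧ R ^ r = 1 ∧ R ≠ 1 ∧
      LinearMap.ker (aeval (L R) f) ≠ ⊥ ∧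
      (∀ P : K[X], ¬ f ∣ P → ¬ f' ∣ P → LinearMap.ker (aeval (L R) P) = ⊥) ∧
      ∀ (n : ℕ) (g : GL (Fin n) K), g ∈ Cfsg.GU n K q → g ^ r = 1 →
        ∀ W : Submodule K (Fin n → K), (∀ x ∈ W, L g x ∈ W) →
        (∀ x ∈ W, x ≠ 0 → ∃ z ∈ W, Cfsg.hermForm n K q x z ≠ 0) →
        (∃ x ∈ W, x ≠ 0 ∧ (aeval (L g) f x = 0 ∨ aeval (L g) f' x = 0)) →
        ∃ Tn : (Fin (2 * b) → K) →ₗ[K] (Fin n → K),
          (∀ x z, Cfsg.hermForm n K q (Tn x) (Tn z) = Cfsg.hermForm (2 * b) K q x z) ∧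
          (∀ x, L g (Tn x) = Tn (L R x)) ∧ ∀ x, Tn x ∈ W := by
  classical
  haveI : Fact (Irreducible f) := ⟨hfi⟩
  haveI : Fact (Irreducible f') := ⟨hfi'⟩
  haveI hfin : Module.Finite K (AdjoinRoot f) := hfm.finite_adjoinRoot
  haveI hfin' : Module.Finite K (AdjoinRoot f') := hfm'.finite_adjoinRoot
  haveI : Finite (AdjoinRoot f) := Module.finite_of_finite K
  haveI : Finite (AdjoinRoot f') := Module.finite_of_finite K
  letI : Fintype (AdjoinRoot f) := Fintype.ofFinite _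
  letI : Fintype (AdjoinRoot f') := Fintype.ofFinite _
  have hq2 := two_le_q hF
  have hφφ : ∀ c, φ (φ c) = c := fun c => by rw [hφ, hφ, pow_q_sq hF]
  have hfr : finrank K (AdjoinRoot f) = b := by rw [finrank_adjoin hfi, hfd]
  have hfr' : finrank K (AdjoinRoot f') = b := by rw [finrank_adjoin hfi', hfd']
  have hcards : Fintype.card (AdjoinRoot f') = Fintype.card (AdjoinRoot f) := by
    rw [Module.card_eq_pow_finrank (K := K) (V := AdjoinRoot f'),
      Module.card_eq_pow_finrank (K := K) (V := AdjoinRoot f), hfr, hfr']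
  set ρ := AdjoinRoot.root f with hρd
  set ρ' := AdjoinRoot.root f' with hρd'
  have hρr : ρ ^ r = 1 := root_pow_r ⟨G, hfac⟩
  have hρr' : ρ' ^ r = 1 := root_pow_r ⟨G', hfac'⟩
  have hρ1 : ρ ≠ 1 := root_ne_one hf1
  have hρ0 : ρ ≠ 0 := by
    rintro h
    rw [h, zero_pow (by omega)] at hρr
    exact zero_ne_one hρr
  have hρ0' : ρ' ≠ 0 := by
    rintro h
    rw [h, zero_pow (by omega)] at hρr'
    exact zero_ne_one hρr'
  let s : AdjoinRoot f' →+* AdjoinRoot f :=
    Ideal.Quotient.lift (Ideal.span {f'}) ((AdjoinRoot.mk f).comp (dag φ r)) (by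
      intro a ha
      obtain ⟨c, rfl⟩ := Ideal.mem_span_singleton.1 ha
      simp only [RingHom.comp_apply, map_mul]
      rw [AdjoinRoot.mk_eq_zero.2 hdd, zero_mul])
  have hsmk : ∀ P, s (AdjoinRoot.mk f' P) = AdjoinRoot.mk f (dag φ r P) := fun P =>
    Ideal.Quotient.lift_mk _ _ _
  have hsρ : s ρ' = ρ ^ (r - 1) := by
    have := hsmk X
    rw [AdjoinRoot.mk_X, dag_X, map_pow, AdjoinRoot.mk_X] at this
    exact this
  have hsof : ∀ c : K, s (AdjoinRoot.of f' c) = AdjoinRoot.of f (φ c) := fun c => by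
    have := hsmk (C c)
    rw [AdjoinRoot.mk_C, dag_C, AdjoinRoot.mk_C] at this
    exact this
  have hsinj : Function.Injective s := s.injective
  have hsbij : Function.Bijective s :=
    (Fintype.bijective_iff_injective_and_card s).2 ⟨hsinj, hcards⟩
  have hρρ : ∀ a c : AdjoinRoot f, (ρ * a) * (ρ ^ (r - 1) * c) = a * c := by
    intro a c
    have h1 : ρ * ρ ^ (r - 1) = 1 := by
      rw [← pow_succ']
      have : r - 1 + 1 = r := by omega
      rw [this, hρr]
    calc (ρ * a) * (ρ ^ (r - 1) * c) = (ρ * ρ ^ (r - 1)) * (a * c) := by ring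
      _ = a * c := by rw [h1, one_mul]
  have hsm : ∀ (c : K) (x : AdjoinRoot f), c • x = AdjoinRoot.of f c * x := fun c x => by
    rw [Algebra.smul_def, AdjoinRoot.algebraMap_eq]
  have hsm' : ∀ (c : K) (x : AdjoinRoot f'), c • x = AdjoinRoot.of f' c * x := fun c x => by
    rw [Algebra.smul_def, AdjoinRoot.algebraMap_eq]
  obtain ⟨ℓ, hℓ1⟩ := exists_ell_one (K := K) (E := AdjoinRoot f)
  let H : AdjoinRoot f × AdjoinRoot f' → AdjoinRoot f × AdjoinRoot f' → K :=
    fun u v => ℓ (u.1 * s v.2) + φ (ℓ (v.1 * s u.2))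
  have hHa : ∀ u v, H u v = ℓ (u.1 * s v.2) + φ (ℓ (v.1 * s u.2)) := fun _ _ => rfl
  have hadd₀ : ∀ u v w, H (u + v) w = H u w + H v w := by
    intro u v w
    simp only [hHa, Prod.fst_add, Prod.snd_add, add_mul, map_add, mul_add]
    ring
  have hsmul₀ : ∀ (c : K) u v, H (c • u) v = c * H u v := by
    intro c u v
    simp only [hHa, Prod.smul_fst, Prod.smul_snd]
    have h1 : s (c • u.2) = AdjoinRoot.of f (φ c) * s u.2 := by
      rw [hsm', map_mul, hsof]
    have h2 : v.1 * (AdjoinRoot.of f (φ c) * s u.2) = φ c • (v.1 * s u.2) := by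
      rw [hsm]
      ring
    rw [h1, h2, smul_mul_assoc, map_smul, map_smul, smul_eq_mul, smul_eq_mul, map_mul φ, hφφ]
    ring
  have hconj₀ : ∀ u v, H v u = (H u v) ^ q := by
    intro u v
    rw [← hφ, hHa, hHa, map_add, hφφ]
    ring
  have hnd₀ : ∀ u, (∀ v, H u v = 0) → u = 0 := by
    intro u hu
    have h1 : u.1 = 0 := by
      by_contra h0
      obtain ⟨w, hw⟩ := hsbij.2 (u.1)⁻¹
      have h2 := hu (0, w)
      rw [hHa] at h2
      simp only [zero_mul, map_zero, add_zero] at h2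
      rw [hw, mul_inv_cancel₀ h0, hℓ1] at h2
      exact one_ne_zero h2
    have h3 : u.2 = 0 := by
      by_contra h0
      have h4 : s u.2 ≠ 0 := fun h => h0 (hsinj (by rw [h, map_zero]))
      have h2 := hu ((s u.2)⁻¹, 0)
      rw [hHa] at h2
      simp only [map_zero, mul_zero, zero_add] at h2
      rw [inv_mul_cancel₀ h4, hℓ1, map_one] at h2
      exact one_ne_zero h2
    exact Prod.ext h1 h3
  let γ : (AdjoinRoot f × AdjoinRoot f') ≃ₗ[K] (AdjoinRoot f × AdjoinRoot f') :=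
    (mulEquiv' (K := K) ρ hρ0).prodCongr (mulEquiv' (K := K) ρ' hρ0')
  have hγa : ∀ u, γ u = (ρ * u.1, ρ' * u.2) := fun u => rfl
  have hγ : ∀ u v, H (γ u) (γ v) = H u v := by
    intro u v
    rw [hγa, hγa, hHa, hHa]
    simp only [map_mul s, hsρ, hρρ]
  have hfr₂ : finrank K (AdjoinRoot f × AdjoinRoot f') = 2 * b := by
    rw [Module.finrank_prod, hfr, hfr']
    ring
  obtain ⟨R, ι, hRm, hιH, hιR⟩ := exists_model_R hF H hadd₀ hsmul₀ hconj₀ hnd₀ (2 * b) hfr₂ γ hγ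
  have hιR' : ∀ x, ι (L R x) = (ρ * (ι x).1, ρ' * (ι x).2) := fun x => hιR x
  have hιP : ∀ (P : K[X]) x, ι (aeval (L R) P x) =
      (AdjoinRoot.mk f P * (ι x).1, AdjoinRoot.mk f' P * (ι x).2) := by
    intro P
    induction P using Polynomial.induction_on with
    | C c =>
      intro x
      rw [aeval_C, Module.algebraMap_end_apply, map_smul, AdjoinRoot.mk_C, AdjoinRoot.mk_C]
      apply Prod.ext
      · show c • (ι x).1 = _
        rw [hsm]
      · show c • (ι x).2 = _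
        rw [hsm']
    | add p p' hp hp' =>
      intro x
      rw [map_add, LinearMap.add_apply, map_add, hp, hp', map_add, map_add]
      apply Prod.ext
      · simp [add_mul]
      · simp [add_mul]
    | monomial k c ih =>
      intro x
      have h1 : (C c * X ^ (k + 1) : K[X]) = (C c * X ^ k) * X := by
        rw [pow_succ]
        ring
      have h2 : AdjoinRoot.mk f (C c * X ^ k * X) = AdjoinRoot.mk f (C c * X ^ k) * ρ := by
        rw [map_mul (AdjoinRoot.mk f) (C c * X ^ k) X, AdjoinRoot.mk_X]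
      have h3 : AdjoinRoot.mk f' (C c * X ^ k * X) = AdjoinRoot.mk f' (C c * X ^ k) * ρ' := by
        rw [map_mul (AdjoinRoot.mk f') (C c * X ^ k) X, AdjoinRoot.mk_X]
      rw [h1, aeval_mul_apply, aeval_X, ih, hιR', h2, h3]
      apply Prod.ext
      · show _ * (ρ * (ι x).1) = _
        ring
      · show _ * (ρ' * (ι x).2) = _
        ring
  have hpowR : ∀ x, ι (L (R ^ r) x) = ι x := by
    intro x
    have h1 := hιP (X ^ r) x
    rw [map_pow, aeval_X, ← L_pow, map_pow, map_pow, AdjoinRoot.mk_X, AdjoinRoot.mk_X, ← hρd, ← hρd',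
      hρr, hρr', one_mul, one_mul] at h1
    exact h1
  refine ⟨R, hRm, ?_, ?_, ?_, ?_, ?_⟩
  · apply L_inj
    refine LinearMap.ext fun x => ?_
    apply ι.injective
    rw [hpowR, L_one]
    rfl
  · rintro rfl
    have h1 := hιR' (ι.symm (1, 0))
    rw [L_one, Module.End.one_apply, LinearEquiv.apply_symm_apply] at h1
    have h2 := congrArg Prod.fst h1
    simp only [mul_one] at h2
    exact hρ1 h2.symm
  · intro hk
    have h1 := hιP f (ι.symm (1, 0))
    rw [LinearEquiv.apply_symm_apply, AdjoinRoot.mk_self] at h1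
    have h2 : ι (aeval (L R) f (ι.symm (1, 0))) = 0 := by
      rw [h1]
      simp
    have h3 : aeval (L R) f (ι.symm (1, 0)) = 0 := (map_eq_zero_iff ι ι.injective).1 h2
    have h4 : ι.symm (1, 0) ∈ LinearMap.ker (aeval (L R) f) := LinearMap.mem_ker.2 h3
    rw [hk, Submodule.mem_bot] at h4
    have h5 := congrArg ι h4
    rw [LinearEquiv.apply_symm_apply, map_zero] at h5
    have h6 := congrArg Prod.fst h5
    exact one_ne_zero h6
  · intro P hP hP'
    rw [LinearMap.ker_eq_bot, injective_iff_map_eq_zero]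
    intro x hx
    have h1 := hιP P x
    rw [hx, map_zero] at h1
    have h2 : AdjoinRoot.mk f P ≠ 0 := fun h => hP (AdjoinRoot.mk_eq_zero.1 h)
    have h2' : AdjoinRoot.mk f' P ≠ 0 := fun h => hP' (AdjoinRoot.mk_eq_zero.1 h)
    have h3 : (ι x).1 = 0 :=
      (mul_eq_zero.1 (congrArg Prod.fst h1).symm).resolve_left h2
    have h3' : (ι x).2 = 0 :=
      (mul_eq_zero.1 (congrArg Prod.snd h1).symm).resolve_left h2'
    exact (map_eq_zero_iff ι ι.injective).1 (Prod.ext h3 h3')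
  · intro n g hg hr1 W hW hnd hex
    obtain ⟨x₁, z₁, hx₁W, hz₁W, hx₁f, hz₁f, hxz⟩ : ∃ x₁ z₁ : Fin n → K, x₁ ∈ W ∧ z₁ ∈ W ∧
        aeval (L g) f x₁ = 0 ∧ aeval (L g) f' z₁ = 0 ∧ Cfsg.hermForm n K q x₁ z₁ ≠ 0 := by
      obtain ⟨x₀, hx₀W, hx₀ne, hx₀f⟩ := hex
      obtain ⟨z₀, hz₀, hz₀'⟩ := hnd x₀ hx₀W hx₀ne
      rcases hx₀f with h | h
      · obtain ⟨z', hz'W, hz'f, hz'h⟩ := exists_proj hF φ hφ hr2 g hg hr1 f f' G' hfac' hcop' hdd W hW
          x₀ z₀ h hz₀
        exact ⟨x₀, z', hx₀W, hz'W, h, hz'f, by rw [hz'h]; exact hz₀'⟩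
      · obtain ⟨z', hz'W, hz'f, hz'h⟩ := exists_proj hF φ hφ hr2 g hg hr1 f' f G hfac hcop hdd' W hW
          x₀ z₀ h hz₀
        refine ⟨z', x₀, hz'W, hx₀W, hz'f, h, ?_⟩
        rw [herm_conj hF x₀ z', hz'h]
        exact pow_ne_zero _ hz₀'
    obtain ⟨T₁, hT₁⟩ := exists_cycMap f (L g) x₁ hx₁f
    let ℓ₀ : AdjoinRoot f →ₗ[K] K :=
      { toFun := fun a => Cfsg.hermForm n K q (T₁ a) z₁
        map_add' := fun a c => by rw [map_add, herm_add_left]
        map_smul' := fun c a => by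
          rw [map_smul, herm_smul_left]
          rfl }
    have hℓ₀ : ∀ P, ℓ₀ (AdjoinRoot.mk f P) = Cfsg.hermForm n K q (aeval (L g) P x₁) z₁ := fun P => by
      show Cfsg.hermForm n K q (T₁ (AdjoinRoot.mk f P)) z₁ = _
      rw [hT₁]
    let τ : AdjoinRoot f →ₗ[K] Module.Dual K (AdjoinRoot f) := (LinearMap.mul K _).compr₂ ℓ
    have hτ : ∀ t a, τ t a = ℓ (t * a) := fun _ _ => rfl
    have hinj : Function.Injective τ := by
      rw [injective_iff_map_eq_zero]
      intro t ht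
      by_contra h0
      have h1 : τ t t⁻¹ = 1 := by rw [hτ, mul_inv_cancel₀ h0, hℓ1]
      rw [ht] at h1
      exact zero_ne_one h1
    have hsurj : Function.Surjective τ :=
      (LinearMap.injective_iff_surjective_of_finrank_eq_finrank
        (Subspace.dual_finrank_eq (K := K) (V := AdjoinRoot f)).symm).1 hinj
    obtain ⟨t, ht⟩ := hsurj ℓ₀
    have ht' : ∀ a, ℓ (t * a) = ℓ₀ a := fun a => by rw [← ht]; rfl
    have hone : ℓ₀ 1 = Cfsg.hermForm n K q x₁ z₁ := by
      have h := hℓ₀ 1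
      rw [map_one (AdjoinRoot.mk f), map_one (aeval (L g))] at h
      exact h
    have ht0 : t ≠ 0 := by
      rintro rfl
      have h1 := ht' 1
      rw [zero_mul, map_zero, hone] at h1
      exact hxz h1.symm
    obtain ⟨Q₀, hQ₀⟩ := AdjoinRoot.mk_surjective t⁻¹
    set y := aeval (L g) (dag φ r Q₀) z₁ with hyd
    have hyf : aeval (L g) f' y = 0 := by
      rw [hyd, ← aeval_mul_apply, mul_comm, aeval_mul_apply, hz₁f, map_zero]
    have hyW : y ∈ W := aeval_mem W (L g) hW _ z₁ hz₁W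
    have hgram : ∀ P, Cfsg.hermForm n K q (aeval (L g) P x₁) y = ℓ (AdjoinRoot.mk f P) := by
      intro P
      have h2 : AdjoinRoot.mk f (Q₀ * P) = t⁻¹ * AdjoinRoot.mk f P := by
        rw [map_mul (AdjoinRoot.mk f), hQ₀]
      rw [hyd, ← herm_adj hF φ hφ (by omega) g hg hr1, ← aeval_mul_apply, ← hℓ₀, ← ht', h2,
        mul_inv_cancel_left₀ ht0]
    obtain ⟨T₂, hT₂⟩ := exists_cycMap f' (L g) y hyf
    have hcross : ∀ a c, Cfsg.hermForm n K q (T₁ a) (T₂ c) = ℓ (a * s c) := by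
      intro a c
      obtain ⟨P, rfl⟩ := AdjoinRoot.mk_surjective a
      obtain ⟨Q, rfl⟩ := AdjoinRoot.mk_surjective c
      rw [hT₁, hT₂, herm_adj2 hF φ hφ hr2 g hg hr1, ← aeval_mul_apply, hgram,
        map_mul (AdjoinRoot.mk f), hsmk, mul_comm]
    have hT₁f : ∀ a, aeval (L g) f (T₁ a) = 0 := by
      intro a
      obtain ⟨P, rfl⟩ := AdjoinRoot.mk_surjective a
      rw [hT₁, ← aeval_mul_apply, mul_comm, aeval_mul_apply, hx₁f, map_zero]
    have hT₂f : ∀ a, aeval (L g) f' (T₂ a) = 0 := by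
      intro a
      obtain ⟨P, rfl⟩ := AdjoinRoot.mk_surjective a
      rw [hT₂, ← aeval_mul_apply, mul_comm, aeval_mul_apply, hyf, map_zero]
    have hco : IsCoprime f (dag φ r f) := (hfi.coprime_iff_not_dvd).2 hno
    have hco' : IsCoprime f' (dag φ r f') := (hfi'.coprime_iff_not_dvd).2 hno'
    have h11 : ∀ a c, Cfsg.hermForm n K q (T₁ a) (T₁ c) = 0 := fun a c =>
      orth_of_coprime hF φ hφ (by omega) g hg hr1 f f hco _ _ (hT₁f a) (hT₁f c)
    have h22 : ∀ a c, Cfsg.hermForm n K q (T₂ a) (T₂ c) = 0 := fun a c =>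
      orth_of_coprime hF φ hφ (by omega) g hg hr1 f' f' hco' _ _ (hT₂f a) (hT₂f c)
    have h21 : ∀ a c, Cfsg.hermForm n K q (T₂ a) (T₁ c) = φ (ℓ (c * s a)) := by
      intro a c
      rw [herm_conj hF (T₁ c) (T₂ a), hcross, hφ]
    let T : (AdjoinRoot f × AdjoinRoot f') →ₗ[K] (Fin n → K) := LinearMap.coprod T₁ T₂
    have hTa : ∀ u, T u = T₁ u.1 + T₂ u.2 := fun u => rfl
    have hTH : ∀ u v, Cfsg.hermForm n K q (T u) (T v) = H u v := by
      intro u v
      rw [hTa, hTa, herm_add_left, herm_add_right hF, herm_add_right hF, h11, h22, hcross, h21, hHa]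
      ring
    have hT₁ρ : ∀ a, T₁ (ρ * a) = L g (T₁ a) := by
      intro a
      obtain ⟨P, rfl⟩ := AdjoinRoot.mk_surjective a
      have h1 : ρ * AdjoinRoot.mk f P = AdjoinRoot.mk f (X * P) := by
        rw [map_mul, AdjoinRoot.mk_X]
      rw [h1, hT₁, hT₁, aeval_mul_apply, aeval_X]
    have hT₂ρ : ∀ a, T₂ (ρ' * a) = L g (T₂ a) := by
      intro a
      obtain ⟨P, rfl⟩ := AdjoinRoot.mk_surjective a
      have h1 : ρ' * AdjoinRoot.mk f' P = AdjoinRoot.mk f' (X * P) := by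
        rw [map_mul, AdjoinRoot.mk_X]
      rw [h1, hT₂, hT₂, aeval_mul_apply, aeval_X]
    refine ⟨T ∘ₗ ι.toLinearMap, ?_, ?_, ?_⟩
    · intro x z'
      simp only [LinearMap.comp_apply, LinearEquiv.coe_coe]
      rw [hTH, hιH]
    · intro x
      simp only [LinearMap.comp_apply, LinearEquiv.coe_coe]
      rw [hιR', hTa, hTa, map_add]
      show _ = T₁ (ρ * (ι x).1) + T₂ (ρ' * (ι x).2)
      rw [hT₁ρ, hT₂ρ]
    · intro x
      simp only [LinearMap.comp_apply, LinearEquiv.coe_coe]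
      rw [hTa]
      refine W.add_mem ?_ ?_
      · obtain ⟨P, hP⟩ := AdjoinRoot.mk_surjective (ι x).1
        rw [← hP, hT₁]
        exact aeval_mem W (L g) hW P x₁ hx₁W
      · obtain ⟨P, hP⟩ := AdjoinRoot.mk_surjective (ι x).2
        rw [← hP, hT₂]
        exact aeval_mem W (L g) hW P y hyW

end Cfsg.Agent.H01.PglCl
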