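import Mathlib
import Cfsg.Agent.Lib.H01.SsP3

/-! Duality of irreducible factors of the cyclotomic polynomial under the unitary adjoint. -/

set_option linter.unusedSectionVars false
set_option autoImplicit false

namespace Cfsg.Agent.H01.PglCl

open Polynomial Module Matrix
open Cfsg.Agent.Lead

theorem exists_half {A : Type*} [Fintype A] [DecidableEq A] (ω : A → A) (hω : ∀ x, ω (ω x) = x)
    (hfp : ∀ x, ω x ≠ x) :
    ∃ S : Finset A, (∀ x, x ∈ S ∨ ω x ∈ S) ∧ (∀ x ∈ S, ω x ∉ S) ∧ Fintype.card A = 2 * S.card := by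
  classical
  let P : Finset (Finset A) := Finset.univ.filter (fun S => ∀ x ∈ S, ω x ∉ S)
  obtain ⟨S, hS, hmax⟩ := Finset.exists_max_image P Finset.card ⟨∅, by simp [P]⟩
  have hS' : ∀ x ∈ S, ω x ∉ S := (Finset.mem_filter.1 hS).2
  have hcov : ∀ x, x ∈ S ∨ ω x ∈ S := by
    intro x
    by_contra hcon
    push Not at hcon
    have hins : insert x S ∈ P := by
      refine Finset.mem_filter.2 ⟨Finset.mem_univ _, fun y hy => ?_⟩
      rw [Finset.mem_insert] at hy ⊢
      push Not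
      rcases hy with rfl | hy
      · exact ⟨hfp y, hcon.2⟩
      · refine ⟨fun h => ?_, hS' y hy⟩
        apply hcon.2
        rw [← h, hω]
        exact hy
    have := hmax _ hins
    rw [Finset.card_insert_of_notMem hcon.1] at this
    omega
  refine ⟨S, hcov, hS', ?_⟩
  have hinj : Function.Injective ω := fun a b h => by
    rw [← hω a, h, hω]
  have hdisj : Disjoint S (S.image ω) := by
    rw [Finset.disjoint_left]
    intro x hx hx'
    obtain ⟨y, hy, rfl⟩ := Finset.mem_image.1 hx'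
    exact hS' y hy hx
  have hun : S ∪ S.image ω = Finset.univ := by
    ext x
    simp only [Finset.mem_union, Finset.mem_image, Finset.mem_univ, iff_true]
    rcases hcov x with h | h
    · exact Or.inl h
    · exact Or.inr ⟨ω x, h, hω x⟩
  have h1 := Finset.card_union_of_disjoint hdisj
  rw [hun, Finset.card_image_of_injective _ hinj, Finset.card_univ] at h1
  omega

variable {K : Type*} [Field K] [Fintype K] {q r : ℕ}

theorem aeval_pow_Q {E : Type*} [Field E] [Algebra K E] (x : E) (P : K[X]) (k : ℕ) :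
    aeval (x ^ ((Fintype.card K) ^ k)) P = (aeval x P) ^ ((Fintype.card K) ^ k) := by
  induction k with
  | zero => simp
  | succ k ih =>
    have h := Polynomial.aeval_algHom_apply (FiniteField.frobeniusAlgHom K E)
      (x ^ ((Fintype.card K) ^ k)) P
    have h2 : ∀ y : E, FiniteField.frobeniusAlgHom K E y = y ^ (Fintype.card K) := fun y => rfl
    rw [h2, h2, ih] at h
    rw [pow_succ, pow_mul, pow_mul]
    exact h

theorem exists_pow_q_hom {p : ℕ} [Fact p.Prime] [CharP K p] {e : ℕ} (he : q = p ^ e) (E : Type*)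
    [Field E] [Algebra K E] : ∃ φE : E →+* E, ∀ x, φE x = x ^ q := by
  have hp : p.Prime := Fact.out
  haveI : CharP E p := charP_of_injective_algebraMap (algebraMap K E).injective p
  haveI : ExpChar E p := ExpChar.prime hp
  exact ⟨iterateFrobenius E p e, fun x => by rw [iterateFrobenius_def, he]⟩

section dual

variable {p e : ℕ} [Fact p.Prime] [CharP K p]

theorem aeval_root_dag (he : q = p ^ e) (φ : K →+* K) (hφ : ∀ x, φ x = x ^ q) (hr : 1 ≤ r)
    (i m : ℕ) (hi0 : 0 < i) (hm : q ^ i = 1 + r * m) (f : K[X]) [Fact (Irreducible f)]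
    (hρ : AdjoinRoot.root f ^ r = 1) (P : K[X]) :
    aeval (AdjoinRoot.root f) (dag φ r P) =
      (aeval (AdjoinRoot.root f ^ ((r - 1) * q ^ (i - 1))) P) ^ q := by
  obtain ⟨φE, hφE⟩ := exists_pow_q_hom (K := K) he (AdjoinRoot f)
  set ρ := AdjoinRoot.root f
  set u := (r - 1) * q ^ (i - 1) with hud
  have hu : u * q = (r - 1) + r * ((r - 1) * m) := by
    have h1 : q ^ (i - 1) * q = q ^ i := by
      rw [← pow_succ]
      congr 1
      omega
    calc u * q = (r - 1) * (q ^ (i - 1) * q) := by rw [hud]; ring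
      _ = (r - 1) * (1 + r * m) := by rw [h1, hm]
      _ = _ := by ring
  have hX : φE (ρ ^ u) = ρ ^ (r - 1) := by
    rw [hφE, ← pow_mul, hu, pow_add, pow_mul ρ r, hρ, one_pow, mul_one]
  rw [← hφE]
  induction P using Polynomial.induction_on' with
  | add p₁ p₂ h₁ h₂ =>
    rw [map_add, map_add, map_add, map_add, h₁, h₂]
  | monomial k c =>
    rw [← C_mul_X_pow_eq_monomial]
    simp only [map_mul, map_pow, dag_C, dag_X, aeval_C, aeval_X, hX]
    congr 1
    rw [hφE, ← map_pow, hφ]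

theorem dvd_dag_iff (he : q = p ^ e) (φ : K →+* K) (hφ : ∀ x, φ x = x ^ q) (hr : 1 ≤ r) (hq0 : q ≠ 0)
    (i m : ℕ) (hi0 : 0 < i) (hm : q ^ i = 1 + r * m) (f : K[X]) [Fact (Irreducible f)]
    (hρ : AdjoinRoot.root f ^ r = 1) (f' : K[X]) :
    f ∣ dag φ r f' ↔ aeval (AdjoinRoot.root f ^ ((r - 1) * q ^ (i - 1))) f' = 0 := by
  rw [← AdjoinRoot.mk_eq_zero, ← AdjoinRoot.aeval_eq, aeval_root_dag he φ hφ hr i m hi0 hm f hρ]
  exact pow_eq_zero_iff hq0

theorem eval_one_ne_of_dvd (hrK : (r : K) ≠ 0) [Fact r.Prime] (f : K[X]) (h : f ∣ cyclotomic r K) :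
    f.eval 1 ≠ 0 := by
  intro h0
  obtain ⟨w, hw⟩ := h
  have h1 : eval 1 (cyclotomic r K) = (r : K) := eval_one_cyclotomic_prime
  rw [hw, eval_mul, h0, zero_mul] at h1
  exact hrK h1.symm

theorem exists_dual (he : q = p ^ e) (φ : K →+* K) (hφ : ∀ x, φ x = x ^ q) (hr : 2 ≤ r) (hq0 : q ≠ 0)
    (hrK : (r : K) ≠ 0) [Fact r.Prime] (i m : ℕ) (hi0 : 0 < i) (hm : q ^ i = 1 + r * m) (f : K[X])
    (hfi : Irreducible f) (hfm : f.Monic) (hfΦ : f ∣ cyclotomic r K) :
    ∃ f' : K[X], Irreducible f' ∧ f'.Monic ∧ f' ∣ cyclotomic r K ∧ f ∣ dag φ r f' := by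
  haveI : Fact (Irreducible f) := ⟨hfi⟩
  haveI hfin : Module.Finite K (AdjoinRoot f) := hfm.finite_adjoinRoot
  have hfX : f ∣ X ^ r - 1 := hfΦ.trans ⟨X - 1, (cyclotomic_prime_mul_X_sub_one K r).symm⟩
  have hρ : AdjoinRoot.root f ^ r = 1 := root_pow_r hfX
  have hρ1 : AdjoinRoot.root f ≠ 1 := root_ne_one (eval_one_ne_of_dvd hrK f hfΦ)
  set ν := AdjoinRoot.root f ^ ((r - 1) * q ^ (i - 1)) with hν
  have hint : IsIntegral K ν := Algebra.IsIntegral.isIntegral ν
  have hord : orderOf (AdjoinRoot.root f) = r := orderOf_eq_prime hρ hρ1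
  have hν1 : ν ≠ 1 := by
    intro h
    have h1 : r ∣ (r - 1) * q ^ (i - 1) := by
      have h0 := orderOf_dvd_of_pow_eq_one h
      rwa [hord] at h0
    have h2 : (r - 1) * q ^ (i - 1) * q = (r - 1) + r * ((r - 1) * m) := by
      have h3 : q ^ (i - 1) * q = q ^ i := by
        rw [← pow_succ]
        congr 1
        omega
      calc (r - 1) * q ^ (i - 1) * q = (r - 1) * (q ^ (i - 1) * q) := by ring
        _ = (r - 1) * (1 + r * m) := by rw [h3, hm]
        _ = _ := by ring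
    have h4 : r ∣ (r - 1) + r * ((r - 1) * m) := by
      rw [← h2]
      exact h1.mul_right q
    have h5 : r ∣ r - 1 := (Nat.dvd_add_left (dvd_mul_right _ _)).1 h4
    have := Nat.le_of_dvd (by omega) h5
    omega
  have hνr : ν ^ r = 1 := by
    rw [hν, pow_right_comm, hρ, one_pow]
  have hΦν : aeval ν (cyclotomic r K) = 0 := by
    have h1 := congrArg (aeval ν) (cyclotomic_prime_mul_X_sub_one K r)
    simp only [map_mul, map_sub, map_pow, aeval_X, map_one, hνr, sub_self] at h1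
    exact (mul_eq_zero.1 h1).resolve_right (sub_ne_zero.2 hν1)
  refine ⟨minpoly K ν, minpoly.irreducible hint, minpoly.monic hint, minpoly.dvd K ν hΦν, ?_⟩
  rw [dvd_dag_iff he φ hφ (by omega) hq0 i m hi0 hm f hρ]
  exact minpoly.aeval K ν

theorem dual_unique (he : q = p ^ e) (φ : K →+* K) (hφ : ∀ x, φ x = x ^ q) (hr : 2 ≤ r) (hq0 : q ≠ 0)
    (i m : ℕ) (hi0 : 0 < i) (hm : q ^ i = 1 + r * m) (f f₁ f₂ : K[X])
    (hfi : Irreducible f) (hfX : f ∣ X ^ r - 1) (h₁i : Irreducible f₁) (h₁m : f₁.Monic)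
    (h₂i : Irreducible f₂) (h₂m : f₂.Monic) (h₁ : f ∣ dag φ r f₁) (h₂ : f ∣ dag φ r f₂) : f₁ = f₂ := by
  haveI : Fact (Irreducible f) := ⟨hfi⟩
  have hρ : AdjoinRoot.root f ^ r = 1 := root_pow_r hfX
  rw [dvd_dag_iff he φ hφ (by omega) hq0 i m hi0 hm f hρ] at h₁ h₂
  rw [minpoly.eq_of_irreducible_of_monic h₁i h₁ h₁m, minpoly.eq_of_irreducible_of_monic h₂i h₂ h₂m]

theorem dual_symm (hF : Fintype.card K = q ^ 2) (he : q = p ^ e) (φ : K →+* K)
    (hφ : ∀ x, φ x = x ^ q) (hr : 2 ≤ r) (hq0 : q ≠ 0)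
    (i m : ℕ) (hi0 : 0 < i) (hm : q ^ i = 1 + r * m) (f f' : K[X])
    (hfi : Irreducible f) (hfX : f ∣ X ^ r - 1) (hfi' : Irreducible f') (hfX' : f' ∣ X ^ r - 1)
    (h : f ∣ dag φ r f') : f' ∣ dag φ r f := by
  haveI : Fact (Irreducible f) := ⟨hfi⟩
  haveI : Fact (Irreducible f') := ⟨hfi'⟩
  have hρ : AdjoinRoot.root f ^ r = 1 := root_pow_r hfX
  have hρ' : AdjoinRoot.root f' ^ r = 1 := root_pow_r hfX'
  rw [dvd_dag_iff he φ hφ (by omega) hq0 i m hi0 hm f hρ] at h
  rw [dvd_dag_iff he φ hφ (by omega) hq0 i m hi0 hm f' hρ']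
  set u := (r - 1) * q ^ (i - 1) with hud
  set ν := AdjoinRoot.root f ^ u with hν
  have h' : f'.eval₂ (algebraMap K (AdjoinRoot f)) ν = 0 := by
    rw [← aeval_def]
    exact h
  let j : AdjoinRoot f' →+* AdjoinRoot f := AdjoinRoot.lift (algebraMap K (AdjoinRoot f)) ν h'
  have hjof : j.comp (algebraMap K (AdjoinRoot f')) = algebraMap K (AdjoinRoot f) := by
    ext c
    simp only [RingHom.comp_apply, AdjoinRoot.algebraMap_eq]
    exact AdjoinRoot.lift_of h'
  have hjr : j (AdjoinRoot.root f') = ν := AdjoinRoot.lift_root h'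
  have hjaev : ∀ (x : AdjoinRoot f') (P : K[X]), j (aeval x P) = aeval (j x) P := by
    intro x P
    rw [aeval_def, hom_eval₂, hjof, ← aeval_def]
  apply (map_eq_zero_iff j j.injective).1
  rw [hjaev, map_pow, hjr, hν, ← pow_mul]
  obtain ⟨t, rfl⟩ : ∃ t, r = t + 2 := ⟨r - 2, by omega⟩
  have h1 : u * u = (Fintype.card K) ^ (i - 1) + (t + 2) * (t * (q ^ (i - 1) * q ^ (i - 1))) := by
    rw [hud, hF]
    have : t + 2 - 1 = t + 1 := by omega
    rw [this]
    ring
  rw [h1, pow_add, pow_mul (AdjoinRoot.root f) (t + 2), hρ, one_pow, mul_one, aeval_pow_Q,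
    AdjoinRoot.aeval_eq, AdjoinRoot.mk_self, zero_pow]
  exact pow_ne_zero _ Fintype.card_ne_zero

theorem ord_of_neg_one [Fact r.Prime] (hr2 : r ≠ 2) (x : ZMod r) (t : ℕ) (h : x ^ (2 * t + 1) = -1) :
    orderOf x % 4 = 2 := by
  have hrp : r.Prime := Fact.out
  haveI : Fact (2 < r) := ⟨by
    have := hrp.two_le
    omega⟩
  have h1 : x ^ (2 * (2 * t + 1)) = 1 := by
    rw [mul_comm, pow_mul, h]
    simp
  have h2 : orderOf x ∣ 2 * (2 * t + 1) := orderOf_dvd_of_pow_eq_one h1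
  have h3 : ¬ 4 ∣ orderOf x := by
    intro h4
    have h5 := h4.trans h2
    omega
  have h6 : orderOf x % 2 = 0 := by
    by_contra h7
    have h8 : (orderOf x).Coprime 2 := by
      exact ((Nat.Prime.coprime_iff_not_dvd Nat.prime_two).2 (by omega)).symm
    have h9 : orderOf x ∣ 2 * t + 1 := h8.dvd_of_dvd_mul_left h2
    have h10 := orderOf_dvd_iff_pow_eq_one.1 h9
    rw [h] at h10
    exact ZMod.neg_one_ne_one h10
  omega

theorem not_self_dual (hF : Fintype.card K = q ^ 2) (he : q = p ^ e) (φ : K →+* K)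
    (hφ : ∀ x, φ x = x ^ q) (hr : 2 ≤ r) (hr2 : r ≠ 2) (hq0 : q ≠ 0) (hrK : (r : K) ≠ 0)
    [Fact r.Prime] (i m : ℕ) (hi : i = orderOf (q : ZMod r)) (hi4 : i % 4 ≠ 2) (hi0 : 0 < i)
    (hm : q ^ i = 1 + r * m) (f : K[X]) (hfi : Irreducible f) (hfm : f.Monic)
    (hfΦ : f ∣ cyclotomic r K) (hdeg : f.natDegree = orderOf ((q : ZMod r) ^ 2)) :
    ¬ f ∣ dag φ r f := by
  classical
  intro hself
  haveI : Fact (Irreducible f) := ⟨hfi⟩
  have hfX : f ∣ X ^ r - 1 := hfΦ.trans ⟨X - 1, (cyclotomic_prime_mul_X_sub_one K r).symm⟩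
  have hρ : AdjoinRoot.root f ^ r = 1 := root_pow_r hfX
  have hρ1 : AdjoinRoot.root f ≠ 1 := root_ne_one (eval_one_ne_of_dvd hrK f hfΦ)
  have hord : orderOf (AdjoinRoot.root f) = r := orderOf_eq_prime hρ hρ1
  have hfo : IsOfFinOrder (AdjoinRoot.root f) := isOfFinOrder_iff_pow_eq_one.2 ⟨r, by omega, hρ⟩
  rw [dvd_dag_iff he φ hφ (by omega) hq0 i m hi0 hm f hρ] at hself
  set ρ := AdjoinRoot.root f with hρd
  set u := (r - 1) * q ^ (i - 1) with hud
  set x : ZMod r := (q : ZMod r) with hx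
  let Q := Fintype.card K
  have hQ : ((Q : ℕ) : ZMod r) = x ^ 2 := by
    show ((Fintype.card K : ℕ) : ZMod r) = _
    rw [hF, Nat.cast_pow]
  have hroot : ∀ t : ℕ, aeval (ρ ^ (Q ^ t)) f = 0 := by
    intro t
    rw [aeval_pow_Q, AdjoinRoot.aeval_eq, AdjoinRoot.mk_self, zero_pow]
    exact pow_ne_zero _ Fintype.card_ne_zero
  have hf0 : f.map (algebraMap K (AdjoinRoot f)) ≠ 0 :=
    Polynomial.map_ne_zero hfi.ne_zero
  have hmemR : ∀ y : AdjoinRoot f, aeval y f = 0 →
      y ∈ (f.map (algebraMap K (AdjoinRoot f))).roots.toFinset := by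
    intro y hy
    rw [Multiset.mem_toFinset, mem_roots hf0, IsRoot.def, eval_map, ← aeval_def]
    exact hy
  let T : Finset (AdjoinRoot f) := (Finset.range (f.natDegree)).image fun t => ρ ^ (Q ^ t)
  have hinj : Set.InjOn (fun t => ρ ^ (Q ^ t)) (Finset.range f.natDegree : Set ℕ) := by
    intro a ha c hc h
    have h' : ρ ^ (Q ^ a) = ρ ^ (Q ^ c) := h
    have h1 : Q ^ a ≡ Q ^ c [MOD r] := by
      have h0 := hfo.pow_eq_pow_iff_modEq.1 h'
      rwa [hord] at h0
    have h2 : ((Q ^ a : ℕ) : ZMod r) = ((Q ^ c : ℕ) : ZMod r) :=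
      (ZMod.natCast_eq_natCast_iff _ _ _).2 h1
    rw [Nat.cast_pow, Nat.cast_pow, hQ] at h2
    have ha' : a ∈ Set.Iio (orderOf (x ^ 2)) := by
      have := Finset.mem_range.1 (Finset.mem_coe.1 ha)
      rw [hdeg] at this
      exact this
    have hc' : c ∈ Set.Iio (orderOf (x ^ 2)) := by
      have := Finset.mem_range.1 (Finset.mem_coe.1 hc)
      rw [hdeg] at this
      exact this
    exact pow_injOn_Iio_orderOf ha' hc' h2
  have hTc : T.card = f.natDegree := by
    rw [Finset.card_image_of_injOn hinj, Finset.card_range]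
  have hTs : T ⊆ (f.map (algebraMap K (AdjoinRoot f))).roots.toFinset := by
    intro y hy
    obtain ⟨t, -, rfl⟩ := Finset.mem_image.1 hy
    exact hmemR _ (hroot t)
  have hle : (f.map (algebraMap K (AdjoinRoot f))).roots.toFinset.card ≤ T.card := by
    rw [hTc]
    calc _ ≤ Multiset.card (f.map (algebraMap K (AdjoinRoot f))).roots := Multiset.toFinset_card_le _
      _ ≤ (f.map (algebraMap K (AdjoinRoot f))).natDegree := card_roots' _
      _ = f.natDegree := natDegree_map _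
  have hTeq := Finset.eq_of_subset_of_card_le hTs hle
  have hu : ρ ^ u ∈ T := by
    rw [hTeq]
    exact hmemR _ hself
  obtain ⟨t, -, ht⟩ := Finset.mem_image.1 hu
  have ht' : ρ ^ (Q ^ t) = ρ ^ u := ht
  have h1 : Q ^ t ≡ u [MOD r] := by
    have h0 := hfo.pow_eq_pow_iff_modEq.1 ht'
    rwa [hord] at h0
  have h2 : ((Q ^ t : ℕ) : ZMod r) = ((u : ℕ) : ZMod r) := (ZMod.natCast_eq_natCast_iff _ _ _).2 h1
  rw [Nat.cast_pow, hQ] at h2
  have h3 : (u : ZMod r) * x = -1 := by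
    have h4 : u * q = (r - 1) + r * ((r - 1) * m) := by
      have h5 : q ^ (i - 1) * q = q ^ i := by
        rw [← pow_succ]
        congr 1
        omega
      calc u * q = (r - 1) * (q ^ (i - 1) * q) := by rw [hud]; ring
        _ = (r - 1) * (1 + r * m) := by rw [h5, hm]
        _ = _ := by ring
    have h6 : ((u * q : ℕ) : ZMod r) = ((r - 1 : ℕ) : ZMod r) := by
      rw [h4, Nat.cast_add, Nat.cast_mul r, ZMod.natCast_self, zero_mul, add_zero]
    rw [Nat.cast_mul] at h6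
    rw [h6]
    have h7 : ((r - 1 : ℕ) : ZMod r) + 1 = 0 := by
      have : ((r - 1 + 1 : ℕ) : ZMod r) = 0 := by
        have h8 : r - 1 + 1 = r := by omega
        rw [h8, ZMod.natCast_self]
      simpa using this
    exact eq_neg_of_add_eq_zero_left h7
  have h9 : x ^ (2 * t + 1) = -1 := by
    rw [pow_succ, pow_mul, h2]
    exact h3
  have h10 := ord_of_neg_one hr2 x t h9
  rw [← hi] at h10
  exact hi4 h10

end dual

end Cfsg.Agent.H01.PglCl
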