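import Mathlib
import Cfsg.Agent.Lib.H01.SsP4

/-! Classes of elements of odd prime order `r` in `GU_n(q)`, `r ∤ q (q + 1)`. -/

set_option linter.unusedSectionVars false
set_option autoImplicit false

namespace Cfsg.Agent.H01.PglCl

open Polynomial Module Matrix UniqueFactorizationMonoid
open Cfsg.Agent.Lead

variable {K : Type*} [Field K] [Fintype K] {q n r : ℕ}

local notation "hh" => Cfsg.hermForm n K q

theorem exists_factor_vec (A : End K (Fin n → K)) (W : Submodule K (Fin n → K))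
    (hW : ∀ x ∈ W, A x ∈ W) (s : Multiset K[X]) :
    ∀ x ∈ W, x ≠ 0 → aeval A s.prod x = 0 → ∃ f ∈ s, ∃ y ∈ W, y ≠ 0 ∧ aeval A f y = 0 := by
  induction s using Multiset.induction_on with
  | empty =>
    intro x _ hne h
    simp at h
    exact absurd h hne
  | cons f s ih =>
    intro x hx hne h
    rw [Multiset.prod_cons, aeval_mul_apply] at h
    by_cases h0 : aeval A s.prod x = 0
    · obtain ⟨f', hf', y, hy, hy0, hy'⟩ := ih x hx hne h0
      exact ⟨f', Multiset.mem_cons_of_mem hf', y, hy, hy0, hy'⟩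
    · exact ⟨f, Multiset.mem_cons_self _ _, _, aeval_mem W A hW _ x hx, h0, h⟩

theorem block_dich [DecidableEq K] [Fact r.Prime] (hF : Fintype.card K = q ^ 2) (g : GL (Fin n) K)
    (hr1 : g ^ r = 1) (W : Submodule K (Fin n → K)) (hW : ∀ x ∈ W, L g x ∈ W)
    (hnd : ∀ x ∈ W, x ≠ 0 → ∃ z ∈ W, hh x z ≠ 0) (hne : ∃ x ∈ W, x ≠ 0) :
    (∃ f ∈ normalizedFactors (cyclotomic r K), ∃ y ∈ W, y ≠ 0 ∧ aeval (L g) f y = 0) ∨
      ∃ y ∈ W, hh y y = 1 ∧ L g y = y := by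
  by_cases hall : ∀ x ∈ W, L g x = x
  · right
    obtain ⟨x₀, hx₀, hne₀⟩ := hne
    obtain ⟨y₀, hy₀W, hy₀⟩ := exists_anis hF (1 : End K (Fin n → K)) W
      (fun x hx hne => hnd x hx hne) x₀ hx₀ hne₀
    have hy₀' : hh y₀ y₀ ≠ 0 := hy₀
    have hfix : (hh y₀ y₀) ^ q = hh y₀ y₀ := (herm_conj hF y₀ y₀).symm
    obtain ⟨c, hc0, hc⟩ := exists_norm_eq hF (hh y₀ y₀)⁻¹ (inv_ne_zero hy₀') (by rw [inv_pow, hfix])
    refine ⟨c • y₀, W.smul_mem _ hy₀W, ?_, ?_⟩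
    · rw [herm_smul_left, herm_smul_right hF]
      have h1 : c * (c ^ q * hh y₀ y₀) = c ^ (q + 1) * hh y₀ y₀ := by
        rw [pow_succ]
        ring
      rw [h1, hc, inv_mul_cancel₀ hy₀']
    · rw [map_smul, hall y₀ hy₀W]
  · left
    push Not at hall
    obtain ⟨x, hx, hxne⟩ := hall
    set x₁ := L g x - x with hx₁
    have hx₁W : x₁ ∈ W := W.sub_mem (hW x hx) hx
    have hx₁0 : x₁ ≠ 0 := sub_ne_zero.2 hxne
    have hx₁a : x₁ = aeval (L g) (X - 1 : K[X]) x := by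
      simp [hx₁]
    have hann : aeval (L g) (X ^ r - 1 : K[X]) = 0 := by
      rw [map_sub, map_pow, aeval_X, map_one, ← L_pow, hr1, L_one, sub_self]
    have hΦ : aeval (L g) (cyclotomic r K) x₁ = 0 := by
      rw [hx₁a, ← aeval_mul_apply, cyclotomic_prime_mul_X_sub_one, hann]
      rfl
    obtain ⟨w, hw⟩ := (prod_normalizedFactors (cyclotomic_ne_zero r K)).symm.dvd
    exact exists_factor_vec (L g) W hW _ x₁ hx₁W hx₁0 (by
      rw [hw, mul_comm, aeval_mul_apply, hΦ, map_zero])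

theorem block_none {S : Type} {D₀ : ℕ} {R : S → GL (Fin D₀) K} (hF : Fintype.card K = q ^ 2)
    (g : GL (Fin n) K) (W : Submodule K (Fin n → K)) (y : Fin n → K) (hyW : y ∈ W)
    (hy1 : hh y y = 1) (hgy : L g y = y) : HasBlock (Dm := dimO D₀) (repO R) q g W := by
  have hq2 := two_le_q hF
  let T : (Fin 1 → K) →ₗ[K] (Fin n → K) :=
    { toFun := fun x => x (0 : Fin 1) • y
      map_add' := fun a c => by simp [add_smul]
      map_smul' := fun c a => by simp [smul_smul] }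
  have h1 : ∀ x z : Fin 1 → K, hh (T x) (T z) = Cfsg.hermForm 1 K q x z := by
    intro x z
    show hh (x (0 : Fin 1) • y) (z (0 : Fin 1) • y) = Cfsg.hermForm 1 K q x z
    rw [herm_smul_left, herm_smul_right hF, hy1]
    simp [Cfsg.hermForm]
  have h2 : ∀ x : Fin 1 → K, L g (T x) = T (L (1 : GL (Fin 1) K) x) := by
    intro x
    show L g (x (0 : Fin 1) • y) = (L (1 : GL (Fin 1) K) x) (0 : Fin 1) • y
    rw [map_smul, hgy, L_one]
    rfl
  exact ⟨none, T, h1, h2, fun x => W.smul_mem _ hyW⟩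

theorem ss_count_wrap {T : Type*} [Fintype T] {D₀ : ℕ} {r : ℕ} [Fact r.Prime]
    (hF : Fintype.card K = q ^ 2) (hD₀ : 0 < D₀) (R : T → GL (Fin D₀) K)
    (hR : ∀ t, R t ∈ Cfsg.GU D₀ K q) (hRr : ∀ t, R t ^ r = 1) (hR1 : ∀ t, R t ≠ 1) (fS : T → K[X])
    (hk : ∀ t, LinearMap.ker (aeval (L (R t)) (fS t)) ≠ ⊥)
    (hinj : ∀ t t', t ≠ t' → LinearMap.ker (aeval (L (R t')) (fS t)) = ⊥)
    (hone : ∀ t, (fS t).eval 1 ≠ 0)
    (hB : ∀ g : GL (Fin n) K, g ∈ Cfsg.GU n K q → g ^ r = 1 →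
      ∀ W : Submodule K (Fin n → K), (∀ x ∈ W, L g x ∈ W) →
      (∀ x ∈ W, x ≠ 0 → ∃ z ∈ W, hh x z ≠ 0) → (∃ x ∈ W, x ≠ 0) →
      (∃ t, ∃ Tn : (Fin D₀ → K) →ₗ[K] (Fin n → K),
        (∀ x z, Cfsg.hermForm n K q (Tn x) (Tn z) = Cfsg.hermForm D₀ K q x z) ∧
        (∀ x, L g (Tn x) = Tn (L (R t) x)) ∧ ∀ x, Tn x ∈ W) ∨
      ∃ y ∈ W, hh y y = 1 ∧ L g y = y) :
    Nat.card {C : ConjClasses ↥(Cfsg.GU n K q) //
      ∃ g : ↥(Cfsg.GU n K q), ConjClasses.mk g = C ∧ orderOf g = r} =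
      (n / D₀ + Fintype.card T).choose (Fintype.card T) - 1 := by
  classical
  let e : T ≃ Fin (Fintype.card T) := Fintype.equivFin T
  have key := ss_count_main (S := Fin (Fintype.card T)) (D₀ := D₀) (R := fun i => R (e.symm i))
    (r := r) (n := n) hF hD₀ (fun _ => hR _) (fun _ => hRr _) (fun _ => hR1 _)
    (fun i => fS (e.symm i)) (fun _ => hk _)
    (fun t t' h => hinj _ _ (fun h' => h (e.symm.injective h'))) (fun _ => hone _)
    (fun g hg hr1 W hW hnd hne' => by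
      rcases hB g hg hr1 W hW hnd hne' with ⟨t, Tn, h1, h2, h3⟩ | ⟨y, hyW, hy1, hgy⟩
      · have hRe : R (e.symm (e t)) = R t := by rw [e.symm_apply_apply]
        refine ⟨some (e t), Tn, h1, ?_, h3⟩
        intro x
        show L g (Tn x) = Tn (L (R (e.symm (e t))) x)
        rw [hRe]
        exact h2 x
      · exact block_none hF g W y hyW hy1 hgy)
  rw [key, Fintype.card_fin]

theorem sd_branch [DecidableEq K] [Fact r.Prime] (hF : Fintype.card K = q ^ 2) (φ : K →+* K)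
    (hφ : ∀ x, φ x = x ^ q) (hr2' : 2 ≤ r) (hrK : (r : K) ≠ 0) (b : ℕ) (hb0 : 0 < b) (hbo : Odd b)
    (hrb : r ∣ q ^ b + 1)
    (hdeg : ∀ f : K[X], f ∣ cyclotomic r K → Irreducible f → f.natDegree = b)
    (hFac : ∀ f ∈ normalizedFactors (cyclotomic r K),
      Irreducible f ∧ f.Monic ∧ f ∣ cyclotomic r K)
    (hG : ∀ f : K[X], Irreducible f → f ∣ cyclotomic r K →
      ∃ G, (X ^ r - 1 : K[X]) = f * G ∧ IsCoprime f G)
    (hne : ∀ {f f' : K[X]}, f ∈ normalizedFactors (cyclotomic r K) →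
      f' ∈ normalizedFactors (cyclotomic r K) → f' ∣ f → f' = f) :
    Nat.card {C : ConjClasses ↥(Cfsg.GU n K q) //
      ∃ g : ↥(Cfsg.GU n K q), ConjClasses.mk g = C ∧ orderOf g = r} =
      (n / b + (normalizedFactors (cyclotomic r K)).toFinset.card).choose
        (normalizedFactors (cyclotomic r K)).toFinset.card - 1 := by
  classical
  let Fa := (normalizedFactors (cyclotomic r K)).toFinset
  have hmodel : ∀ t : {f // f ∈ Fa}, ∃ R : GL (Fin b) K, R ∈ Cfsg.GU b K q ∧ R ^ r = 1 ∧ R ≠ 1 ∧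
      aeval (L R) t.1 = 0 ∧ (∀ P : K[X], ¬ t.1 ∣ P → LinearMap.ker (aeval (L R) P) = ⊥) ∧
      ∀ (n : ℕ) (g : GL (Fin n) K), g ∈ Cfsg.GU n K q → g ^ r = 1 →
        ∀ W : Submodule K (Fin n → K), (∀ x ∈ W, L g x ∈ W) →
        (∀ x ∈ W, x ≠ 0 → ∃ z ∈ W, Cfsg.hermForm n K q x z ≠ 0) →
        (∃ x ∈ W, x ≠ 0 ∧ aeval (L g) t.1 x = 0) →
        ∃ Tn : (Fin b → K) →ₗ[K] (Fin n → K),
          (∀ x z, Cfsg.hermForm n K q (Tn x) (Tn z) = Cfsg.hermForm b K q x z) ∧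
          (∀ x, L g (Tn x) = Tn (L R x)) ∧ ∀ x, Tn x ∈ W := by
    intro t
    obtain ⟨h1, h2, h3⟩ := hFac t.1 (Multiset.mem_toFinset.1 t.2)
    obtain ⟨G, hG1, hG2⟩ := hG t.1 h1 h3
    exact model_sd hF φ hφ hr2' b hbo hrb t.1 G h1 h2 (hdeg _ h3 h1) hG1 hG2
      (eval_one_ne_of_dvd hrK _ h3)
  choose R hRm hRr hR1 hRf hRker hRblock using hmodel
  have key := ss_count_wrap (T := {f // f ∈ Fa}) (D₀ := b) (R := R) (r := r) (n := n) hF hb0 hRm
    hRr hR1 (fun t => t.1)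
    (fun t => by
      haveI : Nonempty (Fin b) := ⟨⟨0, hb0⟩⟩
      show LinearMap.ker (aeval (L (R t)) t.1) ≠ ⊥
      rw [hRf t, LinearMap.ker_zero]
      exact top_ne_bot)
    (fun t t' htt' => hRker t' t.1 (fun h => htt' (Subtype.ext
      (hne (Multiset.mem_toFinset.1 t.2) (Multiset.mem_toFinset.1 t'.2) h).symm)))
    (fun t => eval_one_ne_of_dvd hrK _ (hFac t.1 (Multiset.mem_toFinset.1 t.2)).2.2)
    (fun g hg hr1 W hW hnd hne' => by
      rcases block_dich hF g hr1 W hW hnd hne' with ⟨f, hf, y, hyW, hy0, hyf⟩ | h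
      · obtain ⟨Tn, h1, h2, h3⟩ := hRblock ⟨f, Multiset.mem_toFinset.2 hf⟩ n g hg hr1 W hW hnd
          ⟨y, hyW, hy0, hyf⟩
        exact Or.inl ⟨⟨f, Multiset.mem_toFinset.2 hf⟩, Tn, h1, h2, h3⟩
      · exact Or.inr h)
  rw [key, Fintype.card_coe]

theorem pr_branch [DecidableEq K] [Fact r.Prime] {p e : ℕ} [Fact p.Prime] [CharP K p] (hF : Fintype.card K = q ^ 2)
    (he : q = p ^ e) (φ : K →+* K) (hφ : ∀ x, φ x = x ^ q) (hr2' : 2 ≤ r) (hr2 : r ≠ 2) (hq0 : q ≠ 0)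
    (hrK : (r : K) ≠ 0) (b i m : ℕ) (hb0 : 0 < b) (hi : i = orderOf (q : ZMod r)) (hi4 : i % 4 ≠ 2)
    (hi0 : 0 < i) (hm : q ^ i = 1 + r * m) (hordb : orderOf ((q : ZMod r) ^ 2) = b)
    (hdeg : ∀ f : K[X], f ∣ cyclotomic r K → Irreducible f → f.natDegree = b)
    (hFac : ∀ f ∈ normalizedFactors (cyclotomic r K),
      Irreducible f ∧ f.Monic ∧ f ∣ cyclotomic r K)
    (hG : ∀ f : K[X], Irreducible f → f ∣ cyclotomic r K →
      ∃ G, (X ^ r - 1 : K[X]) = f * G ∧ IsCoprime f G)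
    (hne : ∀ {f f' : K[X]}, f ∈ normalizedFactors (cyclotomic r K) →
      f' ∈ normalizedFactors (cyclotomic r K) → f' ∣ f → f' = f) :
    ∃ c : ℕ, (normalizedFactors (cyclotomic r K)).toFinset.card = 2 * c ∧
      Nat.card {C : ConjClasses ↥(Cfsg.GU n K q) //
        ∃ g : ↥(Cfsg.GU n K q), ConjClasses.mk g = C ∧ orderOf g = r} =
        (n / (2 * b) + c).choose c - 1 := by
  classical
  have hXd : ∀ f : K[X], f ∣ cyclotomic r K → f ∣ X ^ r - 1 := fun f h => 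
    h.trans ⟨X - 1, (cyclotomic_prime_mul_X_sub_one K r).symm⟩
  let Fa := (normalizedFactors (cyclotomic r K)).toFinset
  have hmemFa : ∀ f : K[X], Irreducible f → f.Monic → f ∣ cyclotomic r K → f ∈ Fa := by
    intro f h1 h2 h3
    obtain ⟨f₀, hf₀, hass⟩ := exists_mem_normalizedFactors_of_dvd (cyclotomic_ne_zero r K) h1 h3
    have := eq_of_monic_of_associated h2 (hFac f₀ hf₀).2.1 hass
    rw [this]
    exact Multiset.mem_toFinset.2 hf₀
  have hFa : ∀ t : {f // f ∈ Fa}, Irreducible t.1 ∧ t.1.Monic ∧ t.1 ∣ cyclotomic r K :=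
    fun t => hFac t.1 (Multiset.mem_toFinset.1 t.2)
  have hex : ∀ t : {f // f ∈ Fa}, ∃ t' : {f // f ∈ Fa}, t.1 ∣ dag φ r t'.1 := by
    intro t
    obtain ⟨h1, h2, h3⟩ := hFa t
    obtain ⟨f', h4, h5, h6, h7⟩ := exists_dual he φ hφ hr2' hq0 hrK i m hi0 hm t.1 h1 h2 h3
    exact ⟨⟨f', hmemFa f' h4 h5 h6⟩, h7⟩
  choose ω hω using hex
  have hsym : ∀ t t' : {f // f ∈ Fa}, t.1 ∣ dag φ r t'.1 → t'.1 ∣ dag φ r t.1 := by
    intro t t' h
    exact dual_symm hF he φ hφ hr2' hq0 i m hi0 hm t.1 t'.1 (hFa t).1 (hXd _ (hFa t).2.2) (hFa t').1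
      (hXd _ (hFa t').2.2) h
  have hωω : ∀ t, ω (ω t) = t := by
    intro t
    apply Subtype.ext
    exact dual_unique he φ hφ hr2' hq0 i m hi0 hm (ω t).1 (ω (ω t)).1 t.1 (hFa _).1
      (hXd _ (hFa _).2.2) (hFa _).1 (hFa _).2.1 (hFa _).1 (hFa _).2.1 (hω _) (hsym _ _ (hω t))
  have hno : ∀ t : {f // f ∈ Fa}, ¬ t.1 ∣ dag φ r t.1 := by
    intro t
    refine not_self_dual hF he φ hφ hr2' hr2 hq0 hrK i m hi hi4 hi0 hm t.1 (hFa t).1 (hFa t).2.1
      (hFa t).2.2 ?_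
    rw [hdeg _ (hFa t).2.2 (hFa t).1, hordb]
  have hfp : ∀ t, ω t ≠ t := by
    intro t h
    have := hω t
    rw [h] at this
    exact hno t this
  obtain ⟨S, hcov, hdis, hcard⟩ := exists_half ω hωω hfp
  have hmodel : ∀ t : {x // x ∈ S}, ∃ R : GL (Fin (2 * b)) K, R ∈ Cfsg.GU (2 * b) K q ∧ R ^ r = 1 ∧
      R ≠ 1 ∧ LinearMap.ker (aeval (L R) t.1.1) ≠ ⊥ ∧
      (∀ P : K[X], ¬ t.1.1 ∣ P → ¬ (ω t.1).1 ∣ P → LinearMap.ker (aeval (L R) P) = ⊥) ∧
      ∀ (n : ℕ) (g : GL (Fin n) K), g ∈ Cfsg.GU n K q → g ^ r = 1 →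
        ∀ W : Submodule K (Fin n → K), (∀ x ∈ W, L g x ∈ W) →
        (∀ x ∈ W, x ≠ 0 → ∃ z ∈ W, Cfsg.hermForm n K q x z ≠ 0) →
        (∃ x ∈ W, x ≠ 0 ∧ (aeval (L g) t.1.1 x = 0 ∨ aeval (L g) (ω t.1).1 x = 0)) →
        ∃ Tn : (Fin (2 * b) → K) →ₗ[K] (Fin n → K),
          (∀ x z, Cfsg.hermForm n K q (Tn x) (Tn z) = Cfsg.hermForm (2 * b) K q x z) ∧
          (∀ x, L g (Tn x) = Tn (L R x)) ∧ ∀ x, Tn x ∈ W := by
    intro t
    obtain ⟨h1, h2, h3⟩ := hFa t.1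
    obtain ⟨h1', h2', h3'⟩ := hFa (ω t.1)
    obtain ⟨G, hG1, hG2⟩ := hG t.1.1 h1 h3
    obtain ⟨G', hG1', hG2'⟩ := hG (ω t.1).1 h1' h3'
    exact model_pr hF φ hφ hr2' b t.1.1 (ω t.1).1 G G' h1 h2 (hdeg _ h3 h1) h1' h2' (hdeg _ h3' h1')
      hG1 hG2 hG1' hG2' (hω t.1) (hsym _ _ (hω t.1)) (hno t.1) (hno (ω t.1))
      (eval_one_ne_of_dvd hrK _ h3) (eval_one_ne_of_dvd hrK _ h3')
  choose R hRm hRr hR1 hRf hRker hRblock using hmodel
  have key := ss_count_wrap (T := {x // x ∈ S}) (D₀ := 2 * b) (R := R) (r := r) (n := n) hF (by omega)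
    hRm hRr hR1 (fun t => t.1.1) hRf
    (fun t t' htt' => hRker t' t.1.1
      (fun h => htt' (Subtype.ext (Subtype.ext
        (hne (Multiset.mem_toFinset.1 t.1.2) (Multiset.mem_toFinset.1 t'.1.2) h).symm)))
      (fun h => by
        have h1 := hne (Multiset.mem_toFinset.1 t.1.2) (Multiset.mem_toFinset.1 (ω t'.1).2) h
        have h2 : ω t'.1 = t.1 := Subtype.ext h1
        exact hdis t'.1 t'.2 (by rw [h2]; exact t.2)))
    (fun t => eval_one_ne_of_dvd hrK _ (hFa t.1).2.2)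
    (fun g hg hr1 W hW hnd hne' => by
      rcases block_dich hF g hr1 W hW hnd hne' with ⟨f, hf, y, hyW, hy0, hyf⟩ | h
      · have hfa : f ∈ Fa := Multiset.mem_toFinset.2 hf
        rcases hcov ⟨f, hfa⟩ with h | h
        · obtain ⟨Tn, h1, h2, h3⟩ := hRblock ⟨⟨f, hfa⟩, h⟩ n g hg hr1 W hW hnd
            ⟨y, hyW, hy0, Or.inl hyf⟩
          exact Or.inl ⟨⟨⟨f, hfa⟩, h⟩, Tn, h1, h2, h3⟩
        · obtain ⟨Tn, h1, h2, h3⟩ := hRblock ⟨ω ⟨f, hfa⟩, h⟩ n g hg hr1 W hW hnd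
            ⟨y, hyW, hy0, Or.inr (by
              show aeval (L g) (ω (ω ⟨f, hfa⟩)).1 y = 0
              rw [hωω]
              exact hyf)⟩
          exact Or.inl ⟨⟨ω ⟨f, hfa⟩, h⟩, Tn, h1, h2, h3⟩
      · exact Or.inr h)
  refine ⟨S.card, ?_, ?_⟩
  · rw [← hcard, Fintype.card_coe]
  · rw [key, Fintype.card_coe]

theorem gu_ss_main {p i b s : ℕ} [Fact p.Prime] [CharP K p] [DecidableEq K]
    (hF : Fintype.card K = q ^ 2) (hr : r.Prime) (hr2 : r ≠ 2) (hrp : r ≠ p)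
    (hi : i = orderOf (q : ZMod r)) (hb : b = if Odd i then i else i / 2) (hs : s * b = r - 1) :
    Nat.card {C : ConjClasses ↥(Cfsg.GU n K q) //
      ∃ g : ↥(Cfsg.GU n K q), ConjClasses.mk g = C ∧ orderOf g = r} =
      if i % 4 = 2 then Nat.choose (2 * n / i + s) s - 1
      else Nat.choose (n / (2 * b) + s / 2) (s / 2) - 1 := by
  haveI : Fact r.Prime := ⟨hr⟩
  have hp : p.Prime := Fact.out
  have hq2 := two_le_q hF
  have hr2' : 2 ≤ r := hr.two_le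
  obtain ⟨φ, hφ⟩ := exists_frob hF
  have hq0 : q ≠ 0 := by omega
  obtain ⟨N, hpp, hN⟩ := FiniteField.card K p
  have hqd : q ∣ p ^ (N : ℕ) := by
    rw [← hN, hF]
    exact dvd_pow_self q (by norm_num)
  obtain ⟨e, -, he⟩ := (Nat.dvd_prime_pow hp).1 hqd
  have hcardK : Fintype.card K = p ^ (2 * e) := by
    rw [hF, he, ← pow_mul, mul_comm]
  have hpr : p.Coprime r := (Nat.coprime_primes hp hr).2 (Ne.symm hrp)
  have hrK : (r : K) ≠ 0 := by
    intro h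
    have h1 := (CharP.cast_eq_zero_iff K p r).1 h
    exact hrp ((Nat.prime_dvd_prime_iff_eq hp hr).1 h1).symm
  have hx0 : (q : ZMod r) ≠ 0 := by
    intro h
    have h1 := (ZMod.natCast_eq_zero_iff q r).1 h
    rw [he] at h1
    have h2 := hr.dvd_of_dvd_pow h1
    exact hrp ((Nat.prime_dvd_prime_iff_eq hr hp).1 h2)
  have hxpow : (q : ZMod r) ^ (r - 1) = 1 := ZMod.pow_card_sub_one_eq_one hx0
  have hi0 : 0 < i := by
    rw [hi]
    exact orderOf_pos_iff.2 (isOfFinOrder_iff_pow_eq_one.2 ⟨r - 1, by omega, hxpow⟩)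
  have hxi : (q : ZMod r) ^ i = 1 := by
    rw [hi]
    exact pow_orderOf_eq_one _
  obtain ⟨m, hm⟩ : ∃ m, q ^ i = 1 + r * m := by
    have h1 : ((q ^ i : ℕ) : ZMod r) = ((1 : ℕ) : ZMod r) := by
      rw [Nat.cast_pow, hxi, Nat.cast_one]
    have h2 : 1 ≡ q ^ i [MOD r] := ((ZMod.natCast_eq_natCast_iff _ _ _).1 h1).symm
    have h3 : 1 ≤ q ^ i := Nat.one_le_pow _ _ (by omega)
    obtain ⟨m, hm⟩ := (Nat.modEq_iff_dvd' h3).1 h2
    exact ⟨m, by omega⟩
  have hordb : orderOf ((q : ZMod r) ^ 2) = b := by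
    rw [orderOf_pow' _ two_ne_zero, ← hi, hb]
    split_ifs with h
    · have : Nat.gcd i 2 = 1 := by
        rw [Nat.gcd_comm]
        exact (Nat.Prime.coprime_iff_not_dvd Nat.prime_two).2
          (by
            have := Nat.odd_iff.1 h
            omega)
      rw [this, Nat.div_one]
    · have h1 : 2 ∣ i := by
        have := Nat.not_odd_iff_even.1 h
        exact this.two_dvd
      rw [Nat.gcd_eq_right h1]
  have hb0 : 0 < b := by
    rw [← hordb]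
    apply orderOf_pos_iff.2
    refine isOfFinOrder_iff_pow_eq_one.2 ⟨r - 1, by omega, ?_⟩
    rw [pow_right_comm, hxpow, one_pow]
  have hunit : orderOf (ZMod.unitOfCoprime _ (hpr.pow_left (2 * e))) = b := by
    rw [← orderOf_units, ZMod.coe_unitOfCoprime, ← hordb, ← hcardK, hF, Nat.cast_pow]
  have hdeg : ∀ f : K[X], f ∣ cyclotomic r K → Irreducible f → f.natDegree = b := by
    intro f hf hirr
    rw [natDegree_of_dvd_cyclotomic_of_irreducible hcardK hpr hf hirr, hunit]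
  have hFac : ∀ f ∈ normalizedFactors (cyclotomic r K), Irreducible f ∧ f.Monic ∧ f ∣ cyclotomic r K := by
    intro f hf
    have hirr := irreducible_of_normalized_factor f hf
    refine ⟨hirr, ?_, dvd_of_mem_normalizedFactors hf⟩
    have h1 := monic_normalize hirr.ne_zero
    rwa [normalize_normalized_factor f hf] at h1
  have hXΦ : (X ^ r - 1 : K[X]) = cyclotomic r K * (X - 1) :=
    (cyclotomic_prime_mul_X_sub_one K r).symm
  have hsq : Squarefree (X ^ r - 1 : K[X]) := by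
    have h1 := separable_X_pow_sub_C' p r (1 : K) (fun h =>
      hrp ((Nat.prime_dvd_prime_iff_eq hp hr).1 h).symm) one_ne_zero
    rw [C_1] at h1
    exact h1.squarefree
  have hG : ∀ f : K[X], Irreducible f → f ∣ cyclotomic r K →
      ∃ G, (X ^ r - 1 : K[X]) = f * G ∧ IsCoprime f G := by
    intro f hfi ⟨w, hw⟩
    refine ⟨w * (X - 1), by rw [hXΦ, hw, mul_assoc], ?_⟩
    refine (hfi.coprime_iff_not_dvd).2 ?_
    rintro ⟨v, hv⟩
    apply hfi.not_isUnit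
    apply hsq f
    refine ⟨v, ?_⟩
    rw [hXΦ, hw, mul_assoc, hv, mul_assoc]
  have hcardF : (normalizedFactors (cyclotomic r K)).toFinset.card = s := by
    rw [normalizedFactors_cyclotomic_card hcardK hpr, hunit, Nat.totient_prime hr]
    exact Nat.div_eq_of_eq_mul_left hb0 hs.symm
  have hne : ∀ {f f' : K[X]}, f ∈ normalizedFactors (cyclotomic r K) →
      f' ∈ normalizedFactors (cyclotomic r K) → f' ∣ f → f' = f := by
    intro f f' hf hf' h
    obtain ⟨h1, h2, -⟩ := hFac f hf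
    obtain ⟨h3, h4, -⟩ := hFac f' hf'
    exact eq_of_monic_of_associated h4 h2 (h3.associated_of_dvd h1 h)
  by_cases hi4 : i % 4 = 2
  · rw [if_pos hi4]
    have hnodd : ¬ Odd i := by
      intro h
      have := Nat.odd_iff.1 h
      omega
    have hb2 : b = i / 2 := by
      rw [hb, if_neg hnodd]
    have hi2b : i = 2 * b := by omega
    have hbo : Odd b := Nat.odd_iff.2 (by omega)
    have hrb : r ∣ q ^ b + 1 := by
      have h1 : ((q : ZMod r) ^ b) * ((q : ZMod r) ^ b) = 1 := by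
        rw [← pow_add, ← two_mul, ← hi2b, hxi]
      have h2 : (q : ZMod r) ^ b ≠ 1 := pow_ne_one_of_lt_orderOf (by omega) (by omega)
      have h3 := (mul_self_eq_one_iff.1 h1).resolve_left h2
      rw [← ZMod.natCast_eq_zero_iff]
      push_cast
      rw [h3]
      ring
    rw [sd_branch hF φ hφ hr2' hrK b hb0 hbo hrb hdeg hFac hG hne, hcardF, hi2b,
      Nat.mul_div_mul_left _ _ (by norm_num)]
  · rw [if_neg hi4]
    obtain ⟨c, hc, hkey⟩ := pr_branch (n := n) hF he φ hφ hr2' hr2 hq0 hrK b i m hb0 hi hi4 hi0 hm hordb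
      hdeg hFac hG hne
    have hSs : c = s / 2 := by omega
    rw [hkey, hSs]

end Cfsg.Agent.H01.PglCl
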