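import Mathlib
import Cfsg.Agent.Lib.H01.HallConverse

/-!
Groups with a family of permuting Sylow subgroups are solvable.
-/

namespace Cfsg.Agent.H01

open Subgroup
open scoped Pointwise

universe u

section

variable {G : Type u} [Group G]

/-- If two subgroups permute then the join is the set product. -/
theorem coe_sup_of_permute {X Y : Subgroup G} (h : (X : Set G) * Y = Y * X) :
    ((X ⊔ Y : Subgroup G) : Set G) = X * Y := by
  let S : Subgroup G :=
    { carrier := (X : Set G) * Y
      one_mem' := ⟨1, X.one_mem, 1, Y.one_mem, by simp⟩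
      mul_mem' := by
        rintro _ _ ⟨x, hx, y, hy, rfl⟩ ⟨x', hx', y', hy', rfl⟩
        have h1 : y * x' ∈ (Y : Set G) * X := ⟨y, hy, x', hx', rfl⟩
        rw [← h] at h1
        obtain ⟨x'', hx'', y'', hy'', h2⟩ := h1
        refine ⟨x * x'', X.mul_mem hx hx'', y'' * y', Y.mul_mem hy'' hy', ?_⟩
        show x * x'' * (y'' * y') = x * y * (x' * y')
        calc x * x'' * (y'' * y') = x * (x'' * y'') * y' := by group
          _ = x * (y * x') * y' := by
            have h2' : x'' * y'' = y * x' := h2
            rw [h2']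
          _ = x * y * (x' * y') := by group
      inv_mem' := by
        rintro _ ⟨x, hx, y, hy, rfl⟩
        have h1 : y⁻¹ * x⁻¹ ∈ (Y : Set G) * X := ⟨y⁻¹, Y.inv_mem hy, x⁻¹, X.inv_mem hx, rfl⟩
        rw [← h] at h1
        simpa [mul_inv_rev] using h1 }
  have hS : (S : Set G) = (X : Set G) * Y := rfl
  have h1 : X ⊔ Y = S := by
    apply le_antisymm
    · apply sup_le
      · intro x hx
        exact ⟨x, hx, 1, Y.one_mem, by simp⟩
      · intro y hy
        exact ⟨1, X.one_mem, y, hy, by simp⟩
    · rintro _ ⟨x, hx, y, hy, rfl⟩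
      exact Subgroup.mul_mem_sup hx hy
  rw [h1, hS]

variable [Finite G]

theorem card_sup_of_permute {X Y : Subgroup G} (h : (X : Set G) * Y = Y * X)
    (hc : (Nat.card X).Coprime (Nat.card Y)) :
    Nat.card (X ⊔ Y : Subgroup G) = Nat.card X * Nat.card Y := by
  have h1 := coe_sup_of_permute h
  have hX : X ≤ X ⊔ Y := le_sup_left
  have hY : Y ≤ X ⊔ Y := le_sup_right
  have hcomp : (X.subgroupOf (X ⊔ Y)).IsComplement' (Y.subgroupOf (X ⊔ Y)) := by
    apply Subgroup.isComplement'_of_disjoint_and_mul_eq_univ
    · apply Subgroup.disjoint_def.mpr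
      intro a ha hb
      have h2 := disjoint_of_coprime hc
      have h3 := Subgroup.disjoint_def.mp h2 (Subgroup.mem_subgroupOf.mp ha) (Subgroup.mem_subgroupOf.mp hb)
      exact Subtype.ext h3
    · ext ⟨a, ha⟩
      simp only [Set.mem_univ, iff_true]
      have ha' : a ∈ (X : Set G) * Y := by
        rw [← h1]; exact ha
      obtain ⟨x, hx, y, hy, rfl⟩ := ha'
      exact ⟨⟨x, hX hx⟩, Subgroup.mem_subgroupOf.mpr hx, ⟨y, hY hy⟩, Subgroup.mem_subgroupOf.mpr hy, rfl⟩
  have h2 := hcomp.card_mul
  rw [card_subgroupOf_of_le hX, card_subgroupOf_of_le hY] at h2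
  exact h2.symm

/-- Permuting subgroups, finite join. -/
theorem permute_finset_sup (S : ℕ → Subgroup G)
    (hperm : ∀ p q, p.Prime → q.Prime → (S p : Set G) * (S q : Set G) = (S q : Set G) * (S p : Set G))
    (s : Finset ℕ) (hs : ∀ q ∈ s, q.Prime) :
    ∀ r : ℕ, r.Prime →
    ((s.sup S : Subgroup G) : Set G) * (S r : Set G) = (S r : Set G) * ((s.sup S : Subgroup G) : Set G) := by
  induction s using Finset.induction_on with
  | empty =>
    intro r _
    simp
  | insert p s hps ih =>
    intro r hr
    have hs' : ∀ q ∈ s, q.Prime := fun q hq => hs q (Finset.mem_insert_of_mem hq)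
    have hp : p.Prime := hs p (Finset.mem_insert_self _ _)
    have ih' := ih hs'
    rw [Finset.sup_insert]
    have h1 : (S p : Set G) * ((s.sup S : Subgroup G) : Set G) =
        ((s.sup S : Subgroup G) : Set G) * (S p : Set G) := (ih' p hp).symm
    change (((S p ⊔ s.sup S : Subgroup G) : Subgroup G) : Set G) * (S r : Set G) =
      (S r : Set G) * (((S p ⊔ s.sup S : Subgroup G) : Subgroup G) : Set G)
    rw [coe_sup_of_permute h1]
    calc (S p : Set G) * ((s.sup S : Subgroup G) : Set G) * (S r : Set G)
        = (S p : Set G) * (((s.sup S : Subgroup G) : Set G) * (S r : Set G)) := by rw [mul_assoc]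
      _ = (S p : Set G) * ((S r : Set G) * ((s.sup S : Subgroup G) : Set G)) := by rw [ih' r hr]
      _ = ((S p : Set G) * (S r : Set G)) * ((s.sup S : Subgroup G) : Set G) := by rw [mul_assoc]
      _ = ((S r : Set G) * (S p : Set G)) * ((s.sup S : Subgroup G) : Set G) := by
          rw [hperm p r hp hr]
      _ = (S r : Set G) * ((S p : Set G) * ((s.sup S : Subgroup G) : Set G)) := by rw [mul_assoc]

theorem card_finset_sup (S : ℕ → Subgroup G)
    (hperm : ∀ p q, p.Prime → q.Prime → (S p : Set G) * (S q : Set G) = (S q : Set G) * (S p : Set G))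
    (hcard : ∀ p, p.Prime → Nat.card (S p) = pPart G p)
    (s : Finset ℕ) (hs : ∀ q ∈ s, q.Prime) :
    Nat.card (s.sup S : Subgroup G) = pPartProd G s := by
  induction s using Finset.induction_on with
  | empty =>
    simp [pPartProd]
  | insert p s hps ih =>
    have hs' : ∀ q ∈ s, q.Prime := fun q hq => hs q (Finset.mem_insert_of_mem hq)
    have hp : p.Prime := hs p (Finset.mem_insert_self _ _)
    have ih' := ih hs'
    rw [Finset.sup_insert]
    have h1 : (S p : Set G) * ((s.sup S : Subgroup G) : Set G) =
        ((s.sup S : Subgroup G) : Set G) * (S p : Set G) :=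
      (permute_finset_sup S hperm s hs' p hp).symm
    change Nat.card ((S p ⊔ s.sup S : Subgroup G) : Subgroup G) = _
    rw [card_sup_of_permute h1, ih', hcard p hp, pPartProd, pPartProd, Finset.prod_insert hps]
    rw [hcard p hp, ih']
    exact coprime_pPart_prod s p hs' hp hps

/-- A family of permuting subgroups of Sylow order gives solvability. -/
theorem isSolvable_of_permuting (S : ℕ → Subgroup G)
    (hperm : ∀ p q, p.Prime → q.Prime → (S p : Set G) * (S q : Set G) = (S q : Set G) * (S p : Set G))
    (hcard : ∀ p, p.Prime → Nat.card (S p) = pPart G p) : Group.IsSolvable G := by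
  apply isSolvable_of_hasHallComplements _ G rfl
  intro q hq
  set F := (Nat.card G).primeFactors with hF
  have hFp : ∀ r ∈ F, r.Prime := fun r hr => Nat.prime_of_mem_primeFactors hr
  have hFz : ∀ r, r ∉ F → (Nat.card G).factorization r = 0 := by
    intro r hr
    rw [hF, ← Nat.support_factorization] at hr
    exact Finsupp.notMem_support_iff.mp hr
  have h1 := card_finset_sup S hperm hcard (F.erase q) (fun r hr => hFp r (Finset.mem_of_mem_erase hr))
  have h2 : Nat.card G = pPartProd G (F.erase q) * pPart G q := by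
    conv_lhs => rw [← pPartProd_primeFactors (G := G)]
    exact pPartProd_erase F q (hFz q)
  set H := (F.erase q).sup S with hH
  refine ⟨H, ⟨(Nat.card G).factorization q, ?_⟩, ?_⟩
  · have h3 := H.card_mul_index
    rw [h1, h2] at h3
    have hpos : 0 < pPartProd G (F.erase q) := by
      rw [← h1]; exact Nat.card_pos
    exact Nat.eq_of_mul_eq_mul_left hpos h3
  · rw [h1, pPartProd]
    intro hd
    rw [Prime.dvd_finset_prod_iff hq.prime] at hd
    obtain ⟨r, hr, hd⟩ := hd
    rw [Finset.mem_erase] at hr
    have h4 := hq.dvd_of_dvd_pow hd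
    exact hr.1 ((Nat.prime_dvd_prime_iff_eq hq (hFp r hr.2)).mp h4).symm

end

end Cfsg.Agent.H01
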