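import Mathlib
import Cfsg.Agent.Lib.H01.Hall
import Cfsg.Agent.Lib.H01.Coprime

/-!
A finite group factorised as `H₁H₂ = H₁H₃`, all solvable with indices of `H₂`, `H₃` coprime, is solvable.
-/

namespace Cfsg.Agent.H01

open Subgroup
open scoped Pointwise

universe u

section

variable {G : Type u} [Group G] [Finite G]

/-- A key step: a normal subgroup of `H₁` of `r`-power order with `r` not dividing `|G : H₂|`,
has normal closure inside `H₂` when `G = H₁H₂`. -/
theorem normalClosure_le_of_factor (H₁ H₂ : Subgroup G)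
    (h12 : ∀ g : G, ∃ x ∈ H₁, ∃ y ∈ H₂, g = x * y) (R : Subgroup H₁) (hRn : R.Normal)
    (r : ℕ) [Fact r.Prime] (hR : IsPGroup r R) (hr : ¬ r ∣ H₂.index) :
    Subgroup.normalClosure ((R.map H₁.subtype : Subgroup G) : Set G) ≤ H₂ := by
  classical
  have hrp : r.Prime := Fact.out
  set N := R.map H₁.subtype with hN
  have hNp : IsPGroup r N := by
    exact hR.map H₁.subtype
  -- the other order
  have h21 : ∀ g : G, ∃ y ∈ H₂, ∃ x ∈ H₁, g = y * x := by
    intro g
    obtain ⟨x, hx, y, hy, h⟩ := h12 g⁻¹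
    refine ⟨y⁻¹, H₂.inv_mem hy, x⁻¹, H₁.inv_mem hx, ?_⟩
    rw [← mul_inv_rev, ← h, inv_inv]
  -- Sylow subgroup of `H₂` is a Sylow subgroup of `G`
  let P₀ : Sylow r H₂ := default
  have hcard0 : Nat.card (P₀ : Subgroup H₂) = r ^ (Nat.card H₂).factorization r :=
    P₀.card_eq_multiplicity
  have hfac : (Nat.card G).factorization r = (Nat.card H₂).factorization r := by
    rw [← H₂.card_mul_index, Nat.factorization_mul Nat.card_pos.ne' Subgroup.index_ne_zero_of_finite]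
    simp [Nat.factorization_eq_zero_of_not_dvd hr]
  set P := (P₀ : Subgroup H₂).map H₂.subtype with hP
  have hPcard : Nat.card P = r ^ (Nat.card G).factorization r := by
    rw [hfac, ← hcard0, hP]
    exact Nat.card_congr ((P₀ : Subgroup H₂).equivMapOfInjective _ H₂.subtype_injective).toEquiv.symm
  let PS : Sylow r G := Sylow.ofCard P hPcard
  have hPS : (PS : Subgroup G) = P := Sylow.coe_ofCard _ _
  have hPH : P ≤ H₂ := Subgroup.map_subtype_le _
  obtain ⟨Q, hNQ⟩ := hNp.exists_le_sylow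
  obtain ⟨c, hc⟩ := MulAction.exists_smul_eq G Q PS
  have hcN : ∀ n ∈ N, c * n * c⁻¹ ∈ H₂ := by
    intro n hn
    have h1 : c * n * c⁻¹ ∈ ((c • Q : Sylow r G) : Subgroup G) := by
      rw [Sylow.coe_subgroup_smul]
      exact conj_mem_conj_smul (hNQ hn)
    rw [hc, hPS] at h1
    exact hPH h1
  have hNconj : ∀ x ∈ H₁, ∀ n ∈ N, x * n * x⁻¹ ∈ N := by
    rintro x hx _ ⟨m, hm, rfl⟩
    exact ⟨⟨x, hx⟩ * m * ⟨x, hx⟩⁻¹, hRn.conj_mem m hm _, by simp⟩
  obtain ⟨y₀, hy₀, x₀, hx₀, hc₀⟩ := h21 c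
  have hNH : N ≤ H₂ := by
    intro n hn
    have h1 : x₀⁻¹ * n * x₀⁻¹⁻¹ ∈ N := hNconj _ (H₁.inv_mem hx₀) n hn
    have h2 := hcN _ h1
    have h3 : c * (x₀⁻¹ * n * x₀⁻¹⁻¹) * c⁻¹ = y₀ * n * y₀⁻¹ := by
      rw [hc₀]; group
    rw [h3] at h2
    have h4 : n = y₀⁻¹ * (y₀ * n * y₀⁻¹) * y₀ := by group
    rw [h4]
    exact H₂.mul_mem (H₂.mul_mem (H₂.inv_mem hy₀) h2) hy₀
  rw [Subgroup.normalClosure, Subgroup.closure_le]
  intro z hz
  rw [Group.mem_conjugatesOfSet_iff] at hz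
  obtain ⟨a, ha, haz⟩ := hz
  rw [isConj_iff] at haz
  obtain ⟨d, rfl⟩ := haz
  obtain ⟨y, hy, x, hx, rfl⟩ := h21 d
  have h1 : x * a * x⁻¹ ∈ N := hNconj x hx a ha
  have h2 := hNH h1
  have h3 : y * x * a * (y * x)⁻¹ = y * (x * a * x⁻¹) * y⁻¹ := by group
  show y * x * a * (y * x)⁻¹ ∈ H₂
  rw [h3]
  exact H₂.mul_mem (H₂.mul_mem hy h2) (H₂.inv_mem hy)

end

theorem three_solvable : ∀ (n : ℕ) (G : Type u) [Group G] [Finite G], Nat.card G = n →
    ∀ (H₁ H₂ H₃ : Subgroup G), Group.IsSolvable H₁ → Group.IsSolvable H₂ → Group.IsSolvable H₃ →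
    (∀ g : G, ∃ x ∈ H₁, ∃ y ∈ H₂, g = x * y) → (∀ g : G, ∃ x ∈ H₁, ∃ y ∈ H₃, g = x * y) →
    H₂.index.Coprime H₃.index → Group.IsSolvable G := by
  intro n
  induction n using Nat.strong_induction_on with
  | _ n ih =>
  intro G _ _ hn H₁ H₂ H₃ s₁ s₂ s₃ h12 h13 hcop
  by_cases hH₁ : H₁ = ⊥
  · subst hH₁
    have hs : Function.Surjective H₂.subtype := by
      intro g
      obtain ⟨x, hx, y, hy, rfl⟩ := h12 g
      rw [Subgroup.mem_bot] at hx
      subst hx
      exact ⟨⟨y, hy⟩, by simp⟩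
    exact solvable_of_surjective hs
  haveI hnt : Nontrivial H₁ := (Subgroup.nontrivial_iff_ne_bot H₁).mpr hH₁
  obtain ⟨R, r, hRn, hRbot, hr, hRab, hRpow⟩ := exists_elementary_abelian_normal (G := H₁)
  haveI := Fact.mk hr
  have hRpg : IsPGroup r R := fun x => ⟨1, by
    apply Subtype.ext
    simpa using hRpow x x.2⟩
  set N := R.map H₁.subtype with hN
  have hNbot : N ≠ ⊥ := by
    intro h
    apply hRbot
    rwa [hN, Subgroup.map_eq_bot_iff_of_injective _ H₁.subtype_injective] at h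
  set L := Subgroup.normalClosure (N : Set G) with hL
  have hLs : Group.IsSolvable L := by
    by_cases hr2 : r ∣ H₂.index
    · have hr3 : ¬ r ∣ H₃.index := by
        intro hr3
        have := Nat.dvd_gcd hr2 hr3
        rw [hcop] at this
        exact hr.one_lt.ne' (Nat.dvd_one.mp this)
      exact isSolvable_of_le (normalClosure_le_of_factor H₁ H₃ h13 R hRn r hRpg hr3) s₃
    · exact isSolvable_of_le (normalClosure_le_of_factor H₁ H₂ h12 R hRn r hRpg hr2) s₂
  haveI hLn : L.Normal := Subgroup.normalClosure_normal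
  have hLbot : L ≠ ⊥ := by
    intro h
    apply hNbot
    rw [eq_bot_iff, ← h]
    exact Subgroup.subset_normalClosure
  have hLgt : 1 < Nat.card L := by
    have hne : Nat.card L ≠ 1 := by
      intro h
      exact hLbot ((Subgroup.card_eq_one).mp h)
    have : 0 < Nat.card L := Nat.card_pos
    omega
  have hQcard := card_quotient_mul L
  have hQlt : Nat.card (G ⧸ L) < n := by
    rw [← hn, ← hQcard]
    have hQpos : 0 < Nat.card (G ⧸ L) := Nat.card_pos
    nlinarith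
  set f := QuotientGroup.mk' L with hf
  have hfs : Function.Surjective f := QuotientGroup.mk'_surjective L
  have himg : ∀ H : Subgroup G, Group.IsSolvable H → Group.IsSolvable (H.map f) := by
    intro H hH
    exact solvable_of_surjective (f.subgroupMap_surjective H)
  have hfact : ∀ H K : Subgroup G, (∀ g : G, ∃ x ∈ H, ∃ y ∈ K, g = x * y) →
      ∀ g : G ⧸ L, ∃ x ∈ H.map f, ∃ y ∈ K.map f, g = x * y := by
    intro H K h g
    obtain ⟨g, rfl⟩ := hfs g
    obtain ⟨x, hx, y, hy, rfl⟩ := h g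
    exact ⟨f x, Subgroup.mem_map_of_mem f hx, f y, Subgroup.mem_map_of_mem f hy, map_mul f x y⟩
  haveI hQs : Group.IsSolvable (G ⧸ L) := ih _ hQlt (G ⧸ L) rfl (H₁.map f) (H₂.map f) (H₃.map f)
    (himg _ s₁) (himg _ s₂) (himg _ s₃) (hfact _ _ h12) (hfact _ _ h13)
    (Nat.Coprime.coprime_dvd_left (Subgroup.index_map_dvd H₂ hfs)
      (Nat.Coprime.coprime_dvd_right (Subgroup.index_map_dvd H₃ hfs) hcop))
  apply solvable_of_ker_le_range L.subtype f
  rw [hf, QuotientGroup.ker_mk', Subgroup.range_subtype]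

end Cfsg.Agent.H01
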