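import Mathlib
import Cfsg.Agent.Lib.H01.ZeNormal
import Cfsg.Agent.Lib.H09.KTrans
import Cfsg.Agent.Lib.H14.QdSL2
import Cfsg.Agent.Lib.H14.QdStable

/-! Control of strong fusion by the centre of the elementary Thompson subgroup. -/

set_option autoImplicit false

namespace Cfsg.Agent.H01.ZE

open Cfsg Cfsg.Agent.H14 Cfsg.Agent.H09

universe u

section Functor

/-- The functor. -/
def zeF (p : ℕ) (Q : Type u) [Group Q] : Subgroup Q := ze p ⊤

theorem isCharPFunctor_zeF (p : ℕ) [Fact p.Prime] : IsCharPFunctor.{u} p (zeF p) := by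
  refine ⟨?_, ?_⟩
  · intro Q _ _ hQ hn
    refine ze_ne_bot (p := p) ?_ top_ne_bot
    rintro ⟨x, -⟩
    obtain ⟨k, hk⟩ := hQ x
    exact ⟨k, Subtype.ext hk⟩
  · intro Q R _ _ _ hQ φ
    have h := ze_map p φ.toMonoidHom (⊤ : Subgroup Q) (fun x _ hx => by
      have : φ x = φ 1 := by rw [map_one]; exact hx
      exact φ.injective this)
    have h2 : (⊤ : Subgroup Q).map φ.toMonoidHom = ⊤ := by
      rw [Subgroup.map_top_of_surjective]
      exact φ.surjective
    rw [h2] at h
    exact h.symm

lemma inducedFunctor_zeF (p : ℕ) {X : Type u} [Group X] (T : Subgroup X) :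
    inducedFunctor (G := X) (zeF p) T = ze p T := by
  have h := ze_map p T.subtype (⊤ : Subgroup T) (fun x _ hx => Subtype.ext hx)
  have h2 : (⊤ : Subgroup T).map T.subtype = T := by
    rw [← MonoidHom.range_eq_map, Subgroup.range_subtype]
  rw [h2] at h
  exact h.symm

end Functor

section Ctrl

variable {p : ℕ} [hp : Fact p.Prime]

/-- The normality of `W` in constrained sections gives control of strong fusion, for a given Sylow
subgroup. -/
theorem strongFusion_at {G : Type u} [Group G] [Finite G]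
    (W : ∀ (Q : Type u) [Group Q], Subgroup Q) (hW : IsCharPFunctor.{u} p W)
    (hloc : ∀ (Y : Type u) [Group Y] [Finite Y], Involves Y G →
      Subgroup.centralizer (pCore p Y : Set Y) ≤ pCore p Y →
      ∀ T : Sylow p Y, (inducedFunctor (G := Y) W (T : Subgroup Y)).Normal)
    (T : Sylow p G) :
    ∀ A : Set G, A ⊆ (T : Subgroup G) →
      ControlsStrongFusionOf (Subgroup.normalizer ((inducedFunctor (G := G) W (T : Subgroup G) : Subgroup G) : Set G))
        (T : Subgroup G) A := by
  classical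
  have hX : Involves G G := involves_of_surjective ⊤ (Subgroup.topEquiv : (⊤ : Subgroup G) ≃* G).toMonoidHom (MulEquiv.surjective _)
  have h𝓦 : ∀ W' ∈ ({W} : Set (∀ (Q : Type u) [Group Q], Subgroup Q)), IsCharPFunctor.{u} p W' := by
    rintro _ rfl
    exact hW
  have hbase : FamilyControlsStrongFusionIn p
      (indF ({W} : Set (∀ (Q : Type u) [Group Q], Subgroup Q)) G) ⊤ := by
    refine sect_main h𝓦 _ G le_rfl ?_
    intro Y _ _ hY hcon
    obtain ⟨S⟩ : Nonempty (Sylow p Y) := inferInstance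
    have hn := hloc Y (Involves.trans' hY hX) hcon S
    refine familyControls_of_sctl S ?_
    intro A g hA hgA
    refine ⟨g, Chain.single ⟨hA, hgA, _, ⟨W, rfl, rfl⟩, Subgroup.mem_inf.2 ⟨Subgroup.mem_top _, ?_⟩⟩, fun a _ => rfl⟩
    rw [normalizer_eq_top_of_normal hn]
    exact Subgroup.mem_top _
  intro A hA
  refine ⟨hA, fun g hg => ?_⟩
  obtain ⟨c, hc, hag⟩ := familyControls_any (indF_conj h𝓦) hbase le_top T.isPGroup'
    (by rw [Subgroup.relIndex_top_right]; exact T.not_dvd_index) (Subgroup.mem_top g) hA hg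
  refine ⟨c, ?_, fun a ha => (hag a ha).symm⟩
  clear hag
  induction hc with
  | nil => exact Subgroup.one_mem _
  | @snoc c y _ hy ih =>
    obtain ⟨h1, h2, _, ⟨W', hW', rfl⟩, hyW⟩ := hy
    obtain rfl : W' = W := hW'
    exact Subgroup.mul_mem _ (Subgroup.mem_inf.1 hyW).2 ih

/-- `N(Z(J_e(P)))` controls strong fusion in `Qd(p)`-free groups. -/
theorem controls_ze_qdFree {G : Type u} [Group G] [Finite G] (hp2 : p ≠ 2)
    (hfree : ¬ Involves ↥(Cfsg.qdOver (ZMod p)) G) (P : Sylow p G) (A : Set G)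
    (hA : A ⊆ (P : Subgroup G)) :
    ControlsStrongFusionOf (Subgroup.normalizer ((ze p (P : Subgroup G) : Subgroup G) : Set G))
      (P : Subgroup G) A := by
  have := strongFusion_at (zeF p) (isCharPFunctor_zeF p) (fun Y _ _ hY hcon T => by
    rw [inducedFunctor_zeF]
    have hst : Cfsg.IsNormalizerPStable p Y := stable_of_not_involves hp2 (fun h => hfree (Involves.trans' h hY))
    exact ze_normal hp2 T ⟨le_rfl, fun _ _ _ h => h⟩ hst hcon) P A hA
  rwa [inducedFunctor_zeF] at this

end Ctrl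

end Cfsg.Agent.H01.ZE
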